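import Mathlib

set_option autoImplicit false

namespace Cfsg.Agent.Lib.Helper9

/-- An involutory automorphism stabilising a finite subgroup `K` and fixing no non-identity element of `K`
inverts every element of `K`. -/
theorem fpf_inverts {G : Type*} [Group G] (K : Subgroup G) [Finite K] (φ : G ≃* G)
    (hinv : ∀ x, φ (φ x) = x) (hK : ∀ k ∈ K, φ k ∈ K) (hfix : ∀ k ∈ K, φ k = k → k = 1) :
    ∀ k ∈ K, φ k = k⁻¹ := by
  let f : K → K := fun k => ⟨(k : G)⁻¹ * φ k, K.mul_mem (K.inv_mem k.2) (hK k k.2)⟩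
  have hinj : Function.Injective f := by
    intro k l hkl
    have h1 : (k : G)⁻¹ * φ k = (l : G)⁻¹ * φ l := congrArg Subtype.val hkl
    have h2 : φ ((l : G) * (k : G)⁻¹) = (l : G) * (k : G)⁻¹ := by
      rw [map_mul, map_inv]
      have h3 : φ l = (l : G) * ((k : G)⁻¹ * φ k) := by rw [h1]; group
      rw [h3]; group
    have h3 := hfix _ (K.mul_mem l.2 (K.inv_mem k.2)) h2
    rw [mul_inv_eq_one] at h3
    exact Subtype.ext h3.symm
  have hsurj : Function.Surjective f := Finite.injective_iff_surjective.mp hinj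
  intro k hk
  obtain ⟨x, hx⟩ := hsurj ⟨k, hk⟩
  have hx' : (x : G)⁻¹ * φ x = k := congrArg Subtype.val hx
  rw [← hx', map_mul, map_inv, hinv, mul_inv_rev, inv_inv]

/-- Conjugation version: an involution `t` normalising a finite subgroup `K` with `C_K(t) = 1` inverts `K`. -/
theorem fpf_conj_inverts {G : Type*} [Group G] (K : Subgroup G) [Finite K] (t : G) (ht : t * t = 1)
    (hK : ∀ k ∈ K, t * k * t⁻¹ ∈ K) (hfix : ∀ k ∈ K, t * k * t⁻¹ = k → k = 1) :
    ∀ k ∈ K, t * k * t⁻¹ = k⁻¹ := by
  have hti : t⁻¹ = t := inv_eq_of_mul_eq_one_left ht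
  have := fpf_inverts K (MulAut.conj t)
    (by
      intro x
      simp only [MulAut.conj_apply]
      calc t * (t * x * t⁻¹) * t⁻¹ = (t * t) * x * (t * t)⁻¹ := by group
        _ = x := by rw [ht]; group)
    (by intro k hk; simpa [MulAut.conj_apply] using hK k hk)
    (by intro k hk h; exact hfix k hk (by simpa [MulAut.conj_apply] using h))
  intro k hk
  simpa [MulAut.conj_apply] using this k hk

end Cfsg.Agent.Lib.Helper9
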