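import Mathlib

set_option autoImplicit false

/-! A maximality criterion for point stabilisers: if no proper union of suborbits has a size
dividing the degree, the stabiliser is a maximal subgroup. -/

namespace Cfsg.Agent.Lib.Helper9.Prim

open scoped Pointwise

theorem coatom_of_orbits {G X : Type*} [Group G] [MulAction G X] [Fintype X] [DecidableEq X]
    (x : X) (N r : ℕ) (n : ℕ → ℕ) (cls : X → ℕ)
    (hN : (MulAction.stabilizer G x).index = N) (hN1 : 1 < N)
    (hr : ∀ y ∈ MulAction.orbit G x, y ≠ x → cls y < r)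
    (htrans : ∀ y ∈ MulAction.orbit G x, ∀ z ∈ MulAction.orbit G x, y ≠ x → z ≠ x →
      cls y = cls z → ∃ k ∈ MulAction.stabilizer G x, k • y = z)
    (hn : ∀ i < r, {y | y ∈ MulAction.orbit G x ∧ y ≠ x ∧ cls y = i}.ncard = n i)
    (hdiv : ∀ I ∈ (Finset.range r).powerset, I.Nonempty → (1 + ∑ i ∈ I, n i) ∣ N →
      1 + ∑ i ∈ I, n i = N) :
    IsCoatom (MulAction.stabilizer G x) := by
  classical
  refine ⟨?_, ?_⟩
  · intro htop
    rw [htop, Subgroup.index_top] at hN
    omega
  · intro H hKH
    have hle : MulAction.stabilizer G x ≤ H := le_of_lt hKH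
    obtain ⟨h0, hh0, hh0K⟩ := SetLike.exists_of_lt hKH
    have hstab : MulAction.stabilizer H x = (MulAction.stabilizer G x).subgroupOf H := by
      ext h
      exact Iff.rfl
    have hidx : (MulAction.orbit H x).ncard * H.index = N := by
      rw [← MulAction.index_stabilizer, hstab, ← hN]
      exact Subgroup.relIndex_mul_index hle
    have hOfcard : (MulAction.orbit H x).ncard =
        (Finset.univ.filter (fun y => y ∈ MulAction.orbit H x)).card := by
      rw [← Set.ncard_coe_finset]
      have : (MulAction.orbit H x) = ↑(Finset.univ.filter (fun y => y ∈ MulAction.orbit H x)) := by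
        ext y
        rw [Finset.mem_coe, Finset.mem_filter]
        exact ⟨fun h => ⟨Finset.mem_univ _, h⟩, fun h => h.2⟩
      rw [← this]
    have hmemO : ∀ y, y ∈ Finset.univ.filter (fun y => y ∈ MulAction.orbit H x) ↔
        y ∈ MulAction.orbit H x := by
      intro y
      rw [Finset.mem_filter]
      exact ⟨fun h => h.2, fun h => ⟨Finset.mem_univ _, h⟩⟩
    generalize hOf : Finset.univ.filter (fun y => y ∈ MulAction.orbit H x) = Of at hOfcard hmemO
    have hxO : x ∈ Of := (hmemO x).mpr (MulAction.mem_orbit_self x)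
    have hsub : ∀ y ∈ Of, y ∈ MulAction.orbit G x := by
      intro y hy
      obtain ⟨h, rfl⟩ := (hmemO y).mp hy
      exact ⟨(h : G), rfl⟩
    have hIr : (Of.erase x).image cls ∈ (Finset.range r).powerset := by
      rw [Finset.mem_powerset]
      intro i hi
      rw [Finset.mem_image] at hi
      obtain ⟨y, hy, rfl⟩ := hi
      rw [Finset.mem_erase] at hy
      exact Finset.mem_range.mpr (hr y (hsub y hy.2) hy.1)
    have hIne : ((Of.erase x).image cls).Nonempty := by
      refine ⟨cls (h0 • x), ?_⟩
      rw [Finset.mem_image]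
      refine ⟨h0 • x, ?_, rfl⟩
      rw [Finset.mem_erase, hmemO]
      exact ⟨fun h => hh0K (MulAction.mem_stabilizer_iff.mpr h), ⟨⟨h0, hh0⟩, rfl⟩⟩
    have hfib : ∀ i ∈ (Of.erase x).image cls,
        ((Of.erase x).filter (fun y => cls y = i)).card = n i := by
      intro i hi
      have hir : i < r := Finset.mem_range.mp (Finset.mem_powerset.mp hIr hi)
      rw [← hn i hir, ← Set.ncard_coe_finset]
      have : (↑((Of.erase x).filter (fun y => cls y = i)) : Set X) =
          {y | y ∈ MulAction.orbit G x ∧ y ≠ x ∧ cls y = i} := by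
        ext z
        rw [Finset.mem_coe, Finset.mem_filter, Finset.mem_erase]
        constructor
        · rintro ⟨⟨h1, h2⟩, h3⟩
          exact ⟨hsub z h2, h1, h3⟩
        · rintro ⟨h1, h2, h3⟩
          refine ⟨⟨h2, ?_⟩, h3⟩
          rw [Finset.mem_image] at hi
          obtain ⟨y, hy, hyi⟩ := hi
          rw [Finset.mem_erase] at hy
          obtain ⟨k, hk, hkz⟩ := htrans y (hsub y hy.2) z h1 hy.1 h2 (hyi.trans h3.symm)
          obtain ⟨h, hh⟩ := (hmemO y).mp hy.2
          rw [hmemO]
          refine ⟨⟨k, hle hk⟩ * h, ?_⟩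
          rw [← hkz, ← hh]
          exact mul_smul _ _ _
      rw [this]
    have hcard : Of.card = 1 + ∑ i ∈ (Of.erase x).image cls, n i := by
      have h1 : Of.card = (Of.erase x).card + 1 := (Finset.card_erase_add_one hxO).symm
      have h2 : (Of.erase x).card =
          ∑ i ∈ (Of.erase x).image cls, ((Of.erase x).filter (fun y => cls y = i)).card :=
        Finset.card_eq_sum_card_fiberwise (fun y hy => Finset.mem_image_of_mem cls hy)
      rw [h1, h2, Finset.sum_congr rfl hfib, add_comm]
    have hdvd : (1 + ∑ i ∈ (Of.erase x).image cls, n i) ∣ N := by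
      rw [← hcard, ← hOfcard, ← hidx]
      exact dvd_mul_right _ _
    have hfull := hdiv _ hIr hIne hdvd
    rw [hOfcard, hcard, hfull] at hidx
    have hN0 : 0 < N := by omega
    have h1 : H.index = 1 := Nat.eq_of_mul_eq_mul_left hN0 (hidx.trans (mul_one N).symm)
    exact Subgroup.index_eq_one.mp h1

end Cfsg.Agent.Lib.Helper9.Prim
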