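import Mathlib
import Cfsg.Agent.Lib.Helper9.Prim

set_option autoImplicit false

/-! Maximality of a point stabiliser with three non-trivial suborbits of distinct sizes. -/

namespace Cfsg.Agent.Lib.Helper9.Coatom4

open scoped Pointwise

theorem coatom_of_four {G X : Type*} [Group G] [MulAction G X] [Fintype X] [DecidableEq X]
    (x : X) (N n1 n2 n3 : ℕ) (hN : (MulAction.orbit G x).ncard = N) (hN1 : 1 < N)
    (Y0 Y1 Y2 Y3 : X)
    (h0 : (MulAction.orbit (MulAction.stabilizer G x) Y0).ncard = 1)
    (h1 : (MulAction.orbit (MulAction.stabilizer G x) Y1).ncard = n1)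
    (h2 : (MulAction.orbit (MulAction.stabilizer G x) Y2).ncard = n2)
    (h3 : (MulAction.orbit (MulAction.stabilizer G x) Y3).ncard = n3)
    (hc : ∀ y ∈ MulAction.orbit G x, y ∈ MulAction.orbit (MulAction.stabilizer G x) Y0 ∨
      y ∈ MulAction.orbit (MulAction.stabilizer G x) Y1 ∨
      y ∈ MulAction.orbit (MulAction.stabilizer G x) Y2 ∨
      y ∈ MulAction.orbit (MulAction.stabilizer G x) Y3)
    (hs1 : MulAction.orbit (MulAction.stabilizer G x) Y1 ⊆ MulAction.orbit G x)
    (hs2 : MulAction.orbit (MulAction.stabilizer G x) Y2 ⊆ MulAction.orbit G x)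
    (hs3 : MulAction.orbit (MulAction.stabilizer G x) Y3 ⊆ MulAction.orbit G x)
    (hne : 1 ≠ n1 ∧ 1 ≠ n2 ∧ 1 ≠ n3 ∧ n1 ≠ n2 ∧ n1 ≠ n3 ∧ n2 ≠ n3)
    (hdiv : ∀ I ∈ (Finset.range 3).powerset, I.Nonempty →
      (1 + ∑ i ∈ I, [n1, n2, n3].getD i 0) ∣ N → 1 + ∑ i ∈ I, [n1, n2, n3].getD i 0 = N) :
    MulAction.orbit (MulAction.stabilizer G x) Y0 = {x} ∧
      IsCoatom (MulAction.stabilizer G x) := by
  classical
  obtain ⟨a1, a2, a3, a4, a5, a6⟩ := hne
  have d : ∀ a b : X, (MulAction.orbit (MulAction.stabilizer G x) a).ncard ≠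
      (MulAction.orbit (MulAction.stabilizer G x) b).ncard →
      ∀ w, w ∈ MulAction.orbit (MulAction.stabilizer G x) a →
        w ∈ MulAction.orbit (MulAction.stabilizer G x) b → False := by
    intro a b hab w ha hb
    apply hab
    rw [← MulAction.orbit_eq_iff.mpr ha, ← MulAction.orbit_eq_iff.mpr hb]
  have hxx : MulAction.orbit (MulAction.stabilizer G x) x = {x} := by
    ext y
    constructor
    · rintro ⟨k, rfl⟩
      exact k.2
    · rintro rfl
      exact MulAction.mem_orbit_self _
  have hx1 : (MulAction.orbit (MulAction.stabilizer G x) x).ncard = 1 := by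
    rw [hxx, Set.ncard_singleton]
  have hO0 : MulAction.orbit (MulAction.stabilizer G x) Y0 = {x} := by
    rcases hc x (MulAction.mem_orbit_self _) with h | h | h | h
    · rw [← MulAction.orbit_eq_iff.mpr h, hxx]
    · exact absurd ((congrArg Set.ncard (MulAction.orbit_eq_iff.mpr h)).symm.trans hx1)
        (by rw [h1]; exact fun e => a1 e.symm)
    · exact absurd ((congrArg Set.ncard (MulAction.orbit_eq_iff.mpr h)).symm.trans hx1)
        (by rw [h2]; exact fun e => a2 e.symm)
    · exact absurd ((congrArg Set.ncard (MulAction.orbit_eq_iff.mpr h)).symm.trans hx1)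
        (by rw [h3]; exact fun e => a3 e.symm)
  refine ⟨hO0, ?_⟩
  have d01 := d Y0 Y1 (by rw [h0, h1]; exact a1)
  have d02 := d Y0 Y2 (by rw [h0, h2]; exact a2)
  have d03 := d Y0 Y3 (by rw [h0, h3]; exact a3)
  have d12 := d Y1 Y2 (by rw [h1, h2]; exact a4)
  have d13 := d Y1 Y3 (by rw [h1, h3]; exact a5)
  have d23 := d Y2 Y3 (by rw [h2, h3]; exact a6)
  have hxO : x ∈ MulAction.orbit (MulAction.stabilizer G x) Y0 := by rw [hO0]; rfl
  have cases3 : ∀ y ∈ MulAction.orbit G x, y ≠ x →
      y ∈ MulAction.orbit (MulAction.stabilizer G x) Y1 ∨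
      y ∈ MulAction.orbit (MulAction.stabilizer G x) Y2 ∨
      y ∈ MulAction.orbit (MulAction.stabilizer G x) Y3 := by
    intro y hy hne
    rcases hc y hy with h | h | h | h
    · rw [hO0] at h
      exact absurd h hne
    · exact Or.inl h
    · exact Or.inr (Or.inl h)
    · exact Or.inr (Or.inr h)
  have same : ∀ (a y z : X), y ∈ MulAction.orbit (MulAction.stabilizer G x) a →
      z ∈ MulAction.orbit (MulAction.stabilizer G x) a →
      ∃ k ∈ MulAction.stabilizer G x, k • y = z := by
    rintro a y z ⟨k1, rfl⟩ ⟨k2, rfl⟩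
    refine ⟨(k2 * k1⁻¹ : ↥(MulAction.stabilizer G x)), (k2 * k1⁻¹).2, ?_⟩
    show (k2 * k1⁻¹) • k1 • a = k2 • a
    rw [mul_smul, inv_smul_smul]
  apply Cfsg.Agent.Lib.Helper9.Prim.coatom_of_orbits x N 3 (fun i => [n1, n2, n3].getD i 0)
    (fun y => if y ∈ MulAction.orbit (MulAction.stabilizer G x) Y1 then 0
      else if y ∈ MulAction.orbit (MulAction.stabilizer G x) Y2 then 1 else 2)
  · rw [MulAction.index_stabilizer, hN]
  · exact hN1
  · intro y _ _
    show (if y ∈ MulAction.orbit (MulAction.stabilizer G x) Y1 then 0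
      else if y ∈ MulAction.orbit (MulAction.stabilizer G x) Y2 then 1 else 2) < 3
    split_ifs <;> omega
  · intro y hy z hz hyne hzne hcls
    have hcls' : (if y ∈ MulAction.orbit (MulAction.stabilizer G x) Y1 then 0
      else if y ∈ MulAction.orbit (MulAction.stabilizer G x) Y2 then 1 else 2) =
      (if z ∈ MulAction.orbit (MulAction.stabilizer G x) Y1 then 0
      else if z ∈ MulAction.orbit (MulAction.stabilizer G x) Y2 then 1 else 2) := hcls
    by_cases hy1 : y ∈ MulAction.orbit (MulAction.stabilizer G x) Y1
    · rw [if_pos hy1] at hcls'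
      by_cases hz1 : z ∈ MulAction.orbit (MulAction.stabilizer G x) Y1
      · exact same Y1 y z hy1 hz1
      · rw [if_neg hz1] at hcls'
        split_ifs at hcls' <;> omega
    · rw [if_neg hy1] at hcls'
      by_cases hy2 : y ∈ MulAction.orbit (MulAction.stabilizer G x) Y2
      · rw [if_pos hy2] at hcls'
        by_cases hz1 : z ∈ MulAction.orbit (MulAction.stabilizer G x) Y1
        · rw [if_pos hz1] at hcls'
          omega
        · rw [if_neg hz1] at hcls'
          by_cases hz2 : z ∈ MulAction.orbit (MulAction.stabilizer G x) Y2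
          · exact same Y2 y z hy2 hz2
          · rw [if_neg hz2] at hcls'
            omega
      · rw [if_neg hy2] at hcls'
        by_cases hz1 : z ∈ MulAction.orbit (MulAction.stabilizer G x) Y1
        · rw [if_pos hz1] at hcls'
          omega
        · rw [if_neg hz1] at hcls'
          by_cases hz2 : z ∈ MulAction.orbit (MulAction.stabilizer G x) Y2
          · rw [if_pos hz2] at hcls'
            omega
          · have hy3 : y ∈ MulAction.orbit (MulAction.stabilizer G x) Y3 := by
              rcases cases3 y hy hyne with h | h | h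
              · exact absurd h hy1
              · exact absurd h hy2
              · exact h
            have hz3 : z ∈ MulAction.orbit (MulAction.stabilizer G x) Y3 := by
              rcases cases3 z hz hzne with h | h | h
              · exact absurd h hz1
              · exact absurd h hz2
              · exact h
            exact same Y3 y z hy3 hz3
  · intro i hi
    have hi' : i = 0 ∨ i = 1 ∨ i = 2 := by omega
    rcases hi' with rfl | rfl | rfl
    · have e : {y | y ∈ MulAction.orbit G x ∧ y ≠ x ∧
          (if y ∈ MulAction.orbit (MulAction.stabilizer G x) Y1 then 0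
            else if y ∈ MulAction.orbit (MulAction.stabilizer G x) Y2 then 1 else 2) = 0} =
          MulAction.orbit (MulAction.stabilizer G x) Y1 := by
        ext y
        constructor
        · rintro ⟨-, -, h⟩
          by_contra hy1
          rw [if_neg hy1] at h
          split_ifs at h <;> omega
        · intro hy1
          refine ⟨hs1 hy1, ?_, if_pos hy1⟩
          rintro rfl
          exact d01 _ hxO hy1
      rw [e]
      exact h1
    · have e : {y | y ∈ MulAction.orbit G x ∧ y ≠ x ∧
          (if y ∈ MulAction.orbit (MulAction.stabilizer G x) Y1 then 0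
            else if y ∈ MulAction.orbit (MulAction.stabilizer G x) Y2 then 1 else 2) = 1} =
          MulAction.orbit (MulAction.stabilizer G x) Y2 := by
        ext y
        constructor
        · rintro ⟨-, -, h⟩
          by_contra hy2
          split_ifs at h <;> omega
        · intro hy2
          have hy1 : y ∉ MulAction.orbit (MulAction.stabilizer G x) Y1 := fun h => d12 _ h hy2
          refine ⟨hs2 hy2, ?_, by rw [if_neg hy1, if_pos hy2]⟩
          rintro rfl
          exact d02 _ hxO hy2
      rw [e]
      exact h2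
    · have e : {y | y ∈ MulAction.orbit G x ∧ y ≠ x ∧
          (if y ∈ MulAction.orbit (MulAction.stabilizer G x) Y1 then 0
            else if y ∈ MulAction.orbit (MulAction.stabilizer G x) Y2 then 1 else 2) = 2} =
          MulAction.orbit (MulAction.stabilizer G x) Y3 := by
        ext y
        constructor
        · rintro ⟨hy, hne, h⟩
          rcases cases3 y hy hne with h' | h' | h'
          · rw [if_pos h'] at h
            omega
          · split_ifs at h <;> omega
          · exact h'
        · intro hy3
          have hy1 : y ∉ MulAction.orbit (MulAction.stabilizer G x) Y1 := fun h => d13 _ h hy3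
          have hy2 : y ∉ MulAction.orbit (MulAction.stabilizer G x) Y2 := fun h => d23 _ h hy3
          refine ⟨hs3 hy3, ?_, by rw [if_neg hy1, if_neg hy2]⟩
          rintro rfl
          exact d03 _ hxO hy3
      rw [e]
      exact h3
  · exact hdiv

end Cfsg.Agent.Lib.Helper9.Coatom4
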