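import Mathlib
import Cfsg.Prelude.Def_Sporadic_a
import Cfsg.Agent.Lib.Helper9.M24DO

set_option autoImplicit false

/-! Counting supports of codewords by enumeration of coordinates. -/

namespace Cfsg.Agent.Lib.Helper9.M24Cnt

open Cfsg.Agent.Lib.Helper9.Golay Cfsg.Agent.Lib.Helper9.GolayC Cfsg.Agent.Lib.Helper9.M24C
open Cfsg.Agent.Lib.Helper9.Octad Cfsg.Agent.Lib.Helper9.M24B Cfsg.Agent.Lib.Helper9.M24T
open Cfsg.Agent.Lib.Helper9.M24O Cfsg.Agent.Lib.Helper9.M24Oct Cfsg.Agent.Lib.Helper9.M24OS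
open Cfsg.Agent.Lib.Helper9.M24Dod Cfsg.Agent.Lib.Helper9.M24M Cfsg.Agent.Lib.Helper9.M24CO
open Cfsg.Agent.Lib.Helper9.M24DO
open scoped Pointwise

theorem maskSet_lin_inj (c c' : ℕ) (hc : c < 4096) (hc' : c' < 4096)
    (h : maskSet (lin LB c) = maskSet (lin LB c')) : c = c' := by
  rw [maskSet_eq, maskSet_eq] at h
  exact dec_lin_inj c c' hc hc' (supp_injective h)

theorem card_filter_range (Q : ℕ → Bool) (n : ℕ) :
    ((Finset.range n).filter (fun c => Q c = true)).card = (List.range n).countP Q := by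
  rw [Finset.card, Finset.filter_val, ← Multiset.countP_eq_card_filter, Finset.range_val,
    Multiset.range, Multiset.coe_countP]
  congr
  funext b
  simp

/-- Counting a family of supports of codewords by enumeration. -/
theorem ncard_code (A : Set (Finset Cfsg.GolayPt)) (Q : ℕ → Bool)
    (h1 : ∀ s ∈ A, ∃ c < 4096, Q c = true ∧ s = maskSet (lin LB c))
    (h2 : ∀ c < 4096, Q c = true → maskSet (lin LB c) ∈ A) :
    A.ncard = (List.range 4096).countP Q := by
  classical
  have hA : A = ↑(((Finset.range 4096).filter (fun c => Q c = true)).image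
      (fun c => maskSet (lin LB c))) := by
    ext s
    simp only [Finset.coe_image, Finset.coe_filter, Finset.mem_range, Set.mem_image,
      Set.mem_setOf_eq]
    constructor
    · intro hs
      obtain ⟨c, hc, hQ, rfl⟩ := h1 s hs
      exact ⟨c, ⟨hc, hQ⟩, rfl⟩
    · rintro ⟨c, ⟨hc, hQ⟩, rfl⟩
      exact h2 c hc hQ
  rw [hA, Set.ncard_coe_finset, Finset.card_image_of_injOn, card_filter_range]
  intro c hc c' hc' h
  rw [Finset.coe_filter, Set.mem_setOf_eq, Finset.mem_range] at hc hc'
  exact maskSet_lin_inj c c' hc.1 hc'.1 h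

theorem maskSet_dodecad (c : ℕ) (h : pc 24 (lin LB c) = 12) :
    maskSet (lin LB c) ∈ Cfsg.dodecads := by
  rw [mem_dodecads, ind_maskSet, card_maskSet]
  exact ⟨lin_mem_golay c, h⟩

set_option maxRecDepth 100000 in
theorem cnt12 : (List.range 4096).countP (fun c => decide (pc 24 (lin LB c) = 12)) = 2576 := by
  decide +kernel

theorem card_dodecads : Cfsg.dodecads.ncard = 2576 := by
  rw [ncard_code Cfsg.dodecads (fun c => decide (pc 24 (lin LB c) = 12)), cnt12]
  · intro s hs
    obtain ⟨c, hc, h12, rfl⟩ := dodecad_mask s hs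
    exact ⟨c, hc, by simpa using h12, rfl⟩
  · intro c hc hQ
    exact maskSet_dodecad c (by simpa using hQ)

/-- selects octads meeting `DM` in `k` points -/
def selO (k : ℕ) (c : ℕ) : Bool :=
  decide (pc 24 (lin LB c) = 8) && decide (pc 24 (lin LB c &&& DM) = k)

set_option maxRecDepth 100000 in
theorem cntO6 : (List.range 4096).countP (selO 6) = 132 := by decide +kernel

set_option maxRecDepth 100000 in
theorem cntO2 : (List.range 4096).countP (selO 2) = 132 := by decide +kernel

set_option maxRecDepth 100000 in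
theorem cntO4 : (List.range 4096).countP (selO 4) = 495 := by decide +kernel

theorem ncard_octads_Dset (k : ℕ) :
    {o : Finset Cfsg.GolayPt | o ∈ Cfsg.octads ∧ (o ∩ Dset).card = k}.ncard =
      (List.range 4096).countP (selO k) := by
  apply ncard_code
  · rintro s ⟨hs, hk⟩
    obtain ⟨c, hc, h8, rfl⟩ := octad_mask s hs
    refine ⟨c, hc, ?_, rfl⟩
    unfold Dset at hk
    rw [← maskSet_and, card_maskSet] at hk
    unfold selO
    rw [Bool.and_eq_true, decide_eq_true_eq, decide_eq_true_eq]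
    exact ⟨h8, hk⟩
  · intro c hc hQ
    unfold selO at hQ
    rw [Bool.and_eq_true, decide_eq_true_eq, decide_eq_true_eq] at hQ
    refine ⟨maskSet_octad c hQ.1, ?_⟩
    unfold Dset
    rw [← maskSet_and, card_maskSet]
    exact hQ.2

theorem ncard_octads_dodecad (d : Finset Cfsg.GolayPt) (hd : d ∈ Cfsg.dodecads) (k : ℕ) :
    {o : Finset Cfsg.GolayPt | o ∈ Cfsg.octads ∧ (o ∩ d).card = k}.ncard =
      (List.range 4096).countP (selO k) := by
  obtain ⟨g, hg, rfl⟩ := dodecad_trans Dset d Dset_mem hd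
  rw [← ncard_octads_Dset k]
  have : {o : Finset Cfsg.GolayPt | o ∈ Cfsg.octads ∧ (o ∩ g • Dset).card = k} =
      (fun o : Finset Cfsg.GolayPt => g • o) ''
        {o : Finset Cfsg.GolayPt | o ∈ Cfsg.octads ∧ (o ∩ Dset).card = k} := by
    ext o
    simp only [Set.mem_setOf_eq, Set.mem_image]
    constructor
    · rintro ⟨ho, hk⟩
      refine ⟨g⁻¹ • o, ⟨smul_octad (inv_mem hg) ho, ?_⟩, smul_inv_smul g o⟩
      have : g • (g⁻¹ • o ∩ Dset) = o ∩ g • Dset := by
        rw [Finset.smul_finset_inter, smul_inv_smul]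
      rw [← hk, ← this, Finset.card_smul_finset]
    · rintro ⟨o', ⟨ho', hk⟩, rfl⟩
      refine ⟨smul_octad hg ho', ?_⟩
      rw [← Finset.smul_finset_inter, Finset.card_smul_finset]
      exact hk
  rw [this]
  exact Set.ncard_image_of_injective _ (MulAction.injective g)

theorem dodecad_hexad_count (d : Finset Cfsg.GolayPt) (hd : d ∈ Cfsg.dodecads) :
    {o : Finset Cfsg.GolayPt | o ∈ Cfsg.octads ∧ (o ∩ d).card = 6}.ncard = 132 ∧
    {o : Finset Cfsg.GolayPt | o ∈ Cfsg.octads ∧ (o ∩ d).card = 2}.ncard = 132 ∧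
    {o : Finset Cfsg.GolayPt | o ∈ Cfsg.octads ∧ (o ∩ d).card = 4}.ncard = 495 :=
  ⟨by rw [ncard_octads_dodecad d hd, cntO6], by rw [ncard_octads_dodecad d hd, cntO2],
    by rw [ncard_octads_dodecad d hd, cntO4]⟩

/-- An octad meets a dodecad in 2, 4 or 6 points. -/
theorem octad_dodecad_inter {o d : Finset Cfsg.GolayPt} (ho : o ∈ Cfsg.octads)
    (hd : d ∈ Cfsg.dodecads) : (o ∩ d).card = 2 ∨ (o ∩ d).card = 4 ∨ (o ∩ d).card = 6 := by
  rw [mem_octads] at ho
  rw [mem_dodecads] at hd
  have h1 := norm_add (ind o) (ind d)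
  rw [supp_ind, supp_ind, norm_ind, norm_ind, ho.2, hd.2] at h1
  have h2 := norm_mem _ (Cfsg.golayCode.add_mem ho.1 hd.1)
  have h3 : (o ∩ d).card ≤ 8 := by
    rw [← ho.2]
    exact Finset.card_le_card Finset.inter_subset_left
  omega

theorem dodecad_steiner (d : Finset Cfsg.GolayPt) (hd : d ∈ Cfsg.dodecads) :
    Cfsg.IsSteinerSystem 5 6 {h : Finset {p : Cfsg.GolayPt // p ∈ d} |
      ∃ o ∈ Cfsg.octads, (o ∩ d).card = 6 ∧ h = Finset.subtype (fun p => p ∈ d) o} := by
  classical
  refine ⟨?_, ?_⟩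
  · rintro b ⟨o, ho, h6, rfl⟩
    rw [Finset.card_subtype, Finset.filter_mem_eq_inter]
    exact h6
  · intro s hs
    have hF : (s.map (Function.Embedding.subtype _)).card = 5 := by
      rw [Finset.card_map]
      exact hs
    have hFd : s.map (Function.Embedding.subtype _) ⊆ d := by
      intro x hx
      rw [Finset.mem_map] at hx
      obtain ⟨y, -, rfl⟩ := hx
      exact y.2
    obtain ⟨o, ho, hFo⟩ := exists_octad5 _ hF
    have h6 : (o ∩ d).card = 6 := by
      have h5 : 5 ≤ (o ∩ d).card := by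
        rw [← hF]
        exact Finset.card_le_card (Finset.subset_inter hFo hFd)
      rcases octad_dodecad_inter ho hd with h | h | h <;> omega
    refine ⟨Finset.subtype (fun p => p ∈ d) o, ⟨⟨o, ho, h6, rfl⟩, ?_⟩, ?_⟩
    · intro x hx
      rw [Finset.mem_subtype]
      exact hFo (Finset.mem_map_of_mem _ hx)
    · rintro b ⟨⟨o', ho', h6', rfl⟩, hsb⟩
      have hFo' : s.map (Function.Embedding.subtype _) ⊆ o' := by
        intro x hx
        rw [Finset.mem_map] at hx
        obtain ⟨y, hy, rfl⟩ := hx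
        have := hsb hy
        rw [Finset.mem_subtype] at this
        exact this
      have h5 : 5 ≤ (o' ∩ o).card := by
        rw [← hF]
        exact Finset.card_le_card (Finset.subset_inter hFo' hFo)
      rcases inter_cases ho' ho with h | h | h | h
      · omega
      · omega
      · omega
      · rw [h]

end Cfsg.Agent.Lib.Helper9.M24Cnt
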