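import Mathlib
import Cfsg.Prelude.Def_Sporadic_a
import Cfsg.Agent.Lib.Helper9.M24Cnt

set_option autoImplicit false

/-! Octads meeting an octad in a prescribed set. -/

namespace Cfsg.Agent.Lib.Helper9.M24Cnt2

open Cfsg.Agent.Lib.Helper9.Golay Cfsg.Agent.Lib.Helper9.GolayC Cfsg.Agent.Lib.Helper9.M24C
open Cfsg.Agent.Lib.Helper9.Octad Cfsg.Agent.Lib.Helper9.M24B Cfsg.Agent.Lib.Helper9.M24T
open Cfsg.Agent.Lib.Helper9.M24O Cfsg.Agent.Lib.Helper9.M24Oct Cfsg.Agent.Lib.Helper9.M24OS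
open Cfsg.Agent.Lib.Helper9.M24Dod Cfsg.Agent.Lib.Helper9.M24M Cfsg.Agent.Lib.Helper9.M24CO
open Cfsg.Agent.Lib.Helper9.M24DO Cfsg.Agent.Lib.Helper9.M24Cnt
open scoped Pointwise

theorem maskSet_inj (a b : ℕ) (ha : a < 2 ^ 24) (hb : b < 2 ^ 24) (h : maskSet a = maskSet b) :
    a = b := by
  apply Nat.eq_of_testBit_eq
  intro i
  by_cases hi : i < 24
  · have h1 := mem_maskSet a (ptOf i)
    have h2 := mem_maskSet b (ptOf i)
    rw [idx_ptOf i hi] at h1 h2
    rw [h] at h1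
    have h3 := h1.symm.trans h2
    cases ha' : a.testBit i <;> cases hb' : b.testBit i <;> simp_all
  · have h24 : 2 ^ 24 ≤ 2 ^ i := Nat.pow_le_pow_right (by norm_num) (by omega)
    rw [Nat.testBit_eq_false_of_lt (lt_of_lt_of_le ha h24),
      Nat.testBit_eq_false_of_lt (lt_of_lt_of_le hb h24)]

theorem idx_lt (p : Cfsg.GolayPt) : idx p < 24 := by
  revert p
  decide

theorem maskSet_pair (a b : Cfsg.GolayPt) :
    maskSet ((1 <<< idx a) ||| (1 <<< idx b)) = {a, b} := by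
  ext p
  rw [mem_maskSet, Nat.testBit_or, Nat.one_shiftLeft, Nat.one_shiftLeft, Nat.testBit_two_pow,
    Nat.testBit_two_pow, Finset.mem_insert, Finset.mem_singleton, Bool.or_eq_true,
    decide_eq_true_eq, decide_eq_true_eq]
  constructor
  · rintro (h | h)
    · exact Or.inl (idx_inj h.symm)
    · exact Or.inr (idx_inj h.symm)
  · rintro (h | h)
    · exact Or.inl (by rw [h])
    · exact Or.inr (by rw [h])

/-- selects octads meeting `OM` exactly in the bits `i`, `j` -/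
def selP (i j : ℕ) (c : ℕ) : Bool :=
  decide (pc 24 (lin LB c) = 8) && decide (OM &&& lin LB c = (1 <<< i) ||| (1 <<< j))

set_option maxRecDepth 100000 in
theorem cntP : ∀ i < 24, ∀ j < 24, OM.testBit i = true → OM.testBit j = true → i ≠ j →
    (List.range 4096).countP (selP i j) = 16 := by decide +kernel

theorem pair_lt (i j : ℕ) (hi : i < 24) (hj : j < 24) : (1 <<< i) ||| (1 <<< j) < 2 ^ 24 := by
  apply Nat.or_lt_two_pow
  · rw [Nat.one_shiftLeft]
    exact Nat.pow_lt_pow_right (by norm_num) hi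
  · rw [Nat.one_shiftLeft]
    exact Nat.pow_lt_pow_right (by norm_num) hj

theorem meet2_std (a b : Cfsg.GolayPt) (ha : a ∈ Oset) (hb : b ∈ Oset) (hab : a ≠ b) :
    {o' : Finset Cfsg.GolayPt | o' ∈ Cfsg.octads ∧ Oset ∩ o' = {a, b}}.ncard = 16 := by
  unfold Oset at ha hb
  rw [mem_maskSet] at ha hb
  rw [← cntP (idx a) (idx_lt a) (idx b) (idx_lt b) ha hb (fun h => hab (idx_inj h))]
  have hOM : OM < 2 ^ 24 := by decide
  apply ncard_code
  · rintro s ⟨hs, hk⟩
    obtain ⟨c, hc, h8, rfl⟩ := octad_mask s hs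
    refine ⟨c, hc, ?_, rfl⟩
    unfold Oset at hk
    rw [← maskSet_and, ← maskSet_pair] at hk
    unfold selP
    rw [Bool.and_eq_true, decide_eq_true_eq, decide_eq_true_eq]
    exact ⟨h8, maskSet_inj _ _ (lt_of_le_of_lt Nat.and_le_left hOM)
      (pair_lt _ _ (idx_lt a) (idx_lt b)) hk⟩
  · intro c hc hQ
    unfold selP at hQ
    rw [Bool.and_eq_true, decide_eq_true_eq, decide_eq_true_eq] at hQ
    refine ⟨maskSet_octad c hQ.1, ?_⟩
    unfold Oset
    rw [← maskSet_and, hQ.2, maskSet_pair]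

theorem meet2 (o : Finset Cfsg.GolayPt) (ho : o ∈ Cfsg.octads) (s : Finset Cfsg.GolayPt)
    (hs : s ⊆ o) (h2 : s.card = 2) :
    {o' : Finset Cfsg.GolayPt | o' ∈ Cfsg.octads ∧ o ∩ o' = s}.ncard = 16 := by
  obtain ⟨g, hg, rfl⟩ := octad_trans o ho
  have h2' : (g⁻¹ • s).card = 2 := by rw [Finset.card_smul_finset]; exact h2
  obtain ⟨a, b, hab, hs'⟩ := Finset.card_eq_two.mp h2'
  have hsub : g⁻¹ • s ⊆ Oset := by
    have := Finset.smul_finset_subset_smul_finset (a := g⁻¹) hs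
    rwa [inv_smul_smul] at this
  have ha : a ∈ Oset := hsub (by rw [hs']; simp)
  have hb : b ∈ Oset := hsub (by rw [hs']; simp)
  rw [← meet2_std a b ha hb hab, ← hs']
  have : {o' : Finset Cfsg.GolayPt | o' ∈ Cfsg.octads ∧ g • Oset ∩ o' = s} =
      (fun o : Finset Cfsg.GolayPt => g • o) ''
        {o' : Finset Cfsg.GolayPt | o' ∈ Cfsg.octads ∧ Oset ∩ o' = g⁻¹ • s} := by
    ext o
    simp only [Set.mem_setOf_eq, Set.mem_image]
    constructor
    · rintro ⟨ho, hk⟩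
      refine ⟨g⁻¹ • o, ⟨smul_octad (inv_mem hg) ho, ?_⟩, smul_inv_smul g o⟩
      rw [← hk, Finset.smul_finset_inter, inv_smul_smul]
    · rintro ⟨o', ⟨ho', hk⟩, rfl⟩
      refine ⟨smul_octad hg ho', ?_⟩
      rw [← Finset.smul_finset_inter, hk, smul_inv_smul]
  rw [this]
  exact Set.ncard_image_of_injective _ (MulAction.injective g)

theorem meet4 (o : Finset Cfsg.GolayPt) (ho : o ∈ Cfsg.octads) (s : Finset Cfsg.GolayPt)
    (hs : s ⊆ o) (h4 : s.card = 4) :
    {o' : Finset Cfsg.GolayPt | o' ∈ Cfsg.octads ∧ o ∩ o' = s}.ncard = 4 := by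
  classical
  have h8 : o.card = 8 := ((mem_octads o).mp ho).2
  have : {o' : Finset Cfsg.GolayPt | o' ∈ Cfsg.octads ∧ o ∩ o' = s} = ↑((pencil s).erase o) := by
    ext o'
    simp only [Set.mem_setOf_eq, Finset.coe_erase, Set.mem_diff, Finset.mem_coe, mem_pencil,
      Set.mem_singleton_iff]
    constructor
    · rintro ⟨ho', hk⟩
      refine ⟨⟨ho', ?_⟩, ?_⟩
      · rw [← hk]
        exact Finset.inter_subset_right
      · rintro rfl
        rw [Finset.inter_self] at hk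
        rw [hk] at h8
        omega
    · rintro ⟨⟨ho', hso'⟩, hne⟩
      exact ⟨ho', pencil_inter h4 ho ho' (Ne.symm hne) hs hso'⟩
  rw [this, Set.ncard_coe_finset, Finset.card_erase_of_mem, pencil_card s h4]
  rw [mem_pencil]
  exact ⟨ho, hs⟩

end Cfsg.Agent.Lib.Helper9.M24Cnt2
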