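import Mathlib
import Cfsg.Prelude.Def_Sporadic_a
import Cfsg.Agent.Lib.Helper9.M24Cnt2

set_option autoImplicit false

/-! Flag stabilisers in the group of the length-24 code and their orbits on codewords. -/

namespace Cfsg.Agent.Lib.Helper9.M24F

open Cfsg.Agent.Lib.Helper9.Golay Cfsg.Agent.Lib.Helper9.GolayC Cfsg.Agent.Lib.Helper9.M24C
open Cfsg.Agent.Lib.Helper9.Octad Cfsg.Agent.Lib.Helper9.M24B Cfsg.Agent.Lib.Helper9.M24T
open Cfsg.Agent.Lib.Helper9.M24O Cfsg.Agent.Lib.Helper9.M24Oct Cfsg.Agent.Lib.Helper9.M24OS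
open Cfsg.Agent.Lib.Helper9.M24Dod Cfsg.Agent.Lib.Helper9.M24M Cfsg.Agent.Lib.Helper9.M24CO
open Cfsg.Agent.Lib.Helper9.M24DO Cfsg.Agent.Lib.Helper9.M24Cnt Cfsg.Agent.Lib.Helper9.M24Cnt2
open scoped Pointwise

/-- The joint stabiliser of a set (given by a mask) and of some points (given by indices). -/
def KS (m : ℕ) (pts : List ℕ) : Subgroup (Equiv.Perm Cfsg.GolayPt) where
  carrier := {g | g ∈ Cfsg.M24 ∧ g • maskSet m = maskSet m ∧ ∀ i ∈ pts, g (ptOf i) = ptOf i}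
  mul_mem' := by
    rintro a b ⟨ha, ha', ha''⟩ ⟨hb, hb', hb''⟩
    exact ⟨mul_mem ha hb, by rw [mul_smul, hb', ha'],
      fun i hi => by rw [Equiv.Perm.mul_apply, hb'' i hi, ha'' i hi]⟩
  one_mem' := ⟨one_mem _, one_smul _ _, fun _ _ => rfl⟩
  inv_mem' := by
    rintro a ⟨ha, ha', ha''⟩
    refine ⟨inv_mem ha, ?_, fun i hi => ?_⟩
    · rw [inv_smul_eq_iff, ha']
    · rw [Equiv.Perm.inv_eq_iff_eq, ha'' i hi]

theorem mem_KS (m : ℕ) (pts : List ℕ) (g : Equiv.Perm Cfsg.GolayPt) :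
    g ∈ KS m pts ↔ g ∈ Cfsg.M24 ∧ g • maskSet m = maskSet m ∧ ∀ i ∈ pts, g (ptOf i) = ptOf i :=
  Iff.rfl

/-- Table-level check of membership in `KS m pts`. -/
def ksOk (m : ℕ) (pts : List ℕ) (t : List ℕ) : Bool :=
  invB t m && pts.all (fun i => decide (i < 24) && decide (t.getD i 0 = i))

theorem ks_mem (PR : List (ℕ × ℕ)) (gs : List (List ℕ)) (m : ℕ) (pts : List ℕ)
    (h1 : ∀ t ∈ gs, t ∈ run TT PR) (h2 : ∀ t ∈ gs, ksOk m pts t = true) :
    ∀ t ∈ gs, ∃ g ∈ KS m pts, IsTable g t := by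
  intro t ht
  obtain ⟨g, hg, hT⟩ := run_TT PR t (h1 t ht)
  have h := h2 t ht
  unfold ksOk at h
  rw [Bool.and_eq_true, List.all_eq_true] at h
  refine ⟨g, ⟨hg, (invB_iff hT m).mpr h.1, fun i hi => ?_⟩, hT⟩
  have := h.2 i hi
  rw [Bool.and_eq_true, decide_eq_true_eq, decide_eq_true_eq] at this
  apply idx_inj
  rw [hT, idx_ptOf i this.1, this.2]

/-- Supports in `W` meeting prescribed sets in prescribed numbers of points. -/
def SelL (W : Set (Finset Cfsg.GolayPt)) (L : List (ℕ × ℕ)) (s : Finset Cfsg.GolayPt) : Prop :=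
  s ∈ W ∧ ∀ x ∈ L, (maskSet x.1 ∩ s).card = x.2

/-- The corresponding selector on coordinates. -/
def selL (w : ℕ) (L : List (ℕ × ℕ)) (c : ℕ) : Bool :=
  decide (pc 24 (lin LB c) = w) && L.all (fun x => decide (pc 24 (x.1 &&& lin LB c) = x.2))

theorem selL_iff (W : Set (Finset Cfsg.GolayPt)) (w : ℕ)
    (hW : ∀ c, maskSet (lin LB c) ∈ W ↔ pc 24 (lin LB c) = w) (L : List (ℕ × ℕ)) (c : ℕ) :
    SelL W L (maskSet (lin LB c)) ↔ selL w L c = true := by
  unfold SelL selL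
  rw [Bool.and_eq_true, List.all_eq_true, decide_eq_true_eq, hW]
  apply and_congr Iff.rfl
  apply forall_congr'
  intro x
  apply imp_congr Iff.rfl
  rw [decide_eq_true_eq, ← maskSet_and, card_maskSet]

theorem W8 (c : ℕ) : maskSet (lin LB c) ∈ Cfsg.octads ↔ pc 24 (lin LB c) = 8 := by
  constructor
  · intro h
    rw [← card_maskSet]
    exact ((mem_octads _).mp h).2
  · exact maskSet_octad c

theorem W12 (c : ℕ) : maskSet (lin LB c) ∈ Cfsg.dodecads ↔ pc 24 (lin LB c) = 12 := by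
  constructor
  · intro h
    rw [← card_maskSet]
    exact ((mem_dodecads _).mp h).2
  · exact maskSet_dodecad c

theorem ncard_sel (W : Set (Finset Cfsg.GolayPt)) (w : ℕ)
    (hW : ∀ c, maskSet (lin LB c) ∈ W ↔ pc 24 (lin LB c) = w)
    (hW' : ∀ s ∈ W, ∃ c < 4096, s = maskSet (lin LB c)) (L : List (ℕ × ℕ)) :
    {s | SelL W L s}.ncard = (List.range 4096).countP (selL w L) := by
  apply ncard_code
  · intro s hs
    obtain ⟨c, hc, rfl⟩ := hW' s hs.1
    exact ⟨c, hc, (selL_iff W w hW L c).mp hs, rfl⟩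
  · intro c _ hQ
    exact (selL_iff W w hW L c).mpr hQ

theorem oct_mask (s : Finset Cfsg.GolayPt) (hs : s ∈ Cfsg.octads) :
    ∃ c < 4096, s = maskSet (lin LB c) := by
  obtain ⟨c, hc, -, h⟩ := octad_mask s hs
  exact ⟨c, hc, h⟩

theorem dod_mask (s : Finset Cfsg.GolayPt) (hs : s ∈ Cfsg.dodecads) :
    ∃ c < 4096, s = maskSet (lin LB c) := by
  obtain ⟨c, hc, -, h⟩ := dodecad_mask s hs
  exact ⟨c, hc, h⟩

theorem ncard_sel8 (L : List (ℕ × ℕ)) :
    {s | SelL Cfsg.octads L s}.ncard = (List.range 4096).countP (selL 8 L) :=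
  ncard_sel Cfsg.octads 8 W8 oct_mask L

theorem ncard_sel12 (L : List (ℕ × ℕ)) :
    {s | SelL Cfsg.dodecads L s}.ncard = (List.range 4096).countP (selL 12 L) :=
  ncard_sel Cfsg.dodecads 12 W12 dod_mask L

theorem orb_sel (W : Set (Finset Cfsg.GolayPt)) (w : ℕ)
    (hW : ∀ c, maskSet (lin LB c) ∈ W ↔ pc 24 (lin LB c) = w)
    (hW' : ∀ s ∈ W, ∃ c < 4096, s = maskSet (lin LB c))
    (K : Subgroup (Equiv.Perm Cfsg.GolayPt)) (gs : List (List ℕ))
    (hgs : ∀ t ∈ gs, ∃ g ∈ K, IsTable g t) (L : List (ℕ × ℕ)) (c0 : ℕ)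
    (cert : List (ℕ × ℕ × ℕ)) (hcov : coverB (orbC gs (1 <<< c0) cert) (selL w L) = true)
    (s s' : Finset Cfsg.GolayPt) (hs : SelL W L s) (hs' : SelL W L s') :
    ∃ g ∈ K, g • s = s' := by
  obtain ⟨c, hc, rfl⟩ := hW' s hs.1
  obtain ⟨c', hc', rfl⟩ := hW' s' hs'.1
  exact orbC_trans K gs c0 hgs cert c c'
    (coverB_spec _ _ hcov c hc ((selL_iff W w hW L c).mp hs))
    (coverB_spec _ _ hcov c' hc' ((selL_iff W w hW L c').mp hs'))

theorem orb_sel8 (K : Subgroup (Equiv.Perm Cfsg.GolayPt)) (gs : List (List ℕ))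
    (hgs : ∀ t ∈ gs, ∃ g ∈ K, IsTable g t) (L : List (ℕ × ℕ)) (c0 : ℕ)
    (cert : List (ℕ × ℕ × ℕ)) (hcov : coverB (orbC gs (1 <<< c0) cert) (selL 8 L) = true)
    (s s' : Finset Cfsg.GolayPt) (hs : SelL Cfsg.octads L s) (hs' : SelL Cfsg.octads L s') :
    ∃ g ∈ K, g • s = s' :=
  orb_sel Cfsg.octads 8 W8 oct_mask K gs hgs L c0 cert hcov s s' hs hs'

theorem orb_sel12 (K : Subgroup (Equiv.Perm Cfsg.GolayPt)) (gs : List (List ℕ))
    (hgs : ∀ t ∈ gs, ∃ g ∈ K, IsTable g t) (L : List (ℕ × ℕ)) (c0 : ℕ)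
    (cert : List (ℕ × ℕ × ℕ)) (hcov : coverB (orbC gs (1 <<< c0) cert) (selL 12 L) = true)
    (s s' : Finset Cfsg.GolayPt) (hs : SelL Cfsg.dodecads L s) (hs' : SelL Cfsg.dodecads L s') :
    ∃ g ∈ K, g • s = s' :=
  orb_sel Cfsg.dodecads 12 W12 dod_mask K gs hgs L c0 cert hcov s s' hs hs'

/-- Transfer of a count along a permutation. -/
theorem ncard_transfer (g0 : Equiv.Perm Cfsg.GolayPt) (A A' : Set (Finset Cfsg.GolayPt))
    (h : ∀ s, g0 • s ∈ A' ↔ s ∈ A) : A'.ncard = A.ncard := by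
  have : A' = (fun s : Finset Cfsg.GolayPt => g0 • s) '' A := by
    ext s
    rw [Set.mem_image]
    constructor
    · intro hs
      refine ⟨g0⁻¹ • s, ?_, smul_inv_smul g0 s⟩
      rw [← h, smul_inv_smul]
      exact hs
    · rintro ⟨s', hs', rfl⟩
      exact (h s').mpr hs'
  rw [this]
  exact Set.ncard_image_of_injective _ (MulAction.injective g0)

theorem maskSet_single (p : Cfsg.GolayPt) : maskSet (1 <<< idx p) = {p} := by
  ext q
  rw [mem_maskSet, Nat.one_shiftLeft, Nat.testBit_two_pow, Finset.mem_singleton,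
    decide_eq_true_eq]
  constructor
  · intro h
    exact idx_inj h.symm
  · intro h
    rw [h]

theorem mem_iff_card (p : Cfsg.GolayPt) (s : Finset Cfsg.GolayPt) :
    p ∈ s ↔ (maskSet (1 <<< idx p) ∩ s).card = 1 := by
  rw [maskSet_single]
  by_cases h : p ∈ s
  · rw [Finset.singleton_inter_of_mem h]
    simp [h]
  · rw [Finset.singleton_inter_of_notMem h]
    simp [h]

theorem notMem_iff_card (p : Cfsg.GolayPt) (s : Finset Cfsg.GolayPt) :
    p ∉ s ↔ (maskSet (1 <<< idx p) ∩ s).card = 0 := by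
  rw [maskSet_single]
  by_cases h : p ∈ s
  · rw [Finset.singleton_inter_of_mem h]
    simp [h]
  · rw [Finset.singleton_inter_of_notMem h]
    simp [h]

theorem extend_one (o : Finset Cfsg.GolayPt) (x : ℕ → Cfsg.GolayPt) (j : ℕ) (hj : j < o.card) :
    ∃ p ∈ o, ∀ i < j, x i ≠ p := by
  classical
  have hc : ((Finset.range j).image x).card < o.card :=
    lt_of_le_of_lt (Finset.card_image_le.trans (by rw [Finset.card_range])) hj
  obtain ⟨p, hp, hp'⟩ := Finset.exists_mem_notMem_of_card_lt_card hc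
  refine ⟨p, hp, fun i hi h => hp' ?_⟩
  rw [Finset.mem_image]
  exact ⟨i, Finset.mem_range.mpr hi, h⟩

theorem extend_tuple (o : Finset Cfsg.GolayPt) (x : ℕ → Cfsg.GolayPt) (k : ℕ)
    (hx : ∀ i < k, x i ∈ o) (hinj : ∀ i < k, ∀ j < k, x i = x j → i = j) :
    ∀ m, k ≤ m → m ≤ o.card → ∃ y : ℕ → Cfsg.GolayPt, (∀ i < k, y i = x i) ∧
      (∀ i < m, y i ∈ o) ∧ (∀ i < m, ∀ j < m, y i = y j → i = j) := by
  intro m hkm
  induction m, hkm using Nat.le_induction with
  | base =>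
    intro _
    exact ⟨x, fun _ _ => rfl, hx, hinj⟩
  | succ m hkm ih =>
    intro hm
    obtain ⟨y, hy1, hy2, hy3⟩ := ih (by omega)
    obtain ⟨p, hp, hp'⟩ := extend_one o y m (by omega)
    refine ⟨fun i => if i = m then p else y i, fun i hi => ?_, fun i hi => ?_, fun i hi j hj h => ?_⟩
    · have : i ≠ m := by omega
      simp only [this, if_false]
      exact hy1 i hi
    · by_cases him : i = m
      · simp only [him, if_true]
        exact hp
      · simp only [him, if_false]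
        exact hy2 i (by omega)
    · by_cases him : i = m <;> by_cases hjm : j = m
      · omega
      · simp only [him, hjm, if_true, if_false] at h
        exact absurd h.symm (hp' j (by omega))
      · simp only [him, hjm, if_true, if_false] at h
        exact absurd h (hp' i (by omega))
      · simp only [him, hjm, if_false] at h
        exact hy3 i (by omega) j (by omega) h

/-- The group is transitive on octads with up to five marked points. -/
theorem flag_trans (o : Finset Cfsg.GolayPt) (ho : o ∈ Cfsg.octads) (x : ℕ → Cfsg.GolayPt)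
    (k : ℕ) (hk : k ≤ 5) (hx : ∀ i < k, x i ∈ o) (hinj : ∀ i < k, ∀ j < k, x i = x j → i = j) :
    ∃ g ∈ Cfsg.M24, g • Oset = o ∧ ∀ i < k, g (B i) = x i := by
  classical
  have h8 : o.card = 8 := ((mem_octads o).mp ho).2
  obtain ⟨y, hy1, hy2, hy3⟩ := extend_tuple o x k hx hinj 5 hk (by omega)
  obtain ⟨g, hg, hgy⟩ := exists_tuple 5 le_rfl y hy3
  refine ⟨g, hg, ?_, fun i hi => by rw [hgy i (by omega), hy1 i hi]⟩
  have ho' := smul_octad hg Oset_mem
  have hsub : (Finset.range 5).image y ⊆ g • Oset ∩ o := by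
    intro p hp
    rw [Finset.mem_image] at hp
    obtain ⟨i, hi, rfl⟩ := hp
    rw [Finset.mem_range] at hi
    rw [Finset.mem_inter]
    refine ⟨?_, hy2 i hi⟩
    rw [← hgy i hi]
    apply Finset.smul_mem_smul_finset
    unfold Oset
    rw [mem_maskSet]
    exact B_mem_O i (by omega)
  have h5 : 5 ≤ (g • Oset ∩ o).card := by
    have : ((Finset.range 5).image y).card = 5 := by
      rw [Finset.card_image_of_injOn, Finset.card_range]
      intro i hi j hj h
      exact hy3 i (Finset.mem_range.mp hi) j (Finset.mem_range.mp hj) h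
    rw [← this]
    exact Finset.card_le_card hsub
  rcases inter_cases ho' ho with h | h | h | h
  · omega
  · omega
  · omega
  · exact h

/-- Intersection sizes are preserved by permutations. -/
theorem card_inter_smul (g : Equiv.Perm Cfsg.GolayPt) (s t : Finset Cfsg.GolayPt) :
    (g • s ∩ g • t).card = (s ∩ t).card := by
  rw [← Finset.smul_finset_inter, Finset.card_smul_finset]

theorem mem_smul_iff (g : Equiv.Perm Cfsg.GolayPt) (p : Cfsg.GolayPt) (s : Finset Cfsg.GolayPt) :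
    g p ∈ g • s ↔ p ∈ s :=
  Finset.smul_mem_smul_finset_iff g

theorem smul_octad_iff {g : Equiv.Perm Cfsg.GolayPt} (hg : g ∈ Cfsg.M24)
    (s : Finset Cfsg.GolayPt) : g • s ∈ Cfsg.octads ↔ s ∈ Cfsg.octads := by
  constructor
  · intro h
    have := smul_octad (inv_mem hg) h
    rwa [inv_smul_smul] at this
  · exact smul_octad hg

theorem smul_dodecad_iff {g : Equiv.Perm Cfsg.GolayPt} (hg : g ∈ Cfsg.M24)
    (s : Finset Cfsg.GolayPt) : g • s ∈ Cfsg.dodecads ↔ s ∈ Cfsg.dodecads := by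
  constructor
  · intro h
    have := smul_dodecad (inv_mem hg) h
    rwa [inv_smul_smul] at this
  · exact smul_dodecad hg

/-- Conjugating an element of a standard flag stabiliser. -/
theorem conj_KS (g0 k : Equiv.Perm Cfsg.GolayPt) (hg0 : g0 ∈ Cfsg.M24) (m : ℕ) (pts : List ℕ)
    (hk : k ∈ KS m pts) :
    g0 * k * g0⁻¹ ∈ Cfsg.M24 ∧ (g0 * k * g0⁻¹) • (g0 • maskSet m) = g0 • maskSet m ∧
    (∀ i ∈ pts, (g0 * k * g0⁻¹) (g0 (ptOf i)) = g0 (ptOf i)) ∧
    ∀ s s' : Finset Cfsg.GolayPt, k • (g0⁻¹ • s) = g0⁻¹ • s' → (g0 * k * g0⁻¹) • s = s' := by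
  refine ⟨mul_mem (mul_mem hg0 hk.1) (inv_mem hg0), ?_, fun i hi => ?_, fun s s' h => ?_⟩
  · rw [mul_smul, mul_smul, inv_smul_smul, hk.2.1]
  · have h1 : g0⁻¹ (g0 (ptOf i)) = ptOf i := by simp
    rw [Equiv.Perm.mul_apply, Equiv.Perm.mul_apply, h1, hk.2.2 i hi]
  · rw [mul_smul, mul_smul, h, smul_inv_smul]

theorem selL1 (W : Set (Finset Cfsg.GolayPt)) (A a : ℕ) (s : Finset Cfsg.GolayPt) :
    SelL W [(A, a)] s ↔ s ∈ W ∧ (maskSet A ∩ s).card = a := by
  simp [SelL]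

theorem selL2 (W : Set (Finset Cfsg.GolayPt)) (A a I i : ℕ) (s : Finset Cfsg.GolayPt) :
    SelL W [(A, a), (I, i)] s ↔ s ∈ W ∧ (maskSet A ∩ s).card = a ∧ (maskSet I ∩ s).card = i := by
  simp [SelL]

theorem selL3 (W : Set (Finset Cfsg.GolayPt)) (A a I i J j : ℕ) (s : Finset Cfsg.GolayPt) :
    SelL W [(A, a), (I, i), (J, j)] s ↔ s ∈ W ∧ (maskSet A ∩ s).card = a ∧
      (maskSet I ∩ s).card = i ∧ (maskSet J ∩ s).card = j := by
  simp [SelL]

theorem inv_smul_mem_iff (g : Equiv.Perm Cfsg.GolayPt) (p : Cfsg.GolayPt)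
    (s : Finset Cfsg.GolayPt) : p ∈ g⁻¹ • s ↔ g p ∈ s := by
  rw [← mem_smul_iff g p (g⁻¹ • s), smul_inv_smul]

theorem card_inter_inv_smul (g : Equiv.Perm Cfsg.GolayPt) (s t : Finset Cfsg.GolayPt) :
    (s ∩ g⁻¹ • t).card = (g • s ∩ t).card := by
  rw [← card_inter_smul g, smul_inv_smul]

end Cfsg.Agent.Lib.Helper9.M24F
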