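import Mathlib
import Cfsg.Prelude.Def_Sporadic_a
import Cfsg.Agent.Lib.Helper9.M24OS
import Cfsg.Agent.Lib.Helper9.M24Sim
import Cfsg.Agent.Lib.Helper9.M24F

set_option autoImplicit false

/-! Sets of six points: transitivity on ordered six-tuples of each type, pointwise and
setwise stabilisers. -/

namespace Cfsg.Agent.Lib.Helper9.M24Six

open Cfsg.Agent.Lib.Helper9.Golay Cfsg.Agent.Lib.Helper9.GolayC Cfsg.Agent.Lib.Helper9.M24C
open Cfsg.Agent.Lib.Helper9.Octad Cfsg.Agent.Lib.Helper9.M24B Cfsg.Agent.Lib.Helper9.M24T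
open Cfsg.Agent.Lib.Helper9.M24O Cfsg.Agent.Lib.Helper9.M24Oct Cfsg.Agent.Lib.Helper9.M24OS
open Cfsg.Agent.Lib.Helper9.M24Sim Cfsg.Agent.Lib.Helper9.M24F
open scoped Pointwise

/-- Two octads sharing five points coincide. -/
theorem octad_eq_of_five {o o' : Finset Cfsg.GolayPt} (ho : o ∈ Cfsg.octads)
    (ho' : o' ∈ Cfsg.octads) (F : Finset Cfsg.GolayPt) (hF : 5 ≤ F.card) (h1 : F ⊆ o)
    (h2 : F ⊆ o') : o = o' := by
  have hc : 5 ≤ (o ∩ o').card := le_trans hF (Finset.card_le_card (Finset.subset_inter h1 h2))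
  rcases inter_cases ho ho' with h | h | h | h
  · omega
  · omega
  · omega
  · exact h

theorem B_in (i : ℕ) (hi : i < 6) : B i ∈ Oset := by
  unfold Oset
  rw [mem_maskSet]
  exact B_mem_O i hi

theorem img5_sub (g : Equiv.Perm Cfsg.GolayPt) (x : ℕ → Cfsg.GolayPt)
    (h : ∀ i < 5, g (B i) = x i) : (Finset.range 5).image x ⊆ g • Oset := by
  intro p hp
  rw [Finset.mem_image] at hp
  obtain ⟨i, hi, rfl⟩ := hp
  rw [Finset.mem_range] at hi
  rw [← h i hi]
  exact (mem_smul_iff g (B i) Oset).mpr (B_in i (by omega))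

theorem card_img (n : ℕ) (x : ℕ → Cfsg.GolayPt) (hx : ∀ i < n, ∀ j < n, x i = x j → i = j) :
    ((Finset.range n).image x).card = n := by
  rw [Finset.card_image_of_injOn, Finset.card_range]
  intro i hi j hj hij
  rw [Finset.coe_range, Set.mem_Iio] at hi hj
  exact hx i hi j hj hij

/-- Ordered six-tuples inside an octad form one orbit. -/
theorem tuple_in (x : ℕ → Cfsg.GolayPt) (hx : ∀ i < 6, ∀ j < 6, x i = x j → i = j)
    (o : Finset Cfsg.GolayPt) (ho : o ∈ Cfsg.octads) (hxo : ∀ i < 6, x i ∈ o) :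
    ∃ g ∈ Cfsg.M24, ∀ i < 6, g (B i) = x i := by
  obtain ⟨g0, hg0, h0⟩ := exists_tuple 5 (by norm_num) x
    (fun i hi j hj => hx i (by omega) j (by omega))
  have hgo : g0 • Oset = o :=
    octad_eq_of_five (smul_octad hg0 Oset_mem) ho _
      (le_of_eq (card_img 5 x (fun i hi j hj => hx i (by omega) j (by omega))).symm)
      (img5_sub g0 x h0) (by
        intro p hp
        rw [Finset.mem_image] at hp
        obtain ⟨i, hi, rfl⟩ := hp
        rw [Finset.mem_range] at hi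
        exact hxo i (by omega))
  have hq : D 5 (g0⁻¹ (x 5)) := by
    refine ⟨fun i hi heq => ?_, fun _ => ?_, fun h => by omega⟩
    · rw [Equiv.Perm.inv_eq_iff_eq, h0 i hi] at heq
      have := hx 5 (by norm_num) i (by omega) heq
      omega
    · have h5 : x 5 ∈ g0 • Oset := hgo ▸ hxo 5 (by norm_num)
      have e : g0 (g0⁻¹ (x 5)) = x 5 := by simp
      rw [← e] at h5
      exact (mem_smul_iff g0 _ Oset).mp h5
  obtain ⟨u, hu, huq⟩ := exists_move 5 (by norm_num) _ hq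
  refine ⟨g0 * u, mul_mem hg0 hu.1, fun i hi => ?_⟩
  rw [Equiv.Perm.mul_apply]
  rcases Nat.lt_succ_iff_lt_or_eq.mp hi with h | h
  · rw [hu.2 i h, h0 i h]
  · rw [h, huq]
    simp

/-- The base tuple outside an octad. -/
def B' (i : ℕ) : Cfsg.GolayPt := if i < 5 then B i else B 6

/-- Ordered six-tuples in no octad form one orbit. -/
theorem tuple_out (x : ℕ → Cfsg.GolayPt) (hx : ∀ i < 6, ∀ j < 6, x i = x j → i = j)
    (hxo : ¬ ∃ o ∈ Cfsg.octads, ∀ i < 6, x i ∈ o) :
    ∃ g ∈ Cfsg.M24, ∀ i < 6, g (B' i) = x i := by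
  obtain ⟨g0, hg0, h0⟩ := exists_tuple 5 (by norm_num) x
    (fun i hi j hj => hx i (by omega) j (by omega))
  have hq : g0⁻¹ (x 5) ∉ Oset := by
    intro hmem
    apply hxo
    refine ⟨g0 • Oset, smul_octad hg0 Oset_mem, fun i hi => ?_⟩
    rcases Nat.lt_succ_iff_lt_or_eq.mp hi with h | h
    · rw [← h0 i h]
      exact (mem_smul_iff g0 (B i) Oset).mpr (B_in i (by omega))
    · rw [h]
      have := (mem_smul_iff g0 _ Oset).mpr hmem
      simpa using this
  obtain ⟨u, hu, huq⟩ := exists_move 6 (by norm_num) _ (notMem_D6 _ hq)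
  refine ⟨g0 * u, mul_mem hg0 hu.1, fun i hi => ?_⟩
  rw [Equiv.Perm.mul_apply]
  unfold B'
  rcases Nat.lt_succ_iff_lt_or_eq.mp hi with h | h
  · rw [if_pos h, hu.2 i (by omega), h0 i h]
  · rw [h, if_neg (by norm_num), huq]
    simp

theorem img_eq (E : Finset Cfsg.GolayPt) (n : ℕ) (hE : E.card = n) (z : ℕ → Cfsg.GolayPt)
    (hz : ∀ i < n, ∀ j < n, z i = z j → i = j) (hzE : ∀ i < n, z i ∈ E) :
    (Finset.range n).image z = E := by
  apply Finset.eq_of_subset_of_card_le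
  · intro p hp
    rw [Finset.mem_image] at hp
    obtain ⟨i, hi, rfl⟩ := hp
    exact hzE i (Finset.mem_range.mp hi)
  · rw [hE, card_img n z hz]

/-- Two orderings of the same six-set are related by the group. -/
theorem six_trans (E : Finset Cfsg.GolayPt) (hE : E.card = 6) (x y : ℕ → Cfsg.GolayPt)
    (hx : ∀ i < 6, ∀ j < 6, x i = x j → i = j) (hy : ∀ i < 6, ∀ j < 6, y i = y j → i = j)
    (hxE : ∀ i < 6, x i ∈ E) (hyE : ∀ i < 6, y i ∈ E) :
    ∃ g ∈ Cfsg.M24, ∀ i < 6, g (x i) = y i := by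
  by_cases ho : ∃ o ∈ Cfsg.octads, E ⊆ o
  · obtain ⟨o, ho, hEo⟩ := ho
    obtain ⟨g1, hg1, h1⟩ := tuple_in x hx o ho (fun i hi => hEo (hxE i hi))
    obtain ⟨g2, hg2, h2⟩ := tuple_in y hy o ho (fun i hi => hEo (hyE i hi))
    refine ⟨g2 * g1⁻¹, mul_mem hg2 (inv_mem hg1), fun i hi => ?_⟩
    rw [Equiv.Perm.mul_apply, ← h1 i hi, ← h2 i hi]
    simp
  · have hE_eq : ∀ z : ℕ → Cfsg.GolayPt, (∀ i < 6, ∀ j < 6, z i = z j → i = j) →
        (∀ i < 6, z i ∈ E) → ¬ ∃ o ∈ Cfsg.octads, ∀ i < 6, z i ∈ o := by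
      rintro z hz hzE ⟨o, ho', hzo⟩
      apply ho
      refine ⟨o, ho', ?_⟩
      rw [← img_eq E 6 hE z hz hzE]
      intro p hp
      rw [Finset.mem_image] at hp
      obtain ⟨i, hi, rfl⟩ := hp
      exact hzo i (Finset.mem_range.mp hi)
    obtain ⟨g1, hg1, h1⟩ := tuple_out x hx (hE_eq x hx hxE)
    obtain ⟨g2, hg2, h2⟩ := tuple_out y hy (hE_eq y hy hyE)
    refine ⟨g2 * g1⁻¹, mul_mem hg2 (inv_mem hg1), fun i hi => ?_⟩
    rw [Equiv.Perm.mul_apply, ← h1 i hi, ← h2 i hi]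
    simp

/-- The setwise stabiliser of a six-set induces every permutation of it. -/
theorem part1 (E : Finset Cfsg.GolayPt) (hE : E.card = 6) (σ : Equiv.Perm ↥E) :
    ∃ g ∈ Cfsg.M24, ∀ p : ↥E, g p = σ p := by
  obtain ⟨x, hx1, hx2, hx3⟩ := exists_enum E 6 hE
  have hy2 : ∀ i < 6, ∀ j < 6,
      (fun i => if h : i < 6 then ((σ ⟨x i, hx1 i h⟩ : ↥E) : Cfsg.GolayPt) else none) i =
      (fun i => if h : i < 6 then ((σ ⟨x i, hx1 i h⟩ : ↥E) : Cfsg.GolayPt) else none) j →
        i = j := by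
    intro i hi j hj hij
    beta_reduce at hij
    rw [dif_pos hi, dif_pos hj] at hij
    have := σ.injective (Subtype.ext hij)
    exact hx2 i hi j hj (congrArg Subtype.val this)
  obtain ⟨g, hg, hgx⟩ := six_trans E hE x _ hx2 hy2 hx1 (fun i hi => by
    rw [dif_pos hi]
    exact (σ ⟨x i, hx1 i hi⟩).2)
  refine ⟨g, hg, fun p => ?_⟩
  obtain ⟨i, hi, hip⟩ := hx3 p.1 p.2
  have := hgx i hi
  beta_reduce at this
  rw [dif_pos hi] at this
  have e : (⟨x i, hx1 i hi⟩ : ↥E) = p := Subtype.ext hip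
  rw [e, hip] at this
  exact this

theorem card_fix_conj (E : Finset Cfsg.GolayPt) (b : ℕ → Cfsg.GolayPt)
    (g1 : Equiv.Perm Cfsg.GolayPt) (hg1 : g1 ∈ Cfsg.M24) (n : ℕ)
    (hE : E = (Finset.range n).image (fun i => g1 (b i))) :
    Nat.card {g : Equiv.Perm Cfsg.GolayPt // g ∈ Cfsg.M24 ∧ ∀ p ∈ E, g p = p} =
      Nat.card {g : Equiv.Perm Cfsg.GolayPt // g ∈ Cfsg.M24 ∧ ∀ i < n, g (b i) = b i} := by
  subst hE
  apply Nat.card_congr
  exact
    { toFun := fun h => ⟨g1⁻¹ * h.1 * g1, (conj_mem_iff g1 h.1 hg1).mpr h.2.1, fun i hi => by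
        rw [conj_fix_iff]
        exact h.2.2 _ (Finset.mem_image.mpr ⟨i, Finset.mem_range.mpr hi, rfl⟩)⟩
      invFun := fun y => ⟨g1 * y.1 * g1⁻¹, mul_mem (mul_mem hg1 y.2.1) (inv_mem hg1),
        fun p hp => by
          rw [Finset.mem_image] at hp
          obtain ⟨i, hi, rfl⟩ := hp
          rw [Finset.mem_range] at hi
          have e : g1⁻¹ (g1 (b i)) = b i := by simp
          show g1 (y.1 (g1⁻¹ (g1 (b i)))) = g1 (b i)
          rw [e, y.2.2 i hi]⟩
      left_inv := fun h => by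
        apply Subtype.ext
        show g1 * (g1⁻¹ * h.1 * g1) * g1⁻¹ = h.1
        group
      right_inv := fun y => by
        apply Subtype.ext
        show g1⁻¹ * (g1 * y.1 * g1⁻¹) * g1 = y.1
        group }

theorem orbit5 : MulAction.orbit (Gk 5) (B 6) = ↑(Δ 6) := by
  ext q
  constructor
  · rintro ⟨g, rfl⟩
    rw [Finset.mem_coe]
    unfold Δ
    rw [Finset.mem_filter]
    refine ⟨Finset.mem_univ _, D_dB 6 _ (notMem_D6 _ ?_)⟩
    have hfix := O_fixed g.1 g.2.1 g.2.2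
    show ¬ (g.1 (B 6) ∈ Oset)
    rw [smul_mem_iff hfix]
    unfold Oset
    rw [mem_maskSet, B6_not_mem]
    exact Bool.false_ne_true
  · intro hq
    rw [Finset.mem_coe] at hq
    unfold Δ at hq
    rw [Finset.mem_filter] at hq
    obtain ⟨g, hg, hgq, hfix⟩ := exists_trans 6 (by norm_num) q hq.2
    exact ⟨⟨g, H_le hg, fun i hi => hfix i (by omega)⟩, hgq⟩

theorem card_K :
    Nat.card {g : Equiv.Perm Cfsg.GolayPt // g ∈ Cfsg.M24 ∧ ∀ i < 6, g (B' i) = B' i} = 3 := by
  have h1 := Subgroup.card_mul_index (MulAction.stabilizer (Gk 5) (B 6))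
  rw [MulAction.index_stabilizer, orbit5, Set.ncard_coe_finset, card_Δ 6 (by norm_num),
    card_G5] at h1
  have h3 : Nat.card (MulAction.stabilizer (Gk 5) (B 6)) =
      Nat.card {g : Equiv.Perm Cfsg.GolayPt // g ∈ Cfsg.M24 ∧ ∀ i < 6, g (B' i) = B' i} := by
    apply Nat.card_congr
    exact
      { toFun := fun x => ⟨x.1.1, x.1.2.1, fun i hi => by
          unfold B'
          by_cases h : i < 5
          · rw [if_pos h]
            exact x.1.2.2 i h
          · rw [if_neg h]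
            exact x.2⟩
        invFun := fun y => ⟨⟨y.1, y.2.1, fun i hi => by
            have := y.2.2 i (by omega)
            unfold B' at this
            rwa [if_pos hi] at this⟩, by
          have := y.2.2 5 (by norm_num)
          unfold B' at this
          rw [if_neg (by norm_num)] at this
          exact this⟩
        left_inv := fun x => rfl
        right_inv := fun y => rfl }
  rw [h3] at h1
  have e : ([24, 23, 22, 21, 20, 3, 16] : List ℕ).getD 6 0 = 16 := rfl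
  rw [e] at h1
  omega

theorem card_stab6 (E : Finset Cfsg.GolayPt) (hE : E.card = 6)
    (hfix : Nat.card {g : Equiv.Perm Cfsg.GolayPt // g ∈ Cfsg.M24 ∧ ∀ p ∈ E, g p = p} = 3) :
    Nat.card ↥(MulAction.stabilizer Cfsg.M24 E) = 2160 := by
  rw [card_stab_sub]
  have h1 := Subgroup.card_mul_index (res E).ker
  rw [Subgroup.index_ker] at h1
  have hker : Nat.card (res E).ker = 3 := by
    rw [← hfix]
    apply Nat.card_congr
    exact
      { toFun := fun x => ⟨x.1.1, x.1.2.1, fun p hp => by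
          have h1 : res E x.1 = 1 := x.2
          have h2 := congrArg (fun e : Equiv.Perm ↥E => ((e ⟨p, hp⟩ : ↥E) : Cfsg.GolayPt)) h1
          exact h2⟩
        invFun := fun y => ⟨⟨y.1, y.2.1, smul_eq_of_fix y.2.2⟩, by
          rw [MonoidHom.mem_ker]
          apply Equiv.ext
          intro x
          apply Subtype.ext
          exact y.2.2 x.1 x.2⟩
        left_inv := fun _ => rfl
        right_inv := fun _ => rfl }
  have hrange : Nat.card (res E).range = 720 := by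
    have htop : (res E).range = ⊤ := by
      rw [MonoidHom.range_eq_top]
      intro σ
      obtain ⟨g, hg, hgσ⟩ := part1 E hE σ
      have hgE : g • E = E := by
        apply Finset.eq_of_subset_of_card_le
        · intro q hq
          rw [Finset.mem_smul_finset] at hq
          obtain ⟨p, hp, rfl⟩ := hq
          show g p ∈ E
          rw [hgσ ⟨p, hp⟩]
          exact (σ ⟨p, hp⟩).2
        · rw [Finset.card_smul_finset]
      refine ⟨⟨g, (mem_StabS E g).mpr ⟨hg, hgE⟩⟩, ?_⟩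
      apply Equiv.ext
      intro p
      apply Subtype.ext
      exact hgσ p
    rw [htop, Nat.card_congr Subgroup.topEquiv.toEquiv, Nat.card_eq_fintype_card,
      Fintype.card_perm, Fintype.card_coe, hE]
    rfl
  rw [hker, hrange] at h1
  omega

theorem six (E : Finset Cfsg.GolayPt) (hE : E.card = 6) :
    (∀ σ : Equiv.Perm ↥E, ∃ g ∈ Cfsg.M24, ∀ p : ↥E, g p = σ p) ∧
    ((∃ o ∈ Cfsg.octads, E ⊆ o) →
      Nat.card {g : Equiv.Perm Cfsg.GolayPt // g ∈ Cfsg.M24 ∧ ∀ p ∈ E, g p = p} = 16) ∧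
    ((¬ ∃ o ∈ Cfsg.octads, E ⊆ o) →
      Nat.card {g : Equiv.Perm Cfsg.GolayPt // g ∈ Cfsg.M24 ∧ ∀ p ∈ E, g p = p} = 3 ∧
      Nat.card ↥(MulAction.stabilizer Cfsg.M24 E) = 2160) := by
  obtain ⟨x, hx1, hx2, hx3⟩ := exists_enum E 6 hE
  refine ⟨part1 E hE, ?_, ?_⟩
  · rintro ⟨o, ho, hEo⟩
    obtain ⟨g1, hg1, h1⟩ := tuple_in x hx2 o ho (fun i hi => hEo (hx1 i hi))
    have hEq : E = (Finset.range 6).image (fun i => g1 (B i)) := by
      rw [← img_eq E 6 hE x hx2 hx1]
      apply Finset.image_congr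
      intro i hi
      rw [Finset.coe_range, Set.mem_Iio] at hi
      exact (h1 i hi).symm
    rw [card_fix_conj E B g1 hg1 6 hEq]
    exact card_G6
  · intro hno
    have hno' : ¬ ∃ o ∈ Cfsg.octads, ∀ i < 6, x i ∈ o := by
      rintro ⟨o, ho, hxo⟩
      apply hno
      refine ⟨o, ho, ?_⟩
      intro p hp
      obtain ⟨i, hi, rfl⟩ := hx3 p hp
      exact hxo i hi
    obtain ⟨g1, hg1, h1⟩ := tuple_out x hx2 hno'
    have hEq : E = (Finset.range 6).image (fun i => g1 (B' i)) := by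
      rw [← img_eq E 6 hE x hx2 hx1]
      apply Finset.image_congr
      intro i hi
      rw [Finset.coe_range, Set.mem_Iio] at hi
      exact (h1 i hi).symm
    have h3 : Nat.card {g : Equiv.Perm Cfsg.GolayPt // g ∈ Cfsg.M24 ∧ ∀ p ∈ E, g p = p} = 3 := by
      rw [card_fix_conj E B' g1 hg1 6 hEq]
      exact card_K
    exact ⟨h3, card_stab6 E hE h3⟩

end Cfsg.Agent.Lib.Helper9.M24Six
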