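import Mathlib

set_option autoImplicit false
set_option linter.unusedSectionVars false

namespace Cfsg.Agent.Lib.Helper9.Steiner

open Finset

variable {α : Type*} [Fintype α] [DecidableEq α]

/-- number of k-sets T with S ⊆ T ⊆ b -/
theorem card_between (S b : Finset α) (hS : S ⊆ b) (k : ℕ) (hk : S.card ≤ k) :
    ((Finset.univ : Finset (Finset α)).filter (fun T => S ⊆ T ∧ T ⊆ b ∧ T.card = k)).card
      = (b.card - S.card).choose (k - S.card) := by
  rw [← Finset.card_sdiff_of_subset hS, ← Finset.card_powersetCard]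
  symm
  apply Finset.card_bij (fun U _ => U ∪ S)
  · intro U hU
    rw [Finset.mem_powersetCard] at hU
    simp only [Finset.mem_filter, Finset.mem_univ, true_and]
    refine ⟨Finset.subset_union_right, Finset.union_subset (hU.1.trans Finset.sdiff_subset) hS, ?_⟩
    have hd : Disjoint U S :=
      Finset.disjoint_of_subset_left hU.1 Finset.sdiff_disjoint
    rw [Finset.card_union_of_disjoint hd, hU.2]
    omega
  · intro U1 hU1 U2 hU2 h
    rw [Finset.mem_powersetCard] at hU1 hU2
    have hd1 : Disjoint U1 S :=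
      Finset.disjoint_of_subset_left hU1.1 Finset.sdiff_disjoint
    have hd2 : Disjoint U2 S :=
      Finset.disjoint_of_subset_left hU2.1 Finset.sdiff_disjoint
    have e1 : (U1 ∪ S) \ S = U1 := by
      rw [Finset.union_sdiff_right]
      exact Finset.sdiff_eq_self_of_disjoint hd1
    have e2 : (U2 ∪ S) \ S = U2 := by
      rw [Finset.union_sdiff_right]
      exact Finset.sdiff_eq_self_of_disjoint hd2
    rw [← e1, ← e2, h]
  · intro T hT
    simp only [Finset.mem_filter, Finset.mem_univ, true_and] at hT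
    refine ⟨T \ S, ?_, ?_⟩
    · rw [Finset.mem_powersetCard]
      refine ⟨Finset.sdiff_subset_sdiff hT.2.1 (le_refl S), ?_⟩
      rw [Finset.card_sdiff_of_subset hT.1, hT.2.2]
    · exact Finset.sdiff_union_of_subset hT.1

/-- Steiner system: number of blocks through a set of size at most t. -/
theorem steiner_count (B : Finset (Finset α)) (t k : ℕ) (hk : ∀ b ∈ B, b.card = k)
    (hst : ∀ s : Finset α, s.card = t → ∃! b, b ∈ B ∧ s ⊆ b) (S : Finset α) (hS : S.card ≤ t) :
    (B.filter (fun b => S ⊆ b)).card * (k - S.card).choose (t - S.card)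
      = (Fintype.card α - S.card).choose (t - S.card) := by
  have key := Finset.sum_card_bipartiteAbove_eq_sum_card_bipartiteBelow
    (fun (b : Finset α) (T : Finset α) => T ⊆ b) (s := B.filter (fun b => S ⊆ b))
    (t := (Finset.univ : Finset (Finset α)).filter (fun T => S ⊆ T ∧ T ⊆ univ ∧ T.card = t))
  have h1 : ∑ b ∈ B.filter (fun b => S ⊆ b),
      (((Finset.univ : Finset (Finset α)).filter
        (fun T => S ⊆ T ∧ T ⊆ univ ∧ T.card = t)).bipartiteAbove
          (fun (b : Finset α) (T : Finset α) => T ⊆ b) b).card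
      = (B.filter (fun b => S ⊆ b)).card * (k - S.card).choose (t - S.card) := by
    apply Finset.sum_const_nat
    intro b hb
    rw [Finset.mem_filter] at hb
    rw [← hk b hb.1, ← card_between S b hb.2 t hS]
    congr 1
    ext T
    simp only [Finset.bipartiteAbove, Finset.mem_filter, Finset.mem_univ, true_and,
      Finset.subset_univ]
    tauto
  have h2 : ∑ T ∈ (Finset.univ : Finset (Finset α)).filter
        (fun T => S ⊆ T ∧ T ⊆ univ ∧ T.card = t),
      ((B.filter (fun b => S ⊆ b)).bipartiteBelow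
          (fun (b : Finset α) (T : Finset α) => T ⊆ b) T).card
      = (Fintype.card α - S.card).choose (t - S.card) := by
    rw [Finset.sum_const_nat (m := 1), mul_one, card_between S univ (subset_univ _) t hS,
      Finset.card_univ]
    intro T hT
    rw [Finset.mem_filter] at hT
    obtain ⟨b, hb, hu⟩ := hst T hT.2.2.2
    rw [Finset.card_eq_one]
    refine ⟨b, ?_⟩
    ext b'
    simp only [Finset.bipartiteBelow, Finset.mem_filter, Finset.mem_singleton]
    constructor
    · intro h
      exact hu b' ⟨h.1.1, h.2⟩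
    · rintro rfl
      exact ⟨⟨hb.1, hT.2.1.trans hb.2⟩, hb.2⟩
  rw [← h1, ← h2, key]

/-- Σ_b C(|b ∩ Y|, j) = Σ_{Z ⊆ Y, |Z| = j} #{b | Z ⊆ b} -/
theorem sum_choose_inter (B : Finset (Finset α)) (Y : Finset α) (j : ℕ) :
    ∑ b ∈ B, ((b ∩ Y).card).choose j
      = ∑ Z ∈ Y.powersetCard j, (B.filter (fun b => Z ⊆ b)).card := by
  have key := Finset.sum_card_bipartiteAbove_eq_sum_card_bipartiteBelow
    (fun (b : Finset α) (T : Finset α) => T ⊆ b) (s := B) (t := Y.powersetCard j)
  have h1 : ∑ b ∈ B, ((Y.powersetCard j).bipartiteAbove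
      (fun (b : Finset α) (T : Finset α) => T ⊆ b) b).card = ∑ b ∈ B, ((b ∩ Y).card).choose j := by
    apply Finset.sum_congr rfl
    intro b _
    rw [← Finset.card_powersetCard]
    congr 1
    ext T
    simp only [Finset.bipartiteAbove, Finset.mem_filter, Finset.mem_powersetCard,
      Finset.subset_inter_iff]
    tauto
  rw [← h1, key]
  rfl

/-- Intersection numbers of an S(5,8,24) with a 3-set. -/
theorem inter_three (hα : Fintype.card α = 24) (B : Finset (Finset α))
    (hk : ∀ b ∈ B, b.card = 8)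
    (hst : ∀ s : Finset α, s.card = 5 → ∃! b, b ∈ B ∧ s ⊆ b) (Y : Finset α) (hY : Y.card = 3) :
    (B.filter (fun b => (b ∩ Y).card = 3)).card = 21 ∧
    (B.filter (fun b => (b ∩ Y).card = 2)).card = 168 ∧
    (B.filter (fun b => (b ∩ Y).card = 1)).card = 360 ∧
    (B.filter (fun b => (b ∩ Y).card = 0)).card = 210 := by
  have hN : ∀ j, j ≤ 3 → ∀ Z ∈ Y.powersetCard j,
      (B.filter (fun b => Z ⊆ b)).card * (8 - j).choose (5 - j) = (24 - j).choose (5 - j) := by
    intro j hj Z hZ
    rw [Finset.mem_powersetCard] at hZ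
    have := steiner_count B 5 8 hk hst Z (by omega)
    rw [hZ.2, hα] at this
    exact this
  have hfib : ∀ f : ℕ → ℕ, ∑ b ∈ B, f ((b ∩ Y).card)
      = ∑ i ∈ Finset.range 4, (B.filter (fun b => (b ∩ Y).card = i)).card * f i := by
    intro f
    rw [← Finset.sum_fiberwise_of_maps_to (s := B) (t := Finset.range 4)
      (g := fun b => (b ∩ Y).card)]
    · apply Finset.sum_congr rfl
      intro i _
      apply Finset.sum_const_nat
      intro b hb
      rw [Finset.mem_filter] at hb
      rw [hb.2]
    · intro b _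
      rw [Finset.mem_range]
      have := Finset.card_le_card (Finset.inter_subset_right (s₁ := b) (s₂ := Y))
      omega
  have hsum : ∀ j, j ≤ 3 → ∀ N : ℕ, N * (8 - j).choose (5 - j) = (24 - j).choose (5 - j) →
      ∑ i ∈ Finset.range 4, (B.filter (fun b => (b ∩ Y).card = i)).card * i.choose j
        = Nat.choose 3 j * N := by
    intro j hj N hNj
    rw [← hfib (fun i => i.choose j), sum_choose_inter B Y j]
    rw [Finset.sum_const_nat (m := N), Finset.card_powersetCard, hY]
    intro Z hZ
    have h1 := hN j hj Z hZ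
    rw [← hNj] at h1
    have hpos : 0 < (8 - j).choose (5 - j) := Nat.choose_pos (by omega)
    exact Nat.eq_of_mul_eq_mul_right hpos h1
  have e0 := hsum 0 (by omega) 759 (by decide)
  have e1 := hsum 1 (by omega) 253 (by decide)
  have e2 := hsum 2 (by omega) 77 (by decide)
  have e3 := hsum 3 (by omega) 21 (by decide)
  obtain ⟨n, hn⟩ : ∃ n : ℕ → ℕ, ∀ i, (B.filter (fun b => (b ∩ Y).card = i)).card = n i :=
    ⟨_, fun i => rfl⟩
  simp only [hn] at e0 e1 e2 e3 ⊢
  simp only [Finset.sum_range_succ, Finset.sum_range_zero] at e0 e1 e2 e3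
  norm_num [Nat.choose] at e0 e1 e2 e3
  omega

/-- Set version. -/
theorem inter_three_set (hα : Fintype.card α = 24) (B : Set (Finset α))
    (hk : ∀ b ∈ B, b.card = 8)
    (hst : ∀ s : Finset α, s.card = 5 → ∃! b, b ∈ B ∧ s ⊆ b) (Y : Finset α) (hY : Y.card = 3) :
    {b : Finset α | b ∈ B ∧ (b ∩ Y).card = 3}.ncard = 21 ∧
    {b : Finset α | b ∈ B ∧ (b ∩ Y).card = 2}.ncard = 168 ∧
    {b : Finset α | b ∈ B ∧ (b ∩ Y).card = 1}.ncard = 360 ∧
    {b : Finset α | b ∈ B ∧ (b ∩ Y).card = 0}.ncard = 210 := by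
  classical
  have hconv : ∀ j, {b : Finset α | b ∈ B ∧ (b ∩ Y).card = j}.ncard
      = (((Finset.univ : Finset (Finset α)).filter (fun b => b ∈ B)).filter
          (fun b => (b ∩ Y).card = j)).card := by
    intro j
    rw [← Set.ncard_coe_finset]
    congr 1
    ext b
    simp
  rw [hconv, hconv, hconv, hconv]
  apply inter_three hα _ _ _ Y hY
  · intro b hb
    rw [Finset.mem_filter] at hb
    exact hk b hb.2
  · intro s hs
    obtain ⟨b, hb, hu⟩ := hst s hs
    refine ⟨b, ⟨by simpa using hb.1, hb.2⟩, ?_⟩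
    intro b' hb'
    rw [Finset.mem_filter] at hb'
    exact hu b' ⟨hb'.1.2, hb'.2⟩

end Cfsg.Agent.Lib.Helper9.Steiner
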