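import Mathlib
import Cfsg.Prelude.Def_Sporadic_a
import Cfsg.Agent.Lib.Helper9.M24Six
import Cfsg.Agent.Lib.Helper9.Steiner

set_option autoImplicit false

/-! Triples of points disjoint from a given triple. -/

namespace Cfsg.Agent.Lib.Helper9.M24Tri

open Cfsg.Agent.Lib.Helper9.Golay Cfsg.Agent.Lib.Helper9.GolayC Cfsg.Agent.Lib.Helper9.M24C
open Cfsg.Agent.Lib.Helper9.Octad Cfsg.Agent.Lib.Helper9.M24B Cfsg.Agent.Lib.Helper9.M24T
open Cfsg.Agent.Lib.Helper9.M24O Cfsg.Agent.Lib.Helper9.M24Oct Cfsg.Agent.Lib.Helper9.M24OS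
open Cfsg.Agent.Lib.Helper9.M24Sim Cfsg.Agent.Lib.Helper9.M24F Cfsg.Agent.Lib.Helper9.M24Six
open scoped Pointwise

/-- The octads as a finite set. -/
noncomputable def octF : Finset (Finset Cfsg.GolayPt) :=
  @Finset.filter _ (fun b => b ∈ Cfsg.octads) (Classical.decPred _) Finset.univ

theorem mem_octF (o : Finset Cfsg.GolayPt) : o ∈ octF ↔ o ∈ Cfsg.octads := by
  unfold octF
  rw [@Finset.mem_filter _ (fun b => b ∈ Cfsg.octads) (Classical.decPred _)]
  exact ⟨fun h => h.2, fun h => ⟨Finset.mem_univ _, h⟩⟩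

theorem octF_card (b : Finset Cfsg.GolayPt) (hb : b ∈ octF) : b.card = 8 :=
  ((mem_octF b).mp hb).2

theorem octF_steiner (s : Finset Cfsg.GolayPt) (hs : s.card = 5) :
    ∃! b, b ∈ octF ∧ s ⊆ b := by
  obtain ⟨o, ho, hso⟩ := exists_octad5 s hs
  refine ⟨o, ⟨(mem_octF o).mpr ho, hso⟩, ?_⟩
  rintro o' ⟨ho', hso'⟩
  exact octad_eq_of_five ((mem_octF o').mp ho') ho s (le_of_eq hs.symm) hso' hso

/-- Number of octads through a set of at most five points. -/
theorem card_through (S : Finset Cfsg.GolayPt) (hS : S.card ≤ 5) :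
    (octF.filter (fun b => S ⊆ b)).card * (8 - S.card).choose (5 - S.card) =
      (24 - S.card).choose (5 - S.card) := by
  have := Cfsg.Agent.Lib.Helper9.Steiner.steiner_count octF 5 8 octF_card octF_steiner S hS
  rw [card_pts] at this
  exact this

theorem card_through3 (T : Finset Cfsg.GolayPt) (hT : T.card = 3) :
    (octF.filter (fun b => T ⊆ b)).card = 21 := by
  have h := card_through T (by omega)
  rw [hT] at h
  have e1 : (8 - 3).choose (5 - 3) = 10 := by decide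
  have e2 : (24 - 3).choose (5 - 3) = 210 := by decide
  rw [e1, e2] at h
  omega

theorem card_through4 (T : Finset Cfsg.GolayPt) (hT : T.card = 4) :
    (octF.filter (fun b => T ⊆ b)).card = 5 := by
  have h := card_through T (by omega)
  rw [hT] at h
  have e1 : (8 - 4).choose (5 - 4) = 4 := by decide
  have e2 : (24 - 4).choose (5 - 4) = 20 := by decide
  rw [e1, e2] at h
  omega

/-- The `k`-subsets `U` disjoint from `T` such that `T ∪ U` lies in an octad. -/
noncomputable def X1 (T : Finset Cfsg.GolayPt) (k : ℕ) : Finset (Finset Cfsg.GolayPt) :=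
  (octF.filter (fun o => T ⊆ o)).biUnion (fun o => (o \ T).powersetCard k)

theorem mem_X1 (T U : Finset Cfsg.GolayPt) (k : ℕ) :
    U ∈ X1 T k ↔ U.card = k ∧ Disjoint T U ∧ ∃ o ∈ Cfsg.octads, T ∪ U ⊆ o := by
  unfold X1
  rw [Finset.mem_biUnion]
  constructor
  · rintro ⟨o, ho, hU⟩
    rw [Finset.mem_filter] at ho
    rw [Finset.mem_powersetCard] at hU
    refine ⟨hU.2, ?_, o, (mem_octF o).mp ho.1,
      Finset.union_subset ho.2 (hU.1.trans Finset.sdiff_subset)⟩
    rw [Finset.disjoint_left]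
    intro p hpT hpU
    exact (Finset.mem_sdiff.mp (hU.1 hpU)).2 hpT
  · rintro ⟨h3, hd, o, ho, hsub⟩
    refine ⟨o, Finset.mem_filter.mpr ⟨(mem_octF o).mpr ho,
      Finset.union_subset_left hsub⟩, ?_⟩
    rw [Finset.mem_powersetCard]
    refine ⟨fun p hp => Finset.mem_sdiff.mpr ⟨hsub (Finset.mem_union_right _ hp),
      fun hpT => ?_⟩, h3⟩
    exact (Finset.disjoint_left.mp hd) hpT hp

theorem card_X1 (T : Finset Cfsg.GolayPt) (k : ℕ) (hk : 5 ≤ T.card + k) :
    (X1 T k).card = (octF.filter (fun o => T ⊆ o)).card * (8 - T.card).choose k := by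
  unfold X1
  rw [Finset.card_biUnion]
  · have : ∀ o ∈ octF.filter (fun o => T ⊆ o), ((o \ T).powersetCard k).card =
        (8 - T.card).choose k := by
      intro o ho
      rw [Finset.mem_filter] at ho
      rw [Finset.card_powersetCard, Finset.card_sdiff_of_subset ho.2, octF_card o ho.1]
    rw [Finset.sum_congr rfl this, Finset.sum_const, smul_eq_mul]
  · intro o ho o' ho' hne
    rw [Finset.mem_coe, Finset.mem_filter] at ho ho'
    rw [Function.onFun, Finset.disjoint_left]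
    intro U hU hU'
    rw [Finset.mem_powersetCard] at hU hU'
    apply hne
    have hd : Disjoint T U := by
      rw [Finset.disjoint_left]
      intro p hpT hpU
      exact (Finset.mem_sdiff.mp (hU.1 hpU)).2 hpT
    refine octad_eq_of_five ((mem_octF o).mp ho.1) ((mem_octF o').mp ho'.1) (T ∪ U) ?_
      (Finset.union_subset ho.2 (hU.1.trans Finset.sdiff_subset))
      (Finset.union_subset ho'.2 (hU'.1.trans Finset.sdiff_subset))
    rw [Finset.card_union_of_disjoint hd, hU.2]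
    exact hk

/-- The `k`-subsets disjoint from `T`. -/
def All (T : Finset Cfsg.GolayPt) (k : ℕ) : Finset (Finset Cfsg.GolayPt) :=
  (Finset.univ \ T).powersetCard k

theorem mem_All (T U : Finset Cfsg.GolayPt) (k : ℕ) :
    U ∈ All T k ↔ U.card = k ∧ Disjoint T U := by
  unfold All
  rw [Finset.mem_powersetCard, and_comm]
  apply and_congr_right
  intro _
  rw [Finset.disjoint_left]
  constructor
  · intro h p hpT hpU
    exact (Finset.mem_sdiff.mp (h hpU)).2 hpT
  · intro h p hpU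
    exact Finset.mem_sdiff.mpr ⟨Finset.mem_univ _, fun hpT => h hpT hpU⟩

theorem card_All (T : Finset Cfsg.GolayPt) (k : ℕ) :
    (All T k).card = (24 - T.card).choose k := by
  unfold All
  rw [Finset.card_powersetCard, Finset.card_sdiff_of_subset (Finset.subset_univ _),
    Finset.card_univ, card_pts]

theorem ncard_in (T : Finset Cfsg.GolayPt) (k : ℕ) :
    {U : Finset Cfsg.GolayPt | U.card = k ∧ Disjoint T U ∧
      (∃ o ∈ Cfsg.octads, T ∪ U ⊆ o)}.ncard = (X1 T k).card := by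
  rw [← Set.ncard_coe_finset]
  have : {U : Finset Cfsg.GolayPt | U.card = k ∧ Disjoint T U ∧
      (∃ o ∈ Cfsg.octads, T ∪ U ⊆ o)} = ↑(X1 T k) := by
    ext U
    rw [Finset.mem_coe, mem_X1]
    exact Iff.rfl
  rw [this]

theorem ncard_out (T : Finset Cfsg.GolayPt) (k : ℕ) :
    {U : Finset Cfsg.GolayPt | U.card = k ∧ Disjoint T U ∧
      ¬ (∃ o ∈ Cfsg.octads, T ∪ U ⊆ o)}.ncard = (24 - T.card).choose k - (X1 T k).card := by
  have : {U : Finset Cfsg.GolayPt | U.card = k ∧ Disjoint T U ∧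
      ¬ (∃ o ∈ Cfsg.octads, T ∪ U ⊆ o)} = ↑(All T k \ X1 T k) := by
    ext U
    rw [Finset.mem_coe, Finset.mem_sdiff, mem_X1, mem_All]
    constructor
    · rintro ⟨h1, h2, h3⟩
      exact ⟨⟨h1, h2⟩, fun h => h3 h.2.2⟩
    · rintro ⟨⟨h1, h2⟩, h3⟩
      exact ⟨h1, h2, fun h => h3 ⟨h1, h2, h⟩⟩
  rw [this, Set.ncard_coe_finset, Finset.card_sdiff_of_subset, card_All]
  intro U hU
  rw [mem_X1] at hU
  rw [mem_All]
  exact ⟨hU.1, hU.2.1⟩

/-- Transitivity of the pointwise stabiliser of an ordered triple on further ordered triples. -/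
theorem triple_trans (x y : ℕ → Cfsg.GolayPt)
    (hx : ∀ i < 6, ∀ j < 6, x i = x j → i = j) (hy : ∀ i < 6, ∀ j < 6, y i = y j → i = j)
    (h : (∃ o ∈ Cfsg.octads, ∀ i < 6, x i ∈ o) ↔ (∃ o ∈ Cfsg.octads, ∀ i < 6, y i ∈ o)) :
    ∃ g ∈ Cfsg.M24, ∀ i < 6, g (x i) = y i := by
  by_cases ho : ∃ o ∈ Cfsg.octads, ∀ i < 6, x i ∈ o
  · obtain ⟨o', ho', hyo⟩ := h.mp ho
    obtain ⟨o, ho, hxo⟩ := ho
    obtain ⟨g1, hg1, h1⟩ := tuple_in x hx o ho hxo
    obtain ⟨g2, hg2, h2⟩ := tuple_in y hy o' ho' hyo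
    refine ⟨g2 * g1⁻¹, mul_mem hg2 (inv_mem hg1), fun i hi => ?_⟩
    rw [Equiv.Perm.mul_apply, ← h1 i hi, ← h2 i hi]
    simp
  · obtain ⟨g1, hg1, h1⟩ := tuple_out x hx ho
    obtain ⟨g2, hg2, h2⟩ := tuple_out y hy (fun h' => ho (h.mpr h'))
    refine ⟨g2 * g1⁻¹, mul_mem hg2 (inv_mem hg1), fun i hi => ?_⟩
    rw [Equiv.Perm.mul_apply, ← h1 i hi, ← h2 i hi]
    simp

/-- Concatenation of two enumerations. -/
def cat (x u : ℕ → Cfsg.GolayPt) (n : ℕ) (i : ℕ) : Cfsg.GolayPt := if i < n then x i else u (i - n)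

theorem cat_inj (T U : Finset Cfsg.GolayPt) (hd : Disjoint T U) (x u : ℕ → Cfsg.GolayPt) (n m : ℕ)
    (hxT : ∀ i < n, x i ∈ T) (huU : ∀ i < m, u i ∈ U)
    (hx : ∀ i < n, ∀ j < n, x i = x j → i = j) (hu : ∀ i < m, ∀ j < m, u i = u j → i = j) :
    ∀ i < n + m, ∀ j < n + m, cat x u n i = cat x u n j → i = j := by
  intro i hi j hj hij
  unfold cat at hij
  by_cases h1 : i < n <;> by_cases h2 : j < n
  · rw [if_pos h1, if_pos h2] at hij
    exact hx i h1 j h2 hij
  · rw [if_pos h1, if_neg h2] at hij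
    exact absurd (hij ▸ huU (j - n) (by omega)) (Finset.disjoint_left.mp hd (hxT i h1))
  · rw [if_neg h1, if_pos h2] at hij
    exact absurd (hij ▸ hxT j h2) (fun h => Finset.disjoint_left.mp hd h (huU (i - n) (by omega)))
  · rw [if_neg h1, if_neg h2] at hij
    have := hu (i - n) (by omega) (j - n) (by omega) hij
    omega

theorem cat_mem_iff (T U o : Finset Cfsg.GolayPt) (x u : ℕ → Cfsg.GolayPt) (n m : ℕ)
    (hxT : ∀ i < n, x i ∈ T) (huU : ∀ i < m, u i ∈ U)
    (hxs : ∀ p ∈ T, ∃ i < n, x i = p) (hus : ∀ p ∈ U, ∃ i < m, u i = p) :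
    (∀ i < n + m, cat x u n i ∈ o) ↔ T ∪ U ⊆ o := by
  constructor
  · intro h p hp
    rw [Finset.mem_union] at hp
    rcases hp with hp | hp
    · obtain ⟨i, hi, rfl⟩ := hxs p hp
      have := h i (by omega)
      unfold cat at this
      rwa [if_pos hi] at this
    · obtain ⟨i, hi, rfl⟩ := hus p hp
      have := h (n + i) (by omega)
      unfold cat at this
      rw [if_neg (by omega)] at this
      have e : n + i - n = i := by omega
      rwa [e] at this
  · intro h i hi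
    unfold cat
    by_cases h1 : i < n
    · rw [if_pos h1]
      exact h (Finset.mem_union_left _ (hxT i h1))
    · rw [if_neg h1]
      exact h (Finset.mem_union_right _ (huU (i - n) (by omega)))

theorem smul_eq_img (g : Equiv.Perm Cfsg.GolayPt) (U U' : Finset Cfsg.GolayPt)
    (u u' : ℕ → Cfsg.GolayPt) (m : ℕ) (hus : ∀ p ∈ U, ∃ i < m, u i = p)
    (hu' : ∀ i < m, u' i ∈ U') (hc : U.card = U'.card) (hg : ∀ i < m, g (u i) = u' i) :
    g • U = U' := by
  apply Finset.eq_of_subset_of_card_le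
  · intro q hq
    rw [Finset.mem_smul_finset] at hq
    obtain ⟨p, hp, rfl⟩ := hq
    obtain ⟨i, hi, rfl⟩ := hus p hp
    show g (u i) ∈ U'
    rw [hg i hi]
    exact hu' i hi
  · rw [Finset.card_smul_finset, hc]

theorem triples (T : Finset Cfsg.GolayPt) (hT : T.card = 3) :
    {U : Finset Cfsg.GolayPt | U.card = 3 ∧ Disjoint T U ∧
      (∃ o ∈ Cfsg.octads, T ∪ U ⊆ o)}.ncard = 210 ∧
    {U : Finset Cfsg.GolayPt | U.card = 3 ∧ Disjoint T U ∧
      ¬ (∃ o ∈ Cfsg.octads, T ∪ U ⊆ o)}.ncard = 1120 ∧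
    ∀ U U' : Finset Cfsg.GolayPt, U.card = 3 → U'.card = 3 → Disjoint T U → Disjoint T U' →
      ((∃ o ∈ Cfsg.octads, T ∪ U ⊆ o) ↔ (∃ o ∈ Cfsg.octads, T ∪ U' ⊆ o)) →
      ∃ g : Equiv.Perm Cfsg.GolayPt, g ∈ Cfsg.M24 ∧ g • T = T ∧ g • U = U' := by
  have hX : (X1 T 3).card = 210 := by
    rw [card_X1 T 3 (by omega), card_through3 T hT, hT]
    decide
  refine ⟨?_, ?_, ?_⟩
  · rw [ncard_in, hX]
  · rw [ncard_out, hX, hT]
    decide
  · intro U U' hU hU' hd hd' hiff
    obtain ⟨x, hx1, hx2, hx3⟩ := exists_enum T 3 hT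
    obtain ⟨u, hu1, hu2, hu3⟩ := exists_enum U 3 hU
    obtain ⟨u', hu1', hu2', hu3'⟩ := exists_enum U' 3 hU'
    obtain ⟨g, hg, hgx⟩ := triple_trans (cat x u 3) (cat x u' 3)
      (cat_inj T U hd x u 3 3 hx1 hu1 hx2 hu2) (cat_inj T U' hd' x u' 3 3 hx1 hu1' hx2 hu2')
      (by
        constructor
        · rintro ⟨o, ho, h⟩
          obtain ⟨o', ho', h'⟩ := hiff.mp ⟨o, ho, (cat_mem_iff T U o x u 3 3 hx1 hu1 hx3 hu3).mp h⟩
          exact ⟨o', ho', (cat_mem_iff T U' o' x u' 3 3 hx1 hu1' hx3 hu3').mpr h'⟩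
        · rintro ⟨o, ho, h⟩
          obtain ⟨o', ho', h'⟩ := hiff.mpr
            ⟨o, ho, (cat_mem_iff T U' o x u' 3 3 hx1 hu1' hx3 hu3').mp h⟩
          exact ⟨o', ho', (cat_mem_iff T U o' x u 3 3 hx1 hu1 hx3 hu3).mpr h'⟩)
    refine ⟨g, hg, ?_, ?_⟩
    · apply smul_eq_img g T T x x 3 hx3 hx1 rfl
      intro i hi
      have := hgx i (by omega)
      unfold cat at this
      rwa [if_pos hi, if_pos hi] at this
    · apply smul_eq_img g U U' u u' 3 hu3 hu1' (by rw [hU, hU'])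
      intro i hi
      have := hgx (3 + i) (by omega)
      unfold cat at this
      rw [if_neg (by omega), if_neg (by omega)] at this
      have e : 3 + i - 3 = i := by omega
      rwa [e] at this

end Cfsg.Agent.Lib.Helper9.M24Tri
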