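import Mathlib
import Cfsg.Prelude.Def_Sporadic_a
import Cfsg.Agent.Lib.Helper9.M24Tri
import Cfsg.Agent.Lib.Helper9.Prim

set_option autoImplicit false

/-! Small sets relative to a small set; maximality of the stabilisers of pairs and triples. -/

namespace Cfsg.Agent.Lib.Helper9.M24Rel

open Cfsg.Agent.Lib.Helper9.Golay Cfsg.Agent.Lib.Helper9.GolayC Cfsg.Agent.Lib.Helper9.M24C
open Cfsg.Agent.Lib.Helper9.Octad Cfsg.Agent.Lib.Helper9.M24B Cfsg.Agent.Lib.Helper9.M24T
open Cfsg.Agent.Lib.Helper9.M24O Cfsg.Agent.Lib.Helper9.M24Oct Cfsg.Agent.Lib.Helper9.M24OS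
open Cfsg.Agent.Lib.Helper9.M24Sim Cfsg.Agent.Lib.Helper9.M24F Cfsg.Agent.Lib.Helper9.M24Six
open Cfsg.Agent.Lib.Helper9.M24Tri Cfsg.Agent.Lib.Helper9.Prim
open scoped Pointwise

/-- Number of `k`-sets meeting a given set in exactly `j` points. -/
theorem card_inter_eq {α : Type*} [Fintype α] [DecidableEq α] (s : Finset α) (k j : ℕ)
    (hj : j ≤ k) :
    (((Finset.univ : Finset α).powersetCard k).filter (fun y => (s ∩ y).card = j)).card =
      s.card.choose j * (Fintype.card α - s.card).choose (k - j) := by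
  have h2 : ((Finset.univ : Finset α) \ s).card = Fintype.card α - s.card := by
    rw [Finset.card_sdiff_of_subset (Finset.subset_univ _), Finset.card_univ]
  rw [← h2, ← Finset.card_powersetCard, ← Finset.card_powersetCard, ← Finset.card_product]
  symm
  have key : ∀ A B : Finset α, A ⊆ s → B ⊆ Finset.univ \ s →
      s ∩ (A ∪ B) = A ∧ (A ∪ B) \ s = B ∧ Disjoint A B := by
    intro A B hA hB
    have hBs : ∀ p ∈ B, p ∉ s := fun p hp => (Finset.mem_sdiff.mp (hB hp)).2
    refine ⟨?_, ?_, ?_⟩
    · ext p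
      rw [Finset.mem_inter, Finset.mem_union]
      constructor
      · rintro ⟨h1, h2 | h2⟩
        · exact h2
        · exact absurd h1 (hBs p h2)
      · intro h
        exact ⟨hA h, Or.inl h⟩
    · ext p
      rw [Finset.mem_sdiff, Finset.mem_union]
      constructor
      · rintro ⟨h1 | h1, h2⟩
        · exact absurd (hA h1) h2
        · exact h1
      · intro h
        exact ⟨Or.inr h, hBs p h⟩
    · rw [Finset.disjoint_left]
      intro p h1 h2
      exact hBs p h2 (hA h1)
  apply Finset.card_nbij' (fun AB => AB.1 ∪ AB.2) (fun y => (s ∩ y, y \ s))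
  · rintro ⟨A, B⟩ hAB
    rw [Finset.mem_coe, Finset.mem_product, Finset.mem_powersetCard, Finset.mem_powersetCard] at hAB
    obtain ⟨⟨hA, hAc⟩, ⟨hB, hBc⟩⟩ := hAB
    obtain ⟨k1, -, k3⟩ := key A B hA hB
    rw [Finset.mem_coe, Finset.mem_filter, Finset.mem_powersetCard]
    refine ⟨⟨Finset.subset_univ _, ?_⟩, ?_⟩
    · show (A ∪ B).card = k
      rw [Finset.card_union_of_disjoint k3, hAc, hBc]
      omega
    · show (s ∩ (A ∪ B)).card = j
      rw [k1, hAc]
  · intro y hy
    rw [Finset.mem_coe, Finset.mem_filter, Finset.mem_powersetCard] at hy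
    rw [Finset.mem_coe, Finset.mem_product, Finset.mem_powersetCard, Finset.mem_powersetCard]
    refine ⟨⟨Finset.inter_subset_left, hy.2⟩, ⟨?_, ?_⟩⟩
    · exact Finset.sdiff_subset_sdiff (Finset.subset_univ _) (le_refl _)
    · have := Finset.card_sdiff_add_card_inter y s
      rw [Finset.inter_comm] at this
      have h1 := hy.1.2
      have h2 := hy.2
      show (y \ s).card = k - j
      omega
  · rintro ⟨A, B⟩ hAB
    rw [Finset.mem_coe, Finset.mem_product, Finset.mem_powersetCard, Finset.mem_powersetCard] at hAB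
    obtain ⟨⟨hA, hAc⟩, ⟨hB, hBc⟩⟩ := hAB
    obtain ⟨k1, k2, -⟩ := key A B hA hB
    exact Prod.ext k1 k2
  · intro y hy
    show s ∩ y ∪ y \ s = y
    rw [Finset.inter_comm, Finset.union_comm]
    exact Finset.sdiff_union_inter y s

/-- Transitivity on configurations of two small sets. -/
theorem rel_trans (s y z : Finset Cfsg.GolayPt) (hyz : y.card = z.card)
    (hj : (s ∩ y).card = (s ∩ z).card) (h5 : s.card + y.card ≤ 5 + (s ∩ y).card) :
    ∃ g ∈ Cfsg.M24, g • s = s ∧ g • y = z := by
  have c1 := Finset.card_sdiff_add_card_inter s y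
  have c1' := Finset.card_sdiff_add_card_inter s z
  have c2 := Finset.card_sdiff_add_card_inter y s
  have c2' := Finset.card_sdiff_add_card_inter z s
  rw [Finset.inter_comm] at c2 c2'
  obtain ⟨J, hJ⟩ : ∃ J, (s ∩ y).card = J := ⟨_, rfl⟩
  obtain ⟨M, hM⟩ : ∃ M, (s \ y).card = M := ⟨_, rfl⟩
  obtain ⟨K, hK⟩ : ∃ K, (y \ s).card = K := ⟨_, rfl⟩
  obtain ⟨a, ha1, ha2, ha3⟩ := exists_enum (s ∩ y) J hJ
  obtain ⟨a', ha1', ha2', ha3'⟩ := exists_enum (s ∩ z) J (by omega)
  obtain ⟨b, hb1, hb2, hb3⟩ := exists_enum (s \ y) M hM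
  obtain ⟨b', hb1', hb2', hb3'⟩ := exists_enum (s \ z) M (by omega)
  obtain ⟨c, hc1, hc2, hc3⟩ := exists_enum (y \ s) K hK
  obtain ⟨c', hc1', hc2', hc3'⟩ := exists_enum (z \ s) K (by omega)
  have dAB : ∀ t : Finset Cfsg.GolayPt, Disjoint (s ∩ t) (s \ t) := fun t =>
    Finset.disjoint_left.mpr
      (fun p hp hp' => (Finset.mem_sdiff.mp hp').2 (Finset.mem_inter.mp hp).2)
  have dSC : ∀ t : Finset Cfsg.GolayPt, Disjoint s (t \ s) := fun t =>
    Finset.disjoint_left.mpr (fun p hp hp' => (Finset.mem_sdiff.mp hp').2 hp)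
  have hs1 : ∀ i < J + M, cat a b J i ∈ s := by
    intro i hi
    unfold cat
    by_cases h : i < J
    · rw [if_pos h]
      exact Finset.mem_of_mem_inter_left (ha1 i h)
    · rw [if_neg h]
      exact (Finset.mem_sdiff.mp (hb1 (i - J) (by omega))).1
  have hs1' : ∀ i < J + M, cat a' b' J i ∈ s := by
    intro i hi
    unfold cat
    by_cases h : i < J
    · rw [if_pos h]
      exact Finset.mem_of_mem_inter_left (ha1' i h)
    · rw [if_neg h]
      exact (Finset.mem_sdiff.mp (hb1' (i - J) (by omega))).1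
  have hs2 := cat_inj (s ∩ y) (s \ y) (dAB y) a b J M ha1 hb1 ha2 hb2
  have hs2' := cat_inj (s ∩ z) (s \ z) (dAB z) a' b' J M ha1' hb1' ha2' hb2'
  have hX := cat_inj s (y \ s) (dSC y) (cat a b J) c (J + M) K hs1 hc1 hs2 hc2
  have hX' := cat_inj s (z \ s) (dSC z) (cat a' b' J) c' (J + M) K hs1' hc1' hs2' hc2'
  obtain ⟨g, hg, hgx⟩ := exists_tuple₂ (J + M + K) (by omega) _ _ hX hX'
  have e1 : g • (s ∩ y) = s ∩ z :=
    smul_eq_img g _ _ a a' J ha3 ha1' hj (fun i hi => by
      have := hgx i (by omega)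
      have h1 : i < J + M := by omega
      simp only [cat, h1, hi, if_true] at this
      exact this)
  have e2 : g • (s \ y) = s \ z :=
    smul_eq_img g _ _ b b' M hb3 hb1' (by omega) (fun i hi => by
      have := hgx (J + i) (by omega)
      have h1 : J + i < J + M := by omega
      have h2 : ¬ (J + i < J) := by omega
      simp only [cat, h1, h2, if_true, if_false, Nat.add_sub_cancel_left] at this
      exact this)
  have e3 : g • (y \ s) = z \ s :=
    smul_eq_img g _ _ c c' K hc3 hc1' (by omega) (fun i hi => by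
      have := hgx (J + M + i) (by omega)
      have h2 : ¬ (J + M + i < J + M) := by omega
      simp only [cat, h2, if_false, Nat.add_sub_cancel_left] at this
      exact this)
  refine ⟨g, hg, ?_, ?_⟩
  · calc g • s = g • (s \ y ∪ s ∩ y) := by rw [Finset.sdiff_union_inter]
      _ = g • (s \ y) ∪ g • (s ∩ y) := Finset.smul_finset_union
      _ = s \ z ∪ s ∩ z := by rw [e1, e2]
      _ = s := Finset.sdiff_union_inter s z
  · calc g • y = g • (y \ s ∪ y ∩ s) := by rw [Finset.sdiff_union_inter]
      _ = g • (y \ s) ∪ g • (y ∩ s) := Finset.smul_finset_union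
      _ = z \ s ∪ z ∩ s := by rw [e3, Finset.inter_comm y s, e1, Finset.inter_comm s z]
      _ = z := Finset.sdiff_union_inter z s

theorem orbit_k (s : Finset Cfsg.GolayPt) (hs : s.card ≤ 5) :
    MulAction.orbit ↥Cfsg.M24 s = {y : Finset Cfsg.GolayPt | y.card = s.card} := by
  ext y
  constructor
  · rintro ⟨g, rfl⟩
    exact Finset.card_smul_finset _ _
  · intro hy
    have hy' : y.card = s.card := hy
    obtain ⟨g, hg, -, hgy⟩ := rel_trans ∅ s y hy'.symm
      (by rw [Finset.empty_inter, Finset.empty_inter])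
      (by rw [Finset.card_empty]; omega)
    exact ⟨⟨g, hg⟩, hgy⟩

theorem index_k (s : Finset Cfsg.GolayPt) (hs : s.card ≤ 5) :
    (MulAction.stabilizer ↥Cfsg.M24 s).index = (24).choose s.card := by
  rw [MulAction.index_stabilizer, orbit_k s hs]
  have : {y : Finset Cfsg.GolayPt | y.card = s.card} =
      ↑((Finset.univ : Finset Cfsg.GolayPt).powersetCard s.card) := by
    ext y
    rw [Finset.mem_coe, Finset.mem_powersetCard]
    exact ⟨fun h => ⟨Finset.subset_univ _, h⟩, fun h => h.2⟩
  rw [this, Set.ncard_coe_finset, Finset.card_powersetCard, Finset.card_univ, card_pts]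

theorem ncard_inter (s : Finset Cfsg.GolayPt) (j : ℕ) (hj : j < s.card) :
    {y : Finset Cfsg.GolayPt | y ∈ {y : Finset Cfsg.GolayPt | y.card = s.card} ∧ y ≠ s ∧
      (s ∩ y).card = j}.ncard = s.card.choose j * (24 - s.card).choose (s.card - j) := by
  have : {y : Finset Cfsg.GolayPt | y ∈ {y : Finset Cfsg.GolayPt | y.card = s.card} ∧ y ≠ s ∧
      (s ∩ y).card = j} = ↑(((Finset.univ : Finset Cfsg.GolayPt).powersetCard s.card).filter
        (fun y => (s ∩ y).card = j)) := by
    ext y
    rw [Finset.mem_coe, Finset.mem_filter, Finset.mem_powersetCard]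
    constructor
    · rintro ⟨h1, -, h3⟩
      exact ⟨⟨Finset.subset_univ _, h1⟩, h3⟩
    · rintro ⟨⟨-, h1⟩, h3⟩
      refine ⟨h1, ?_, h3⟩
      rintro rfl
      rw [Finset.inter_self] at h3
      omega
  rw [this, Set.ncard_coe_finset, card_inter_eq s s.card j (le_of_lt hj), card_pts]

theorem inter_lt (s y : Finset Cfsg.GolayPt) (h : y.card = s.card) (hne : y ≠ s) :
    (s ∩ y).card < s.card := by
  by_contra hcon
  have h1 : s ∩ y = s := Finset.eq_of_subset_of_card_le Finset.inter_subset_left (by omega)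
  have h2 : s ⊆ y := fun p hp => Finset.mem_of_mem_inter_right (h1 ▸ hp)
  exact hne (Finset.eq_of_subset_of_card_le h2 (by omega)).symm

theorem coatom_two (s : Finset Cfsg.GolayPt) (hs : s.card = 2) :
    IsCoatom (MulAction.stabilizer Cfsg.M24 s) := by
  apply coatom_of_orbits (G := ↥Cfsg.M24) s 276 2 (fun i => [231, 44].getD i 0)
    (fun y => (s ∩ y).card)
  · rw [index_k s (by omega), hs]
    decide
  · norm_num
  · intro y hy hne
    rw [orbit_k s (by omega)] at hy
    have := inter_lt s y hy hne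
    show (s ∩ y).card < 2
    omega
  · intro y hy z hz hyne hzne hcls
    rw [orbit_k s (by omega)] at hy hz
    have hy' : y.card = s.card := hy
    have hz' : z.card = s.card := hz
    have hcls' : (s ∩ y).card = (s ∩ z).card := hcls
    obtain ⟨g, hg, hgs, hgy⟩ := rel_trans s y z (by rw [hy', hz']) hcls' (by omega)
    exact ⟨⟨g, hg⟩, hgs, hgy⟩
  · intro i hi
    rw [orbit_k s (by omega)]
    show {y : Finset Cfsg.GolayPt | y ∈ {y : Finset Cfsg.GolayPt | y.card = s.card} ∧ y ≠ s ∧
      (s ∩ y).card = i}.ncard = [231, 44].getD i 0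
    rw [ncard_inter s i (by omega), hs]
    interval_cases i <;> decide
  · decide

theorem coatom_three (s : Finset Cfsg.GolayPt) (hs : s.card = 3) :
    IsCoatom (MulAction.stabilizer Cfsg.M24 s) := by
  classical
  have hdis : ∀ y : Finset Cfsg.GolayPt, (s ∩ y).card = 0 → Disjoint s y := fun y h =>
    Finset.disjoint_iff_inter_eq_empty.mpr (Finset.card_eq_zero.mp h)
  have hdis' : ∀ y : Finset Cfsg.GolayPt, Disjoint s y → (s ∩ y).card = 0 := fun y h =>
    Finset.card_eq_zero.mpr (Finset.disjoint_iff_inter_eq_empty.mp h)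
  apply coatom_of_orbits (G := ↥Cfsg.M24) s 2024 4 (fun i => [630, 63, 210, 1120].getD i 0)
    (fun y => if (s ∩ y).card = 0 then (if (∃ o ∈ Cfsg.octads, s ∪ y ⊆ o) then 2 else 3)
      else (s ∩ y).card - 1)
  · rw [index_k s (by omega), hs]
    decide
  · norm_num
  · intro y hy hne
    rw [orbit_k s (by omega)] at hy
    have := inter_lt s y hy hne
    show (if (s ∩ y).card = 0 then (if (∃ o ∈ Cfsg.octads, s ∪ y ⊆ o) then 2 else 3)
      else (s ∩ y).card - 1) < 4
    split_ifs <;> omega
  · intro y hy z hz hyne hzne hcls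
    rw [orbit_k s (by omega)] at hy hz
    have hy' : y.card = s.card := hy
    have hz' : z.card = s.card := hz
    have ly := inter_lt s y hy hyne
    have lz := inter_lt s z hz hzne
    have hcls' : (if (s ∩ y).card = 0 then (if (∃ o ∈ Cfsg.octads, s ∪ y ⊆ o) then 2 else 3)
      else (s ∩ y).card - 1) = (if (s ∩ z).card = 0 then
        (if (∃ o ∈ Cfsg.octads, s ∪ z ⊆ o) then 2 else 3) else (s ∩ z).card - 1) := hcls
    by_cases h0 : (s ∩ y).card = 0
    · by_cases h0' : (s ∩ z).card = 0
      · rw [if_pos h0, if_pos h0'] at hcls'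
        have hiff : (∃ o ∈ Cfsg.octads, s ∪ y ⊆ o) ↔ (∃ o ∈ Cfsg.octads, s ∪ z ⊆ o) := by
          by_cases h1 : (∃ o ∈ Cfsg.octads, s ∪ y ⊆ o) <;>
            by_cases h2 : (∃ o ∈ Cfsg.octads, s ∪ z ⊆ o)
          · exact ⟨fun _ => h2, fun _ => h1⟩
          · rw [if_pos h1, if_neg h2] at hcls'
            omega
          · rw [if_neg h1, if_pos h2] at hcls'
            omega
          · exact ⟨fun h => absurd h h1, fun h => absurd h h2⟩
        obtain ⟨g, hg, hgs, hgy⟩ := (triples s hs).2.2 y z (by omega) (by omega) (hdis y h0)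
          (hdis z h0') hiff
        exact ⟨⟨g, hg⟩, hgs, hgy⟩
      · rw [if_pos h0, if_neg h0'] at hcls'
        exfalso
        split_ifs at hcls' <;> omega
    · by_cases h0' : (s ∩ z).card = 0
      · rw [if_neg h0, if_pos h0'] at hcls'
        exfalso
        split_ifs at hcls' <;> omega
      · rw [if_neg h0, if_neg h0'] at hcls'
        obtain ⟨g, hg, hgs, hgy⟩ := rel_trans s y z (by omega) (by omega) (by omega)
        exact ⟨⟨g, hg⟩, hgs, hgy⟩
  · intro i hi
    rw [orbit_k s (by omega)]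
    show {y : Finset Cfsg.GolayPt | y ∈ {y : Finset Cfsg.GolayPt | y.card = s.card} ∧ y ≠ s ∧
      (if (s ∩ y).card = 0 then (if (∃ o ∈ Cfsg.octads, s ∪ y ⊆ o) then 2 else 3)
        else (s ∩ y).card - 1) = i}.ncard = [630, 63, 210, 1120].getD i 0
    have hA : ∀ j : ℕ, 0 < j → j < 3 →
        {y : Finset Cfsg.GolayPt | y ∈ {y : Finset Cfsg.GolayPt | y.card = s.card} ∧ y ≠ s ∧
          (if (s ∩ y).card = 0 then (if (∃ o ∈ Cfsg.octads, s ∪ y ⊆ o) then 2 else 3)
            else (s ∩ y).card - 1) = j - 1} =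
        {y : Finset Cfsg.GolayPt | y ∈ {y : Finset Cfsg.GolayPt | y.card = s.card} ∧ y ≠ s ∧
          (s ∩ y).card = j} := by
      intro j hj0 hj3
      ext y
      constructor
      · rintro ⟨h1, h2, h3⟩
        refine ⟨h1, h2, ?_⟩
        have := inter_lt s y h1 h2
        split_ifs at h3 <;> omega
      · rintro ⟨h1, h2, h3⟩
        refine ⟨h1, h2, ?_⟩
        rw [if_neg (by omega), h3]
    have hB1 : {y : Finset Cfsg.GolayPt | y ∈ {y : Finset Cfsg.GolayPt | y.card = s.card} ∧
          y ≠ s ∧ (if (s ∩ y).card = 0 then (if (∃ o ∈ Cfsg.octads, s ∪ y ⊆ o) then 2 else 3)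
            else (s ∩ y).card - 1) = 2} =
        {U : Finset Cfsg.GolayPt | U.card = 3 ∧ Disjoint s U ∧
          (∃ o ∈ Cfsg.octads, s ∪ U ⊆ o)} := by
      ext y
      constructor
      · rintro ⟨h1, h2, h3⟩
        have h1' : y.card = s.card := h1
        have := inter_lt s y h1 h2
        by_cases h0 : (s ∩ y).card = 0
        · rw [if_pos h0] at h3
          refine ⟨by omega, hdis y h0, ?_⟩
          by_contra hno
          rw [if_neg hno] at h3
          omega
        · rw [if_neg h0] at h3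
          omega
      · rintro ⟨h1, h2, h3⟩
        refine ⟨show y.card = s.card by omega, ?_, ?_⟩
        · rintro rfl
          have := hdis' y h2
          rw [Finset.inter_self] at this
          omega
        · rw [if_pos (hdis' y h2), if_pos h3]
    have hB2 : {y : Finset Cfsg.GolayPt | y ∈ {y : Finset Cfsg.GolayPt | y.card = s.card} ∧
          y ≠ s ∧ (if (s ∩ y).card = 0 then (if (∃ o ∈ Cfsg.octads, s ∪ y ⊆ o) then 2 else 3)
            else (s ∩ y).card - 1) = 3} =
        {U : Finset Cfsg.GolayPt | U.card = 3 ∧ Disjoint s U ∧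
          ¬ (∃ o ∈ Cfsg.octads, s ∪ U ⊆ o)} := by
      ext y
      constructor
      · rintro ⟨h1, h2, h3⟩
        have h1' : y.card = s.card := h1
        have := inter_lt s y h1 h2
        by_cases h0 : (s ∩ y).card = 0
        · rw [if_pos h0] at h3
          refine ⟨by omega, hdis y h0, ?_⟩
          intro hyes
          rw [if_pos hyes] at h3
          omega
        · rw [if_neg h0] at h3
          omega
      · rintro ⟨h1, h2, h3⟩
        refine ⟨show y.card = s.card by omega, ?_, ?_⟩
        · rintro rfl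
          have := hdis' y h2
          rw [Finset.inter_self] at this
          omega
        · rw [if_pos (hdis' y h2), if_neg h3]
    interval_cases i
    · rw [hA 1 (by norm_num) (by norm_num), ncard_inter s 1 (by omega), hs]
      decide
    · rw [hA 2 (by norm_num) (by norm_num), ncard_inter s 2 (by omega), hs]
      decide
    · rw [hB1]
      exact (triples s hs).1
    · rw [hB2]
      exact (triples s hs).2.1
  · decide

end Cfsg.Agent.Lib.Helper9.M24Rel
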