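import Mathlib
import Cfsg.Prelude.Def_SporadicCombinatorics
import Cfsg.Agent.Lib.Helper9.SxT
import Cfsg.Agent.Lib.Helper9.SxS
import Cfsg.Agent.Lib.Helper9.M24Rel
import Cfsg.Agent.Lib.Helper9.Prim
import Cfsg.Agent.Lib.Helper9.Coatom4

set_option autoImplicit false

/-! Orbits of sextet and trio stabilisers, from the certificates and duality. -/

namespace Cfsg.Agent.Lib.Helper9.SxFin

open Cfsg.Agent.Lib.Helper9.Golay Cfsg.Agent.Lib.Helper9.GolayC Cfsg.Agent.Lib.Helper9.M24C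
open Cfsg.Agent.Lib.Helper9.Octad Cfsg.Agent.Lib.Helper9.M24B Cfsg.Agent.Lib.Helper9.M24T
open Cfsg.Agent.Lib.Helper9.M24O
open Cfsg.Agent.Lib.Helper9.Sextet Cfsg.Agent.Lib.Helper9.SextetY
open Cfsg.Agent.Lib.Helper9.InvCnt Cfsg.Agent.Lib.Helper9.SxOrb Cfsg.Agent.Lib.Helper9.Dual
open scoped Pointwise

theorem orbit_sextets (S : Finset (Finset Cfsg.GolayPt)) (hS : S ∈ Cfsg.sextets) :
    MulAction.orbit Cfsg.M24 S = Cfsg.sextets := by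
  ext x
  constructor
  · rintro ⟨g, rfl⟩
    exact smul_sextet g.2 hS
  · intro hx
    obtain ⟨t, ht⟩ := sextet_nonempty hS
    obtain ⟨t', ht'⟩ := sextet_nonempty hx
    obtain ⟨g, hg, -, hgt⟩ := Cfsg.Agent.Lib.Helper9.M24Rel.rel_trans ∅ t t'
      (by rw [hS.2.1 t ht, hx.2.1 t' ht'])
      (by rw [Finset.empty_inter, Finset.empty_inter])
      (by rw [Finset.card_empty, hS.2.1 t ht]; omega)
    exact ⟨⟨g, hg⟩, conj_of_tet hg hS hx ht ht' hgt⟩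

theorem smul_tr' {g : Equiv.Perm Cfsg.GolayPt} (hg : g ∈ Cfsg.M24) {o q : Finset Cfsg.GolayPt}
    (ho : o ∈ Cfsg.octads) (hq : q ∈ Cfsg.octads) (hd : Disjoint o q) :
    g • Cfsg.Agent.Lib.Helper9.Trio.tr o q = Cfsg.Agent.Lib.Helper9.Trio.tr (g • o) (g • q) := by
  have hT := Cfsg.Agent.Lib.Helper9.Trio2.smul_trio hg
    (Cfsg.Agent.Lib.Helper9.Trio.tr_mem ho hq hd)
  have h1 : g • o ∈ g • Cfsg.Agent.Lib.Helper9.Trio.tr o q :=
    Finset.smul_mem_smul_finset (Cfsg.Agent.Lib.Helper9.Trio.tr_left o q)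
  have h2 : g • q ∈ g • Cfsg.Agent.Lib.Helper9.Trio.tr o q :=
    Finset.smul_mem_smul_finset (Cfsg.Agent.Lib.Helper9.Trio.tr_right o q)
  have hne : g • q ≠ g • o := by
    intro h
    exact Cfsg.Agent.Lib.Helper9.Trio.octad_ne_of_disjoint ho hd (MulAction.injective g h).symm
  exact Cfsg.Agent.Lib.Helper9.Trio.tr_eq hT h1 h2 hne

theorem trio_std (T : Finset (Finset Cfsg.GolayPt)) (hT : T ∈ Cfsg.trios) :
    ∃ h ∈ Cfsg.M24, h • Cfsg.Agent.Lib.Helper9.Trio.tr Oset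
      Cfsg.Agent.Lib.Helper9.TrioOrb.Aset = T := by
  have hne : T.Nonempty := by rw [← Finset.card_pos, hT.1]; norm_num
  obtain ⟨o, ho⟩ := hne
  obtain ⟨q, hq, hd, hTq⟩ := Cfsg.Agent.Lib.Helper9.Trio2.exists_tr (hT.2.1 o ho) hT ho
  obtain ⟨h, hh, h1, h2⟩ := Cfsg.Agent.Lib.Helper9.TrioOrb.pair_trans o q (hT.2.1 o ho) hq hd
  exact ⟨h, hh, by
    rw [smul_tr' hh Oset_mem Cfsg.Agent.Lib.Helper9.TrioOrb.Aset_mem
      Cfsg.Agent.Lib.Helper9.TrioOrb.OA_disjoint, h1, h2, hTq]⟩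

theorem orbit_trios (T : Finset (Finset Cfsg.GolayPt)) (hT : T ∈ Cfsg.trios) :
    MulAction.orbit Cfsg.M24 T = Cfsg.trios := by
  ext x
  constructor
  · rintro ⟨g, rfl⟩
    exact Cfsg.Agent.Lib.Helper9.Trio2.smul_trio g.2 hT
  · intro hx
    obtain ⟨h1, hh1, e1⟩ := trio_std T hT
    obtain ⟨h2, hh2, e2⟩ := trio_std x hx
    refine ⟨⟨h2 * h1⁻¹, mul_mem hh2 (inv_mem hh1)⟩, ?_⟩
    show (h2 * h1⁻¹) • T = x
    rw [← e1, ← e2, mul_smul, inv_smul_smul]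

theorem ZT_eq : Cfsg.Agent.Lib.Helper9.SxT.Z0 = Cfsg.Agent.Lib.Helper9.Trio.tr Oset
    Cfsg.Agent.Lib.Helper9.TrioOrb.Aset := by
  have hc : (5538256 : ℕ) = 16777215 ^^^ (OM ||| Cfsg.Agent.Lib.Helper9.TrioOrb.AM) := by decide
  have h1 : maskSet 5538256 = (Oset ∪ Cfsg.Agent.Lib.Helper9.TrioOrb.Aset)ᶜ := by
    rw [hc, maskSet_compl, maskSet_or]; rfl
  have h0 : Cfsg.Agent.Lib.Helper9.SxT.Z0 =
      {maskSet 8536111, maskSet 2702848, maskSet 5538256} := by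
    unfold Cfsg.Agent.Lib.Helper9.SxT.Z0 Cfsg.Agent.Lib.Helper9.SxT.LZ
    ext u
    simp
  rw [h0, h1]; rfl

theorem ZT_mem : Cfsg.Agent.Lib.Helper9.SxT.Z0 ∈ Cfsg.trios := by
  rw [ZT_eq]
  exact Cfsg.Agent.Lib.Helper9.Trio.tr_mem Oset_mem Cfsg.Agent.Lib.Helper9.TrioOrb.Aset_mem
    Cfsg.Agent.Lib.Helper9.TrioOrb.OA_disjoint

set_option maxRecDepth 100000 in
theorem ZS_chk : ∀ m ∈ Cfsg.Agent.Lib.Helper9.SxS.LZ, m < 2 ^ 24 ∧ lnk 15 m = true := by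
  decide +kernel

theorem ZS_eq : Cfsg.Agent.Lib.Helper9.SxS.Z0 = sx (maskSet 15) := by
  unfold Cfsg.Agent.Lib.Helper9.SxS.Z0
  exact (sx_eq_masks 15 Cfsg.Agent.Lib.Helper9.SxS.LZ (by norm_num) (by decide) (by decide)
    (by decide) ZS_chk).symm

theorem ZS_mem : Cfsg.Agent.Lib.Helper9.SxS.Z0 ∈ Cfsg.sextets := by
  rw [ZS_eq]
  exact sx_mem _ (by rw [card_maskSet]; decide)

theorem fin4 (Z : Finset (Finset Cfsg.GolayPt)) (b1 b2 b3 b4 : Cfsg.Agent.Lib.Helper9.SxPk.PBlk)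
    (n1 n2 n3 n4 : ℕ)
    (hl : b1.N = n1 ∧ b2.N = n2 ∧ b3.N = n3 ∧ b4.N = n4)
    (h : (∀ b ∈ [b1, b2, b3, b4], sx (maskSet (b.X 0)) ∈ Cfsg.sextets ∧
      (MulAction.orbit ↥(MulAction.stabilizer Cfsg.M24 Z)
        (sx (maskSet (b.X 0)))).ncard = b.N) ∧
    (∀ S ∈ Cfsg.sextets, ∃ b ∈ [b1, b2, b3, b4],
      S ∈ MulAction.orbit ↥(MulAction.stabilizer Cfsg.M24 Z) (sx (maskSet (b.X 0))))) :
    ∃ Y : Fin 4 → Finset (Finset Cfsg.GolayPt), (∀ i, Y i ∈ Cfsg.sextets) ∧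
      (∀ i, (MulAction.orbit ↥(MulAction.stabilizer Cfsg.M24 Z) (Y i)).ncard =
        ![n1, n2, n3, n4] i) ∧
      ∀ S ∈ Cfsg.sextets, ∃ i, S ∈ MulAction.orbit ↥(MulAction.stabilizer Cfsg.M24 Z) (Y i) := by
  obtain ⟨h1, h2⟩ := h
  obtain ⟨l1, l2, l3, l4⟩ := hl
  have a1 := h1 b1 List.mem_cons_self
  have a2 := h1 b2 (List.mem_cons_of_mem _ List.mem_cons_self)
  have a3 := h1 b3 (List.mem_cons_of_mem _ (List.mem_cons_of_mem _ List.mem_cons_self))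
  have a4 := h1 b4 (List.mem_cons_of_mem _ (List.mem_cons_of_mem _
    (List.mem_cons_of_mem _ List.mem_cons_self)))
  refine ⟨![sx (maskSet (b1.X 0)), sx (maskSet (b2.X 0)),
    sx (maskSet (b3.X 0)), sx (maskSet (b4.X 0))], ?_, ?_, ?_⟩
  · intro i
    fin_cases i
    · exact a1.1
    · exact a2.1
    · exact a3.1
    · exact a4.1
  · intro i
    fin_cases i
    · exact a1.2.trans l1
    · exact a2.2.trans l2
    · exact a3.2.trans l3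
    · exact a4.2.trans l4
  · intro S hS
    obtain ⟨b, hb, hSb⟩ := h2 S hS
    simp only [List.mem_cons, List.not_mem_nil, or_false] at hb
    rcases hb with rfl | rfl | rfl | rfl
    · exact ⟨0, hSb⟩
    · exact ⟨1, hSb⟩
    · exact ⟨2, hSb⟩
    · exact ⟨3, hSb⟩

theorem T_fin : ∃ Y : Fin 4 → Finset (Finset Cfsg.GolayPt), (∀ i, Y i ∈ Cfsg.sextets) ∧
    (∀ i, (MulAction.orbit ↥(MulAction.stabilizer Cfsg.M24 Cfsg.Agent.Lib.Helper9.SxT.Z0)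
      (Y i)).ncard = ![7, 84, 336, 1344] i) ∧
    ∀ S ∈ Cfsg.sextets, ∃ i,
      S ∈ MulAction.orbit ↥(MulAction.stabilizer Cfsg.M24 Cfsg.Agent.Lib.Helper9.SxT.Z0) (Y i) :=
  fin4 _ _ _ _ _ 7 84 336 1344 ⟨rfl, rfl, rfl, rfl⟩ Cfsg.Agent.Lib.Helper9.SxT.main

theorem S_fin : ∃ Y : Fin 4 → Finset (Finset Cfsg.GolayPt), (∀ i, Y i ∈ Cfsg.sextets) ∧
    (∀ i, (MulAction.orbit ↥(MulAction.stabilizer Cfsg.M24 Cfsg.Agent.Lib.Helper9.SxS.Z0)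
      (Y i)).ncard = ![1, 90, 240, 1440] i) ∧
    ∀ S ∈ Cfsg.sextets, ∃ i,
      S ∈ MulAction.orbit ↥(MulAction.stabilizer Cfsg.M24 Cfsg.Agent.Lib.Helper9.SxS.Z0) (Y i) :=
  fin4 _ _ _ _ _ 1 90 240 1440 ⟨rfl, rfl, rfl, rfl⟩ Cfsg.Agent.Lib.Helper9.SxS.main

theorem sx_on_trios (S : Finset (Finset Cfsg.GolayPt)) (hS : S ∈ Cfsg.sextets) :
    ∃ X : Fin 4 → Finset (Finset Cfsg.GolayPt), (∀ i, X i ∈ Cfsg.trios) ∧
      (∀ i, (MulAction.orbit ↥(MulAction.stabilizer Cfsg.M24 S) (X i)).ncard =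
        ![15, 180, 720, 2880] i) ∧
      ∀ x ∈ Cfsg.trios, ∃ i, x ∈ MulAction.orbit ↥(MulAction.stabilizer Cfsg.M24 S) (X i) := by
  have h := dual_transfer (G := ↥Cfsg.M24) (a0 := Cfsg.Agent.Lib.Helper9.SxT.Z0) (b := S)
    ![7, 84, 336, 1344] ![15, 180, 720, 2880] 3795 1771
    (by rw [orbit_trios _ ZT_mem]; exact Cfsg.Agent.Lib.Helper9.Trio.ncard_trios)
    (by rw [orbit_sextets S hS]; exact ncard_sextets) (by norm_num)
    (by intro i; fin_cases i <;> rfl)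
    (by rw [orbit_sextets S hS]; exact T_fin)
  rw [orbit_trios _ ZT_mem] at h
  exact h

theorem tr_on_sextets (T : Finset (Finset Cfsg.GolayPt)) (hT : T ∈ Cfsg.trios) :
    ∃ X : Fin 4 → Finset (Finset Cfsg.GolayPt), (∀ i, X i ∈ Cfsg.sextets) ∧
      (∀ i, (MulAction.orbit ↥(MulAction.stabilizer Cfsg.M24 T) (X i)).ncard =
        ![7, 84, 336, 1344] i) ∧
      ∀ x ∈ Cfsg.sextets, ∃ i, x ∈ MulAction.orbit ↥(MulAction.stabilizer Cfsg.M24 T) (X i) := by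
  have h := dual_transfer (G := ↥Cfsg.M24) (a0 := Cfsg.Agent.Lib.Helper9.SxS.Z0) (b := T)
    ![15, 180, 720, 2880] ![7, 84, 336, 1344] 1771 3795
    (by rw [orbit_sextets _ ZS_mem]; exact ncard_sextets)
    (by rw [orbit_trios T hT]; exact Cfsg.Agent.Lib.Helper9.Trio.ncard_trios) (by norm_num)
    (by intro i; fin_cases i <;> rfl)
    (by rw [orbit_trios T hT]; exact sx_on_trios _ ZS_mem)
  rw [orbit_sextets _ ZS_mem] at h
  exact h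

theorem sx_on_octads (S : Finset (Finset Cfsg.GolayPt)) (hS : S ∈ Cfsg.sextets) :
    ∃ X : Fin 3 → Finset Cfsg.GolayPt, (∀ i, X i ∈ Cfsg.octads) ∧
      (∀ i, (MulAction.orbit ↥(MulAction.stabilizer Cfsg.M24 S) (X i)).ncard =
        ![15, 360, 384] i) ∧
      ∀ x ∈ Cfsg.octads, ∃ i, x ∈ MulAction.orbit ↥(MulAction.stabilizer Cfsg.M24 S) (X i) := by
  have h := dual_transfer (G := ↥Cfsg.M24) (a0 := Oset) (b := S)
    ![35, 840, 896] ![15, 360, 384] 759 1771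
    (by rw [Cfsg.Agent.Lib.Helper9.M24OS.orbit_octad _ Oset_mem]; exact card_octads)
    (by rw [orbit_sextets S hS]; exact ncard_sextets) (by norm_num)
    (by intro i; fin_cases i <;> rfl)
    (by
      rw [orbit_sextets S hS]
      exact to_fin3 Cfsg.sextets
        (fun y => MulAction.orbit ↥(MulAction.stabilizer Cfsg.M24 Oset) y) 35 840 896
        (Cfsg.Agent.Lib.Helper9.OctSx.sextet_orbits Oset Oset_mem))
  rw [Cfsg.Agent.Lib.Helper9.M24OS.orbit_octad _ Oset_mem] at h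
  exact h

theorem tr_on_octads (T : Finset (Finset Cfsg.GolayPt)) (hT : T ∈ Cfsg.trios) :
    ∃ X : Fin 3 → Finset Cfsg.GolayPt, (∀ i, X i ∈ Cfsg.octads) ∧
      (∀ i, (MulAction.orbit ↥(MulAction.stabilizer Cfsg.M24 T) (X i)).ncard =
        ![3, 84, 672] i) ∧
      ∀ x ∈ Cfsg.octads, ∃ i, x ∈ MulAction.orbit ↥(MulAction.stabilizer Cfsg.M24 T) (X i) := by
  have h := dual_transfer (G := ↥Cfsg.M24) (a0 := Oset) (b := T)
    ![15, 420, 3360] ![3, 84, 672] 759 3795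
    (by rw [Cfsg.Agent.Lib.Helper9.M24OS.orbit_octad _ Oset_mem]; exact card_octads)
    (by rw [orbit_trios T hT]; exact Cfsg.Agent.Lib.Helper9.Trio.ncard_trios) (by norm_num)
    (by intro i; fin_cases i <;> rfl)
    (by
      rw [orbit_trios T hT]
      exact to_fin3 Cfsg.trios
        (fun y => MulAction.orbit ↥(MulAction.stabilizer Cfsg.M24 Oset) y) 15 420 3360
        (Cfsg.Agent.Lib.Helper9.OctTr.trio_orbits Oset Oset_mem))
  rw [Cfsg.Agent.Lib.Helper9.M24OS.orbit_octad _ Oset_mem] at h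
  exact h

theorem sub_oct (Z : Finset (Finset Cfsg.GolayPt)) (y : Finset Cfsg.GolayPt)
    (hy : y ∈ Cfsg.octads) :
    MulAction.orbit ↥(MulAction.stabilizer Cfsg.M24 Z) y ⊆ Cfsg.octads := by
  have := sub_orbit (G := ↥Cfsg.M24) y Z y ⟨1, one_smul _ _⟩
  rwa [Cfsg.Agent.Lib.Helper9.M24OS.orbit_octad y hy] at this

theorem sub_sx (Z : Finset (Finset Cfsg.GolayPt)) (y : Finset (Finset Cfsg.GolayPt))
    (hy : y ∈ Cfsg.sextets) :
    MulAction.orbit ↥(MulAction.stabilizer Cfsg.M24 Z) y ⊆ Cfsg.sextets := by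
  have := sub_orbit (G := ↥Cfsg.M24) y Z y ⟨1, one_smul _ _⟩
  rwa [orbit_sextets y hy] at this

theorem sub_tr (Z : Finset (Finset Cfsg.GolayPt)) (y : Finset (Finset Cfsg.GolayPt))
    (hy : y ∈ Cfsg.trios) :
    MulAction.orbit ↥(MulAction.stabilizer Cfsg.M24 Z) y ⊆ Cfsg.trios := by
  have := sub_orbit (G := ↥Cfsg.M24) y Z y ⟨1, one_smul _ _⟩
  rwa [orbit_trios y hy] at this

theorem s5611 (S : Finset (Finset Cfsg.GolayPt)) (hS : S ∈ Cfsg.sextets) : (∃ X₁ ∈ Cfsg.octads, ∃ X₂ ∈ Cfsg.octads, ∃ X₃ ∈ Cfsg.octads, (MulAction.orbit ↥(MulAction.stabilizer Cfsg.M24 S) X₁).ncard = 15 ∧ (MulAction.orbit ↥(MulAction.stabilizer Cfsg.M24 S) X₂).ncard = 360 ∧ (MulAction.orbit ↥(MulAction.stabilizer Cfsg.M24 S) X₃).ncard = 384 ∧ Cfsg.octads = MulAction.orbit ↥(MulAction.stabilizer Cfsg.M24 S) X₁ ∪ MulAction.orbit ↥(MulAction.stabilizer Cfsg.M24 S) X₂ ∪ MulAction.orbit ↥(MulAction.stabilizer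 Cfsg.M24 S) X₃) ∧ (∃ Y₁ ∈ Cfsg.trios, ∃ Y₂ ∈ Cfsg.trios, ∃ Y₃ ∈ Cfsg.trios, ∃ Y₄ ∈ Cfsg.trios, (MulAction.orbit ↥(MulAction.stabilizer Cfsg.M24 S) Y₁).ncard = 15 ∧ (MulAction.orbit ↥(MulAction.stabilizer Cfsg.M24 S) Y₂).ncard = 180 ∧ (MulAction.orbit ↥(MulAction.stabilizer Cfsg.M24 S) Y₃).ncard = 720 ∧ (MulAction.orbit ↥(MulAction.stabilizer Cfsg.M24 S) Y₄).ncard = 2880 ∧ Cfsg.trios = MulAction.orbit ↥(MulAction.stabilizer Cfsg.M24 S) Y₁ ∪ MulAction.orbit ↥(MulAction.stabilizer Cfsg.M24 S) Y₂ ∪ MulAction.orbit ↥(MulAction.stabilizer Cfsg.M24 S) Y₃ ∪ MulAction.orbit ↥(MulAction.stabilizer Cfsg.M24 S) Y₄) :=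
  ⟨of_fin3 Cfsg.octads (fun y => MulAction.orbit ↥(MulAction.stabilizer Cfsg.M24 S) y) 15 360 384
      (sub_oct S) (sx_on_octads S hS),
    of_fin4 Cfsg.trios (fun y => MulAction.orbit ↥(MulAction.stabilizer Cfsg.M24 S) y)
      15 180 720 2880 (sub_tr S) (sx_on_trios S hS)⟩

theorem s5612 (T : Finset (Finset Cfsg.GolayPt)) (hT : T ∈ Cfsg.trios) : (∃ X₁ ∈ Cfsg.octads, ∃ X₂ ∈ Cfsg.octads, ∃ X₃ ∈ Cfsg.octads, (MulAction.orbit ↥(MulAction.stabilizer Cfsg.M24 T) X₁).ncard = 3 ∧ (MulAction.orbit ↥(MulAction.stabilizer Cfsg.M24 T) X₂).ncard = 84 ∧ (MulAction.orbit ↥(MulAction.stabilizer Cfsg.M24 T) X₃).ncard = 672 ∧ Cfsg.octads = MulAction.orbit ↥(MulAction.stabilizer Cfsg.M24 T) X₁ ∪ MulAction.orbit ↥(MulAction.stabilizer Cfsg.M24 T) X₂ ∪ MulAction.orbit ↥(MulAction.stabilizer Cfsg.M24 T) X₃) ∧ (∃ Y₁ ∈ Cfsg.sextets, ∃ Y₂ ∈ Cfsg.sextets, ∃ Y₃ ∈ Cfsg.sextets, ∃ Y₄ ∈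 Cfsg.sextets, (MulAction.orbit ↥(MulAction.stabilizer Cfsg.M24 T) Y₁).ncard = 7 ∧ (MulAction.orbit ↥(MulAction.stabilizer Cfsg.M24 T) Y₂).ncard = 84 ∧ (MulAction.orbit ↥(MulAction.stabilizer Cfsg.M24 T) Y₃).ncard = 336 ∧ (MulAction.orbit ↥(MulAction.stabilizer Cfsg.M24 T) Y₄).ncard = 1344 ∧ Cfsg.sextets = MulAction.orbit ↥(MulAction.stabilizer Cfsg.M24 T) Y₁ ∪ MulAction.orbit ↥(MulAction.stabilizer Cfsg.M24 T) Y₂ ∪ MulAction.orbit ↥(MulAction.stabilizer Cfsg.M24 T) Y₃ ∪ MulAction.orbit ↥(MulAction.stabilizer Cfsg.M24 T) Y₄) :=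
  ⟨of_fin3 Cfsg.octads (fun y => MulAction.orbit ↥(MulAction.stabilizer Cfsg.M24 T) y) 3 84 672
      (sub_oct T) (tr_on_octads T hT),
    of_fin4 Cfsg.sextets (fun y => MulAction.orbit ↥(MulAction.stabilizer Cfsg.M24 T) y)
      7 84 336 1344 (sub_sx T) (tr_on_sextets T hT)⟩

theorem s1552 (S : Finset (Finset Cfsg.GolayPt)) (hS : S ∈ Cfsg.sextets) : ∃ X₁ ∈ Cfsg.sextets, ∃ X₂ ∈ Cfsg.sextets, ∃ X₃ ∈ Cfsg.sextets, (MulAction.orbit ↥(MulAction.stabilizer Cfsg.M24 S) X₁).ncard = 90 ∧ (MulAction.orbit ↥(MulAction.stabilizer Cfsg.M24 S) X₂).ncard = 240 ∧ (MulAction.orbit ↥(MulAction.stabilizer Cfsg.M24 S) X₃).ncard = 1440 ∧ Cfsg.sextets = {S} ∪ MulAction.orbit ↥(MulAction.stabilizer Cfsg.M24 S) X₁ ∪ MulAction.orbit ↥(MulAction.stabilizer Cfsg.M24 S) X₂ ∪ MulAction.orbit ↥(MulAction.stabilizer Cfsg.M24 S) X₃ ∧ IsCoatom (MulAction.stabilizer Cfsg.M24 S) := by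
  have h := dual_transfer (G := ↥Cfsg.M24) (a0 := Cfsg.Agent.Lib.Helper9.SxS.Z0) (b := S)
    ![1, 90, 240, 1440] ![1, 90, 240, 1440] 1771 1771
    (by rw [orbit_sextets _ ZS_mem]; exact ncard_sextets)
    (by rw [orbit_sextets S hS]; exact ncard_sextets) (by norm_num)
    (by intro i; rfl)
    (by rw [orbit_sextets S hS]; exact S_fin)
  rw [orbit_sextets _ ZS_mem] at h
  obtain ⟨X, hX, hn, hc⟩ := h
  have hco := Cfsg.Agent.Lib.Helper9.Coatom4.coatom_of_four (G := ↥Cfsg.M24) S 1771 90 240 1440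
    (by rw [orbit_sextets S hS]; exact ncard_sextets) (by norm_num) (X 0) (X 1) (X 2) (X 3)
    (hn 0) (hn 1) (hn 2) (hn 3)
    (by
      intro y hy
      rw [orbit_sextets S hS] at hy
      obtain ⟨i, hi⟩ := hc y hy
      fin_cases i
      · exact Or.inl hi
      · exact Or.inr (Or.inl hi)
      · exact Or.inr (Or.inr (Or.inl hi))
      · exact Or.inr (Or.inr (Or.inr hi)))
    (by rw [orbit_sextets S hS]; exact sub_sx S _ (hX 1))
    (by rw [orbit_sextets S hS]; exact sub_sx S _ (hX 2))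
    (by rw [orbit_sextets S hS]; exact sub_sx S _ (hX 3))
    (by decide) (by decide)
  obtain ⟨hO0, hcoatom⟩ := hco
  refine ⟨X 1, hX 1, X 2, hX 2, X 3, hX 3, hn 1, hn 2, hn 3, ?_, hcoatom⟩
  apply Set.Subset.antisymm
  · intro y hy
    obtain ⟨i, hi⟩ := hc y hy
    fin_cases i
    · have hi' : y ∈ MulAction.orbit ↥(MulAction.stabilizer Cfsg.M24 S) (X 0) := hi
      rw [hO0] at hi'
      exact Or.inl (Or.inl (Or.inl hi'))
    · exact Or.inl (Or.inl (Or.inr hi))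
    · exact Or.inl (Or.inr hi)
    · exact Or.inr hi
  · rintro y (((hy | hy) | hy) | hy)
    · rw [Set.mem_singleton_iff] at hy
      rw [hy]
      exact hS
    · exact sub_sx S _ (hX 1) hy
    · exact sub_sx S _ (hX 2) hy
    · exact sub_sx S _ (hX 3) hy

end Cfsg.Agent.Lib.Helper9.SxFin
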