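import Mathlib
import Cfsg.Prelude.Def_SporadicCombinatorics
import Cfsg.Agent.Lib.Helper9.C2D
import Cfsg.Agent.Lib.Helper9.SxFin

set_option autoImplicit false

/-! The centraliser of a fixed-point-free involution of the group of the length-24 code. -/

namespace Cfsg.Agent.Lib.Helper9.C2

open Cfsg.Agent.Lib.Helper9.Golay Cfsg.Agent.Lib.Helper9.GolayC Cfsg.Agent.Lib.Helper9.M24C
open Cfsg.Agent.Lib.Helper9.Octad Cfsg.Agent.Lib.Helper9.M24B Cfsg.Agent.Lib.Helper9.M24T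
open Cfsg.Agent.Lib.Helper9.M24O
open Cfsg.Agent.Lib.Helper9.Sextet Cfsg.Agent.Lib.Helper9.SextetY
open Cfsg.Agent.Lib.Helper9.InvCnt Cfsg.Agent.Lib.Helper9.M24CO Cfsg.Agent.Lib.Helper9.SxOrb
open Cfsg.Agent.Lib.Helper9.Invol Cfsg.Agent.Lib.Helper9.C2D
open scoped Pointwise

/-- The special sextet of the standard fixed-point-free involution. -/
noncomputable def S0 : Finset (Finset Cfsg.GolayPt) := sx (maskSet m0)

theorem S0_eq : S0 = (LS.map maskSet).toFinset :=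
  sx_eq_masks m0 LS (by decide) (by decide) (by decide) (by decide) LS_chk

theorem S0_mem : S0 ∈ Cfsg.sextets := sx_mem _ (by rw [card_maskSet]; decide)

theorem WT_lt : ∀ x ∈ WT, x < 2 ^ 24 := by decide +kernel

theorem tab (t : List ℕ) (h : t ∈ U ++ V ++ W ++ HK.map (fun hk => hk.1)) :
    ∃ g ∈ Cfsg.M24, IsTable g t :=
  run_TT Cfsg.Agent.Lib.Helper9.C2D.PR t (run_all t h)

theorem comm_of {g r : Equiv.Perm Cfsg.GolayPt} {T : List ℕ} (hg : IsTable g T)
    (hr : IsTable r R2) (h : comp T R2 = comp R2 T) : g * r = r * g := by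
  have h1 := isTable_mul hg hr
  have h2 := isTable_mul hr hg
  rw [h] at h1
  exact Cfsg.Agent.Lib.Helper9.M24Sx.isTable_inj h1 h2

theorem ptOf_inj {a b : ℕ} (ha : a < 24) (hb : b < 24) (h : ptOf a = ptOf b) : a = b := by
  have := congrArg idx h
  rwa [idx_ptOf a ha, idx_ptOf b hb] at this

theorem comm_mul {G : Type*} [Group G] {a b r : G} (ha : a * r = r * a) (hb : b * r = r * b) :
    (a * b) * r = r * (a * b) := by
  rw [mul_assoc, hb, ← mul_assoc, ha, mul_assoc]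

theorem inv_comm {G : Type*} [Group G] {a r : G} (h : a * r = r * a) : a⁻¹ * r = r * a⁻¹ := by
  rw [eq_mul_inv_iff_mul_eq, mul_assoc, ← h, ← mul_assoc, inv_mul_cancel, one_mul]

theorem conj_comm {G : Type*} [Group G] (a d r : G) (h : d * r = r * d) :
    (a * d) * r * (a * d)⁻¹ = a * r * a⁻¹ := by
  rw [mul_inv_rev, mul_assoc a d r, h]
  group

theorem U_fact {r : Equiv.Perm Cfsg.GolayPt} (hT : IsTable r R2) (q : ℕ) (hq : q < 24) :
    ∃ g ∈ Cfsg.M24, g * r = r * g ∧ g (ptOf 0) = ptOf q := by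
  obtain ⟨t, ht, htq⟩ := U_cov q hq
  obtain ⟨g, hg, hgT⟩ := tab t (by simp [ht])
  refine ⟨g, hg, comm_of hgT hT (U_ok t ht), ?_⟩
  rw [isTable_apply hgT 0 (by norm_num), htq]

theorem V_fact {r : Equiv.Perm Cfsg.GolayPt} (hT : IsTable r R2) (j : ℕ) (hj : j < 20) :
    ∃ g ∈ Cfsg.M24, g * r = r * g ∧ g (ptOf 0) = ptOf 0 ∧ g (ptOf 1) = ptOf (VI.getD j 0) := by
  obtain ⟨t, ht, htq⟩ := V_cov j hj
  obtain ⟨g, hg, hgT⟩ := tab t (by simp [ht])
  refine ⟨g, hg, comm_of hgT hT (V_ok t ht).1, ?_, ?_⟩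
  · rw [isTable_apply hgT 0 (by norm_num), (V_ok t ht).2]
  · rw [isTable_apply hgT 1 (by norm_num), htq]

theorem W_fact {r : Equiv.Perm Cfsg.GolayPt} (hT : IsTable r R2) (k : ℕ) (hk : k < 16) :
    ∃ g ∈ Cfsg.M24, g * r = r * g ∧ g (ptOf 0) = ptOf 0 ∧ g (ptOf 1) = ptOf 1 ∧
      g (ptOf 3) = ptOf (WI.getD k 0) := by
  obtain ⟨t, ht, htq⟩ := W_cov k hk
  obtain ⟨g, hg, hgT⟩ := tab t (by simp [ht])
  refine ⟨g, hg, comm_of hgT hT (W_ok t ht).1, ?_, ?_, ?_⟩
  · rw [isTable_apply hgT 0 (by norm_num), (W_ok t ht).2.1]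
  · rw [isTable_apply hgT 1 (by norm_num), (W_ok t ht).2.2]
  · rw [isTable_apply hgT 3 (by norm_num), htq]

theorem lower {r : Equiv.Perm Cfsg.GolayPt} (hT : IsTable r R2) :
    7680 ≤ Nat.card {c : Equiv.Perm Cfsg.GolayPt // c ∈ Cfsg.M24 ∧ c * r = r * c} := by
  have hU : ∀ i : Fin 24, ∃ g ∈ Cfsg.M24, g * r = r * g ∧ g (ptOf 0) = ptOf i.val :=
    fun i => U_fact hT i.val i.2
  have hV : ∀ j : Fin 20, ∃ g ∈ Cfsg.M24, g * r = r * g ∧ g (ptOf 0) = ptOf 0 ∧
      g (ptOf 1) = ptOf (VI.getD j.val 0) := fun j => V_fact hT j.val j.2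
  have hW : ∀ k : Fin 16, ∃ g ∈ Cfsg.M24, g * r = r * g ∧ g (ptOf 0) = ptOf 0 ∧
      g (ptOf 1) = ptOf 1 ∧ g (ptOf 3) = ptOf (WI.getD k.val 0) := fun k => W_fact hT k.val k.2
  choose u hu1 hu2 hu3 using hU
  choose v hv1 hv2 hv3 hv4 using hV
  choose w hw1 hw2 hw3 hw4 hw5 using hW
  have hf : Function.Injective (fun x : Fin 24 × Fin 20 × Fin 16 =>
      (⟨u x.1 * v x.2.1 * w x.2.2, mul_mem (mul_mem (hu1 _) (hv1 _)) (hw1 _),
        comm_mul (comm_mul (hu2 _) (hv2 _)) (hw2 _)⟩ :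
        {c : Equiv.Perm Cfsg.GolayPt // c ∈ Cfsg.M24 ∧ c * r = r * c})) := by
    rintro ⟨i, j, k⟩ ⟨i', j', k'⟩ h
    have h' : u i * v j * w k = u i' * v j' * w k' := congrArg Subtype.val h
    have e0 := congrArg (fun g : Equiv.Perm Cfsg.GolayPt => g (ptOf 0)) h'
    simp only [Equiv.Perm.mul_apply, hw3, hv3, hu3] at e0
    have hi : i = i' := Fin.ext (ptOf_inj i.2 i'.2 e0)
    subst hi
    have h2 : v j * w k = v j' * w k' := by
      rw [mul_assoc, mul_assoc] at h'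
      exact mul_left_cancel h'
    have e1 := congrArg (fun g : Equiv.Perm Cfsg.GolayPt => g (ptOf 1)) h2
    simp only [Equiv.Perm.mul_apply, hw4, hv4] at e1
    have hj : j = j' :=
      Fin.ext (VI_inj _ j.2 _ j'.2 (ptOf_inj (VI_lt _ j.2) (VI_lt _ j'.2) e1))
    subst hj
    have h3 : w k = w k' := mul_left_cancel h2
    have e2 := congrArg (fun g : Equiv.Perm Cfsg.GolayPt => g (ptOf 3)) h3
    simp only [hw5] at e2
    have hk : k = k' :=
      Fin.ext (WI_inj _ k.2 _ k'.2 (ptOf_inj (WI_lt _ k.2) (WI_lt _ k'.2) e2))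
    subst hk
    rfl
  have hc := Nat.card_le_card_of_injective _ hf
  rw [Nat.card_prod, Nat.card_prod, Nat.card_fin, Nat.card_fin, Nat.card_fin] at hc
  calc 7680 = 24 * (20 * 16) := by norm_num
    _ ≤ _ := hc

theorem smul_eq_of_inv {r : Equiv.Perm Cfsg.GolayPt} (hT : IsTable r R2) {m : ℕ}
    (hm : m < 2 ^ 24) (h : r • maskSet m = maskSet m) : pmI R2 m = m := by
  have h1 : r • maskSet (pmI R2 m) = r • maskSet m := (smul_maskSet_pmI hT m).trans h.symm
  exact maskSet_inj (pmI_lt _ _) hm (MulAction.injective r h1)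

theorem fix_S0 {r c : Equiv.Perm Cfsg.GolayPt} (hT : IsTable r R2) (hc : c ∈ Cfsg.M24)
    (hcr : c * r = r * c) : c • S0 = S0 := by
  have hS' : c • S0 ∈ Cfsg.sextets := smul_sextet hc S0_mem
  have hinv : ∀ τ ∈ c • S0, r • τ = τ := by
    intro τ hτ
    obtain ⟨τ0, hτ0, rfl⟩ := Finset.mem_smul_finset.mp hτ
    rw [S0_eq, List.mem_toFinset, List.mem_map] at hτ0
    obtain ⟨m, hm, rfl⟩ := hτ0
    have h1 : r • maskSet m = maskSet m := by
      have := smul_maskSet_pmI hT m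
      rwa [LS_inv m hm] at this
    rw [← mul_smul, ← hcr, mul_smul, h1]
  obtain ⟨t, ht, h0⟩ := sextet_cover hS' (ptOf 0)
  obtain ⟨m, hm, rfl⟩ := L4_complete t (hS'.2.1 t ht)
  have hmlt := (L4_props m hm).1
  have hb0 : m.testBit 0 = true := by
    rwa [mem_maskSet, idx_ptOf 0 (by norm_num)] at h0
  have hS'' : c • S0 = sx (maskSet m) := sextet_eq hS' ht
  have hpm : pmI R2 m = m := smul_eq_of_inv hT hmlt (hinv _ ht)
  rcases uniq m hm hb0 hpm with h | ⟨x, hx, hl, hne⟩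
  · rw [hS'', h]
    rfl
  · exfalso
    have hxm : maskSet x ∈ c • S0 := by
      rw [hS'']
      exact lnk_mem hmlt (WT_lt x hx) hl
    exact hne (smul_eq_of_inv hT (WT_lt x hx) (hinv _ hxm))

theorem card_stab : Nat.card ↥(MulAction.stabilizer ↥Cfsg.M24 S0) = 138240 := by
  have h2 := Subgroup.index_mul_card (MulAction.stabilizer ↥Cfsg.M24 S0)
  rw [MulAction.index_stabilizer, Cfsg.Agent.Lib.Helper9.SxFin.orbit_sextets S0 S0_mem,
    ncard_sextets, card_M24] at h2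
  omega

theorem HK_fact {r : Equiv.Perm Cfsg.GolayPt} (hT : IsTable r R2) (i : ℕ) (hi : i < 18) :
    ∃ h ∈ Cfsg.M24, h • S0 = S0 ∧ IsTable (h * r * h⁻¹) (HK.getD i ([], [])).2 := by
  have hmem : HK.getD i ([], []) ∈ HK := by
    rw [List.getD_eq_getElem _ _ (by rw [HK_len]; exact hi)]
    exact List.getElem_mem _
  obtain ⟨h, hh, hhT⟩ := tab (HK.getD i ([], [])).1 (by
    simp only [List.mem_append, List.mem_map]
    exact Or.inr ⟨_, hmem, rfl⟩)
  obtain ⟨c1, c2⟩ := HK_ok _ hmem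
  refine ⟨h, hh, ?_, ?_⟩
  · rw [S0_eq]
    exact smul_family hhT LS c1
  · intro p
    have e1 := isTable_mul hhT hT (h⁻¹ p)
    rw [← c2, comp_getD _ _ _ (idx_lt _), ← hhT (h⁻¹ p)] at e1
    simpa using e1

theorem upper {r : Equiv.Perm Cfsg.GolayPt} (hT : IsTable r R2) :
    Nat.card {c : Equiv.Perm Cfsg.GolayPt // c ∈ Cfsg.M24 ∧ c * r = r * c} ≤ 7680 := by
  have hH : ∀ i : Fin 18, ∃ h ∈ Cfsg.M24, h • S0 = S0 ∧
      IsTable (h * r * h⁻¹) (HK.getD i.val ([], [])).2 := fun i => HK_fact hT i.val i.2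
  choose h hh1 hh2 hh3 using hH
  have hf : Function.Injective (fun x : Fin 18 ×
      {c : Equiv.Perm Cfsg.GolayPt // c ∈ Cfsg.M24 ∧ c * r = r * c} =>
      (⟨⟨h x.1 * x.2.1, mul_mem (hh1 _) x.2.2.1⟩, by
        rw [MulAction.mem_stabilizer_iff]
        show (h x.1 * x.2.1) • S0 = S0
        rw [mul_smul, fix_S0 hT x.2.2.1 x.2.2.2, hh2]⟩ :
        ↥(MulAction.stabilizer ↥Cfsg.M24 S0))) := by
    rintro ⟨i, c⟩ ⟨j, c'⟩ e
    have e' : h i * c.1 = h j * c'.1 :=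
      congrArg (fun z : ↥(MulAction.stabilizer ↥Cfsg.M24 S0) => z.1.1) e
    have hk : h i * r * (h i)⁻¹ = h j * r * (h j)⁻¹ := by
      have a1 : h i = h j * (c'.1 * c.1⁻¹) := by
        rw [← mul_assoc, ← e', mul_assoc, mul_inv_cancel, mul_one]
      have a2 : (c'.1 * c.1⁻¹) * r = r * (c'.1 * c.1⁻¹) := comm_mul c'.2.2 (inv_comm c.2.2)
      rw [a1]
      exact conj_comm (h j) _ r a2
    have hij : i = j := by
      by_contra hne
      obtain ⟨n, hn, hneq⟩ := HK_inj i.val i.2 j.val j.2 (fun e => hne (Fin.ext e))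
      apply hneq
      have t1 := hh3 i (ptOf n)
      have t2 := hh3 j (ptOf n)
      rw [idx_ptOf n hn] at t1 t2
      rw [← t1, ← t2, hk]
    subst hij
    have hcc : c.1 = c'.1 := mul_left_cancel e'
    exact Prod.ext rfl (Subtype.ext hcc)
  have hc := Nat.card_le_card_of_injective _ hf
  rw [Nat.card_prod, Nat.card_fin, card_stab] at hc
  omega

theorem card_cent {r : Equiv.Perm Cfsg.GolayPt} (hT : IsTable r R2) :
    Nat.card {c : Equiv.Perm Cfsg.GolayPt // c ∈ Cfsg.M24 ∧ c * r = r * c} = 7680 :=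
  le_antisymm (upper hT) (lower hT)

theorem trans_r {r : Equiv.Perm Cfsg.GolayPt} (hT : IsTable r R2) (p q : Cfsg.GolayPt) :
    ∃ c ∈ Cfsg.M24, c * r = r * c ∧ c p = q := by
  obtain ⟨a, ha, ha2, ha3⟩ := U_fact hT (idx p) (idx_lt p)
  obtain ⟨b, hb, hb2, hb3⟩ := U_fact hT (idx q) (idx_lt q)
  rw [ptOf_idx] at ha3 hb3
  refine ⟨b * a⁻¹, mul_mem hb (inv_mem ha), comm_mul hb2 (inv_comm ha2), ?_⟩
  rw [Equiv.Perm.mul_apply, ← ha3]
  simp [hb3]

theorem s5607 (t : Equiv.Perm Cfsg.GolayPt) (ht : t ∈ Cfsg.M24) (h₂ : orderOf t = 2) (h₀ : ∀ p, t p ≠ p) : Nat.card {c : Equiv.Perm Cfsg.GolayPt // c ∈ Cfsg.M24 ∧ c * t = t * c} = 7680 ∧ (∀ p q : Cfsg.GolayPt, ∃ c ∈ Cfsg.M24, c * t = t * c ∧ c p = q) ∧ ∃ S ∈ Cfsg.sextets, t • S = S ∧ ∀ c ∈ Cfsg.M24, c * t = t * c → c • S = S := by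
  obtain ⟨R, hR | hR, r, hr, hT, k, hk, hkg⟩ := Invol.conj_rep t ht h₂
  · subst hR
    exfalso
    have e := Invol.fix_conj1 hT hkg
    have hc : (Finset.univ.filter fun p => t p = p).card = 8 := by
      rw [e, Finset.card_smul_finset]
      exact Oset_mem.2
    have hne : (Finset.univ.filter fun p => t p = p).Nonempty := by
      rw [← Finset.card_pos, hc]
      norm_num
    obtain ⟨p, hp⟩ := hne
    exact h₀ p (Finset.mem_filter.mp hp).2
  · subst hR
    have key : ∀ c : Equiv.Perm Cfsg.GolayPt,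
        c * t = t * c ↔ (k * c * k⁻¹) * r = r * (k * c * k⁻¹) := by
      intro c
      rw [← hkg]
      constructor
      · intro h
        calc k * c * k⁻¹ * (k * t * k⁻¹) = k * (c * t) * k⁻¹ := by group
          _ = k * (t * c) * k⁻¹ := by rw [h]
          _ = k * t * k⁻¹ * (k * c * k⁻¹) := by group
      · intro h
        have h' : k⁻¹ * (k * c * k⁻¹ * (k * t * k⁻¹)) * k =
            k⁻¹ * (k * t * k⁻¹ * (k * c * k⁻¹)) * k := by rw [h]
        calc c * t = k⁻¹ * (k * c * k⁻¹ * (k * t * k⁻¹)) * k := by group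
          _ = k⁻¹ * (k * t * k⁻¹ * (k * c * k⁻¹)) * k := h'
          _ = t * c := by group
    have back : ∀ d : Equiv.Perm Cfsg.GolayPt, d * r = r * d →
        (k⁻¹ * d * k) * t = t * (k⁻¹ * d * k) := by
      intro d hd
      rw [key]
      have e : k * (k⁻¹ * d * k) * k⁻¹ = d := by group
      rw [e]
      exact hd
    refine ⟨?_, ?_, ?_⟩
    · rw [← card_cent hT]
      apply Nat.card_congr
      exact {
        toFun := fun c => ⟨k * c.1 * k⁻¹, mul_mem (mul_mem hk c.2.1) (inv_mem hk),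
          (key c.1).mp c.2.2⟩
        invFun := fun d => ⟨k⁻¹ * d.1 * k, mul_mem (mul_mem (inv_mem hk) d.2.1) hk,
          back d.1 d.2.2⟩
        left_inv := fun c => Subtype.ext (by
          show k⁻¹ * (k * c.1 * k⁻¹) * k = c.1
          group)
        right_inv := fun d => Subtype.ext (by
          show k * (k⁻¹ * d.1 * k) * k⁻¹ = d.1
          group) }
    · intro p q
      obtain ⟨d, hd, hd2, hd3⟩ := trans_r hT (k p) (k q)
      refine ⟨k⁻¹ * d * k, mul_mem (mul_mem (inv_mem hk) hd) hk, back d hd2, ?_⟩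
      rw [Equiv.Perm.mul_apply, Equiv.Perm.mul_apply, hd3]
      simp
    · refine ⟨k⁻¹ • S0, smul_sextet (inv_mem hk) S0_mem, ?_, ?_⟩
      · have ht' : t = k⁻¹ * r * k := by
          rw [← hkg]
          group
        have hrS : r • S0 = S0 := by
          rw [S0_eq]
          exact smul_family hT LS (fun m hm => by rw [LS_inv m hm]; exact hm)
        have e : (k⁻¹ * r * k) * k⁻¹ = k⁻¹ * r := by group
        rw [ht', ← mul_smul, e, mul_smul, hrS]
      · intro c hc hct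
        have h1 := fix_S0 hT (mul_mem (mul_mem hk hc) (inv_mem hk)) ((key c).mp hct)
        rw [mul_smul, mul_smul] at h1
        rw [eq_inv_smul_iff]
        exact h1

end Cfsg.Agent.Lib.Helper9.C2
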