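import Mathlib
import Cfsg.Agent.Lib.Helper9.Prim

set_option autoImplicit false

/-! Maximality of a point stabiliser with four non-trivial suborbits of distinct sizes. -/

namespace Cfsg.Agent.Lib.Helper9.Coatom5

open scoped Pointwise

theorem coatom_of_five {G X : Type*} [Group G] [MulAction G X] [Fintype X] [DecidableEq X]
    (x : X) (N : ℕ) (n : Fin 5 → ℕ) (hN : (MulAction.orbit G x).ncard = N) (hN1 : 1 < N)
    (Y : Fin 5 → X)
    (hn : ∀ i, (MulAction.orbit (MulAction.stabilizer G x) (Y i)).ncard = n i)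
    (hc : ∀ y ∈ MulAction.orbit G x,
      ∃ i, y ∈ MulAction.orbit (MulAction.stabilizer G x) (Y i))
    (hs : ∀ i, MulAction.orbit (MulAction.stabilizer G x) (Y i) ⊆ MulAction.orbit G x)
    (hinj : ∀ i j, n i = n j → i = j) (h0 : n 0 = 1)
    (m : ℕ → ℕ) (hm : ∀ i : Fin 5, i.val ≠ 0 → n i = m (i.val - 1))
    (hdiv : ∀ I ∈ (Finset.range 4).powerset, I.Nonempty →
      (1 + ∑ i ∈ I, m i) ∣ N → 1 + ∑ i ∈ I, m i = N) :
    MulAction.orbit (MulAction.stabilizer G x) (Y 0) = {x} ∧
      IsCoatom (MulAction.stabilizer G x) := by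
  classical
  have d : ∀ (i j : Fin 5) (w : X), w ∈ MulAction.orbit (MulAction.stabilizer G x) (Y i) →
      w ∈ MulAction.orbit (MulAction.stabilizer G x) (Y j) → i = j := by
    intro i j w hi hj
    apply hinj
    rw [← hn i, ← hn j, ← MulAction.orbit_eq_iff.mpr hi, ← MulAction.orbit_eq_iff.mpr hj]
  have hxx : MulAction.orbit (MulAction.stabilizer G x) x = {x} := by
    ext y
    constructor
    · rintro ⟨k, rfl⟩
      exact k.2
    · rintro rfl
      exact MulAction.mem_orbit_self _
  have hO0 : MulAction.orbit (MulAction.stabilizer G x) (Y 0) = {x} := by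
    obtain ⟨i, hi⟩ := hc x (MulAction.mem_orbit_self _)
    have e := MulAction.orbit_eq_iff.mpr hi
    have hi1 : n i = 1 := by rw [← hn i, ← e, hxx, Set.ncard_singleton]
    have hi0 : i = 0 := hinj i 0 (by rw [hi1, h0])
    subst hi0
    rw [← e, hxx]
  refine ⟨hO0, ?_⟩
  have hxO : x ∈ MulAction.orbit (MulAction.stabilizer G x) (Y 0) := by rw [hO0]; rfl
  let cls : X → ℕ := fun y =>
    if h : ∃ i : Fin 5, y ∈ MulAction.orbit (MulAction.stabilizer G x) (Y i)
    then (Classical.choose h).val - 1 else 0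
  have clsEq : ∀ (i : Fin 5) (y : X),
      y ∈ MulAction.orbit (MulAction.stabilizer G x) (Y i) → cls y = i.val - 1 := by
    intro i y hy
    have hex : ∃ i : Fin 5, y ∈ MulAction.orbit (MulAction.stabilizer G x) (Y i) := ⟨i, hy⟩
    show (if h : ∃ i : Fin 5, y ∈ MulAction.orbit (MulAction.stabilizer G x) (Y i)
      then (Classical.choose h).val - 1 else 0) = i.val - 1
    rw [dif_pos hex, d _ _ y (Classical.choose_spec hex) hy]
  have key : ∀ y ∈ MulAction.orbit G x, y ≠ x → ∃ i : Fin 5, i.val ≠ 0 ∧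
      y ∈ MulAction.orbit (MulAction.stabilizer G x) (Y i) := by
    intro y hy hne
    obtain ⟨i, hi⟩ := hc y hy
    refine ⟨i, ?_, hi⟩
    intro h0'
    have hi0 : i = 0 := Fin.ext h0'
    rw [hi0, hO0] at hi
    exact hne hi
  have same : ∀ (a y z : X), y ∈ MulAction.orbit (MulAction.stabilizer G x) a →
      z ∈ MulAction.orbit (MulAction.stabilizer G x) a →
      ∃ k ∈ MulAction.stabilizer G x, k • y = z := by
    rintro a y z ⟨k1, rfl⟩ ⟨k2, rfl⟩
    refine ⟨(k2 * k1⁻¹ : ↥(MulAction.stabilizer G x)), (k2 * k1⁻¹).2, ?_⟩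
    show (k2 * k1⁻¹) • k1 • a = k2 • a
    rw [mul_smul, inv_smul_smul]
  apply Cfsg.Agent.Lib.Helper9.Prim.coatom_of_orbits x N 4 m cls
  · rw [MulAction.index_stabilizer, hN]
  · exact hN1
  · intro y hy hne
    obtain ⟨i, hi0, hi⟩ := key y hy hne
    rw [clsEq i y hi]
    have := i.2
    omega
  · intro y hy z hz hyne hzne hcls
    obtain ⟨i, hi0, hi⟩ := key y hy hyne
    obtain ⟨j, hj0, hj⟩ := key z hz hzne
    rw [clsEq i y hi, clsEq j z hj] at hcls
    have hij : i = j := Fin.ext (by omega)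
    rw [← hij] at hj
    exact same (Y i) y z hi hj
  · intro j hj
    have e : {y | y ∈ MulAction.orbit G x ∧ y ≠ x ∧ cls y = j} =
        MulAction.orbit (MulAction.stabilizer G x) (Y ⟨j + 1, by omega⟩) := by
      ext y
      constructor
      · rintro ⟨hy, hne, hcl⟩
        obtain ⟨i, hi0, hi⟩ := key y hy hne
        rw [clsEq i y hi] at hcl
        have hij : i = ⟨j + 1, by omega⟩ := Fin.ext (by show i.val = j + 1; omega)
        rw [← hij]
        exact hi
      · intro hy
        refine ⟨hs _ hy, ?_, ?_⟩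
        · intro hyx
          rw [hyx] at hy
          have h' := congrArg Fin.val (d _ _ _ hxO hy)
          have h'' : (0 : ℕ) = j + 1 := h'
          omega
        · rw [clsEq _ y hy]
          show j + 1 - 1 = j
          omega
    rw [e, hn]
    exact hm ⟨j + 1, by omega⟩ (Nat.succ_ne_zero j)
  · exact hdiv

end Cfsg.Agent.Lib.Helper9.Coatom5
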