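import Mathlib
import Cfsg.Prelude.Def_Sporadic_a
import Cfsg.Agent.Lib.Helper9.M24M2

set_option autoImplicit false

/-! The stabiliser of a dodecad and three of its points. -/

namespace Cfsg.Agent.Lib.Helper9.M24M3

open Cfsg.Agent.Lib.Helper9.Golay Cfsg.Agent.Lib.Helper9.GolayC Cfsg.Agent.Lib.Helper9.M24C
open Cfsg.Agent.Lib.Helper9.Octad Cfsg.Agent.Lib.Helper9.M24B Cfsg.Agent.Lib.Helper9.M24T
open Cfsg.Agent.Lib.Helper9.M24O Cfsg.Agent.Lib.Helper9.M24Oct Cfsg.Agent.Lib.Helper9.M24OS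
open Cfsg.Agent.Lib.Helper9.M24Dod Cfsg.Agent.Lib.Helper9.M24M Cfsg.Agent.Lib.Helper9.M24M2
open scoped Pointwise

def P3 : List (ℕ × ℕ) := [(0, 0), (0, 0), (0, 0), (0, 0), (0, 0), (0, 45), (0, 0), (36, 41), (0, 0), (0, 0), (38, 43), (32, 43), (0, 0), (0, 0), (0, 42), (32, 42), (0, 0), (0, 43), (0, 0), (36, 42), (35, 0), (32, 0), (38, 41), (0, 41)]

/-- The table attached to an index outside the dodecad. -/
def t3 (β : ℕ) : List ℕ :=
  comp (MT.getD (P3.getD β (0, 0)).1 []) (MT.getD (P3.getD β (0, 0)).2 [])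

set_option maxRecDepth 100000 in
theorem p3_ok : ∀ β < 24, DM.testBit β = false →
    (P3.getD β (0, 0)).1 < 76 ∧ (P3.getD β (0, 0)).2 < 76 ∧ invB (t3 β) DM = true ∧
    (∀ i < 3, (t3 β).getD (CB.getD i 0) 0 = CB.getD i 0) ∧
    (t3 β).getD (EB.getD 0 0) 0 = β := by decide +kernel

theorem exists_trans3 (q : Cfsg.GolayPt) (hq : q ∉ Dset) : ∃ g ∈ Mk 3, g (E 0) = q := by
  have hb : DM.testBit (idx q) = false := by
    unfold Dset at hq
    rw [mem_maskSet] at hq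
    simpa using hq
  obtain ⟨ha, hb', hinv, hfix, hE⟩ := p3_ok (idx q) (idx_lt q) hb
  obtain ⟨g1, hg1, hT1⟩ := mt_mem _ ha
  obtain ⟨g2, hg2, hT2⟩ := mt_mem _ hb'
  have hT : IsTable (g1 * g2) (t3 (idx q)) := isTable_mul hT1 hT2
  refine ⟨g1 * g2, ⟨mul_mem hg1 hg2, (invB_iff hT DM).mpr hinv, fun i hi => ?_⟩, ?_⟩
  · apply idx_inj
    rw [hT, idx_C i (by omega), hfix i hi]
  · apply idx_inj
    rw [hT, idx_E 0 (by norm_num), hE]

/-- The stabiliser of a dodecad and three of its points has order 72 and is transitive on the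
complementary dodecad. -/
theorem stab3 (d : Finset Cfsg.GolayPt) (hd : d ∈ Cfsg.dodecads) (p q r : Cfsg.GolayPt)
    (hp : p ∈ d) (hq : q ∈ d) (hr : r ∈ d) (hpq : p ≠ q) (hpr : p ≠ r) (hqr : q ≠ r) :
    Nat.card ↥(MulAction.stabilizer Cfsg.M24 d ⊓ MulAction.stabilizer Cfsg.M24 p ⊓
      MulAction.stabilizer Cfsg.M24 q ⊓ MulAction.stabilizer Cfsg.M24 r) = 72 ∧
    ∀ x ∉ d, ∀ y ∉ d, ∃ g ∈ (MulAction.stabilizer Cfsg.M24 d ⊓ MulAction.stabilizer Cfsg.M24 p ⊓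
      MulAction.stabilizer Cfsg.M24 q ⊓ MulAction.stabilizer Cfsg.M24 r),
      ((g : ↥Cfsg.M24) : Equiv.Perm Cfsg.GolayPt) x = y := by
  obtain ⟨g1, hg1, rfl⟩ := dodecad_trans Dset d Dset_mem hd
  have hin : ∀ s : Cfsg.GolayPt, s ∈ g1 • Dset → g1⁻¹ s ∈ Dset := by
    intro s hs
    have := Finset.smul_mem_smul_finset (a := g1⁻¹) hs
    rw [inv_smul_smul] at this
    exact this
  obtain ⟨g2, hg2, hg2x⟩ := exists_tupleM 3 (by norm_num)
    (fun i => if i = 0 then g1⁻¹ p else if i = 1 then g1⁻¹ q else g1⁻¹ r)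
    (fun i hi => by
      by_cases h0 : i = 0
      · simp only [h0, if_true]; exact hin p hp
      · by_cases h1 : i = 1
        · simp only [h1, if_true]; exact hin q hq
        · simp only [h0, h1, if_false]; exact hin r hr)
    (fun i hi j hj h => by
      have e : ∀ a b : Cfsg.GolayPt, g1⁻¹ a = g1⁻¹ b → a = b := fun a b h => g1⁻¹.injective h
      by_cases hi0 : i = 0 <;> by_cases hi1 : i = 1 <;> by_cases hj0 : j = 0 <;>
        by_cases hj1 : j = 1 <;> simp only [hi0, hi1, hj0, hj1, if_true, if_false] at h <;>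
        first
        | omega
        | exact absurd (e _ _ h) hpq
        | exact absurd (e _ _ h).symm hpq
        | exact absurd (e _ _ h) hpr
        | exact absurd (e _ _ h).symm hpr
        | exact absurd (e _ _ h) hqr
        | exact absurd (e _ _ h).symm hqr)
  have hp0 : g2 (C 0) = g1⁻¹ p := hg2x 0 (by norm_num)
  have hq0 : g2 (C 1) = g1⁻¹ q := hg2x 1 (by norm_num)
  have hr0 : g2 (C 2) = g1⁻¹ r := hg2x 2 (by norm_num)
  set g0 := g1 * g2 with hg0def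
  have hg0 : g0 ∈ Cfsg.M24 := mul_mem hg1 hg2.1
  have hd0 : g0 • Dset = g1 • Dset := by rw [hg0def, mul_smul, hg2.2.1]
  have hp1 : g0 (C 0) = p := by rw [hg0def, Equiv.Perm.mul_apply, hp0]; simp
  have hq1 : g0 (C 1) = q := by rw [hg0def, Equiv.Perm.mul_apply, hq0]; simp
  have hr1 : g0 (C 2) = r := by rw [hg0def, Equiv.Perm.mul_apply, hr0]; simp
  rw [← hd0]
  subst hp1 hq1 hr1
  have hC : ∀ i < 3, (i = 0 ∨ i = 1 ∨ i = 2) := by intro i hi; omega
  constructor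
  · rw [← card_M3]
    apply Nat.card_congr
    exact
      { toFun := fun x => ⟨g0⁻¹ * x.1.1 * g0, mul_mem (mul_mem (inv_mem hg0) x.1.2) hg0, by
          have h1 : x.1.1 • g0 • Dset = g0 • Dset := x.2.1.1.1
          rw [mul_smul, mul_smul, h1, inv_smul_smul], fun i hi => by
          have h2 : x.1.1 (g0 (C 0)) = g0 (C 0) := x.2.1.1.2
          have h3 : x.1.1 (g0 (C 1)) = g0 (C 1) := x.2.1.2
          have h4 : x.1.1 (g0 (C 2)) = g0 (C 2) := x.2.2
          rcases hC i hi with rfl | rfl | rfl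
          · rw [Equiv.Perm.mul_apply, Equiv.Perm.mul_apply, h2]; simp
          · rw [Equiv.Perm.mul_apply, Equiv.Perm.mul_apply, h3]; simp
          · rw [Equiv.Perm.mul_apply, Equiv.Perm.mul_apply, h4]; simp⟩
        invFun := fun y => ⟨⟨g0 * y.1 * g0⁻¹, mul_mem (mul_mem hg0 y.2.1) (inv_mem hg0)⟩, by
          refine ⟨⟨⟨?_, ?_⟩, ?_⟩, ?_⟩
          · show (g0 * y.1 * g0⁻¹) • g0 • Dset = g0 • Dset
            rw [mul_smul, mul_smul, inv_smul_smul, y.2.2.1]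
          · show (g0 * y.1 * g0⁻¹) (g0 (C 0)) = g0 (C 0)
            rw [Equiv.Perm.mul_apply, Equiv.Perm.mul_apply]
            simp [y.2.2.2 0 (by norm_num)]
          · show (g0 * y.1 * g0⁻¹) (g0 (C 1)) = g0 (C 1)
            rw [Equiv.Perm.mul_apply, Equiv.Perm.mul_apply]
            simp [y.2.2.2 1 (by norm_num)]
          · show (g0 * y.1 * g0⁻¹) (g0 (C 2)) = g0 (C 2)
            rw [Equiv.Perm.mul_apply, Equiv.Perm.mul_apply]
            simp [y.2.2.2 2 (by norm_num)]⟩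
        left_inv := fun x => by
          apply Subtype.ext
          apply Subtype.ext
          show g0 * (g0⁻¹ * x.1.1 * g0) * g0⁻¹ = x.1.1
          group
        right_inv := fun y => by
          apply Subtype.ext
          show g0⁻¹ * (g0 * y.1 * g0⁻¹) * g0 = y.1
          group }
  · intro x hx y hy
    have hout : ∀ s : Cfsg.GolayPt, s ∉ g0 • Dset → g0⁻¹ s ∉ Dset := by
      intro s hs h
      apply hs
      have := Finset.smul_mem_smul_finset (a := g0) h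
      simpa using this
    obtain ⟨k1, hk1, hk1x⟩ := exists_trans3 (g0⁻¹ x) (hout x hx)
    obtain ⟨k2, hk2, hk2y⟩ := exists_trans3 (g0⁻¹ y) (hout y hy)
    have hk : k2 * k1⁻¹ ∈ Mk 3 := mul_mem hk2 (inv_mem hk1)
    have hkx : (k2 * k1⁻¹) (g0⁻¹ x) = g0⁻¹ y := by
      rw [Equiv.Perm.mul_apply, ← hk1x]
      simp [hk2y]
    refine ⟨⟨g0 * (k2 * k1⁻¹) * g0⁻¹, mul_mem (mul_mem hg0 hk.1) (inv_mem hg0)⟩, ?_, ?_⟩
    · refine ⟨⟨⟨?_, ?_⟩, ?_⟩, ?_⟩
      · show (g0 * (k2 * k1⁻¹) * g0⁻¹) • g0 • Dset = g0 • Dset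
        rw [mul_smul, mul_smul, inv_smul_smul, hk.2.1]
      · show (g0 * (k2 * k1⁻¹) * g0⁻¹) (g0 (C 0)) = g0 (C 0)
        rw [Equiv.Perm.mul_apply, Equiv.Perm.mul_apply]
        simp [hk.2.2 0 (by norm_num)]
      · show (g0 * (k2 * k1⁻¹) * g0⁻¹) (g0 (C 1)) = g0 (C 1)
        rw [Equiv.Perm.mul_apply, Equiv.Perm.mul_apply]
        simp [hk.2.2 1 (by norm_num)]
      · show (g0 * (k2 * k1⁻¹) * g0⁻¹) (g0 (C 2)) = g0 (C 2)
        rw [Equiv.Perm.mul_apply, Equiv.Perm.mul_apply]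
        simp [hk.2.2 2 (by norm_num)]
    · show (g0 * (k2 * k1⁻¹) * g0⁻¹) x = y
      rw [Equiv.Perm.mul_apply, Equiv.Perm.mul_apply, hkx]
      simp

end Cfsg.Agent.Lib.Helper9.M24M3
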