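import Mathlib
import Cfsg.Prelude.Def_Sporadic_a
import Cfsg.Prelude.Def_Spor_Mathieu
import Cfsg.Agent.Lib.Helper9.M24M3
import Cfsg.Agent.Lib.Helper9.M24Sim
import Cfsg.Agent.Lib.Helper9.M24F

set_option autoImplicit false

/-! The two classes of point stabilisers in the stabiliser of a dodecad. -/

namespace Cfsg.Agent.Lib.Helper9.M24Conj

open Cfsg.Agent.Lib.Helper9.Golay Cfsg.Agent.Lib.Helper9.GolayC Cfsg.Agent.Lib.Helper9.M24C
open Cfsg.Agent.Lib.Helper9.Octad Cfsg.Agent.Lib.Helper9.M24B Cfsg.Agent.Lib.Helper9.M24T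
open Cfsg.Agent.Lib.Helper9.M24O Cfsg.Agent.Lib.Helper9.M24Oct Cfsg.Agent.Lib.Helper9.M24OS
open Cfsg.Agent.Lib.Helper9.M24Dod Cfsg.Agent.Lib.Helper9.M24M Cfsg.Agent.Lib.Helper9.M24M2
open Cfsg.Agent.Lib.Helper9.M24M3 Cfsg.Agent.Lib.Helper9.M24Sim Cfsg.Agent.Lib.Helper9.M24F
open scoped Pointwise

theorem compl_dodecad (d : Finset Cfsg.GolayPt) (hd : d ∈ Cfsg.dodecads) :
    Finset.univ \ d ∈ Cfsg.dodecads := by
  rw [mem_dodecads] at hd ⊢
  refine ⟨?_, ?_⟩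
  · have : ind (Finset.univ \ d) = 1 + ind d := by
      funext i
      by_cases hi : i ∈ d
      · simp only [ind, Finset.mem_sdiff, Finset.mem_univ, true_and, hi, not_true_eq_false,
          if_false, if_true, Pi.add_apply, Pi.one_apply]
        decide
      · simp only [ind, Finset.mem_sdiff, Finset.mem_univ, true_and, hi, not_false_eq_true,
          if_false, if_true, Pi.add_apply, Pi.one_apply, add_zero]
    rw [this]
    exact Cfsg.golayCode.add_mem one_mem hd.1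
  · rw [Finset.card_sdiff_of_subset (Finset.subset_univ _), Finset.card_univ, card_pts, hd.2]

theorem mem_M12 (x : Equiv.Perm Cfsg.GolayPt) :
    x ∈ Cfsg.Spor.M12 ↔ x ∈ Cfsg.M24 ∧ x • Dset = Dset := by
  unfold Cfsg.Spor.M12
  rw [Subgroup.mem_inf, Dset_eq]
  exact Iff.rfl

theorem mem_M11 (x : Equiv.Perm Cfsg.GolayPt) :
    x ∈ Cfsg.Spor.M11 ↔ x ∈ Cfsg.M24 ∧ x • Dset = Dset ∧ x (some 0) = some 0 := by
  unfold Cfsg.Spor.M11
  rw [Subgroup.mem_inf, mem_M12, and_assoc]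
  exact Iff.rfl

theorem smul_compl (x : Equiv.Perm Cfsg.GolayPt) (d : Finset Cfsg.GolayPt) :
    x • (Finset.univ \ d) = Finset.univ \ d ↔ x • d = d := by
  rw [Finset.smul_finset_sdiff, Finset.smul_finset_univ, ← Finset.compl_eq_univ_sdiff,
    ← Finset.compl_eq_univ_sdiff, compl_inj_iff]

theorem conj_inv_smul (g x : Equiv.Perm Cfsg.GolayPt) :
    (MulAut.conj g)⁻¹ • x = g⁻¹ * x * g := by
  simp [MulAut.smul_def]

theorem conj_M11 (g : Equiv.Perm Cfsg.GolayPt) (hg : g ∈ Cfsg.M24)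
    (hgD : g • Dset = Finset.univ \ Dset) (hg0 : g (some 0) = none) :
    MulAut.conj g • Cfsg.Spor.M11 = Cfsg.Spor.M12 ⊓
      MulAction.stabilizer (Equiv.Perm Cfsg.GolayPt) (none : Cfsg.GolayPt) := by
  ext x
  rw [Subgroup.mem_pointwise_smul_iff_inv_smul_mem, conj_inv_smul, mem_M11, Subgroup.mem_inf,
    mem_M12, conj_mem_iff g x hg, conj_set_iff, conj_fix_iff, hgD,
    hg0, smul_compl, and_assoc]
  exact Iff.rfl

theorem none_notMem : (none : Cfsg.GolayPt) ∉ Dset := by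
  unfold Dset
  rw [mem_maskSet]
  decide +kernel

theorem ne1 : (none : Cfsg.GolayPt) ≠ E 0 := by decide +kernel
theorem ne2 : (none : Cfsg.GolayPt) ≠ E 1 := by decide +kernel
theorem ne3 : E 0 ≠ E 1 := by decide +kernel

theorem not_conj : ¬ ∃ k ∈ Cfsg.Spor.M12, MulAut.conj k • Cfsg.Spor.M11 = Cfsg.Spor.M12 ⊓
    MulAction.stabilizer (Equiv.Perm Cfsg.GolayPt) (none : Cfsg.GolayPt) := by
  rintro ⟨k, hk, hconj⟩
  rw [mem_M12] at hk
  have h0 : (some 0 : Cfsg.GolayPt) ∈ Dset := by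
    have := C_mem 0 (by norm_num)
    rwa [C_zero] at this
  have hp : k (some 0) ∈ Dset := by
    rw [← hk.2]
    exact (mem_smul_iff k (some 0) Dset).mpr h0
  obtain ⟨y, hy, hyp⟩ : ∃ y ∈ Dset, y ≠ k (some 0) := by
    by_cases h : k (some 0) = C 0
    · refine ⟨C 1, C_mem 1 (by norm_num), fun e => ?_⟩
      rw [h] at e
      have := C_inj 1 (by norm_num) 0 (by norm_num) e
      omega
    · exact ⟨C 0, C_mem 0 (by norm_num), fun e => h e.symm⟩
  have hmem : ∀ q : Cfsg.GolayPt, q ∉ Dset → q ∈ Finset.univ \ Dset := fun q hq =>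
    Finset.mem_sdiff.mpr ⟨Finset.mem_univ _, hq⟩
  have hnot : ∀ q : Cfsg.GolayPt, q ∈ Dset → q ∉ Finset.univ \ Dset := fun q hq h =>
    (Finset.mem_sdiff.mp h).2 hq
  obtain ⟨-, htr⟩ := stab3 (Finset.univ \ Dset) (compl_dodecad _ Dset_mem) none (E 0) (E 1)
    (hmem _ none_notMem) (hmem _ (E_notMem 0 (by norm_num))) (hmem _ (E_notMem 1 (by norm_num)))
    ne1 ne2 ne3
  obtain ⟨u, hu, huy⟩ := htr (k (some 0)) (hnot _ hp) y (hnot _ hy)
  obtain ⟨hu1, -⟩ := Subgroup.mem_inf.mp hu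
  obtain ⟨hu2, -⟩ := Subgroup.mem_inf.mp hu1
  obtain ⟨hu3, hu4⟩ := Subgroup.mem_inf.mp hu2
  rw [MulAction.mem_stabilizer_iff] at hu3 hu4
  have hu3' : (u : Equiv.Perm Cfsg.GolayPt) • (Finset.univ \ Dset) = Finset.univ \ Dset := hu3
  have hu4' : (u : Equiv.Perm Cfsg.GolayPt) none = none := hu4
  rw [smul_compl] at hu3'
  have hmem' : (u : Equiv.Perm Cfsg.GolayPt) ∈ Cfsg.Spor.M12 ⊓
      MulAction.stabilizer (Equiv.Perm Cfsg.GolayPt) (none : Cfsg.GolayPt) := by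
    rw [Subgroup.mem_inf, mem_M12]
    exact ⟨⟨u.2, hu3'⟩, hu4'⟩
  rw [← hconj, Subgroup.mem_pointwise_smul_iff_inv_smul_mem, conj_inv_smul, mem_M11] at hmem'
  have h5 := hmem'.2.2
  rw [conj_fix_iff] at h5
  exact hyp (huy ▸ h5)

theorem two_classes :
    Nonempty (↥(Cfsg.Spor.M12 ⊓ MulAction.stabilizer (Equiv.Perm Cfsg.GolayPt)
      (none : Cfsg.GolayPt)) ≃* ↥Cfsg.Spor.M11) ∧
    (¬ ∃ k ∈ Cfsg.Spor.M12, MulAut.conj k • Cfsg.Spor.M11 = Cfsg.Spor.M12 ⊓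
      MulAction.stabilizer (Equiv.Perm Cfsg.GolayPt) (none : Cfsg.GolayPt)) ∧
    ∃ g ∈ Cfsg.M24, g • Cfsg.Spor.squareDodecad = Finset.univ \ Cfsg.Spor.squareDodecad ∧
      MulAut.conj g • Cfsg.Spor.M11 = Cfsg.Spor.M12 ⊓
        MulAction.stabilizer (Equiv.Perm Cfsg.GolayPt) (none : Cfsg.GolayPt) := by
  obtain ⟨g, hg, hgD, hg0⟩ := pair_transD (Finset.univ \ Dset) (compl_dodecad _ Dset_mem) none
    (Finset.mem_sdiff.mpr ⟨Finset.mem_univ _, none_notMem⟩)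
  rw [C_zero] at hg0
  have hc := conj_M11 g hg hgD hg0
  refine ⟨?_, not_conj, g, hg, by rw [Dset_eq]; exact hgD, hc⟩
  rw [← hc]
  exact ⟨(Subgroup.equivSMul (MulAut.conj g) Cfsg.Spor.M11).symm⟩

end Cfsg.Agent.Lib.Helper9.M24Conj
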