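import Mathlib
import Cfsg.Prelude.Def_Sporadic_a
import Cfsg.Agent.Lib.Helper9.M24F

set_option autoImplicit false

/-! Joint stabilisers of two octads. -/

namespace Cfsg.Agent.Lib.Helper9.M24St

open Cfsg.Agent.Lib.Helper9.Golay Cfsg.Agent.Lib.Helper9.GolayC Cfsg.Agent.Lib.Helper9.M24C
open Cfsg.Agent.Lib.Helper9.Octad Cfsg.Agent.Lib.Helper9.M24B Cfsg.Agent.Lib.Helper9.M24T
open Cfsg.Agent.Lib.Helper9.M24O Cfsg.Agent.Lib.Helper9.M24Oct Cfsg.Agent.Lib.Helper9.M24OS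
open Cfsg.Agent.Lib.Helper9.M24Dod Cfsg.Agent.Lib.Helper9.M24M Cfsg.Agent.Lib.Helper9.M24CO
open Cfsg.Agent.Lib.Helper9.M24DO Cfsg.Agent.Lib.Helper9.M24Cnt Cfsg.Agent.Lib.Helper9.M24Cnt2
open Cfsg.Agent.Lib.Helper9.M24F
open scoped Pointwise

set_option maxRecDepth 100000 in
theorem cntM0 : (List.range 4096).countP (selL 8 [(OM, 0)]) = 30 := by decide +kernel

set_option maxRecDepth 100000 in
theorem cntM4 : (List.range 4096).countP (selL 8 [(OM, 4)]) = 280 := by decide +kernel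

set_option maxRecDepth 100000 in
theorem cntM2 : (List.range 4096).countP (selL 8 [(OM, 2)]) = 448 := by decide +kernel

theorem ncard_meet_std (k n : ℕ) (h : (List.range 4096).countP (selL 8 [(OM, k)]) = n) :
    {o' : Finset Cfsg.GolayPt | o' ∈ Cfsg.octads ∧ (Oset ∩ o').card = k}.ncard = n := by
  have e : {o' : Finset Cfsg.GolayPt | o' ∈ Cfsg.octads ∧ (Oset ∩ o').card = k} =
      {s | SelL Cfsg.octads [(OM, k)] s} := by
    ext s
    exact (selL1 _ _ _ s).symm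
  rw [e, ncard_sel8, h]

theorem ncard_meet (o : Finset Cfsg.GolayPt) (ho : o ∈ Cfsg.octads) (k n : ℕ)
    (h : (List.range 4096).countP (selL 8 [(OM, k)]) = n) :
    {o' : Finset Cfsg.GolayPt | o' ∈ Cfsg.octads ∧ (o ∩ o').card = k}.ncard = n := by
  obtain ⟨g0, hg0, rfl⟩ := octad_trans o ho
  have htr : ∀ s : Finset Cfsg.GolayPt,
      g0 • s ∈ {o' : Finset Cfsg.GolayPt | o' ∈ Cfsg.octads ∧ (g0 • Oset ∩ o').card = k} ↔
      s ∈ {o' : Finset Cfsg.GolayPt | o' ∈ Cfsg.octads ∧ (Oset ∩ o').card = k} := by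
    intro s
    exact ⟨fun ⟨h1, h3⟩ => ⟨(smul_octad_iff hg0 s).mp h1,
        by rw [← card_inter_smul g0]; exact h3⟩,
      fun ⟨h1, h3⟩ => ⟨(smul_octad_iff hg0 s).mpr h1,
        by rw [card_inter_smul g0]; exact h3⟩⟩
  rw [ncard_transfer g0 _ _ htr]
  exact ncard_meet_std k n h

/-- Transitivity of an octad stabiliser on the octads meeting it in a given number of points. -/
theorem stab_trans (o o' o'' : Finset Cfsg.GolayPt) (ho : o ∈ Cfsg.octads)
    (ho' : o' ∈ Cfsg.octads) (ho'' : o'' ∈ Cfsg.octads)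
    (h : (o ∩ o').card = (o ∩ o'').card) :
    ∃ g : Equiv.Perm Cfsg.GolayPt, g ∈ Cfsg.M24 ∧ g • o = o ∧ g • o' = o'' := by
  obtain ⟨g0, hg0, rfl⟩ := octad_trans o ho
  obtain ⟨k, hk, hko⟩ := octad_orbits (g0⁻¹ • o') (g0⁻¹ • o'') (smul_octad (inv_mem hg0) ho')
    (smul_octad (inv_mem hg0) ho'')
    (by rw [card_inter_inv_smul, card_inter_inv_smul]; exact h)
  rw [mem_StabO] at hk
  refine ⟨g0 * k * g0⁻¹, mul_mem (mul_mem hg0 hk.1) (inv_mem hg0), ?_, ?_⟩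
  · rw [mul_smul, mul_smul, inv_smul_smul, hk.2]
  · rw [mul_smul, mul_smul, hko, smul_inv_smul]

theorem orbit_stab (o o' : Finset Cfsg.GolayPt) (ho : o ∈ Cfsg.octads) (ho' : o' ∈ Cfsg.octads) :
    MulAction.orbit ↥(MulAction.stabilizer Cfsg.M24 o) o' =
      {o'' : Finset Cfsg.GolayPt | o'' ∈ Cfsg.octads ∧ (o ∩ o'').card = (o ∩ o').card} := by
  ext x
  constructor
  · rintro ⟨g, rfl⟩
    have hg : (g : Equiv.Perm Cfsg.GolayPt) • o = o := g.2
    refine ⟨smul_octad g.1.2 ho', ?_⟩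
    have : (g : Equiv.Perm Cfsg.GolayPt) • o ∩ (g : Equiv.Perm Cfsg.GolayPt) • o' =
        o ∩ (g : Equiv.Perm Cfsg.GolayPt) • o' := by rw [hg]
    have h2 := card_inter_smul (g : Equiv.Perm Cfsg.GolayPt) o o'
    rw [this] at h2
    exact h2
  · rintro ⟨hx, hk⟩
    obtain ⟨g, hg, hgo, hgx⟩ := stab_trans o o' x ho ho' hx hk.symm
    exact ⟨⟨⟨g, hg⟩, hgo⟩, hgx⟩

theorem card_stab2 (o o' : Finset Cfsg.GolayPt) (ho : o ∈ Cfsg.octads) (ho' : o' ∈ Cfsg.octads) :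
    Nat.card ↥(MulAction.stabilizer Cfsg.M24 o ⊓ MulAction.stabilizer Cfsg.M24 o') *
      {o'' : Finset Cfsg.GolayPt | o'' ∈ Cfsg.octads ∧ (o ∩ o'').card = (o ∩ o').card}.ncard
      = 322560 := by
  have h1 := Subgroup.card_mul_index
    (MulAction.stabilizer ↥(MulAction.stabilizer Cfsg.M24 o) o')
  rw [MulAction.index_stabilizer, orbit_stab o o' ho ho', card_stab_sub, card_StabS o ho] at h1
  rw [← h1]
  congr 1
  apply Nat.card_congr
  exact
    { toFun := fun y => ⟨⟨y.1, y.2.1⟩, y.2.2⟩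
      invFun := fun x => ⟨x.1.1, ⟨x.1.2, x.2⟩⟩
      left_inv := fun _ => rfl
      right_inv := fun _ => rfl }

theorem card_stab2_cases (o o' : Finset Cfsg.GolayPt) (ho : o ∈ Cfsg.octads)
    (ho' : o' ∈ Cfsg.octads) :
    ((o ∩ o').card = 0 → Nat.card ↥(MulAction.stabilizer Cfsg.M24 o ⊓
      MulAction.stabilizer Cfsg.M24 o') = 10752) ∧
    ((o ∩ o').card = 4 → Nat.card ↥(MulAction.stabilizer Cfsg.M24 o ⊓
      MulAction.stabilizer Cfsg.M24 o') = 1152) ∧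
    ((o ∩ o').card = 2 → Nat.card ↥(MulAction.stabilizer Cfsg.M24 o ⊓
      MulAction.stabilizer Cfsg.M24 o') = 720) := by
  have h := card_stab2 o o' ho ho'
  refine ⟨fun h0 => ?_, fun h4 => ?_, fun h2 => ?_⟩
  · rw [h0, ncard_meet o ho 0 30 cntM0] at h
    omega
  · rw [h4, ncard_meet o ho 4 280 cntM4] at h
    omega
  · rw [h2, ncard_meet o ho 2 448 cntM2] at h
    omega

end Cfsg.Agent.Lib.Helper9.M24St
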