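import Mathlib
import Cfsg.Prelude.Def_SporadicCombinatorics
import Cfsg.Agent.Lib.Helper9.M24F
import Cfsg.Agent.Lib.Helper9.M24St

set_option autoImplicit false

/-! The joint stabiliser of two disjoint octads is transitive on the 28 octads disjoint from the
first and meeting the second in four points. -/

namespace Cfsg.Agent.Lib.Helper9.TrioOrb

open Cfsg.Agent.Lib.Helper9.Golay Cfsg.Agent.Lib.Helper9.GolayC Cfsg.Agent.Lib.Helper9.M24C
open Cfsg.Agent.Lib.Helper9.Octad Cfsg.Agent.Lib.Helper9.M24B Cfsg.Agent.Lib.Helper9.M24T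
open Cfsg.Agent.Lib.Helper9.M24O Cfsg.Agent.Lib.Helper9.M24Oct Cfsg.Agent.Lib.Helper9.M24OS
open Cfsg.Agent.Lib.Helper9.M24M Cfsg.Agent.Lib.Helper9.M24CO Cfsg.Agent.Lib.Helper9.M24F
open Cfsg.Agent.Lib.Helper9.M24St
open scoped Pointwise

def PRT : List (ℕ × ℕ) := [(70, 109), (223, 143), (224, 173), (20, 62), (226, 80), (227, 138), (228, 152), (12, 49), (230, 98), (231, 147), (232, 152), (1, 66), (234, 90), (235, 127), (236, 182), (188, 216), (188, 225), (188, 229), (188, 233), (215, 237), (233, 225), (238, 225), (239, 188), (239, 197), (240, 237), (243, 188), (242, 242), (249, 249), (242, 250), (248, 251), (246, 233), (237, 237), (254, 254), (237, 255), (253, 256), (247, 216), (245, 245), (259, 259), (245, 260), (260, 260), (261, 262), (258, 263), (244, 229), (241, 229), (266, 251)]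

def GT : List (List ℕ) := [[1, 5, 23, 14, 18, 17, 22, 15, 20, 16, 9, 21, 12, 13, 0, 8, 10, 3, 4, 11, 6, 19, 7, 2],
  [14, 5, 2, 3, 8, 17, 18, 20, 22, 13, 21, 19, 16, 9, 23, 7, 11, 1, 6, 10, 4, 12, 15, 0],
  [17, 3, 23, 2, 6, 0, 4, 7, 20, 11, 9, 12, 10, 16, 5, 15, 19, 14, 18, 21, 8, 13, 22, 1],
  [14, 0, 23, 2, 4, 5, 7, 15, 6, 16, 12, 10, 19, 11, 3, 18, 13, 1, 20, 9, 22, 21, 8, 17],
  [0, 5, 23, 17, 8, 2, 4, 18, 7, 19, 9, 21, 10, 11, 1, 6, 16, 14, 20, 13, 15, 12, 22, 3],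
  [0, 1, 2, 3, 8, 5, 20, 15, 4, 21, 19, 13, 16, 11, 14, 7, 12, 17, 22, 10, 6, 9, 18, 23]]

def AM : ℕ := 2702848

def cT : ℕ := 159

set_option maxRecDepth 100000 in
def QT : List (ℕ × ℕ × ℕ) := [(379, 0, 159), (725, 1, 159), (1742, 2, 159), (1801, 3, 159), (909, 4, 159), (344, 5, 159), (817, 1, 379), (1834, 2, 379), (1773, 3, 379), (617, 4, 379), (188, 5, 379), (586, 1, 725), (758, 2, 725), (1500, 4, 725), (786, 5, 725), (1051, 0, 1742), (1650, 0, 909), (1535, 2, 909), (1347, 3, 909), (1942, 4, 909), (942, 1, 817), (1080, 4, 817), (1191, 3, 617), (1973, 0, 586), (1156, 3, 586), (1617, 4, 586), (1376, 4, 1051)]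

/-- The joint stabiliser of two sets given by masks. -/
def KS2 (m1 m2 : ℕ) : Subgroup (Equiv.Perm Cfsg.GolayPt) where
  carrier := {g | g ∈ Cfsg.M24 ∧ g • maskSet m1 = maskSet m1 ∧ g • maskSet m2 = maskSet m2}
  mul_mem' := by
    rintro a b ⟨ha, ha', ha''⟩ ⟨hb, hb', hb''⟩
    exact ⟨mul_mem ha hb, by rw [mul_smul, hb', ha'], by rw [mul_smul, hb'', ha'']⟩
  one_mem' := ⟨one_mem _, one_smul _ _, one_smul _ _⟩
  inv_mem' := by
    rintro a ⟨ha, ha', ha''⟩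
    exact ⟨inv_mem ha, by rw [inv_smul_eq_iff, ha'], by rw [inv_smul_eq_iff, ha'']⟩

theorem mem_KS2 (m1 m2 : ℕ) (g : Equiv.Perm Cfsg.GolayPt) :
    g ∈ KS2 m1 m2 ↔ g ∈ Cfsg.M24 ∧ g • maskSet m1 = maskSet m1 ∧ g • maskSet m2 = maskSet m2 :=
  Iff.rfl

set_option maxRecDepth 100000 in
theorem gt_run : ∀ t ∈ GT, t ∈ run TT PRT := by decide +kernel

set_option maxRecDepth 100000 in
theorem gt_inv1 : ∀ t ∈ GT, invB t OM = true := by decide +kernel

set_option maxRecDepth 100000 in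
theorem gt_inv2 : ∀ t ∈ GT, invB t AM = true := by decide +kernel

theorem gt_mem : ∀ t ∈ GT, ∃ g ∈ KS2 OM AM, IsTable g t := by
  intro t ht
  obtain ⟨g, hg, hT⟩ := run_TT PRT t (gt_run t ht)
  exact ⟨g, ⟨hg, (invB_iff hT OM).mpr (gt_inv1 t ht), (invB_iff hT AM).mpr (gt_inv2 t ht)⟩, hT⟩

set_option maxRecDepth 100000 in
theorem covT : coverB (orbC GT (1 <<< cT) QT) (selL 8 [(OM, 0), (AM, 4)]) = true := by
  decide +kernel

/-- The second standard octad. -/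
def Aset : Finset Cfsg.GolayPt := maskSet AM

theorem AM_lin : AM = lin LB 35 := by decide +kernel

theorem Aset_mem : Aset ∈ Cfsg.octads := by
  unfold Aset
  rw [AM_lin]
  exact maskSet_octad 35 (by decide +kernel)

theorem OA_disjoint : Disjoint Oset Aset := by
  rw [Finset.disjoint_iff_inter_eq_empty, ← Finset.card_eq_zero]
  unfold Oset Aset
  rw [← maskSet_and, card_maskSet]
  decide +kernel

theorem trans_std (s s' : Finset Cfsg.GolayPt)
    (hs : s ∈ Cfsg.octads ∧ (Oset ∩ s).card = 0 ∧ (Aset ∩ s).card = 4)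
    (hs' : s' ∈ Cfsg.octads ∧ (Oset ∩ s').card = 0 ∧ (Aset ∩ s').card = 4) :
    ∃ g ∈ Cfsg.M24, g • Oset = Oset ∧ g • Aset = Aset ∧ g • s = s' := by
  obtain ⟨g, hg, h⟩ := orb_sel8 (KS2 OM AM) GT gt_mem [(OM, 0), (AM, 4)] cT QT covT s s'
    ((selL2 _ _ _ _ _ s).mpr hs) ((selL2 _ _ _ _ _ s').mpr hs')
  exact ⟨g, hg.1, hg.2.1, hg.2.2, h⟩

/-- Pairs of disjoint octads form one orbit. -/
theorem pair_trans (o A : Finset Cfsg.GolayPt) (ho : o ∈ Cfsg.octads) (hA : A ∈ Cfsg.octads)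
    (hd : Disjoint o A) : ∃ h ∈ Cfsg.M24, h • Oset = o ∧ h • Aset = A := by
  obtain ⟨g0, hg0, rfl⟩ := octad_trans o ho
  obtain ⟨g1, hg1, h1, h2⟩ := stab_trans Oset Aset (g0⁻¹ • A) Oset_mem Aset_mem
    (smul_octad (inv_mem hg0) hA) (by
      rw [card_inter_inv_smul, Finset.card_eq_zero.mpr (Finset.disjoint_iff_inter_eq_empty.mp hd),
        Finset.card_eq_zero.mpr (Finset.disjoint_iff_inter_eq_empty.mp OA_disjoint)])
  refine ⟨g0 * g1, mul_mem hg0 hg1, ?_, ?_⟩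
  · rw [mul_smul, h1]
  · rw [mul_smul, h2, smul_inv_smul]

/-- The joint stabiliser of two disjoint octads is transitive on the octads disjoint from the
first and meeting the second in four points. -/
theorem trans2 (o A X X' : Finset Cfsg.GolayPt) (ho : o ∈ Cfsg.octads) (hA : A ∈ Cfsg.octads)
    (hd : Disjoint o A) (hX : X ∈ Cfsg.octads) (hX' : X' ∈ Cfsg.octads)
    (h0 : (o ∩ X).card = 0) (h0' : (o ∩ X').card = 0)
    (h4 : (A ∩ X).card = 4) (h4' : (A ∩ X').card = 4) :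
    ∃ g ∈ Cfsg.M24, g • o = o ∧ g • A = A ∧ g • X = X' := by
  obtain ⟨h, hh, rfl, rfl⟩ := pair_trans o A ho hA hd
  obtain ⟨k, hk, k1, k2, k3⟩ := trans_std (h⁻¹ • X) (h⁻¹ • X')
    ⟨smul_octad (inv_mem hh) hX, by rw [card_inter_inv_smul]; exact h0,
      by rw [card_inter_inv_smul]; exact h4⟩
    ⟨smul_octad (inv_mem hh) hX', by rw [card_inter_inv_smul]; exact h0',
      by rw [card_inter_inv_smul]; exact h4'⟩
  refine ⟨h * k * h⁻¹, mul_mem (mul_mem hh hk) (inv_mem hh), ?_, ?_, ?_⟩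
  · rw [mul_smul, mul_smul, inv_smul_smul, k1]
  · rw [mul_smul, mul_smul, inv_smul_smul, k2]
  · rw [mul_smul, mul_smul, k3, smul_inv_smul]

end Cfsg.Agent.Lib.Helper9.TrioOrb
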