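import Mathlib
import Cfsg.Prelude.Def_SporadicCombinatorics
import Cfsg.Agent.Lib.Helper9.TrioOrb

set_option autoImplicit false

/-! Two further orbit certificates for joint stabilisers of two octads. -/

namespace Cfsg.Agent.Lib.Helper9.OctOrb

open Cfsg.Agent.Lib.Helper9.Golay Cfsg.Agent.Lib.Helper9.GolayC Cfsg.Agent.Lib.Helper9.M24C
open Cfsg.Agent.Lib.Helper9.Octad Cfsg.Agent.Lib.Helper9.M24B Cfsg.Agent.Lib.Helper9.M24T
open Cfsg.Agent.Lib.Helper9.M24O Cfsg.Agent.Lib.Helper9.M24Oct Cfsg.Agent.Lib.Helper9.M24OS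
open Cfsg.Agent.Lib.Helper9.M24M Cfsg.Agent.Lib.Helper9.M24CO Cfsg.Agent.Lib.Helper9.M24F
open Cfsg.Agent.Lib.Helper9.M24St Cfsg.Agent.Lib.Helper9.TrioOrb
open scoped Pointwise

def cU : ℕ := 70

set_option maxRecDepth 100000 in
def QU : List (ℕ × ℕ × ℕ) := [(609, 0, 70), (968, 1, 70), (1450, 2, 70), (3823, 3, 70), (1400, 4, 70), (1000, 5, 70), (381, 0, 609), (1178, 1, 609), (391, 2, 609), (1234, 3, 609), (4039, 4, 609), (1043, 5, 609), (315, 0, 968), (4068, 1, 968), (1572, 2, 968), (807, 3, 968), (1131, 4, 968), (386, 5, 968), (540, 0, 1450), (2573, 1, 1450), (285, 2, 1450), (3963, 3, 1450), (1325, 4, 1450), (118, 5, 1450), (1797, 0, 3823), (2680, 1, 3823), (1576, 2, 3823), (961, 3, 3823), (1504, 4, 3823), (3393, 5, 3823), (709, 0, 1400), (578, 1, 1400), (404, 2, 1400), (3683, 3, 1400), (3304, 4, 1400), (1371, 5, 1400), (1072, 0, 1000), (691, 1, 1000), (2959, 3, 1000), (717, 4, 1000), (1003, 0, 381), (1601, 1, 381),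 (2988, 2, 381), (2483, 3, 381), (1342, 4, 381), (1349, 5, 381), (85, 0, 1178), (1750, 1, 1178), (3318, 2, 1178), (217, 3, 1178), (2651, 4, 1178), (326, 5, 1178), (210, 0, 391), (1919, 1, 391), (2283, 2, 391), (2006, 5, 391), (1963, 0, 1234), (1096, 1, 1234), (449, 4, 1234), (301, 5, 1234), (1475, 0, 4039), (3895, 2, 4039), (1430, 3, 4039), (375, 4, 4039), (3469, 5, 4039), (1086, 0, 1043), (944, 1, 1043), (270, 3, 1043), (3285, 4, 1043), (394, 0, 315), (1417, 1, 315), (3590, 2, 315), (1884, 3, 315), (1709, 5, 315), (101, 1, 4068), (3860, 2, 4068), (1461, 3, 4068), (340, 4, 4068), (3502, 5, 4068), (1569, 1, 1572), (659, 2, 1572), (570, 0, 807), (1053, 1, 807), (3836, 2, 807), (1207, 3, 807), (137, 5, 807), (175, 0, 1131), (3770, 1, 1131), (3164, 2, 1131), (482, 3, 1131), (957, 4, 1131), (1678, 0, 386), (1955, 3, 386), (250, 2, 540), (420, 1, 2573), (1012, 3, 2573), (211, 4, 2573), (2606, 5, 2573), (2037, 0, 285), (170,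 3, 285), (439, 4, 285), (656, 5, 285), (1179, 0, 3963), (688, 1, 3963), (2522, 2, 3963), (700, 3, 3963), (729, 4, 3963), (3645, 1, 1325), (2942, 0, 1797), (714, 1, 1797), (1294, 3, 1797), (742, 4, 1797), (1830, 5, 1797), (2023, 0, 2680), (140, 1, 2680), (1208, 3, 2680), (2012, 4, 2680), (240, 1, 1576), (1164, 3, 1576), (2501, 0, 961), (305, 1, 961), (1140, 5, 961), (3807, 0, 1504), (794, 2, 1504), (630, 5, 1504), (2819, 1, 3393), (1697, 3, 3393), (597, 4, 3393), (926, 2, 709), (1928, 4, 709), (1172, 5, 709), (350, 0, 578), (1209, 1, 578), (1265, 3, 578), (2248, 1, 404), (4082, 2, 404), (1849, 4, 404), (1330, 0, 3683), (1818, 1, 3683), (2047, 2, 3683), (274, 0, 3304), (125, 1, 3304), (1111, 2, 3304), (2553, 4, 3304), (3648, 3, 1371), (3275, 4, 1371), (915, 1, 1072), (1482, 3, 691), (1538, 4, 691), (318, 5, 691), (1359, 0, 2959), (840, 2, 2959), (745, 4, 2959), (2534, 5, 2959), (1199, 1, 717), (750, 5, 717), (280, 0, 1003),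 (1543, 2, 1003), (772, 3, 1003), (417, 5, 1003), (3199, 3, 1601), (357, 4, 1601), (471, 5, 1601), (1388, 0, 2988), (875, 2, 2988), (164, 0, 1342), (2448, 4, 1342), (1715, 5, 1342), (500, 1, 1349), (425, 4, 85), (825, 1, 1750), (2909, 4, 1750), (1781, 5, 1750), (3109, 2, 3318), (868, 2, 217), (1988, 0, 2651), (839, 0, 326), (135, 1, 326), (2127, 1, 210), (2119, 1, 1919), (241, 4, 1919), (1912, 4, 2283), (3737, 5, 2283), (1458, 0, 2006), (1680, 4, 449), (2860, 0, 3895), (1883, 2, 3895), (2831, 5, 3895), (4049, 0, 1430), (2156, 3, 1430), (532, 4, 1086), (971, 3, 944), (537, 1, 270), (1382, 4, 270), (3078, 2, 3285), (3928, 5, 3285), (1920, 2, 394), (575, 0, 1417), (1904, 0, 3590), (2148, 1, 1884), (3788, 3, 101), (762, 1, 3860), (1297, 3, 3860), (3614, 0, 340), (3621, 1, 1569), (1516, 4, 1569), (3426, 3, 659), (1487, 0, 570), (567, 4, 1053), (1097, 0, 3836), (2848, 5, 3836), (1513, 0, 1207), (1547, 3, 3164), (994, 4, 3164),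 (1309, 0, 957), (983, 3, 2606), (1425, 0, 2037), (671, 1, 240), (1666, 5, 240), (1130, 0, 3807), (1634, 1, 350), (94, 1, 3275), (1875, 5, 840)]

def PRV : List (ℕ × ℕ) := [(70, 109), (223, 143), (224, 173), (12, 49), (226, 98), (227, 147), (228, 152), (1, 66), (230, 90), (231, 127), (232, 182), (188, 225), (233, 225), (202, 225), (234, 229), (235, 225), (236, 188), (238, 188), (237, 237), (241, 241), (241, 242), (242, 242), (243, 244), (239, 214), (246, 245), (239, 233), (240, 240), (249, 249), (248, 250)]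

def GV : List (List ℕ) := [[2, 1, 0, 14, 7, 17, 21, 18, 19, 9, 22, 16, 15, 4, 23, 11, 10, 5, 8, 13, 6, 20, 12, 3],
  [5, 3, 2, 14, 10, 17, 20, 11, 19, 21, 22, 16, 7, 12, 1, 13, 15, 0, 4, 18, 6, 9, 8, 23]]

def XM : ℕ := 3277413

def cV : ℕ := 125

set_option maxRecDepth 100000 in
def QV : List (ℕ × ℕ × ℕ) := [(2909, 0, 125), (815, 1, 125), (3254, 0, 2909), (3502, 1, 2909), (4068, 0, 815), (1678, 1, 815), (1441, 0, 3254), (3275, 1, 3254), (1220, 0, 3502), (280, 0, 4068), (2410, 1, 4068), (567, 1, 1678), (1209, 1, 1441), (3836, 0, 3275), (1779, 0, 1220), (2027, 1, 1220), (357, 0, 280), (3713, 0, 567), (2327, 1, 3836), (2162, 0, 1779), (2616, 0, 357), (850, 1, 357), (2848, 0, 3713)]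

set_option maxRecDepth 100000 in
theorem covU : coverB (orbC GT (1 <<< cU) QU) (selL 8 [(OM, 2), (AM, 4)]) = true := by
  decide +kernel

theorem transU_std (s s' : Finset Cfsg.GolayPt)
    (hs : s ∈ Cfsg.octads ∧ (Oset ∩ s).card = 2 ∧ (Aset ∩ s).card = 4)
    (hs' : s' ∈ Cfsg.octads ∧ (Oset ∩ s').card = 2 ∧ (Aset ∩ s').card = 4) :
    ∃ g ∈ Cfsg.M24, g • Oset = Oset ∧ g • Aset = Aset ∧ g • s = s' := by
  obtain ⟨g, hg, h⟩ := orb_sel8 (KS2 OM AM) GT gt_mem [(OM, 2), (AM, 4)] cU QU covU s s'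
    ((selL2 _ _ _ _ _ s).mpr hs) ((selL2 _ _ _ _ _ s').mpr hs')
  exact ⟨g, hg.1, hg.2.1, hg.2.2, h⟩

/-- The joint stabiliser of two disjoint octads is transitive on the octads meeting the first
in two points and the second in four. -/
theorem transU (o A X X' : Finset Cfsg.GolayPt) (ho : o ∈ Cfsg.octads) (hA : A ∈ Cfsg.octads)
    (hd : Disjoint o A) (hX : X ∈ Cfsg.octads) (hX' : X' ∈ Cfsg.octads)
    (h0 : (o ∩ X).card = 2) (h0' : (o ∩ X').card = 2)
    (h4 : (A ∩ X).card = 4) (h4' : (A ∩ X').card = 4) :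
    ∃ g ∈ Cfsg.M24, g • o = o ∧ g • A = A ∧ g • X = X' := by
  obtain ⟨h, hh, rfl, rfl⟩ := pair_trans o A ho hA hd
  obtain ⟨k, hk, k1, k2, k3⟩ := transU_std (h⁻¹ • X) (h⁻¹ • X')
    ⟨smul_octad (inv_mem hh) hX, by rw [card_inter_inv_smul]; exact h0,
      by rw [card_inter_inv_smul]; exact h4⟩
    ⟨smul_octad (inv_mem hh) hX', by rw [card_inter_inv_smul]; exact h0',
      by rw [card_inter_inv_smul]; exact h4'⟩
  refine ⟨h * k * h⁻¹, mul_mem (mul_mem hh hk) (inv_mem hh), ?_, ?_, ?_⟩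
  · rw [mul_smul, mul_smul, inv_smul_smul, k1]
  · rw [mul_smul, mul_smul, inv_smul_smul, k2]
  · rw [mul_smul, mul_smul, k3, smul_inv_smul]

set_option maxRecDepth 100000 in
theorem gv_run : ∀ t ∈ GV, t ∈ run TT PRV := by decide +kernel

set_option maxRecDepth 100000 in
theorem gv_inv1 : ∀ t ∈ GV, invB t OM = true := by decide +kernel

set_option maxRecDepth 100000 in
theorem gv_inv2 : ∀ t ∈ GV, invB t XM = true := by decide +kernel

theorem gv_mem : ∀ t ∈ GV, ∃ g ∈ KS2 OM XM, IsTable g t := by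
  intro t ht
  obtain ⟨g, hg, hT⟩ := run_TT PRV t (gv_run t ht)
  exact ⟨g, ⟨hg, (invB_iff hT OM).mpr (gv_inv1 t ht), (invB_iff hT XM).mpr (gv_inv2 t ht)⟩, hT⟩

set_option maxRecDepth 100000 in
theorem covV : coverB (orbC GV (1 <<< cV) QV) (selL 8 [(OM, 2), (XM, 0)]) = true := by
  decide +kernel

/-- A standard octad meeting the first in four points. -/
def Xset : Finset Cfsg.GolayPt := maskSet XM

theorem XM_lin : XM = lin LB 15 := by decide +kernel

theorem Xset_mem : Xset ∈ Cfsg.octads := by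
  unfold Xset
  rw [XM_lin]
  exact maskSet_octad 15 (by decide +kernel)

theorem OX_card : (Oset ∩ Xset).card = 4 := by
  unfold Oset Xset
  rw [← maskSet_and, card_maskSet]
  decide +kernel

theorem transV_std (s s' : Finset Cfsg.GolayPt)
    (hs : s ∈ Cfsg.octads ∧ (Oset ∩ s).card = 2 ∧ (Xset ∩ s).card = 0)
    (hs' : s' ∈ Cfsg.octads ∧ (Oset ∩ s').card = 2 ∧ (Xset ∩ s').card = 0) :
    ∃ g ∈ Cfsg.M24, g • Oset = Oset ∧ g • Xset = Xset ∧ g • s = s' := by
  obtain ⟨g, hg, h⟩ := orb_sel8 (KS2 OM XM) GV gv_mem [(OM, 2), (XM, 0)] cV QV covV s s'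
    ((selL2 _ _ _ _ _ s).mpr hs) ((selL2 _ _ _ _ _ s').mpr hs')
  exact ⟨g, hg.1, hg.2.1, hg.2.2, h⟩

/-- Pairs of octads meeting in four points form one orbit. -/
theorem pair4_trans (o X : Finset Cfsg.GolayPt) (ho : o ∈ Cfsg.octads) (hX : X ∈ Cfsg.octads)
    (h4 : (o ∩ X).card = 4) : ∃ h ∈ Cfsg.M24, h • Oset = o ∧ h • Xset = X := by
  obtain ⟨g0, hg0, rfl⟩ := octad_trans o ho
  obtain ⟨g1, hg1, h1, h2⟩ := stab_trans Oset Xset (g0⁻¹ • X) Oset_mem Xset_mem
    (smul_octad (inv_mem hg0) hX) (by rw [card_inter_inv_smul, h4, OX_card])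
  refine ⟨g0 * g1, mul_mem hg0 hg1, ?_, ?_⟩
  · rw [mul_smul, h1]
  · rw [mul_smul, h2, smul_inv_smul]

/-- The joint stabiliser of two octads meeting in four points is transitive on the octads
meeting the first in two points and disjoint from the second. -/
theorem transV (o X Y Y' : Finset Cfsg.GolayPt) (ho : o ∈ Cfsg.octads) (hX : X ∈ Cfsg.octads)
    (hoX : (o ∩ X).card = 4) (hY : Y ∈ Cfsg.octads) (hY' : Y' ∈ Cfsg.octads)
    (h2 : (o ∩ Y).card = 2) (h2' : (o ∩ Y').card = 2)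
    (h0 : (X ∩ Y).card = 0) (h0' : (X ∩ Y').card = 0) :
    ∃ g ∈ Cfsg.M24, g • o = o ∧ g • X = X ∧ g • Y = Y' := by
  obtain ⟨h, hh, rfl, rfl⟩ := pair4_trans o X ho hX hoX
  obtain ⟨k, hk, k1, k2, k3⟩ := transV_std (h⁻¹ • Y) (h⁻¹ • Y')
    ⟨smul_octad (inv_mem hh) hY, by rw [card_inter_inv_smul]; exact h2,
      by rw [card_inter_inv_smul]; exact h0⟩
    ⟨smul_octad (inv_mem hh) hY', by rw [card_inter_inv_smul]; exact h2',
      by rw [card_inter_inv_smul]; exact h0'⟩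
  refine ⟨h * k * h⁻¹, mul_mem (mul_mem hh hk) (inv_mem hh), ?_, ?_, ?_⟩
  · rw [mul_smul, mul_smul, inv_smul_smul, k1]
  · rw [mul_smul, mul_smul, inv_smul_smul, k2]
  · rw [mul_smul, mul_smul, k3, smul_inv_smul]

end Cfsg.Agent.Lib.Helper9.OctOrb
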