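import Mathlib
import Cfsg.Prelude.Def_SporadicCombinatorics
import Cfsg.Agent.Lib.Helper9.Octad

set_option autoImplicit false

/-! Sextets: the unique sextet through a 4-set, and their number. -/

namespace Cfsg.Agent.Lib.Helper9.Sextet

open Cfsg.Agent.Lib.Helper9.Golay Cfsg.Agent.Lib.Helper9.GolayC Cfsg.Agent.Lib.Helper9.Octad

/-- The sextet through a 4-set. -/
noncomputable def sx (T : Finset Cfsg.GolayPt) : Finset (Finset Cfsg.GolayPt) :=
  insert T ((pencil T).image (fun q => q \ T))

theorem tet_card {T q : Finset Cfsg.GolayPt} (hT : T.card = 4) (hq : q ∈ pencil T) :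
    (q \ T).card = 4 := by
  rw [mem_pencil, mem_octads] at hq
  rw [Finset.card_sdiff_of_subset hq.2, hq.1.2, hT]

theorem tet_union {T q : Finset Cfsg.GolayPt} (hq : q ∈ pencil T) : T ∪ (q \ T) = q := by
  rw [mem_pencil] at hq
  exact Finset.union_sdiff_of_subset hq.2

theorem tet_inj (T : Finset Cfsg.GolayPt) :
    Set.InjOn (fun q => q \ T) (pencil T : Set (Finset Cfsg.GolayPt)) := by
  intro q hq q' hq' h
  rw [← tet_union hq, ← tet_union hq']
  exact congrArg (T ∪ ·) h

theorem sx_self (T : Finset Cfsg.GolayPt) : T ∈ sx T := Finset.mem_insert_self _ _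

theorem sx_card (T : Finset Cfsg.GolayPt) (hT : T.card = 4) : (sx T).card = 6 := by
  unfold sx
  rw [Finset.card_insert_of_notMem, Finset.card_image_of_injOn (tet_inj T), pencil_card T hT]
  intro h
  rw [Finset.mem_image] at h
  obtain ⟨q, hq, hqT⟩ := h
  have h1 : Disjoint (q \ T) T := Finset.sdiff_disjoint
  rw [hqT, Finset.disjoint_self_iff_empty] at h1
  rw [h1] at hT
  simp at hT

theorem sx_mem (T : Finset Cfsg.GolayPt) (hT : T.card = 4) : sx T ∈ Cfsg.sextets := by
  refine ⟨sx_card T hT, ?_, ?_⟩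
  · intro t ht
    unfold sx at ht
    rw [Finset.mem_insert, Finset.mem_image] at ht
    rcases ht with rfl | ⟨q, hq, rfl⟩
    · exact hT
    · exact tet_card hT hq
  · intro t ht u hu hne
    unfold sx at ht hu
    rw [Finset.mem_insert, Finset.mem_image] at ht hu
    rcases ht with ht | ⟨q, hq, rfl⟩ <;> rcases hu with hu | ⟨q', hq', rfl⟩
    · exact absurd (ht.trans hu.symm) hne
    · rw [ht, tet_union hq']; exact ((mem_pencil _ _).mp hq').1
    · rw [hu, Finset.union_comm, tet_union hq]; exact ((mem_pencil _ _).mp hq).1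
    · have hqq : q ≠ q' := fun h => hne (by rw [h])
      have hq1 := (mem_pencil _ _).mp hq
      have hq1' := (mem_pencil _ _).mp hq'
      have hi := pencil_inter hT hq1.1 hq1'.1 hqq hq1.2 hq1'.2
      have : q \ T ∪ q' \ T = symmDiff q q' := by
        rw [← hi]
        ext x
        simp only [Finset.mem_union, Finset.mem_sdiff, Finset.mem_inter, Finset.mem_symmDiff]
        tauto
      rw [this]
      exact symmDiff_mem hq1.1 hq1'.1 (by rw [hi]; exact hT)

theorem sextet_disjoint {S : Finset (Finset Cfsg.GolayPt)} (hS : S ∈ Cfsg.sextets)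
    {t u : Finset Cfsg.GolayPt} (ht : t ∈ S) (hu : u ∈ S) (hne : t ≠ u) : Disjoint t u := by
  have h8 := ((mem_octads _).mp (hS.2.2 t ht u hu hne)).2
  have h1 := hS.2.1 t ht
  have h2 := hS.2.1 u hu
  rw [← Finset.card_union_eq_card_add_card]
  omega

theorem sextet_eq {S : Finset (Finset Cfsg.GolayPt)} {T : Finset Cfsg.GolayPt}
    (hS : S ∈ Cfsg.sextets) (hT : T ∈ S) : S = sx T := by
  have hT4 := hS.2.1 T hT
  apply Finset.eq_of_subset_of_card_le
  · intro u hu
    unfold sx
    rw [Finset.mem_insert, Finset.mem_image]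
    by_cases h : u = T
    · left; exact h
    · right
      have hd := sextet_disjoint hS hT hu (Ne.symm h)
      exact ⟨T ∪ u, (mem_pencil _ _).mpr ⟨hS.2.2 T hT u hu (Ne.symm h), Finset.subset_union_left⟩,
        Finset.union_sdiff_cancel_left hd⟩
  · rw [sx_card T hT4, hS.1]

theorem sextet_nonempty {S : Finset (Finset Cfsg.GolayPt)} (hS : S ∈ Cfsg.sextets) :
    S.Nonempty := by
  rw [← Finset.card_pos, hS.1]; norm_num

theorem sextet_cover {S : Finset (Finset Cfsg.GolayPt)} (hS : S ∈ Cfsg.sextets)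
    (x : Cfsg.GolayPt) : ∃ t ∈ S, x ∈ t := by
  obtain ⟨T, hT⟩ := sextet_nonempty hS
  have hT4 := hS.2.1 T hT
  have hSx := sextet_eq hS hT
  by_cases hx : x ∈ T
  · exact ⟨T, hT, hx⟩
  · obtain ⟨q, hq, hxq⟩ := pencil_cover T hT4 x
    refine ⟨q \ T, ?_, Finset.mem_sdiff.mpr ⟨hxq, hx⟩⟩
    rw [hSx]; unfold sx
    exact Finset.mem_insert_of_mem (Finset.mem_image_of_mem _ hq)

/-- The finite set of all sextets. -/
noncomputable def SX : Finset (Finset (Finset Cfsg.GolayPt)) :=
  (Finset.powersetCard 4 Finset.univ).image sx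

theorem mem_SX (S : Finset (Finset Cfsg.GolayPt)) : S ∈ SX ↔ S ∈ Cfsg.sextets := by
  unfold SX
  rw [Finset.mem_image]
  constructor
  · rintro ⟨T, hT, rfl⟩
    exact sx_mem T (Finset.mem_powersetCard.mp hT).2
  · intro hS
    obtain ⟨T, hT⟩ := sextet_nonempty hS
    exact ⟨T, Finset.mem_powersetCard.mpr ⟨Finset.subset_univ _, hS.2.1 T hT⟩,
      (sextet_eq hS hT).symm⟩


theorem fib_card : ∀ S ∈ SX,
      ((Finset.powersetCard 4 Finset.univ).filter (fun T => sx T = S)).card = 6 := by
    intro S hS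
    rw [mem_SX] at hS
    have : (Finset.powersetCard 4 Finset.univ).filter (fun T => sx T = S) = S := by
      ext T
      rw [Finset.mem_filter, Finset.mem_powersetCard]
      constructor
      · rintro ⟨-, rfl⟩
        exact sx_self T
      · intro hT
        exact ⟨⟨Finset.subset_univ _, hS.2.1 T hT⟩, (sextet_eq hS hT).symm⟩
    rw [this, hS.1]

theorem card_fib_sum : (Finset.powersetCard 4 (Finset.univ : Finset Cfsg.GolayPt)).card = ∑ S ∈ SX, ((Finset.powersetCard 4 Finset.univ).filter (fun T => sx T = S)).card := Finset.card_eq_sum_card_fiberwise (f := sx)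
    (s := Finset.powersetCard 4 Finset.univ) (t := SX)
    (fun T hT => by unfold SX; exact Finset.mem_image_of_mem _ hT)

theorem card_p4 : (Finset.powersetCard 4 (Finset.univ : Finset Cfsg.GolayPt)).card = 10626 := by
  rw [Finset.card_powersetCard, Finset.card_univ, card_pts]
  norm_num [Nat.choose]

theorem card_aux {α : Type*} (s : Finset α) (h : 10626 = ∑ _x ∈ s, 6) : s.card = 1771 := by
  rw [Finset.sum_const, smul_eq_mul] at h
  omega

theorem card_SX : SX.card = 1771 := by
  have h1 := card_fib_sum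
  rw [Finset.sum_congr rfl fib_card, card_p4] at h1
  exact card_aux _ h1

theorem coe_SX : Cfsg.sextets = ↑SX := by
  ext S; rw [Finset.mem_coe, mem_SX]

theorem ncard_sextets : Cfsg.sextets.ncard = 1771 := by
  rw [coe_SX, Set.ncard_coe_finset, card_SX]

theorem s1550 : (∀ t : Finset Cfsg.GolayPt, t.card = 4 →
    ∃! S : Finset (Finset Cfsg.GolayPt), S ∈ Cfsg.sextets ∧ t ∈ S) ∧
    Cfsg.sextets.ncard = 1771 :=
  ⟨fun t ht => ⟨sx t, ⟨sx_mem t ht, sx_self t⟩, fun _ hS => sextet_eq hS.1 hS.2⟩, ncard_sextets⟩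

end Cfsg.Agent.Lib.Helper9.Sextet
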