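import Mathlib
import Cfsg.Prelude.Def_SporadicCombinatorics
import Cfsg.Agent.Lib.Helper9.Sextet
import Cfsg.Agent.Lib.Helper9.M24Rel

set_option autoImplicit false

/-! Sextets relative to a 3-set: types, counts and transitivity of the 3-set stabiliser. -/

namespace Cfsg.Agent.Lib.Helper9.SextetY

open Cfsg.Agent.Lib.Helper9.Golay Cfsg.Agent.Lib.Helper9.GolayC Cfsg.Agent.Lib.Helper9.M24C
open Cfsg.Agent.Lib.Helper9.Octad Cfsg.Agent.Lib.Helper9.M24B Cfsg.Agent.Lib.Helper9.M24T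
open Cfsg.Agent.Lib.Helper9.M24O Cfsg.Agent.Lib.Helper9.M24Oct Cfsg.Agent.Lib.Helper9.M24OS
open Cfsg.Agent.Lib.Helper9.M24Sim Cfsg.Agent.Lib.Helper9.M24F Cfsg.Agent.Lib.Helper9.M24Six
open Cfsg.Agent.Lib.Helper9.M24Tri Cfsg.Agent.Lib.Helper9.M24Rel Cfsg.Agent.Lib.Helper9.Sextet
open scoped Pointwise

theorem smul_sextet {g : Equiv.Perm Cfsg.GolayPt} (hg : g ∈ Cfsg.M24)
    {S : Finset (Finset Cfsg.GolayPt)} (hS : S ∈ Cfsg.sextets) : g • S ∈ Cfsg.sextets := by
  refine ⟨by rw [Finset.card_smul_finset]; exact hS.1, ?_, ?_⟩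
  · intro t ht
    obtain ⟨t0, ht0, rfl⟩ := Finset.mem_smul_finset.mp ht
    rw [Finset.card_smul_finset]; exact hS.2.1 t0 ht0
  · intro t ht u hu hne
    obtain ⟨t0, ht0, rfl⟩ := Finset.mem_smul_finset.mp ht
    obtain ⟨u0, hu0, rfl⟩ := Finset.mem_smul_finset.mp hu
    rw [← Finset.smul_finset_union]
    exact smul_octad hg (hS.2.2 t0 ht0 u0 hu0 (fun h => hne (by rw [h])))

theorem smul_sx {g : Equiv.Perm Cfsg.GolayPt} (hg : g ∈ Cfsg.M24) (T : Finset Cfsg.GolayPt)
    (hT : T.card = 4) : g • sx T = sx (g • T) :=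
  sextet_eq (smul_sextet hg (sx_mem T hT)) (Finset.smul_mem_smul_finset (sx_self T))

theorem conj_of_tet {g : Equiv.Perm Cfsg.GolayPt} (hg : g ∈ Cfsg.M24)
    {S S' : Finset (Finset Cfsg.GolayPt)} (hS : S ∈ Cfsg.sextets) (hS' : S' ∈ Cfsg.sextets)
    {t t' : Finset Cfsg.GolayPt} (ht : t ∈ S) (ht' : t' ∈ S') (h : g • t = t') :
    g • S = S' := by
  rw [sextet_eq hS ht, smul_sx hg t (hS.2.1 t ht), h, ← sextet_eq hS' ht']

theorem sum_inter {S : Finset (Finset Cfsg.GolayPt)} (hS : S ∈ Cfsg.sextets)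
    (Y : Finset Cfsg.GolayPt) : ∑ t ∈ S, (t ∩ Y).card = Y.card := by
  rw [← Finset.card_biUnion]
  · congr 1
    ext x
    rw [Finset.mem_biUnion]
    constructor
    · rintro ⟨t, -, hx⟩; exact (Finset.mem_inter.mp hx).2
    · intro hx
      obtain ⟨t, ht, hxt⟩ := sextet_cover hS x
      exact ⟨t, ht, Finset.mem_inter.mpr ⟨hxt, hx⟩⟩
  · intro t ht u hu hne
    exact (sextet_disjoint hS ht hu hne).mono Finset.inter_subset_left Finset.inter_subset_left

theorem sum_filter_inter {S : Finset (Finset Cfsg.GolayPt)} (hS : S ∈ Cfsg.sextets)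
    (Y : Finset Cfsg.GolayPt) :
    ∑ t ∈ S.filter (fun t => (t ∩ Y).Nonempty), (t ∩ Y).card = Y.card := by
  rw [← sum_inter hS Y]
  apply Finset.sum_subset (Finset.filter_subset _ _)
  intro t ht hnot
  rw [Finset.mem_filter] at hnot
  push Not at hnot
  have := hnot ht
  rw [this]; rfl

theorem card_le_sum (G : Finset (Finset Cfsg.GolayPt)) (Y : Finset Cfsg.GolayPt)
    (h : ∀ u ∈ G, (u ∩ Y).Nonempty) : G.card ≤ ∑ u ∈ G, (u ∩ Y).card := by
  have := Finset.card_nsmul_le_sum G (fun u => (u ∩ Y).card) 1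
    (fun u hu => Finset.card_pos.mpr (h u hu))
  simpa using this

theorem ty_one {S : Finset (Finset Cfsg.GolayPt)} (hS : S ∈ Cfsg.sextets)
    {Y : Finset Cfsg.GolayPt} (hY : Y.card = 3) {t : Finset Cfsg.GolayPt} (ht : t ∈ S)
    (h : (t ∩ Y).card = 3) : (S.filter fun t => (t ∩ Y).Nonempty).card = 1 := by
  have hs := sum_filter_inter hS Y
  have htF : t ∈ S.filter (fun t => (t ∩ Y).Nonempty) :=
    Finset.mem_filter.mpr ⟨ht, Finset.card_pos.mp (by omega)⟩
  rw [← Finset.add_sum_erase _ _ htF] at hs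
  have h1 := card_le_sum ((S.filter (fun t => (t ∩ Y).Nonempty)).erase t) Y
    (fun u hu => (Finset.mem_filter.mp (Finset.mem_of_mem_erase hu)).2)
  have h2 := Finset.card_erase_of_mem htF
  have h3 : 0 < (S.filter (fun t => (t ∩ Y).Nonempty)).card := Finset.card_pos.mpr ⟨t, htF⟩
  omega

theorem ty_two {S : Finset (Finset Cfsg.GolayPt)} (hS : S ∈ Cfsg.sextets)
    {Y : Finset Cfsg.GolayPt} (hY : Y.card = 3) {t : Finset Cfsg.GolayPt} (ht : t ∈ S)
    (h : (t ∩ Y).card = 2) : (S.filter fun t => (t ∩ Y).Nonempty).card = 2 := by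
  have hs := sum_filter_inter hS Y
  have htF : t ∈ S.filter (fun t => (t ∩ Y).Nonempty) :=
    Finset.mem_filter.mpr ⟨ht, Finset.card_pos.mp (by omega)⟩
  rw [← Finset.add_sum_erase _ _ htF] at hs
  have h1 := card_le_sum ((S.filter (fun t => (t ∩ Y).Nonempty)).erase t) Y
    (fun u hu => (Finset.mem_filter.mp (Finset.mem_of_mem_erase hu)).2)
  have h2 := Finset.card_erase_of_mem htF
  have h3 : 0 < (S.filter (fun t => (t ∩ Y).Nonempty)).card := Finset.card_pos.mpr ⟨t, htF⟩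
  have h4 : ((S.filter (fun t => (t ∩ Y).Nonempty)).erase t).card ≠ 0 := by
    intro h0
    rw [Finset.card_eq_zero] at h0
    rw [h0, Finset.sum_empty] at hs
    omega
  omega

theorem ty_three {S : Finset (Finset Cfsg.GolayPt)} (hS : S ∈ Cfsg.sextets)
    {Y : Finset Cfsg.GolayPt} (hY : Y.card = 3) (h : ∀ t ∈ S, (t ∩ Y).card ≤ 1) :
    (S.filter fun t => (t ∩ Y).Nonempty).card = 3 := by
  have hs := sum_filter_inter hS Y
  have h1 : ∀ t ∈ S.filter (fun t => (t ∩ Y).Nonempty), (t ∩ Y).card = 1 := by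
    intro t ht
    rw [Finset.mem_filter] at ht
    have := h t ht.1
    have := Finset.card_pos.mpr ht.2
    omega
  rw [Finset.sum_congr rfl h1, Finset.sum_const, smul_eq_mul, mul_one] at hs
  rw [hs, hY]

theorem ty_cases {S : Finset (Finset Cfsg.GolayPt)}
    {Y : Finset Cfsg.GolayPt} (hY : Y.card = 3) :
    (∃ t ∈ S, (t ∩ Y).card = 3) ∨ (∃ t ∈ S, (t ∩ Y).card = 2) ∨ (∀ t ∈ S, (t ∩ Y).card ≤ 1) := by
  by_cases h : ∀ t ∈ S, (t ∩ Y).card ≤ 1
  · right; right; exact h
  · push Not at h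
    obtain ⟨t, ht, h1⟩ := h
    have h3 : (t ∩ Y).card ≤ 3 := hY ▸ Finset.card_le_card Finset.inter_subset_right
    rcases (by omega : (t ∩ Y).card = 2 ∨ (t ∩ Y).card = 3) with h2 | h2
    · right; left; exact ⟨t, ht, h2⟩
    · left; exact ⟨t, ht, h2⟩

/-- Transitivity on six-point configurations of two sets lying in no octad. -/
theorem rel_trans6 (s y z : Finset Cfsg.GolayPt) (hyz : y.card = z.card)
    (hj : (s ∩ y).card = (s ∩ z).card) (h6 : s.card + y.card = 6 + (s ∩ y).card)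
    (hno : ¬ ∃ o ∈ Cfsg.octads, s ∪ y ⊆ o) (hno' : ¬ ∃ o ∈ Cfsg.octads, s ∪ z ⊆ o) :
    ∃ g ∈ Cfsg.M24, g • s = s ∧ g • y = z := by
  have c1 := Finset.card_sdiff_add_card_inter s y
  have c1' := Finset.card_sdiff_add_card_inter s z
  have c2 := Finset.card_sdiff_add_card_inter y s
  have c2' := Finset.card_sdiff_add_card_inter z s
  rw [Finset.inter_comm] at c2 c2'
  obtain ⟨J, hJ⟩ : ∃ J, (s ∩ y).card = J := ⟨_, rfl⟩
  obtain ⟨M, hM⟩ : ∃ M, (s \ y).card = M := ⟨_, rfl⟩
  obtain ⟨K, hK⟩ : ∃ K, (y \ s).card = K := ⟨_, rfl⟩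
  have hJMK : J + M + K = 6 := by omega
  obtain ⟨a, ha1, ha2, ha3⟩ := exists_enum (s ∩ y) J hJ
  obtain ⟨a', ha1', ha2', ha3'⟩ := exists_enum (s ∩ z) J (by omega)
  obtain ⟨b, hb1, hb2, hb3⟩ := exists_enum (s \ y) M hM
  obtain ⟨b', hb1', hb2', hb3'⟩ := exists_enum (s \ z) M (by omega)
  obtain ⟨c, hc1, hc2, hc3⟩ := exists_enum (y \ s) K hK
  obtain ⟨c', hc1', hc2', hc3'⟩ := exists_enum (z \ s) K (by omega)
  have dAB : ∀ t : Finset Cfsg.GolayPt, Disjoint (s ∩ t) (s \ t) := fun t =>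
    Finset.disjoint_left.mpr
      (fun p hp hp' => (Finset.mem_sdiff.mp hp').2 (Finset.mem_inter.mp hp).2)
  have dSC : ∀ t : Finset Cfsg.GolayPt, Disjoint s (t \ s) := fun t =>
    Finset.disjoint_left.mpr (fun p hp hp' => (Finset.mem_sdiff.mp hp').2 hp)
  have hs1 : ∀ i < J + M, cat a b J i ∈ s := by
    intro i hi
    unfold cat
    by_cases h : i < J
    · rw [if_pos h]
      exact Finset.mem_of_mem_inter_left (ha1 i h)
    · rw [if_neg h]
      exact (Finset.mem_sdiff.mp (hb1 (i - J) (by omega))).1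
  have hs1' : ∀ i < J + M, cat a' b' J i ∈ s := by
    intro i hi
    unfold cat
    by_cases h : i < J
    · rw [if_pos h]
      exact Finset.mem_of_mem_inter_left (ha1' i h)
    · rw [if_neg h]
      exact (Finset.mem_sdiff.mp (hb1' (i - J) (by omega))).1
  have hsur : ∀ (t : Finset Cfsg.GolayPt) (a b : ℕ → Cfsg.GolayPt),
      (∀ p ∈ s ∩ t, ∃ i < J, a i = p) → (∀ p ∈ s \ t, ∃ i < M, b i = p) →
      ∀ p ∈ s, ∃ i < J + M, cat a b J i = p := by
    intro t a b h1 h2 p hp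
    by_cases hpy : p ∈ t
    · obtain ⟨i, hi, rfl⟩ := h1 p (Finset.mem_inter.mpr ⟨hp, hpy⟩)
      exact ⟨i, by omega, by unfold cat; rw [if_pos hi]⟩
    · obtain ⟨i, hi, rfl⟩ := h2 p (Finset.mem_sdiff.mpr ⟨hp, hpy⟩)
      refine ⟨J + i, by omega, ?_⟩
      unfold cat
      rw [if_neg (by omega)]
      congr 1
      omega
  have hs2 := cat_inj (s ∩ y) (s \ y) (dAB y) a b J M ha1 hb1 ha2 hb2
  have hs2' := cat_inj (s ∩ z) (s \ z) (dAB z) a' b' J M ha1' hb1' ha2' hb2'
  have hX := cat_inj s (y \ s) (dSC y) (cat a b J) c (J + M) K hs1 hc1 hs2 hc2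
  have hX' := cat_inj s (z \ s) (dSC z) (cat a' b' J) c' (J + M) K hs1' hc1' hs2' hc2'
  rw [hJMK] at hX hX'
  have hout : ∀ (t : Finset Cfsg.GolayPt) (x c : ℕ → Cfsg.GolayPt),
      (∀ i < J + M, x i ∈ s) → (∀ i < K, c i ∈ t \ s) →
      (∀ p ∈ s, ∃ i < J + M, x i = p) → (∀ p ∈ t \ s, ∃ i < K, c i = p) →
      (¬ ∃ o ∈ Cfsg.octads, s ∪ t ⊆ o) →
      ¬ ∃ o ∈ Cfsg.octads, ∀ i < 6, cat x c (J + M) i ∈ o := by
    intro t x c h1 h2 h3 h4 hno
    rintro ⟨o, ho, h⟩
    apply hno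
    refine ⟨o, ho, ?_⟩
    have h' : ∀ i < J + M + K, cat x c (J + M) i ∈ o := fun i hi => h i (by omega)
    have := (cat_mem_iff s (t \ s) o x c (J + M) K h1 h2 h3 h4).mp h'
    intro p hp
    rcases Finset.mem_union.mp hp with hp | hp
    · exact this (Finset.mem_union_left _ hp)
    · by_cases hps : p ∈ s
      · exact this (Finset.mem_union_left _ hps)
      · exact this (Finset.mem_union_right _ (Finset.mem_sdiff.mpr ⟨hp, hps⟩))
  obtain ⟨g1, hg1, e1⟩ := tuple_out _ hX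
    (hout y _ c hs1 hc1 (hsur y a b ha3 hb3) hc3 hno)
  obtain ⟨g2, hg2, e2⟩ := tuple_out _ hX'
    (hout z _ c' hs1' hc1' (hsur z a' b' ha3' hb3') hc3' hno')
  have hgx : ∀ i < 6, (g2 * g1⁻¹) (cat (cat a b J) c (J + M) i) =
      cat (cat a' b' J) c' (J + M) i := by
    intro i hi
    rw [Equiv.Perm.mul_apply, ← e1 i hi, ← e2 i hi]
    simp
  obtain ⟨g, hg, hgd⟩ : ∃ g ∈ Cfsg.M24, g = g2 * g1⁻¹ := ⟨_, mul_mem hg2 (inv_mem hg1), rfl⟩
  rw [← hgd] at hgx
  have e1 : g • (s ∩ y) = s ∩ z :=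
    smul_eq_img g _ _ a a' J ha3 ha1' hj (fun i hi => by
      have := hgx i (by omega)
      have h1 : i < J + M := by omega
      simp only [cat, h1, hi, if_true] at this
      exact this)
  have e2 : g • (s \ y) = s \ z :=
    smul_eq_img g _ _ b b' M hb3 hb1' (by omega) (fun i hi => by
      have := hgx (J + i) (by omega)
      have h1 : J + i < J + M := by omega
      have h2 : ¬ (J + i < J) := by omega
      simp only [cat, h1, h2, if_true, if_false, Nat.add_sub_cancel_left] at this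
      exact this)
  have e3 : g • (y \ s) = z \ s :=
    smul_eq_img g _ _ c c' K hc3 hc1' (by omega) (fun i hi => by
      have := hgx (J + M + i) (by omega)
      have h2 : ¬ (J + M + i < J + M) := by omega
      simp only [cat, h2, if_false, Nat.add_sub_cancel_left] at this
      exact this)
  refine ⟨g, hg, ?_, ?_⟩
  · calc g • s = g • (s \ y ∪ s ∩ y) := by rw [Finset.sdiff_union_inter]
      _ = g • (s \ y) ∪ g • (s ∩ y) := Finset.smul_finset_union
      _ = s \ z ∪ s ∩ z := by rw [e1, e2]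
      _ = s := Finset.sdiff_union_inter s z
  · calc g • y = g • (y \ s ∪ y ∩ s) := by rw [Finset.sdiff_union_inter]
      _ = g • (y \ s) ∪ g • (y ∩ s) := Finset.smul_finset_union
      _ = z \ s ∪ z ∩ s := by rw [e3, Finset.inter_comm y s, e1, Finset.inter_comm s z]
      _ = z := Finset.sdiff_union_inter z s

theorem card_three {α : Type*} (s : Finset α) (f : α → ℕ)
    (h : ∀ x ∈ s, f x = 1 ∨ f x = 2 ∨ f x = 3) :
    s.card = (s.filter (fun x => f x = 1)).card + (s.filter (fun x => f x = 2)).card +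
      (s.filter (fun x => f x = 3)).card := by
  have h1 := Finset.card_eq_sum_card_fiberwise (f := f) (s := s) (t := {1, 2, 3}) (fun x hx => by
    rcases h x hx with h | h | h <;> simp [h])
  rw [h1, Finset.sum_insert (by decide), Finset.sum_insert (by decide), Finset.sum_singleton,
    Nat.add_assoc]

theorem set_eq_filter (P : Finset (Finset Cfsg.GolayPt) → Prop) [DecidablePred P] :
    {S | S ∈ Cfsg.sextets ∧ P S} = ↑(SX.filter P) := by
  ext S
  rw [Finset.mem_coe, Finset.mem_filter, mem_SX]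
  rfl

theorem type1_eq (Y : Finset Cfsg.GolayPt) (hY : Y.card = 3) :
    SX.filter (fun S => (S.filter fun t => (t ∩ Y).Nonempty).card = 1) =
      (Finset.univ \ Y).image (fun p => sx (insert p Y)) := by
  ext S
  rw [Finset.mem_filter, mem_SX, Finset.mem_image]
  constructor
  · rintro ⟨hS, h1⟩
    rcases ty_cases (S := S) hY with ⟨t, ht, h3⟩ | ⟨t, ht, h2⟩ | h
    · have hYt : Y ⊆ t := by
        have : t ∩ Y = Y :=
          Finset.eq_of_subset_of_card_le Finset.inter_subset_right (by rw [h3, hY])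
        rw [← this]; exact Finset.inter_subset_left
      have h4 := hS.2.1 t ht
      have hc : (t \ Y).card = 1 := by rw [Finset.card_sdiff_of_subset hYt, h4, hY]
      obtain ⟨p, hp⟩ := Finset.card_eq_one.mp hc
      have hpm : p ∈ t \ Y := by rw [hp]; exact Finset.mem_singleton_self p
      have hte : insert p Y = t := by
        rw [← Finset.sdiff_union_of_subset hYt, hp, Finset.insert_eq]
      refine ⟨p, Finset.mem_sdiff.mpr ⟨Finset.mem_univ _, (Finset.mem_sdiff.mp hpm).2⟩, ?_⟩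
      rw [hte]; exact (sextet_eq hS ht).symm
    · have := ty_two hS hY ht h2; omega
    · have := ty_three hS hY h; omega
  · rintro ⟨p, hp, rfl⟩
    have hpY : p ∉ Y := (Finset.mem_sdiff.mp hp).2
    have h4 : (insert p Y).card = 4 := by rw [Finset.card_insert_of_notMem hpY, hY]
    refine ⟨sx_mem _ h4, ty_one (sx_mem _ h4) hY (sx_self _) ?_⟩
    have : insert p Y ∩ Y = Y := Finset.inter_eq_right.mpr (Finset.subset_insert p Y)
    rw [this, hY]

theorem type1_card (Y : Finset Cfsg.GolayPt) (hY : Y.card = 3) :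
    (SX.filter (fun S => (S.filter fun t => (t ∩ Y).Nonempty).card = 1)).card = 21 := by
  rw [type1_eq Y hY, Finset.card_image_of_injOn,
    Finset.card_sdiff_of_subset (Finset.subset_univ _), Finset.card_univ, card_pts, hY]
  intro p hp p' hp' h
  change sx (insert p Y) = sx (insert p' Y) at h
  rw [Finset.mem_coe, Finset.mem_sdiff] at hp hp'
  have h4 : (insert p Y).card = 4 := by rw [Finset.card_insert_of_notMem hp.2, hY]
  have hS := sx_mem _ h4
  have hm : insert p' Y ∈ sx (insert p Y) := by rw [h]; exact sx_self _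
  by_contra hne
  obtain ⟨y, hy⟩ : Y.Nonempty := by rw [← Finset.card_pos, hY]; norm_num
  have hd := sextet_disjoint hS (sx_self _) hm (fun e => hne (by
    have : p ∈ insert p' Y := e ▸ Finset.mem_insert_self p Y
    rcases Finset.mem_insert.mp this with h | h
    · exact h
    · exact absurd h hp.2))
  exact Finset.disjoint_left.mp hd (Finset.mem_insert_of_mem hy) (Finset.mem_insert_of_mem hy)

theorem type2_eq (Y : Finset Cfsg.GolayPt) (hY : Y.card = 3) :
    SX.filter (fun S => (S.filter fun t => (t ∩ Y).Nonempty).card = 2) =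
      ((Finset.univ.powersetCard 4).filter (fun T => (Y ∩ T).card = 2)).image sx := by
  ext S
  rw [Finset.mem_filter, mem_SX, Finset.mem_image]
  constructor
  · rintro ⟨hS, h1⟩
    rcases ty_cases (S := S) hY with ⟨t, ht, h3⟩ | ⟨t, ht, h2⟩ | h
    · have := ty_one hS hY ht h3; omega
    · exact ⟨t, Finset.mem_filter.mpr ⟨Finset.mem_powersetCard.mpr
        ⟨Finset.subset_univ _, hS.2.1 t ht⟩, by rw [Finset.inter_comm]; exact h2⟩,
        (sextet_eq hS ht).symm⟩
    · have := ty_three hS hY h; omega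
  · rintro ⟨T, hT, rfl⟩
    rw [Finset.mem_filter, Finset.mem_powersetCard] at hT
    exact ⟨sx_mem T hT.1.2, ty_two (sx_mem T hT.1.2) hY (sx_self T)
      (by rw [Finset.inter_comm]; exact hT.2)⟩

theorem type2_card (Y : Finset Cfsg.GolayPt) (hY : Y.card = 3) :
    (SX.filter (fun S => (S.filter fun t => (t ∩ Y).Nonempty).card = 2)).card = 630 := by
  rw [type2_eq Y hY, Finset.card_image_of_injOn, card_inter_eq Y 4 2 (by norm_num), hY, card_pts]
  · norm_num [Nat.choose]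
  · intro T hT T' hT' h
    rw [Finset.mem_coe, Finset.mem_filter, Finset.mem_powersetCard] at hT hT'
    have hS := sx_mem T hT.1.2
    have hm : T' ∈ sx T := by rw [h]; exact sx_self _
    by_contra hne
    have hd := sextet_disjoint hS (sx_self T) hm hne
    have : ((Y ∩ T) ∪ (Y ∩ T')).card ≤ Y.card :=
      Finset.card_le_card (Finset.union_subset Finset.inter_subset_left Finset.inter_subset_left)
    rw [Finset.card_union_of_disjoint
      (hd.mono Finset.inter_subset_right Finset.inter_subset_right), hT.2, hT'.2, hY] at this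
    omega

theorem type3_card (Y : Finset Cfsg.GolayPt) (hY : Y.card = 3) :
    (SX.filter (fun S => (S.filter fun t => (t ∩ Y).Nonempty).card = 3)).card = 1120 := by
  have h := card_three SX (fun S => (S.filter fun t => (t ∩ Y).Nonempty).card) (fun S hS => by
    rw [mem_SX] at hS
    rcases ty_cases (S := S) hY with ⟨t, ht, h3⟩ | ⟨t, ht, h2⟩ | h
    · left; exact ty_one hS hY ht h3
    · right; left; exact ty_two hS hY ht h2
    · right; right; exact ty_three hS hY h)
  rw [card_SX, type1_card Y hY, type2_card Y hY] at h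
  omega

theorem no_octad {S : Finset (Finset Cfsg.GolayPt)} (hS : S ∈ Cfsg.sextets)
    {Y : Finset Cfsg.GolayPt} (hY : Y.card = 3) (h1 : ∀ t ∈ S, (t ∩ Y).card ≤ 1)
    {t : Finset Cfsg.GolayPt} (ht : t ∈ S) : ¬ ∃ o ∈ Cfsg.octads, Y ∪ t ⊆ o := by
  rintro ⟨o, ho, hsub⟩
  have hto : t ⊆ o := Finset.subset_union_right.trans hsub
  have hYo : Y ⊆ o := Finset.subset_union_left.trans hsub
  have hmem : o \ t ∈ S := by
    rw [sextet_eq hS ht]; unfold sx
    exact Finset.mem_insert_of_mem (Finset.mem_image_of_mem _ ((mem_pencil t o).mpr ⟨ho, hto⟩))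
  have hb := h1 (o \ t) hmem
  have ha := h1 t ht
  have hsub2 : Y ⊆ (t ∩ Y) ∪ ((o \ t) ∩ Y) := by
    intro p hp
    by_cases hpt : p ∈ t
    · exact Finset.mem_union_left _ (Finset.mem_inter.mpr ⟨hpt, hp⟩)
    · exact Finset.mem_union_right _
        (Finset.mem_inter.mpr ⟨Finset.mem_sdiff.mpr ⟨hYo hp, hpt⟩, hp⟩)
  have := (Finset.card_le_card hsub2).trans (Finset.card_union_le _ _)
  omega

theorem trans_Y (Y : Finset Cfsg.GolayPt) (hY : Y.card = 3)
    (S S' : Finset (Finset Cfsg.GolayPt)) (hS : S ∈ Cfsg.sextets) (hS' : S' ∈ Cfsg.sextets)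
    (h : (S.filter fun t => (t ∩ Y).Nonempty).card = (S'.filter fun t => (t ∩ Y).Nonempty).card) :
    ∃ g ∈ Cfsg.M24, g • Y = Y ∧ g • S = S' := by
  rcases ty_cases (S := S) hY with ⟨t, ht, h3⟩ | ⟨t, ht, h2⟩ | h1 <;>
  rcases ty_cases (S := S') hY with ⟨t', ht', h3'⟩ | ⟨t', ht', h2'⟩ | h1'
  · obtain ⟨g, hg, hgY, hgt⟩ := rel_trans Y t t' (by rw [hS.2.1 t ht, hS'.2.1 t' ht'])
      (by rw [Finset.inter_comm, h3, Finset.inter_comm, h3'])
      (by rw [hY, hS.2.1 t ht, Finset.inter_comm, h3]; norm_num)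
    exact ⟨g, hg, hgY, conj_of_tet hg hS hS' ht ht' hgt⟩
  · have := ty_one hS hY ht h3; have := ty_two hS' hY ht' h2'; omega
  · have := ty_one hS hY ht h3; have := ty_three hS' hY h1'; omega
  · have := ty_two hS hY ht h2; have := ty_one hS' hY ht' h3'; omega
  · obtain ⟨g, hg, hgY, hgt⟩ := rel_trans Y t t' (by rw [hS.2.1 t ht, hS'.2.1 t' ht'])
      (by rw [Finset.inter_comm, h2, Finset.inter_comm, h2'])
      (by rw [hY, hS.2.1 t ht, Finset.inter_comm, h2])
    exact ⟨g, hg, hgY, conj_of_tet hg hS hS' ht ht' hgt⟩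
  · have := ty_two hS hY ht h2; have := ty_three hS' hY h1'; omega
  · have := ty_three hS hY h1; have := ty_one hS' hY ht' h3'; omega
  · have := ty_three hS hY h1; have := ty_two hS' hY ht' h2'; omega
  · obtain ⟨y, hy⟩ : Y.Nonempty := by rw [← Finset.card_pos, hY]; norm_num
    obtain ⟨t, ht, hyt⟩ := sextet_cover hS y
    obtain ⟨t', ht', hyt'⟩ := sextet_cover hS' y
    have e1 : (Y ∩ t).card = 1 := by
      have := h1 t ht
      have : 0 < (t ∩ Y).card := Finset.card_pos.mpr ⟨y, Finset.mem_inter.mpr ⟨hyt, hy⟩⟩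
      rw [Finset.inter_comm]; omega
    have e1' : (Y ∩ t').card = 1 := by
      have := h1' t' ht'
      have : 0 < (t' ∩ Y).card := Finset.card_pos.mpr ⟨y, Finset.mem_inter.mpr ⟨hyt', hy⟩⟩
      rw [Finset.inter_comm]; omega
    obtain ⟨g, hg, hgY, hgt⟩ := rel_trans6 Y t t' (by rw [hS.2.1 t ht, hS'.2.1 t' ht'])
      (by rw [e1, e1']) (by rw [hY, hS.2.1 t ht, e1])
      (no_octad hS hY h1 ht) (no_octad hS' hY h1' ht')
    exact ⟨g, hg, hgY, conj_of_tet hg hS hS' ht ht' hgt⟩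

theorem s5616 (Y : Finset Cfsg.GolayPt) (hY : Y.card = 3) :
    {S : Finset (Finset Cfsg.GolayPt) | S ∈ Cfsg.sextets ∧
      (S.filter fun t => (t ∩ Y).Nonempty).card = 1}.ncard = 21 ∧
    {S : Finset (Finset Cfsg.GolayPt) | S ∈ Cfsg.sextets ∧
      (S.filter fun t => (t ∩ Y).Nonempty).card = 2}.ncard = 630 ∧
    {S : Finset (Finset Cfsg.GolayPt) | S ∈ Cfsg.sextets ∧
      (S.filter fun t => (t ∩ Y).Nonempty).card = 3}.ncard = 1120 ∧
    ∀ S S' : Finset (Finset Cfsg.GolayPt), S ∈ Cfsg.sextets → S' ∈ Cfsg.sextets →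
      (S.filter fun t => (t ∩ Y).Nonempty).card = (S'.filter fun t => (t ∩ Y).Nonempty).card →
      ∃ g ∈ Cfsg.M24, g • Y = Y ∧ g • S = S' := by
  refine ⟨?_, ?_, ?_, trans_Y Y hY⟩
  · rw [set_eq_filter (fun S => (S.filter fun t => (t ∩ Y).Nonempty).card = 1),
      Set.ncard_coe_finset, type1_card Y hY]
  · rw [set_eq_filter (fun S => (S.filter fun t => (t ∩ Y).Nonempty).card = 2),
      Set.ncard_coe_finset, type2_card Y hY]
  · rw [set_eq_filter (fun S => (S.filter fun t => (t ∩ Y).Nonempty).card = 3),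
      Set.ncard_coe_finset, type3_card Y hY]

end Cfsg.Agent.Lib.Helper9.SextetY
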