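import Mathlib
import Cfsg.Prelude.Def_SporadicCombinatorics
import Cfsg.Agent.Lib.Helper9.SextetY
import Cfsg.Agent.Lib.Helper9.OctOrb

set_option autoImplicit false

/-! Sextets relative to an octad: three types, their numbers, transitivity of the octad
stabiliser on each. -/

namespace Cfsg.Agent.Lib.Helper9.OctSx

open Cfsg.Agent.Lib.Helper9.Golay Cfsg.Agent.Lib.Helper9.GolayC Cfsg.Agent.Lib.Helper9.M24C
open Cfsg.Agent.Lib.Helper9.Octad Cfsg.Agent.Lib.Helper9.M24B Cfsg.Agent.Lib.Helper9.M24T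
open Cfsg.Agent.Lib.Helper9.M24F Cfsg.Agent.Lib.Helper9.M24St
open Cfsg.Agent.Lib.Helper9.M24Six Cfsg.Agent.Lib.Helper9.M24Tri
open Cfsg.Agent.Lib.Helper9.M24Rel Cfsg.Agent.Lib.Helper9.Sextet
open Cfsg.Agent.Lib.Helper9.SextetY Cfsg.Agent.Lib.Helper9.TrioOrb Cfsg.Agent.Lib.Helper9.OctOrb
open scoped Pointwise

variable {S : Finset (Finset Cfsg.GolayPt)} {o : Finset Cfsg.GolayPt}

theorem pair_sum (hS : S ∈ Cfsg.sextets) (ho : o ∈ Cfsg.octads) {t u : Finset Cfsg.GolayPt}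
    (ht : t ∈ S) (hu : u ∈ S) (hne : t ≠ u) :
    (t ∩ o).card + (u ∩ o).card = 0 ∨ (t ∩ o).card + (u ∩ o).card = 2 ∨
      (t ∩ o).card + (u ∩ o).card = 4 ∨ (t ∩ o).card + (u ∩ o).card = 8 := by
  have h := inter_cases (hS.2.2 t ht u hu hne) ho
  have e : ((t ∪ u) ∩ o).card = (t ∩ o).card + (u ∩ o).card := by
    rw [Finset.union_inter_distrib_right, Finset.card_union_of_disjoint]
    exact (sextet_disjoint hS ht hu hne).mono Finset.inter_subset_left Finset.inter_subset_left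
  rcases h with h | h | h | h
  · left; omega
  · right; left; omega
  · right; right; left; omega
  · right; right; right
    rw [h, Finset.inter_self, ho.2] at e
    omega

theorem n_le (hS : S ∈ Cfsg.sextets) {t : Finset Cfsg.GolayPt} (ht : t ∈ S)
    (o : Finset Cfsg.GolayPt) : (t ∩ o).card ≤ 4 := by
  rw [← hS.2.1 t ht]
  exact Finset.card_le_card Finset.inter_subset_left

/-- Some tetrad lies in the octad. -/
def Q4 (o : Finset Cfsg.GolayPt) (S : Finset (Finset Cfsg.GolayPt)) : Prop :=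
  ∃ t ∈ S, (t ∩ o).card = 4

/-- Some tetrad meets the octad in three points. -/
def Q3 (o : Finset Cfsg.GolayPt) (S : Finset (Finset Cfsg.GolayPt)) : Prop :=
  ∃ t ∈ S, (t ∩ o).card = 3

/-- Some tetrad meets the octad in two points. -/
def Q2 (o : Finset Cfsg.GolayPt) (S : Finset (Finset Cfsg.GolayPt)) : Prop :=
  ∃ t ∈ S, (t ∩ o).card = 2

theorem Q_cases (hS : S ∈ Cfsg.sextets) (ho : o ∈ Cfsg.octads) : Q4 o S ∨ Q3 o S ∨ Q2 o S := by
  by_contra hcon
  push Not at hcon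
  obtain ⟨h4, h3, h2⟩ := hcon
  have hsum := sum_inter hS o
  rw [ho.2] at hsum
  have hle : ∑ t ∈ S, (t ∩ o).card ≤ S.card • 1 :=
    Finset.sum_le_card_nsmul _ _ 1 (fun t ht => by
      have a := n_le hS ht o
      have b : (t ∩ o).card ≠ 4 := fun h => h4 ⟨t, ht, h⟩
      have c : (t ∩ o).card ≠ 3 := fun h => h3 ⟨t, ht, h⟩
      have d : (t ∩ o).card ≠ 2 := fun h => h2 ⟨t, ht, h⟩
      omega)
  rw [hS.1, smul_eq_mul] at hle
  omega

theorem not_Q (hS : S ∈ Cfsg.sextets) (ho : o ∈ Cfsg.octads) :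
    ¬ (Q4 o S ∧ Q3 o S) ∧ ¬ (Q4 o S ∧ Q2 o S) ∧ ¬ (Q3 o S ∧ Q2 o S) := by
  refine ⟨?_, ?_, ?_⟩ <;>
  · rintro ⟨⟨t, ht, h⟩, ⟨u, hu, h'⟩⟩
    have hne : t ≠ u := by
      rintro rfl
      omega
    have := pair_sum hS ho ht hu hne
    omega

theorem card_four_of (hS : S ∈ Cfsg.sextets) (ho : o ∈ Cfsg.octads)
    {t0 : Finset Cfsg.GolayPt} (ht0 : t0 ∈ S) (h4 : (t0 ∩ o).card = 4) :
    (S.filter (fun t => (t ∩ o).card = 4)).card = 2 := by
  have hall : ∀ u ∈ S, (u ∩ o).card = 4 ∨ (u ∩ o).card = 0 := by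
    intro u hu
    by_cases h : u = t0
    · left; rw [h]; exact h4
    · have := pair_sum hS ho ht0 hu (Ne.symm h)
      have := n_le hS hu o
      omega
  have hsum := sum_inter hS o
  rw [ho.2, ← Finset.sum_filter_add_sum_filter_not S (fun t => (t ∩ o).card = 4)] at hsum
  have e1 : ∑ t ∈ S.filter (fun t => (t ∩ o).card = 4), (t ∩ o).card =
      (S.filter (fun t => (t ∩ o).card = 4)).card * 4 := by
    rw [Finset.sum_congr rfl (fun t ht => (Finset.mem_filter.mp ht).2), Finset.sum_const,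
      smul_eq_mul]
  have e2 : ∑ t ∈ S.filter (fun t => ¬ (t ∩ o).card = 4), (t ∩ o).card = 0 := by
    apply Finset.sum_eq_zero
    intro t ht
    have h := Finset.mem_filter.mp ht
    rcases hall t h.1 with h' | h'
    · exact absurd h' h.2
    · exact h'
  rw [e1, e2] at hsum
  omega

/-- In a sextet with a tetrad meeting the octad in two points, exactly two tetrads miss it. -/
theorem two_zero_of (hS : S ∈ Cfsg.sextets) (ho : o ∈ Cfsg.octads)
    {t0 : Finset Cfsg.GolayPt} (ht0 : t0 ∈ S) (h2 : (t0 ∩ o).card = 2) :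
    ∃ u ∈ S, ∃ v ∈ S, u ≠ v ∧ (u ∩ o).card = 0 ∧ (v ∩ o).card = 0 := by
  have hall : ∀ u ∈ S, (u ∩ o).card = 2 ∨ (u ∩ o).card = 0 := by
    intro u hu
    by_cases h : u = t0
    · left; rw [h]; exact h2
    · have := pair_sum hS ho ht0 hu (Ne.symm h)
      have := n_le hS hu o
      omega
  have hsum := sum_inter hS o
  rw [ho.2, ← Finset.sum_filter_add_sum_filter_not S (fun t => (t ∩ o).card = 2)] at hsum
  have e1 : ∑ t ∈ S.filter (fun t => (t ∩ o).card = 2), (t ∩ o).card =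
      (S.filter (fun t => (t ∩ o).card = 2)).card * 2 := by
    rw [Finset.sum_congr rfl (fun t ht => (Finset.mem_filter.mp ht).2), Finset.sum_const,
      smul_eq_mul]
  have e2 : ∑ t ∈ S.filter (fun t => ¬ (t ∩ o).card = 2), (t ∩ o).card = 0 := by
    apply Finset.sum_eq_zero
    intro t ht
    have h := Finset.mem_filter.mp ht
    rcases hall t h.1 with h' | h'
    · exact absurd h' h.2
    · exact h'
  have e3 := Finset.card_filter_add_card_filter_not (s := S) (fun t => (t ∩ o).card = 2)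
  rw [e1, e2] at hsum
  rw [hS.1] at e3
  have hc : (S.filter (fun t => ¬ (t ∩ o).card = 2)).card = 2 := by omega
  obtain ⟨u, v, hne, huv⟩ := Finset.card_eq_two.mp hc
  have hu : u ∈ S.filter (fun t => ¬ (t ∩ o).card = 2) := by rw [huv]; simp
  have hv : v ∈ S.filter (fun t => ¬ (t ∩ o).card = 2) := by rw [huv]; simp
  rw [Finset.mem_filter] at hu hv
  refine ⟨u, hu.1, v, hv.1, hne, ?_, ?_⟩
  · rcases hall u hu.1 with h | h
    · exact absurd h hu.2
    · exact h
  · rcases hall v hv.1 with h | h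
    · exact absurd h hv.2
    · exact h

theorem ncard_Q3 (ho : o ∈ Cfsg.octads) :
    {S : Finset (Finset Cfsg.GolayPt) | S ∈ Cfsg.sextets ∧ Q3 o S}.ncard = 896 := by
  have e : {S : Finset (Finset Cfsg.GolayPt) | S ∈ Cfsg.sextets ∧ Q3 o S} =
      ↑(((Finset.univ.powersetCard 4).filter (fun T => (o ∩ T).card = 3)).image sx) := by
    ext S
    rw [Finset.mem_coe, Finset.mem_image]
    constructor
    · rintro ⟨hS, t, ht, h4⟩
      exact ⟨t, Finset.mem_filter.mpr ⟨Finset.mem_powersetCard.mpr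
        ⟨Finset.subset_univ _, hS.2.1 t ht⟩, by rw [Finset.inter_comm]; exact h4⟩,
        (sextet_eq hS ht).symm⟩
    · rintro ⟨T, hT, rfl⟩
      rw [Finset.mem_filter, Finset.mem_powersetCard] at hT
      exact ⟨sx_mem T hT.1.2, T, sx_self T, by rw [Finset.inter_comm]; exact hT.2⟩
  rw [e, Set.ncard_coe_finset, Finset.card_image_of_injOn, card_inter_eq o 4 3 (by norm_num),
    ho.2, card_pts]
  · norm_num [Nat.choose]
  · intro T hT T' hT' h
    rw [Finset.mem_coe, Finset.mem_filter, Finset.mem_powersetCard] at hT hT'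
    have hS := sx_mem T hT.1.2
    have hm : T' ∈ sx T := by rw [h]; exact sx_self _
    by_contra hne
    have := pair_sum hS ho (sx_self T) hm hne
    rw [Finset.inter_comm T o, Finset.inter_comm T' o, hT.2, hT'.2] at this
    omega

theorem fib_aux {α : Type*} (s : Finset α) (h : 70 = ∑ _x ∈ s, 2) : s.card = 35 := by
  rw [Finset.sum_const, smul_eq_mul] at h
  omega

theorem ncard_Q4 (ho : o ∈ Cfsg.octads) :
    {S : Finset (Finset Cfsg.GolayPt) | S ∈ Cfsg.sextets ∧ Q4 o S}.ncard = 35 := by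
  have e : {S : Finset (Finset Cfsg.GolayPt) | S ∈ Cfsg.sextets ∧ Q4 o S} =
      ↑(((Finset.univ.powersetCard 4).filter (fun T => (o ∩ T).card = 4)).image sx) := by
    ext S
    rw [Finset.mem_coe, Finset.mem_image]
    constructor
    · rintro ⟨hS, t, ht, h4⟩
      exact ⟨t, Finset.mem_filter.mpr ⟨Finset.mem_powersetCard.mpr
        ⟨Finset.subset_univ _, hS.2.1 t ht⟩, by rw [Finset.inter_comm]; exact h4⟩,
        (sextet_eq hS ht).symm⟩
    · rintro ⟨T, hT, rfl⟩
      rw [Finset.mem_filter, Finset.mem_powersetCard] at hT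
      exact ⟨sx_mem T hT.1.2, T, sx_self T, by rw [Finset.inter_comm]; exact hT.2⟩
  rw [e, Set.ncard_coe_finset]
  have h1 := Finset.card_eq_sum_card_fiberwise (f := sx)
    (s := (Finset.univ.powersetCard 4).filter (fun T => (o ∩ T).card = 4))
    (t := ((Finset.univ.powersetCard 4).filter (fun T => (o ∩ T).card = 4)).image sx)
    (fun T hT => Finset.mem_image_of_mem _ hT)
  have h2 : ∀ S ∈ ((Finset.univ.powersetCard 4).filter (fun T => (o ∩ T).card = 4)).image sx,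
      (((Finset.univ.powersetCard 4).filter (fun T => (o ∩ T).card = 4)).filter
        (fun T => sx T = S)).card = 2 := by
    intro S hS
    rw [Finset.mem_image] at hS
    obtain ⟨T0, hT0, rfl⟩ := hS
    rw [Finset.mem_filter, Finset.mem_powersetCard] at hT0
    have hS := sx_mem T0 hT0.1.2
    have : ((Finset.univ.powersetCard 4).filter (fun T => (o ∩ T).card = 4)).filter
        (fun T => sx T = sx T0) = (sx T0).filter (fun t => (t ∩ o).card = 4) := by
      ext T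
      rw [Finset.mem_filter, Finset.mem_filter, Finset.mem_filter, Finset.mem_powersetCard]
      constructor
      · rintro ⟨⟨-, h3⟩, hsx⟩
        exact ⟨by rw [← hsx]; exact sx_self T, by rw [Finset.inter_comm]; exact h3⟩
      · rintro ⟨hT, h3⟩
        exact ⟨⟨⟨Finset.subset_univ _, hS.2.1 T hT⟩, by rw [Finset.inter_comm]; exact h3⟩,
          (sextet_eq hS hT).symm⟩
    rw [this]
    exact card_four_of hS ho (sx_self T0) (by rw [Finset.inter_comm]; exact hT0.2)
  rw [Finset.sum_congr rfl h2, card_inter_eq o 4 4 le_rfl, ho.2, card_pts] at h1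
  have h3 : Nat.choose 8 4 * Nat.choose (24 - 8) (4 - 4) = 70 := by norm_num [Nat.choose]
  rw [h3] at h1
  exact fib_aux _ h1

theorem ncard_Q2 (ho : o ∈ Cfsg.octads) :
    {S : Finset (Finset Cfsg.GolayPt) | S ∈ Cfsg.sextets ∧ Q2 o S}.ncard = 840 := by
  have h4 := ncard_Q4 ho
  have h3 := ncard_Q3 ho
  have hs := ncard_sextets
  have e : Cfsg.sextets = {S : Finset (Finset Cfsg.GolayPt) | S ∈ Cfsg.sextets ∧ Q2 o S} ∪
      ({S : Finset (Finset Cfsg.GolayPt) | S ∈ Cfsg.sextets ∧ Q4 o S} ∪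
        {S : Finset (Finset Cfsg.GolayPt) | S ∈ Cfsg.sextets ∧ Q3 o S}) := by
    ext S
    constructor
    · intro hS
      rcases Q_cases hS ho with h | h | h
      · exact Or.inr (Or.inl ⟨hS, h⟩)
      · exact Or.inr (Or.inr ⟨hS, h⟩)
      · exact Or.inl ⟨hS, h⟩
    · rintro (h | h | h) <;> exact h.1
  have d43 : Disjoint {S : Finset (Finset Cfsg.GolayPt) | S ∈ Cfsg.sextets ∧ Q4 o S}
      {S : Finset (Finset Cfsg.GolayPt) | S ∈ Cfsg.sextets ∧ Q3 o S} := by
    rw [Set.disjoint_left]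
    rintro S ⟨hS, p2⟩ ⟨-, p3⟩
    exact (not_Q hS ho).1 ⟨p2, p3⟩
  have d2 : Disjoint {S : Finset (Finset Cfsg.GolayPt) | S ∈ Cfsg.sextets ∧ Q2 o S}
      ({S : Finset (Finset Cfsg.GolayPt) | S ∈ Cfsg.sextets ∧ Q4 o S} ∪
        {S : Finset (Finset Cfsg.GolayPt) | S ∈ Cfsg.sextets ∧ Q3 o S}) := by
    rw [Set.disjoint_left]
    rintro S ⟨hS, p1⟩ (⟨-, p2⟩ | ⟨-, p3⟩)
    · exact (not_Q hS ho).2.1 ⟨p2, p1⟩
    · exact (not_Q hS ho).2.2 ⟨p3, p1⟩
  rw [e, Set.ncard_union_eq d2 (Set.toFinite _) (Set.toFinite _),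
    Set.ncard_union_eq d43 (Set.toFinite _) (Set.toFinite _), h4, h3] at hs
  omega

/-- Four-sets inside an octad form one orbit of its stabiliser. -/
theorem in_oct_trans (ho : o ∈ Cfsg.octads) (t t' : Finset Cfsg.GolayPt) (h4 : t.card = 4)
    (h4' : t'.card = 4) (hn : (t ∩ o).card = 4) (hn' : (t' ∩ o).card = 4) :
    ∃ g ∈ Cfsg.M24, g • o = o ∧ g • t = t' := by
  have sub : ∀ s : Finset Cfsg.GolayPt, s.card = 4 → (s ∩ o).card = 4 → s ⊆ o := by
    intro s hs hn
    have : s ∩ o = s := Finset.eq_of_subset_of_card_le Finset.inter_subset_left (by rw [hn, hs])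
    rw [← this]
    exact Finset.inter_subset_right
  have ex : ∀ s : Finset Cfsg.GolayPt, s.card = 4 → s ⊆ o → ∃ p ∈ o, p ∉ s := by
    intro s hs _
    exact Finset.exists_mem_notMem_of_card_lt_card (by rw [hs, ho.2]; norm_num)
  obtain ⟨p, hp, hpt⟩ := ex t h4 (sub t h4 hn)
  obtain ⟨p', hp', hpt'⟩ := ex t' h4' (sub t' h4' hn')
  obtain ⟨x, hx1, hx2, hx3⟩ := exists_enum t 4 h4
  obtain ⟨x', hx1', hx2', hx3'⟩ := exists_enum t' 4 h4'
  have hX := cat_inj t {p} (Finset.disjoint_singleton_right.mpr hpt) x (fun _ => p) 4 1 hx1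
    (fun _ _ => Finset.mem_singleton_self _) hx2 (fun i hi j hj _ => by omega)
  have hX' := cat_inj t' {p'} (Finset.disjoint_singleton_right.mpr hpt') x' (fun _ => p') 4 1
    hx1' (fun _ _ => Finset.mem_singleton_self _) hx2' (fun i hi j hj _ => by omega)
  obtain ⟨g, hg, hgx⟩ := exists_tuple₂ 5 le_rfl _ _ hX hX'
  have hin : ∀ i < 5, cat x' (fun _ => p') 4 i ∈ o := by
    intro i hi
    unfold cat
    by_cases h : i < 4
    · rw [if_pos h]; exact sub t' h4' hn' (hx1' i h)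
    · rw [if_neg h]; exact hp'
  have hin0 : ∀ i < 5, cat x (fun _ => p) 4 i ∈ o := by
    intro i hi
    unfold cat
    by_cases h : i < 4
    · rw [if_pos h]; exact sub t h4 hn (hx1 i h)
    · rw [if_neg h]; exact hp
  refine ⟨g, hg, ?_, ?_⟩
  · apply octad_eq_of_five (smul_octad hg ho) ho ((Finset.range 5).image (cat x' (fun _ => p') 4))
      (le_of_eq (card_img 5 _ hX').symm)
    · intro q hq
      rw [Finset.mem_image] at hq
      obtain ⟨i, hi, rfl⟩ := hq
      rw [Finset.mem_range] at hi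
      rw [← hgx i hi, mem_smul_iff]
      exact hin0 i hi
    · intro q hq
      rw [Finset.mem_image] at hq
      obtain ⟨i, hi, rfl⟩ := hq
      exact hin i (Finset.mem_range.mp hi)
  · exact smul_eq_img g t t' x x' 4 hx3 hx1' (by rw [h4, h4']) (fun i hi => by
      have := hgx i (by omega)
      unfold cat at this
      rw [if_pos hi, if_pos hi] at this
      exact this)

/-- Four-sets meeting an octad in three points form one orbit of its stabiliser. -/
theorem three_one_trans (ho : o ∈ Cfsg.octads) (t t' : Finset Cfsg.GolayPt) (h4 : t.card = 4)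
    (h4' : t'.card = 4) (hn : (t ∩ o).card = 3) (hn' : (t' ∩ o).card = 3) :
    ∃ g ∈ Cfsg.M24, g • o = o ∧ g • t = t' := by
  have key : ∀ s : Finset Cfsg.GolayPt, s.card = 4 → (s ∩ o).card = 3 →
      ∃ (X : ℕ → Cfsg.GolayPt) (u : ℕ → Cfsg.GolayPt),
        (∀ i < 6, ∀ j < 6, X i = X j → i = j) ∧ (¬ ∃ o2 ∈ Cfsg.octads, ∀ i < 6, X i ∈ o2) ∧
        (∀ i < 5, X i ∈ o) ∧ (∀ i < 5, ∀ j < 5, X i = X j → i = j) ∧
        (∀ i < 3, u i = X i) ∧ u 3 = X 5 ∧ (∀ p ∈ s, ∃ i < 4, u i = p) ∧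
        (∀ i < 4, u i ∈ s) := by
    intro s hs hn
    obtain ⟨a, ha1, ha2, ha3⟩ := exists_enum (s ∩ o) 3 hn
    have hc1 : (s \ o).card = 1 := by
      have := Finset.card_sdiff_add_card_inter s o
      omega
    obtain ⟨q, hq⟩ := Finset.card_eq_one.mp hc1
    have hqm : q ∈ s \ o := hq ▸ Finset.mem_singleton_self q
    rw [Finset.mem_sdiff] at hqm
    have hc5 : (o \ s).card = 5 := by
      have := Finset.card_sdiff_add_card_inter o s
      rw [Finset.inter_comm] at this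
      have := ho.2
      omega
    obtain ⟨e, he1, he2, -⟩ := exists_enum (o \ s) 5 hc5
    have d1 : Disjoint (s ∩ o) (o \ s) := Finset.disjoint_left.mpr
      (fun p hp hp' => (Finset.mem_sdiff.mp hp').2 (Finset.mem_inter.mp hp).1)
    have h5 := cat_inj (s ∩ o) (o \ s) d1 a e 3 2 ha1 (fun i hi => he1 i (by omega)) ha2
      (fun i hi j hj => he2 i (by omega) j (by omega))
    have hin : ∀ i < 5, cat a e 3 i ∈ o := by
      intro i hi
      unfold cat
      by_cases h : i < 3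
      · rw [if_pos h]; exact (Finset.mem_inter.mp (ha1 i h)).2
      · rw [if_neg h]; exact (Finset.mem_sdiff.mp (he1 (i - 3) (by omega))).1
    have h6 := cat_inj o {q} (Finset.disjoint_singleton_right.mpr hqm.2) (cat a e 3)
      (fun _ => q) 5 1 hin (fun _ _ => Finset.mem_singleton_self _) h5
      (fun i hi j hj _ => by omega)
    have e5 : ∀ i < 5, cat (cat a e 3) (fun _ => q) 5 i = cat a e 3 i := by
      intro i hi
      show (if i < 5 then cat a e 3 i else q) = _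
      rw [if_pos hi]
    refine ⟨cat (cat a e 3) (fun _ => q) 5, cat a (fun _ => q) 3, h6, ?_, ?_, ?_, ?_, ?_, ?_, ?_⟩
    · rintro ⟨o2, ho2, hall⟩
      have : o2 = o := by
        apply octad_eq_of_five ho2 ho ((Finset.range 5).image (cat a e 3))
          (le_of_eq (card_img 5 _ h5).symm)
        · intro p hp
          rw [Finset.mem_image] at hp
          obtain ⟨i, hi, rfl⟩ := hp
          rw [Finset.mem_range] at hi
          rw [← e5 i hi]
          exact hall i (by omega)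
        · intro p hp
          rw [Finset.mem_image] at hp
          obtain ⟨i, hi, rfl⟩ := hp
          exact hin i (Finset.mem_range.mp hi)
      have h5' := hall 5 (by norm_num)
      rw [this] at h5'
      exact hqm.2 h5'
    · intro i hi
      rw [e5 i hi]
      exact hin i hi
    · intro i hi j hj hij
      rw [e5 i hi, e5 j hj] at hij
      exact h5 i hi j hj hij
    · intro i hi
      rw [e5 i (by omega)]
      unfold cat
      rw [if_pos hi, if_pos hi]
    · unfold cat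
      simp
    · intro p hp
      by_cases hpo : p ∈ o
      · obtain ⟨i, hi, rfl⟩ := ha3 p (Finset.mem_inter.mpr ⟨hp, hpo⟩)
        exact ⟨i, by omega, by unfold cat; rw [if_pos hi]⟩
      · have : p ∈ s \ o := Finset.mem_sdiff.mpr ⟨hp, hpo⟩
        rw [hq, Finset.mem_singleton] at this
        exact ⟨3, by norm_num, by unfold cat; simp [this]⟩
    · intro i hi
      unfold cat
      by_cases h : i < 3
      · rw [if_pos h]; exact (Finset.mem_inter.mp (ha1 i h)).1
      · rw [if_neg h]; exact hqm.1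
  obtain ⟨X, u, hX, hXo, hXin, hX5, hu3, hu5, hus, hu⟩ := key t h4 hn
  obtain ⟨X', u', hX', hXo', hXin', hX5', hu3', hu5', hus', hu'⟩ := key t' h4' hn'
  obtain ⟨g1, hg1, e1⟩ := tuple_out X hX hXo
  obtain ⟨g2, hg2, e2⟩ := tuple_out X' hX' hXo'
  have hgx : ∀ i < 6, (g2 * g1⁻¹) (X i) = X' i := by
    intro i hi
    rw [Equiv.Perm.mul_apply, ← e1 i hi, ← e2 i hi]
    simp
  have hg : g2 * g1⁻¹ ∈ Cfsg.M24 := mul_mem hg2 (inv_mem hg1)
  refine ⟨g2 * g1⁻¹, hg, ?_, ?_⟩
  · apply octad_eq_of_five (smul_octad hg ho) ho ((Finset.range 5).image X')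
      (le_of_eq (card_img 5 _ hX5').symm)
    · intro q hq
      rw [Finset.mem_image] at hq
      obtain ⟨i, hi, rfl⟩ := hq
      rw [Finset.mem_range] at hi
      rw [← hgx i (by omega), mem_smul_iff]
      exact hXin i hi
    · intro q hq
      rw [Finset.mem_image] at hq
      obtain ⟨i, hi, rfl⟩ := hq
      exact hXin' i (Finset.mem_range.mp hi)
  · exact smul_eq_img _ t t' u u' 4 hus hu' (by rw [h4, h4']) (fun i hi => by
      by_cases h : i < 3
      · rw [hu3 i h, hu3' i h]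
        exact hgx i (by omega)
      · have : i = 3 := by omega
        subst this
        rw [hu5, hu5']
        exact hgx 5 (by norm_num))

theorem trans_Q4 (ho : o ∈ Cfsg.octads) (S S' : Finset (Finset Cfsg.GolayPt))
    (hS : S ∈ Cfsg.sextets) (hS' : S' ∈ Cfsg.sextets) (p : Q4 o S) (p' : Q4 o S') :
    ∃ g ∈ Cfsg.M24, g • o = o ∧ g • S = S' := by
  obtain ⟨t, ht, h⟩ := p
  obtain ⟨t', ht', h'⟩ := p'
  obtain ⟨g, hg, hgd, hgt⟩ := in_oct_trans ho t t' (hS.2.1 t ht) (hS'.2.1 t' ht') h h'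
  exact ⟨g, hg, hgd, conj_of_tet hg hS hS' ht ht' hgt⟩

theorem trans_Q3 (ho : o ∈ Cfsg.octads) (S S' : Finset (Finset Cfsg.GolayPt))
    (hS : S ∈ Cfsg.sextets) (hS' : S' ∈ Cfsg.sextets) (p : Q3 o S) (p' : Q3 o S') :
    ∃ g ∈ Cfsg.M24, g • o = o ∧ g • S = S' := by
  obtain ⟨t, ht, h⟩ := p
  obtain ⟨t', ht', h'⟩ := p'
  obtain ⟨g, hg, hgd, hgt⟩ := three_one_trans ho t t' (hS.2.1 t ht) (hS'.2.1 t' ht') h h'
  exact ⟨g, hg, hgd, conj_of_tet hg hS hS' ht ht' hgt⟩

/-- Data attached to a sextet with a tetrad meeting the octad in two points. -/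
theorem Q2_data (hS : S ∈ Cfsg.sextets) (ho : o ∈ Cfsg.octads) (p : Q2 o S) :
    ∃ u ∈ S, ∃ A ∈ Cfsg.octads, ∃ X ∈ Cfsg.octads, Disjoint o A ∧ (o ∩ X).card = 2 ∧
      (A ∩ X).card = 4 ∧ A ∩ X = u := by
  obtain ⟨t, ht, h2⟩ := p
  obtain ⟨u, hu, v, hv, hne, nu, nv⟩ := two_zero_of hS ho ht h2
  have hut : u ≠ t := by
    rintro rfl
    omega
  have hvt : v ≠ t := by
    rintro rfl
    omega
  have d1 := sextet_disjoint hS hu hv hne
  have d2 := sextet_disjoint hS hu ht hut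
  have d3 := sextet_disjoint hS hv ht hvt
  have e : (u ∪ v) ∩ (u ∪ t) = u := by
    ext p
    simp only [Finset.mem_inter, Finset.mem_union]
    constructor
    · rintro ⟨h1 | h1, h2 | h2⟩
      · exact h1
      · exact h1
      · exact h2
      · exact absurd h2 (Finset.disjoint_left.mp d3 h1)
    · intro h
      exact ⟨Or.inl h, Or.inl h⟩
  refine ⟨u, hu, u ∪ v, hS.2.2 u hu v hv hne, u ∪ t, hS.2.2 u hu t ht hut, ?_, ?_, ?_, e⟩
  · rw [Finset.disjoint_union_right]
    constructor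
    · rw [Finset.disjoint_iff_inter_eq_empty, ← Finset.card_eq_zero, Finset.inter_comm]
      exact nu
    · rw [Finset.disjoint_iff_inter_eq_empty, ← Finset.card_eq_zero, Finset.inter_comm]
      exact nv
  · rw [Finset.inter_union_distrib_left, Finset.card_union_of_disjoint
      (d2.mono Finset.inter_subset_right Finset.inter_subset_right), Finset.inter_comm o u,
      Finset.inter_comm o t, nu, h2]
  · rw [e, hS.2.1 u hu]

theorem trans_Q2 (ho : o ∈ Cfsg.octads) (S S' : Finset (Finset Cfsg.GolayPt))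
    (hS : S ∈ Cfsg.sextets) (hS' : S' ∈ Cfsg.sextets) (p : Q2 o S) (p' : Q2 o S') :
    ∃ g ∈ Cfsg.M24, g • o = o ∧ g • S = S' := by
  obtain ⟨u, hu, A, hA, X, hX, dA, x2, x4, xe⟩ := Q2_data hS ho p
  obtain ⟨u', hu', A', hA', X', hX', dA', x2', x4', xe'⟩ := Q2_data hS' ho p'
  have z : ∀ {a b : Finset Cfsg.GolayPt}, Disjoint a b → (a ∩ b).card = 0 := fun h =>
    Finset.card_eq_zero.mpr (Finset.disjoint_iff_inter_eq_empty.mp h)
  obtain ⟨g1, hg1, e1, e2⟩ := stab_trans o A A' ho hA hA' (by rw [z dA, z dA'])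
  have y2 : (o ∩ g1 • X).card = 2 := by
    have := card_inter_smul g1 o X
    rw [e1] at this
    rw [this, x2]
  have y4 : (A' ∩ g1 • X).card = 4 := by
    rw [← e2, card_inter_smul, x4]
  obtain ⟨g2, hg2, f1, f2, f3⟩ := transU o A' (g1 • X) X' ho hA' dA' (smul_octad hg1 hX) hX'
    y2 x2' y4 x4'
  have hg : g2 * g1 ∈ Cfsg.M24 := mul_mem hg2 hg1
  refine ⟨g2 * g1, hg, by rw [mul_smul, e1, f1], ?_⟩
  apply conj_of_tet hg hS hS' hu hu'
  rw [← xe, ← xe', Finset.smul_finset_inter, mul_smul, mul_smul, e2, f2, f3]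

theorem inv_Q (g : Equiv.Perm Cfsg.GolayPt) (hg : g • o = o) :
    (Q4 o S → Q4 o (g • S)) ∧ (Q3 o S → Q3 o (g • S)) ∧ (Q2 o S → Q2 o (g • S)) := by
  have key : ∀ t : Finset Cfsg.GolayPt, (g • t ∩ o).card = (t ∩ o).card := by
    intro t
    have := card_inter_smul g t o
    rw [hg] at this
    exact this
  refine ⟨?_, ?_, ?_⟩ <;>
  · rintro ⟨t, ht, h⟩
    exact ⟨g • t, Finset.smul_mem_smul_finset ht, by rw [key, h]⟩

/-- Orbits of a set stabiliser described by an invariant property. -/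
theorem orbit_stab (o : Finset Cfsg.GolayPt) (W : Set (Finset (Finset Cfsg.GolayPt)))
    (P : Finset (Finset Cfsg.GolayPt) → Prop)
    (hinv : ∀ g : Equiv.Perm Cfsg.GolayPt, g ∈ Cfsg.M24 → g • o = o →
      ∀ S ∈ W, P S → g • S ∈ W ∧ P (g • S))
    (htr : ∀ S S' : Finset (Finset Cfsg.GolayPt), S ∈ W → S' ∈ W →
      P S → P S' → ∃ g ∈ Cfsg.M24, g • o = o ∧ g • S = S')
    (X : Finset (Finset Cfsg.GolayPt)) (hX : X ∈ W) (hPX : P X) :
    MulAction.orbit ↥(MulAction.stabilizer Cfsg.M24 o) X =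
      {S : Finset (Finset Cfsg.GolayPt) | S ∈ W ∧ P S} := by
  ext S
  constructor
  · rintro ⟨k, rfl⟩
    have hk : ((k : Cfsg.M24) : Equiv.Perm Cfsg.GolayPt) • o = o := k.2
    exact hinv _ k.1.2 hk X hX hPX
  · rintro ⟨hS, hPS⟩
    obtain ⟨g, hg, hgd, hgS⟩ := htr X S hX hS hPX hPS
    exact ⟨⟨⟨g, hg⟩, hgd⟩, hgS⟩

theorem sextet_orbits (o : Finset Cfsg.GolayPt) (ho : o ∈ Cfsg.octads) :
    ∃ Y₁ ∈ Cfsg.sextets, ∃ Y₂ ∈ Cfsg.sextets, ∃ Y₃ ∈ Cfsg.sextets,
      (MulAction.orbit ↥(MulAction.stabilizer Cfsg.M24 o) Y₁).ncard = 35 ∧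
      (MulAction.orbit ↥(MulAction.stabilizer Cfsg.M24 o) Y₂).ncard = 840 ∧
      (MulAction.orbit ↥(MulAction.stabilizer Cfsg.M24 o) Y₃).ncard = 896 ∧
      Cfsg.sextets = MulAction.orbit ↥(MulAction.stabilizer Cfsg.M24 o) Y₁ ∪
        MulAction.orbit ↥(MulAction.stabilizer Cfsg.M24 o) Y₂ ∪
        MulAction.orbit ↥(MulAction.stabilizer Cfsg.M24 o) Y₃ := by
  have n4 := ncard_Q4 ho
  have n2 := ncard_Q2 ho
  have n3 := ncard_Q3 ho
  obtain ⟨Y₁, hY₁, p1⟩ : {S : Finset (Finset Cfsg.GolayPt) | S ∈ Cfsg.sextets ∧ Q4 o S}.Nonempty :=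
    Set.nonempty_of_ncard_ne_zero (by rw [n4]; norm_num)
  obtain ⟨Y₂, hY₂, p2⟩ : {S : Finset (Finset Cfsg.GolayPt) | S ∈ Cfsg.sextets ∧ Q2 o S}.Nonempty :=
    Set.nonempty_of_ncard_ne_zero (by rw [n2]; norm_num)
  obtain ⟨Y₃, hY₃, p3⟩ : {S : Finset (Finset Cfsg.GolayPt) | S ∈ Cfsg.sextets ∧ Q3 o S}.Nonempty :=
    Set.nonempty_of_ncard_ne_zero (by rw [n3]; norm_num)
  have o1 := orbit_stab o Cfsg.sextets (Q4 o)
    (fun g hg hgo S hS p => ⟨smul_sextet hg hS, (inv_Q g hgo).1 p⟩)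
    (fun S S' hS hS' p p' => trans_Q4 ho S S' hS hS' p p') Y₁ hY₁ p1
  have o2 := orbit_stab o Cfsg.sextets (Q2 o)
    (fun g hg hgo S hS p => ⟨smul_sextet hg hS, (inv_Q g hgo).2.2 p⟩)
    (fun S S' hS hS' p p' => trans_Q2 ho S S' hS hS' p p') Y₂ hY₂ p2
  have o3 := orbit_stab o Cfsg.sextets (Q3 o)
    (fun g hg hgo S hS p => ⟨smul_sextet hg hS, (inv_Q g hgo).2.1 p⟩)
    (fun S S' hS hS' p p' => trans_Q3 ho S S' hS hS' p p') Y₃ hY₃ p3
  refine ⟨Y₁, hY₁, Y₂, hY₂, Y₃, hY₃, ?_, ?_, ?_, ?_⟩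
  · rw [o1, n4]
  · rw [o2, n2]
  · rw [o3, n3]
  · rw [o1, o2, o3]
    ext S
    constructor
    · intro hS
      rcases Q_cases hS ho with h | h | h
      · exact Or.inl (Or.inl ⟨hS, h⟩)
      · exact Or.inr ⟨hS, h⟩
      · exact Or.inl (Or.inr ⟨hS, h⟩)
    · rintro ((h | h) | h) <;> exact h.1

end Cfsg.Agent.Lib.Helper9.OctSx
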