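import Mathlib

set_option autoImplicit false

/-! Sylow subgroups of a group of order 72 from elementwise information. -/

namespace Cfsg.Agent.Lib.Helper9.Syl72

open scoped Pointwise

theorem fac72_3 : (72 : ℕ).factorization 3 = 2 := by
  have h : (72 : ℕ) = 2 ^ 3 * 3 ^ 2 := by norm_num
  rw [h, Nat.factorization_mul (by norm_num) (by norm_num), Nat.factorization_pow,
    Nat.factorization_pow]
  simp [Nat.Prime.factorization Nat.prime_two, Nat.Prime.factorization Nat.prime_three]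

theorem fac72_2 : (72 : ℕ).factorization 2 = 3 := by
  have h : (72 : ℕ) = 2 ^ 3 * 3 ^ 2 := by norm_num
  rw [h, Nat.factorization_mul (by norm_num) (by norm_num), Nat.factorization_pow,
    Nat.factorization_pow]
  simp [Nat.Prime.factorization Nat.prime_two, Nat.Prime.factorization Nat.prime_three]

theorem sylow3 {G : Type*} [Group G] [Finite G] (hG : Nat.card G = 72)
    (h2 : ∀ x y : G, x ^ 3 = 1 → y ^ 3 = 1 → (x * y) ^ 3 = 1)
    (h3 : ∀ x : G, x ^ 9 = 1 → x ^ 3 = 1) (Q : Sylow 3 G) :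
    (Q : Subgroup G).Normal ∧ Nat.card ↥Q = 9 ∧ ∀ x ∈ (Q : Subgroup G), x ^ 3 = 1 := by
  have hc : Nat.card ↥(Q : Subgroup G) = 9 := by
    rw [Sylow.card_eq_multiplicity, hG, fac72_3]
    norm_num
  have hx : ∀ x ∈ (Q : Subgroup G), x ^ 3 = 1 := by
    intro x hx
    apply h3
    have := pow_card_eq_one' (G := ↥(Q : Subgroup G)) (x := ⟨x, hx⟩)
    rw [hc] at this
    exact congrArg Subtype.val this
  let N0 : Subgroup G :=
    { carrier := {x | x ^ 3 = 1}
      mul_mem' := fun {a b} ha hb => h2 a b ha hb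
      one_mem' := one_pow 3
      inv_mem' := fun {a} ha => by
        show a⁻¹ ^ 3 = 1
        rw [inv_pow, ha, inv_one] }
  have hN0p : IsPGroup 3 N0 := by
    intro g
    refine ⟨1, ?_⟩
    apply Subtype.ext
    rw [pow_one]
    exact g.2
  have hle : (Q : Subgroup G) ≤ N0 := fun x hx' => hx x hx'
  have heq : N0 = (Q : Subgroup G) := Q.is_maximal' hN0p hle
  refine ⟨?_, hc, hx⟩
  rw [← heq]
  constructor
  intro n hn g
  show (g * n * g⁻¹) ^ 3 = 1
  have hn' : n ^ 3 = 1 := hn
  rw [conj_pow, hn', mul_one, mul_inv_cancel]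

theorem sylow2 {G : Type*} [Group G] [Finite G] (hG : Nat.card G = 72)
    (φ : QuaternionGroup 2 →* G) (hφ : Function.Injective φ) (P : Sylow 2 G) :
    Nonempty (↥P ≃* QuaternionGroup 2) := by
  have e0 : QuaternionGroup 2 ≃* ↥φ.range := MonoidHom.ofInjective hφ
  have hc0 : Nat.card ↥φ.range = 8 := by
    rw [← Nat.card_congr e0.toEquiv, Nat.card_eq_fintype_card, QuaternionGroup.card]
  have hp0 : IsPGroup 2 ↥φ.range := IsPGroup.of_card (n := 3) (by rw [hc0]; norm_num)
  obtain ⟨Q, hQ⟩ := hp0.exists_le_sylow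
  have hcQ : Nat.card ↥(Q : Subgroup G) = 8 := by
    rw [Sylow.card_eq_multiplicity, hG, fac72_2]
    norm_num
  have heq : φ.range = (Q : Subgroup G) := by
    apply Subgroup.eq_of_le_of_card_ge hQ
    rw [hc0, hcQ]
  obtain ⟨c, hc⟩ := MulAction.exists_smul_eq G Q P
  have hP : (P : Subgroup G) = MulAut.conj c • φ.range := by
    rw [heq, ← hc]
    rfl
  have e1 : ↥φ.range ≃* ↥(MulAut.conj c • φ.range) :=
    Subgroup.equivSMul (MulAut.conj c) φ.range
  exact ⟨(MulEquiv.subgroupCongr hP).trans (e1.symm.trans e0.symm)⟩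

end Cfsg.Agent.Lib.Helper9.Syl72
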