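import Mathlib
import Cfsg.Prelude.Def_Sporadic_a
import Cfsg.Agent.Lib.Helper9.M24M11
import Cfsg.Agent.Lib.Helper9.M24M3
import Cfsg.Agent.Lib.Helper9.Syl72

set_option autoImplicit false

/-! The stabiliser of a dodecad and three of its points: Sylow subgroups. -/

namespace Cfsg.Agent.Lib.Helper9.M24M9

open Cfsg.Agent.Lib.Helper9.Golay Cfsg.Agent.Lib.Helper9.GolayC Cfsg.Agent.Lib.Helper9.M24C
open Cfsg.Agent.Lib.Helper9.Octad Cfsg.Agent.Lib.Helper9.M24B Cfsg.Agent.Lib.Helper9.M24T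
open Cfsg.Agent.Lib.Helper9.M24O Cfsg.Agent.Lib.Helper9.M24M Cfsg.Agent.Lib.Helper9.M24Sx
open Cfsg.Agent.Lib.Helper9.M24Dod Cfsg.Agent.Lib.Helper9.M24M2 Cfsg.Agent.Lib.Helper9.M24M3
open Cfsg.Agent.Lib.Helper9.M24M11 Cfsg.Agent.Lib.Helper9.Syl72
open scoped Pointwise

theorem Mk_succ_le (k : ℕ) : Mk (k + 1) ≤ Mk k :=
  fun _ h => ⟨h.1, h.2.1, fun i hi => h.2.2 i (by omega)⟩

theorem tabsM_mem : ∀ j k, k + j = 5 → ∀ t ∈ tabsM j k, ∃ g ∈ Mk k, IsTable g t := by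
  intro j
  induction j with
  | zero =>
    intro k hk t ht
    simp only [tabsM, List.mem_singleton] at ht
    subst ht
    exact ⟨1, one_mem _, isTable_one⟩
  | succ j ih =>
    intro k hk t ht
    have hk5 : k < 5 := by omega
    simp only [tabsM, List.mem_flatMap, List.mem_map] at ht
    obtain ⟨u, hu, t', ht', rfl⟩ := ht
    unfold levelM at hu
    rw [List.mem_map] at hu
    obtain ⟨β, hβ, rfl⟩ := hu
    rw [List.mem_filter, List.mem_range] at hβ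
    obtain ⟨hn, hinv, h1, h2⟩ := trm_ok k hk5 β hβ.1 hβ.2
    obtain ⟨gu, hgu, hut⟩ := mt_mem _ hn
    obtain ⟨g', hg', hT'⟩ := ih (k + 1) (by omega) t' ht'
    refine ⟨gu * g', mul_mem ⟨hgu, (invB_iff hut DM).mpr hinv, fun i hi => ?_⟩
      (Mk_succ_le k hg'), isTable_mul hut hT'⟩
    apply idx_inj
    rw [hut, idx_C i (by omega), h2 i hi]

theorem eq_one_of_isId {g : Equiv.Perm Cfsg.GolayPt} {u : List ℕ} (h : IsTable g u)
    (hu : isId u = true) : g = 1 := by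
  apply Equiv.ext
  intro p
  apply idx_inj
  unfold isId at hu
  rw [List.all_eq_true] at hu
  have := hu (idx p) (List.mem_range.mpr (idx_lt p))
  rw [beq_iff_eq] at this
  rw [h p, this]
  rfl

set_option maxRecDepth 100000 in
theorem p2_ok : ∀ t ∈ tabsM 2 3, ∀ u ∈ tabsM 2 3, isId (powT 3 t) = true →
    isId (powT 3 u) = true → isId (powT 3 (comp t u)) = true := by decide +kernel

set_option maxRecDepth 100000 in
theorem p3_ok : ∀ t ∈ tabsM 2 3, isId (powT 9 t) = true → isId (powT 3 t) = true := by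
  decide +kernel

/-- Tables of the quaternion group inside the four-point stabiliser. -/
def Tq : QuaternionGroup 2 → List ℕ
  | .a i => (tabsM 1 4).getD ([0, 1, 4, 3].getD i.val 0) []
  | .xa i => (tabsM 1 4).getD ([2, 7, 6, 5].getD i.val 0) []

set_option maxRecDepth 100000 in
theorem Tq_mem : ∀ u : QuaternionGroup 2, Tq u ∈ tabsM 1 4 := by decide +kernel

set_option maxRecDepth 100000 in
theorem Tq_mul : ∀ u v : QuaternionGroup 2, Tq (u * v) = comp (Tq u) (Tq v) := by decide +kernel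

set_option maxRecDepth 100000 in
theorem Tq_inj : ∀ u v : QuaternionGroup 2,
    (∀ i < 24, (Tq u).getD i 0 = (Tq v).getD i 0) → u = v := by decide +kernel

noncomputable def qmap (u : QuaternionGroup 2) : Equiv.Perm Cfsg.GolayPt :=
  Classical.choose (tabsM_mem 1 4 rfl (Tq u) (Tq_mem u))

theorem qspec (u : QuaternionGroup 2) : qmap u ∈ Mk 4 ∧ IsTable (qmap u) (Tq u) :=
  Classical.choose_spec (tabsM_mem 1 4 rfl (Tq u) (Tq_mem u))

theorem qmap_mul (u v : QuaternionGroup 2) : qmap (u * v) = qmap u * qmap v := by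
  apply isTable_inj (qspec (u * v)).2
  rw [Tq_mul]
  exact isTable_mul (qspec u).2 (qspec v).2

theorem qmap_inj : Function.Injective qmap := by
  intro u v h
  apply Tq_inj
  intro i hi
  have h1 := (qspec u).2 (ptOf i)
  have h2 := (qspec v).2 (ptOf i)
  rw [idx_ptOf i hi] at h1 h2
  rw [← h1, ← h2, h]

theorem conj_pow' (g a : Equiv.Perm Cfsg.GolayPt) (n : ℕ) :
    (g⁻¹ * a * g) ^ n = g⁻¹ * a ^ n * g := by
  induction n with
  | zero => simp
  | succ n ih =>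
    rw [pow_succ, ih, pow_succ]
    group

theorem exists_frame3 (d : Finset Cfsg.GolayPt) (hd : d ∈ Cfsg.dodecads) (p q r : Cfsg.GolayPt)
    (hp : p ∈ d) (hq : q ∈ d) (hr : r ∈ d) (hpq : p ≠ q) (hpr : p ≠ r) (hqr : q ≠ r) :
    ∃ g0 ∈ Cfsg.M24, g0 • Dset = d ∧ g0 (C 0) = p ∧ g0 (C 1) = q ∧ g0 (C 2) = r := by
  obtain ⟨g1, hg1, rfl⟩ := dodecad_trans Dset d Dset_mem hd
  have hin : ∀ s : Cfsg.GolayPt, s ∈ g1 • Dset → g1⁻¹ s ∈ Dset := by
    intro s hs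
    have := Finset.smul_mem_smul_finset (a := g1⁻¹) hs
    rw [inv_smul_smul] at this
    exact this
  obtain ⟨g2, hg2, hg2x⟩ := exists_tupleM 3 (by norm_num)
    (fun i => if i = 0 then g1⁻¹ p else if i = 1 then g1⁻¹ q else g1⁻¹ r)
    (fun i hi => by
      by_cases h0 : i = 0
      · simp only [h0, if_true]; exact hin p hp
      · by_cases h1 : i = 1
        · simp only [h1, if_true]; exact hin q hq
        · simp only [h0, h1, if_false]; exact hin r hr)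
    (fun i hi j hj h => by
      have e : ∀ a b : Cfsg.GolayPt, g1⁻¹ a = g1⁻¹ b → a = b := fun a b h => g1⁻¹.injective h
      by_cases hi0 : i = 0 <;> by_cases hi1 : i = 1 <;> by_cases hj0 : j = 0 <;>
        by_cases hj1 : j = 1 <;> simp only [hi0, hi1, hj0, hj1, if_true, if_false] at h <;>
        first
        | omega
        | exact absurd (e _ _ h) hpq
        | exact absurd (e _ _ h).symm hpq
        | exact absurd (e _ _ h) hpr
        | exact absurd (e _ _ h).symm hpr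
        | exact absurd (e _ _ h) hqr
        | exact absurd (e _ _ h).symm hqr)
  have hp0 : g2 (C 0) = g1⁻¹ p := hg2x 0 (by norm_num)
  have hq0 : g2 (C 1) = g1⁻¹ q := hg2x 1 (by norm_num)
  have hr0 : g2 (C 2) = g1⁻¹ r := hg2x 2 (by norm_num)
  refine ⟨g1 * g2, mul_mem hg1 hg2.1, ?_, ?_, ?_, ?_⟩
  · rw [mul_smul, hg2.2.1]
  · rw [Equiv.Perm.mul_apply, hp0]; simp
  · rw [Equiv.Perm.mul_apply, hq0]; simp
  · rw [Equiv.Perm.mul_apply, hr0]; simp

theorem m9_sylow (d : Finset Cfsg.GolayPt) (hd : d ∈ Cfsg.dodecads) (p q r : Cfsg.GolayPt)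
    (hp : p ∈ d) (hq : q ∈ d) (hr : r ∈ d) (hpq : p ≠ q) (hpr : p ≠ r) (hqr : q ≠ r) :
    (∀ Q : Sylow 3 ↥(MulAction.stabilizer Cfsg.M24 d ⊓ MulAction.stabilizer Cfsg.M24 p ⊓
        MulAction.stabilizer Cfsg.M24 q ⊓ MulAction.stabilizer Cfsg.M24 r),
      (Q : Subgroup ↥(MulAction.stabilizer Cfsg.M24 d ⊓ MulAction.stabilizer Cfsg.M24 p ⊓
        MulAction.stabilizer Cfsg.M24 q ⊓ MulAction.stabilizer Cfsg.M24 r)).Normal ∧
      Nat.card ↥Q = 9 ∧
      ∀ x ∈ (Q : Subgroup ↥(MulAction.stabilizer Cfsg.M24 d ⊓ MulAction.stabilizer Cfsg.M24 p ⊓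
        MulAction.stabilizer Cfsg.M24 q ⊓ MulAction.stabilizer Cfsg.M24 r)), x ^ 3 = 1) ∧
    ∀ P : Sylow 2 ↥(MulAction.stabilizer Cfsg.M24 d ⊓ MulAction.stabilizer Cfsg.M24 p ⊓
        MulAction.stabilizer Cfsg.M24 q ⊓ MulAction.stabilizer Cfsg.M24 r),
      Nonempty (↥P ≃* QuaternionGroup 2) := by
  have hcard := (stab3 d hd p q r hp hq hr hpq hpr hqr).1
  obtain ⟨g0, hg0, hd0, hp1, hq1, hr1⟩ := exists_frame3 d hd p q r hp hq hr hpq hpr hqr
  subst hd0 hp1 hq1 hr1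
  have hC : ∀ i < 3, (i = 0 ∨ i = 1 ∨ i = 2) := by intro i hi; omega
  have hmem : ∀ x : ↥(MulAction.stabilizer Cfsg.M24 (g0 • Dset) ⊓
      MulAction.stabilizer Cfsg.M24 (g0 (C 0)) ⊓ MulAction.stabilizer Cfsg.M24 (g0 (C 1)) ⊓
      MulAction.stabilizer Cfsg.M24 (g0 (C 2))), g0⁻¹ * x.1.1 * g0 ∈ Mk 3 := by
    intro x
    refine ⟨mul_mem (mul_mem (inv_mem hg0) x.1.2) hg0, ?_, fun i hi => ?_⟩
    · have h1 : x.1.1 • g0 • Dset = g0 • Dset := x.2.1.1.1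
      rw [mul_smul, mul_smul, h1, inv_smul_smul]
    · have h2 : x.1.1 (g0 (C 0)) = g0 (C 0) := x.2.1.1.2
      have h3 : x.1.1 (g0 (C 1)) = g0 (C 1) := x.2.1.2
      have h4 : x.1.1 (g0 (C 2)) = g0 (C 2) := x.2.2
      rcases hC i hi with rfl | rfl | rfl
      · rw [Equiv.Perm.mul_apply, Equiv.Perm.mul_apply, h2]; simp
      · rw [Equiv.Perm.mul_apply, Equiv.Perm.mul_apply, h3]; simp
      · rw [Equiv.Perm.mul_apply, Equiv.Perm.mul_apply, h4]; simp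
  have hpow : ∀ (x : ↥(MulAction.stabilizer Cfsg.M24 (g0 • Dset) ⊓
      MulAction.stabilizer Cfsg.M24 (g0 (C 0)) ⊓ MulAction.stabilizer Cfsg.M24 (g0 (C 1)) ⊓
      MulAction.stabilizer Cfsg.M24 (g0 (C 2)))) (n : ℕ),
      g0⁻¹ * (x ^ n).1.1 * g0 = (g0⁻¹ * x.1.1 * g0) ^ n := by
    intro x n
    rw [conj_pow']
    rfl
  have hone : ∀ x : ↥(MulAction.stabilizer Cfsg.M24 (g0 • Dset) ⊓
      MulAction.stabilizer Cfsg.M24 (g0 (C 0)) ⊓ MulAction.stabilizer Cfsg.M24 (g0 (C 1)) ⊓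
      MulAction.stabilizer Cfsg.M24 (g0 (C 2))), g0⁻¹ * x.1.1 * g0 = 1 → x = 1 := by
    intro x h
    apply Subtype.ext
    apply Subtype.ext
    have := congrArg (fun y => g0 * y * g0⁻¹) h
    simpa [mul_assoc] using this
  have hid : ∀ (x : ↥(MulAction.stabilizer Cfsg.M24 (g0 • Dset) ⊓
      MulAction.stabilizer Cfsg.M24 (g0 (C 0)) ⊓ MulAction.stabilizer Cfsg.M24 (g0 (C 1)) ⊓
      MulAction.stabilizer Cfsg.M24 (g0 (C 2)))) (n : ℕ) (t : List ℕ),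
      IsTable (g0⁻¹ * x.1.1 * g0) t → x ^ n = 1 → isId (powT n t) = true := by
    intro x n t hT hx
    apply isId_one
    have := isTable_pow hT n
    rw [← hpow x n, hx] at this
    have e : g0⁻¹ * ((1 : ↥(MulAction.stabilizer Cfsg.M24 (g0 • Dset) ⊓
      MulAction.stabilizer Cfsg.M24 (g0 (C 0)) ⊓ MulAction.stabilizer Cfsg.M24 (g0 (C 1)) ⊓
      MulAction.stabilizer Cfsg.M24 (g0 (C 2)))).1.1 : Equiv.Perm Cfsg.GolayPt) * g0 = 1 := by
      show g0⁻¹ * 1 * g0 = 1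
      group
    rw [e] at this
    exact this
  have h2 : ∀ x y : ↥(MulAction.stabilizer Cfsg.M24 (g0 • Dset) ⊓
      MulAction.stabilizer Cfsg.M24 (g0 (C 0)) ⊓ MulAction.stabilizer Cfsg.M24 (g0 (C 1)) ⊓
      MulAction.stabilizer Cfsg.M24 (g0 (C 2))), x ^ 3 = 1 → y ^ 3 = 1 → (x * y) ^ 3 = 1 := by
    intro x y hx hy
    obtain ⟨t, ht, hT⟩ := Mk_tabs 2 3 rfl _ (hmem x)
    obtain ⟨u, hu, hU⟩ := Mk_tabs 2 3 rfl _ (hmem y)
    have e3 := p2_ok t ht u hu (hid x 3 t hT hx) (hid y 3 u hU hy)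
    apply hone
    rw [hpow]
    have hxy : g0⁻¹ * (x * y).1.1 * g0 = (g0⁻¹ * x.1.1 * g0) * (g0⁻¹ * y.1.1 * g0) := by
      show g0⁻¹ * (x.1.1 * y.1.1) * g0 = _
      group
    rw [hxy]
    exact eq_one_of_isId (isTable_pow (isTable_mul hT hU) 3) e3
  have h3 : ∀ x : ↥(MulAction.stabilizer Cfsg.M24 (g0 • Dset) ⊓
      MulAction.stabilizer Cfsg.M24 (g0 (C 0)) ⊓ MulAction.stabilizer Cfsg.M24 (g0 (C 1)) ⊓
      MulAction.stabilizer Cfsg.M24 (g0 (C 2))), x ^ 9 = 1 → x ^ 3 = 1 := by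
    intro x hx
    obtain ⟨t, ht, hT⟩ := Mk_tabs 2 3 rfl _ (hmem x)
    have e3 := p3_ok t ht (hid x 9 t hT hx)
    apply hone
    rw [hpow]
    exact eq_one_of_isId (isTable_pow hT 3) e3
  refine ⟨fun Q => sylow3 hcard h2 h3 Q, fun P => ?_⟩
  let qh : QuaternionGroup 2 →* Equiv.Perm Cfsg.GolayPt := MonoidHom.mk' qmap qmap_mul
  let φ0 : QuaternionGroup 2 →* Equiv.Perm Cfsg.GolayPt := (MulAut.conj g0).toMonoidHom.comp qh
  have hφ0 : ∀ u, φ0 u = g0 * qmap u * g0⁻¹ := fun u => rfl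
  let φ1 : QuaternionGroup 2 →* ↥Cfsg.M24 := φ0.codRestrict Cfsg.M24 (fun u => by
    rw [hφ0]
    exact mul_mem (mul_mem hg0 (qspec u).1.1) (inv_mem hg0))
  let φ : QuaternionGroup 2 →* ↥(MulAction.stabilizer Cfsg.M24 (g0 • Dset) ⊓
      MulAction.stabilizer Cfsg.M24 (g0 (C 0)) ⊓ MulAction.stabilizer Cfsg.M24 (g0 (C 1)) ⊓
      MulAction.stabilizer Cfsg.M24 (g0 (C 2))) := φ1.codRestrict _ (fun u => by
    refine Subgroup.mem_inf.mpr ⟨Subgroup.mem_inf.mpr ⟨Subgroup.mem_inf.mpr ⟨?_, ?_⟩, ?_⟩, ?_⟩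
    · show (g0 * qmap u * g0⁻¹) • g0 • Dset = g0 • Dset
      rw [mul_smul, mul_smul, inv_smul_smul, (qspec u).1.2.1]
    · show (g0 * qmap u * g0⁻¹) (g0 (C 0)) = g0 (C 0)
      rw [Equiv.Perm.mul_apply, Equiv.Perm.mul_apply]
      simp [(qspec u).1.2.2 0 (by norm_num)]
    · show (g0 * qmap u * g0⁻¹) (g0 (C 1)) = g0 (C 1)
      rw [Equiv.Perm.mul_apply, Equiv.Perm.mul_apply]
      simp [(qspec u).1.2.2 1 (by norm_num)]
    · show (g0 * qmap u * g0⁻¹) (g0 (C 2)) = g0 (C 2)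
      rw [Equiv.Perm.mul_apply, Equiv.Perm.mul_apply]
      simp [(qspec u).1.2.2 2 (by norm_num)])
  have hφ : Function.Injective φ := by
    intro u v h
    apply qmap_inj
    have h1 : g0 * qmap u * g0⁻¹ = g0 * qmap v * g0⁻¹ :=
      congrArg (fun x : ↥(MulAction.stabilizer Cfsg.M24 (g0 • Dset) ⊓
        MulAction.stabilizer Cfsg.M24 (g0 (C 0)) ⊓ MulAction.stabilizer Cfsg.M24 (g0 (C 1)) ⊓
        MulAction.stabilizer Cfsg.M24 (g0 (C 2))) => (x.1.1 : Equiv.Perm Cfsg.GolayPt)) h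
    have := congrArg (fun x => g0⁻¹ * x * g0) h1
    simpa [mul_assoc] using this
  exact sylow2 hcard φ hφ P

end Cfsg.Agent.Lib.Helper9.M24M9
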