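import Mathlib
import Cfsg.Prelude.Def_SporadicCombinatorics
import Cfsg.Agent.Lib.Helper9.SextetY
import Cfsg.Agent.Lib.Helper9.M24Cnt

set_option autoImplicit false

/-! Sextets relative to a dodecad: the three types and their numbers. -/

namespace Cfsg.Agent.Lib.Helper9.SextetD

open Cfsg.Agent.Lib.Helper9.Golay Cfsg.Agent.Lib.Helper9.GolayC Cfsg.Agent.Lib.Helper9.M24C
open Cfsg.Agent.Lib.Helper9.Octad Cfsg.Agent.Lib.Helper9.M24B Cfsg.Agent.Lib.Helper9.M24T
open Cfsg.Agent.Lib.Helper9.M24Dod Cfsg.Agent.Lib.Helper9.M24Cnt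
open Cfsg.Agent.Lib.Helper9.M24Rel Cfsg.Agent.Lib.Helper9.Sextet
open Cfsg.Agent.Lib.Helper9.SextetY
open scoped Pointwise

variable {S : Finset (Finset Cfsg.GolayPt)} {d : Finset Cfsg.GolayPt}

theorem pair_sum (hS : S ∈ Cfsg.sextets) (hd : d ∈ Cfsg.dodecads) {t u : Finset Cfsg.GolayPt}
    (ht : t ∈ S) (hu : u ∈ S) (hne : t ≠ u) :
    (t ∩ d).card + (u ∩ d).card = 2 ∨ (t ∩ d).card + (u ∩ d).card = 4 ∨
      (t ∩ d).card + (u ∩ d).card = 6 := by
  have h := octad_dodecad_inter (hS.2.2 t ht u hu hne) hd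
  have e : ((t ∪ u) ∩ d).card = (t ∩ d).card + (u ∩ d).card := by
    rw [Finset.union_inter_distrib_right, Finset.card_union_of_disjoint]
    exact (sextet_disjoint hS ht hu hne).mono Finset.inter_subset_left Finset.inter_subset_left
  rw [e] at h
  exact h

theorem n_le (hS : S ∈ Cfsg.sextets) {t : Finset Cfsg.GolayPt} (ht : t ∈ S)
    (d : Finset Cfsg.GolayPt) : (t ∩ d).card ≤ 4 := by
  rw [← hS.2.1 t ht]
  exact Finset.card_le_card Finset.inter_subset_left

theorem exists_four (hS : S ∈ Cfsg.sextets) (hd : d ∈ Cfsg.dodecads) {t0 : Finset Cfsg.GolayPt}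
    (ht0 : t0 ∈ S) (h0 : (t0 ∩ d).card = 0) : ∃ u ∈ S, (u ∩ d).card = 4 := by
  by_contra hcon
  push Not at hcon
  have hsum := sum_inter hS d
  rw [((mem_dodecads d).mp hd).2, ← Finset.add_sum_erase S _ ht0, h0, zero_add] at hsum
  have hle : ∑ u ∈ S.erase t0, (u ∩ d).card ≤ (S.erase t0).card • 2 :=
    Finset.sum_le_card_nsmul _ _ 2 (fun u hu => by
      have hu' := Finset.mem_erase.mp hu
      have := pair_sum hS hd ht0 hu'.2 (Ne.symm hu'.1)
      have := hcon u hu'.2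
      have := n_le hS hu'.2 d
      omega)
  rw [Finset.card_erase_of_mem ht0, hS.1, smul_eq_mul] at hle
  omega

theorem exists_three (hS : S ∈ Cfsg.sextets) (hd : d ∈ Cfsg.dodecads) {t0 : Finset Cfsg.GolayPt}
    (ht0 : t0 ∈ S) (h1 : (t0 ∩ d).card = 1) : ∃ u ∈ S, (u ∩ d).card = 3 := by
  by_contra hcon
  push Not at hcon
  have hsum := sum_inter hS d
  rw [((mem_dodecads d).mp hd).2, ← Finset.add_sum_erase S _ ht0, h1] at hsum
  have hle : ∑ u ∈ S.erase t0, (u ∩ d).card ≤ (S.erase t0).card • 1 :=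
    Finset.sum_le_card_nsmul _ _ 1 (fun u hu => by
      have hu' := Finset.mem_erase.mp hu
      have := pair_sum hS hd ht0 hu'.2 (Ne.symm hu'.1)
      have := hcon u hu'.2
      have := n_le hS hu'.2 d
      omega)
  rw [Finset.card_erase_of_mem ht0, hS.1, smul_eq_mul] at hle
  omega

theorem card_three_of (hS : S ∈ Cfsg.sextets) (hd : d ∈ Cfsg.dodecads)
    {t0 : Finset Cfsg.GolayPt} (ht0 : t0 ∈ S) (h3 : (t0 ∩ d).card = 3) :
    (S.filter (fun t => (t ∩ d).card = 3)).card = 3 := by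
  have hall : ∀ u ∈ S, (u ∩ d).card = 3 ∨ (u ∩ d).card = 1 := by
    intro u hu
    by_cases h : u = t0
    · left; rw [h]; exact h3
    · have := pair_sum hS hd ht0 hu (Ne.symm h)
      omega
  have hsum := sum_inter hS d
  rw [((mem_dodecads d).mp hd).2,
    ← Finset.sum_filter_add_sum_filter_not S (fun t => (t ∩ d).card = 3)] at hsum
  have e1 : ∑ t ∈ S.filter (fun t => (t ∩ d).card = 3), (t ∩ d).card =
      (S.filter (fun t => (t ∩ d).card = 3)).card * 3 := by
    rw [Finset.sum_congr rfl (fun t ht => (Finset.mem_filter.mp ht).2), Finset.sum_const,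
      smul_eq_mul]
  have e2 : ∑ t ∈ S.filter (fun t => ¬ (t ∩ d).card = 3), (t ∩ d).card =
      (S.filter (fun t => ¬ (t ∩ d).card = 3)).card * 1 := by
    rw [Finset.sum_congr rfl (fun t ht => by
      have h := Finset.mem_filter.mp ht
      rcases hall t h.1 with h' | h'
      · exact absurd h' h.2
      · exact h'), Finset.sum_const, smul_eq_mul]
  have e3 := Finset.card_filter_add_card_filter_not (s := S)
    (fun t => (t ∩ d).card = 3)
  rw [e1, e2] at hsum
  rw [hS.1] at e3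
  omega

/-- Some tetrad lies inside the dodecad or its complement. -/
def P2 (d : Finset Cfsg.GolayPt) (S : Finset (Finset Cfsg.GolayPt)) : Prop :=
  ∃ t ∈ S, (t ∩ d).card = 4 ∨ (t ∩ d).card = 0

/-- Some tetrad meets the dodecad in three points or in one. -/
def P3 (d : Finset Cfsg.GolayPt) (S : Finset (Finset Cfsg.GolayPt)) : Prop :=
  ∃ t ∈ S, (t ∩ d).card = 3 ∨ (t ∩ d).card = 1

/-- Every tetrad meets the dodecad in two points. -/
def P1 (d : Finset Cfsg.GolayPt) (S : Finset (Finset Cfsg.GolayPt)) : Prop :=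
  ∀ t ∈ S, (t ∩ d).card = 2

theorem P2_iff (hS : S ∈ Cfsg.sextets) (hd : d ∈ Cfsg.dodecads) :
    P2 d S ↔ ∃ t ∈ S, (t ∩ d).card = 4 := by
  constructor
  · rintro ⟨t, ht, h | h⟩
    · exact ⟨t, ht, h⟩
    · exact exists_four hS hd ht h
  · rintro ⟨t, ht, h⟩
    exact ⟨t, ht, Or.inl h⟩

theorem P3_iff (hS : S ∈ Cfsg.sextets) (hd : d ∈ Cfsg.dodecads) :
    P3 d S ↔ ∃ t ∈ S, (t ∩ d).card = 3 := by
  constructor
  · rintro ⟨t, ht, h | h⟩
    · exact ⟨t, ht, h⟩
    · exact exists_three hS hd ht h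
  · rintro ⟨t, ht, h⟩
    exact ⟨t, ht, Or.inl h⟩

theorem not_P2_P3 (hS : S ∈ Cfsg.sextets) (hd : d ∈ Cfsg.dodecads) (h2 : P2 d S)
    (h3 : P3 d S) : False := by
  obtain ⟨t, ht, h⟩ := h2
  obtain ⟨u, hu, h'⟩ := h3
  have hne : t ≠ u := by
    rintro rfl
    omega
  have := pair_sum hS hd ht hu hne
  omega

theorem P1_iff (hS : S ∈ Cfsg.sextets) : P1 d S ↔ ¬ P2 d S ∧ ¬ P3 d S := by
  constructor
  · intro h
    constructor
    · rintro ⟨t, ht, h'⟩
      have := h t ht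
      omega
    · rintro ⟨t, ht, h'⟩
      have := h t ht
      omega
  · rintro ⟨h2, h3⟩ t ht
    have h4 := n_le hS ht d
    by_contra hcon
    rcases (by omega : (t ∩ d).card = 4 ∨ (t ∩ d).card = 0 ∨ (t ∩ d).card = 3 ∨
      (t ∩ d).card = 1) with h | h | h | h
    · exact h2 ⟨t, ht, Or.inl h⟩
    · exact h2 ⟨t, ht, Or.inr h⟩
    · exact h3 ⟨t, ht, Or.inl h⟩
    · exact h3 ⟨t, ht, Or.inr h⟩

theorem ncard_P2 (hd : d ∈ Cfsg.dodecads) :
    {S : Finset (Finset Cfsg.GolayPt) | S ∈ Cfsg.sextets ∧ P2 d S}.ncard = 495 := by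
  have e : {S : Finset (Finset Cfsg.GolayPt) | S ∈ Cfsg.sextets ∧ P2 d S} =
      ↑(((Finset.univ.powersetCard 4).filter (fun T => (d ∩ T).card = 4)).image sx) := by
    ext S
    rw [Finset.mem_coe, Finset.mem_image]
    constructor
    · rintro ⟨hS, h2⟩
      obtain ⟨t, ht, h4⟩ := (P2_iff hS hd).mp h2
      exact ⟨t, Finset.mem_filter.mpr ⟨Finset.mem_powersetCard.mpr
        ⟨Finset.subset_univ _, hS.2.1 t ht⟩, by rw [Finset.inter_comm]; exact h4⟩,
        (sextet_eq hS ht).symm⟩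
    · rintro ⟨T, hT, rfl⟩
      rw [Finset.mem_filter, Finset.mem_powersetCard] at hT
      exact ⟨sx_mem T hT.1.2, T, sx_self T, Or.inl (by rw [Finset.inter_comm]; exact hT.2)⟩
  rw [e, Set.ncard_coe_finset, Finset.card_image_of_injOn, card_inter_eq d 4 4 le_rfl,
    ((mem_dodecads d).mp hd).2, card_pts]
  · norm_num [Nat.choose]
  · intro T hT T' hT' h
    rw [Finset.mem_coe, Finset.mem_filter, Finset.mem_powersetCard] at hT hT'
    have hS := sx_mem T hT.1.2
    have hm : T' ∈ sx T := by rw [h]; exact sx_self _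
    by_contra hne
    have := pair_sum hS hd (sx_self T) hm hne
    rw [Finset.inter_comm T d, Finset.inter_comm T' d, hT.2, hT'.2] at this
    omega

theorem fib_aux {α : Type*} (s : Finset α) (h : 2640 = ∑ _x ∈ s, 3) : s.card = 880 := by
  rw [Finset.sum_const, smul_eq_mul] at h
  omega

theorem ncard_P3 (hd : d ∈ Cfsg.dodecads) :
    {S : Finset (Finset Cfsg.GolayPt) | S ∈ Cfsg.sextets ∧ P3 d S}.ncard = 880 := by
  have e : {S : Finset (Finset Cfsg.GolayPt) | S ∈ Cfsg.sextets ∧ P3 d S} =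
      ↑(((Finset.univ.powersetCard 4).filter (fun T => (d ∩ T).card = 3)).image sx) := by
    ext S
    rw [Finset.mem_coe, Finset.mem_image]
    constructor
    · rintro ⟨hS, h2⟩
      obtain ⟨t, ht, h4⟩ := (P3_iff hS hd).mp h2
      exact ⟨t, Finset.mem_filter.mpr ⟨Finset.mem_powersetCard.mpr
        ⟨Finset.subset_univ _, hS.2.1 t ht⟩, by rw [Finset.inter_comm]; exact h4⟩,
        (sextet_eq hS ht).symm⟩
    · rintro ⟨T, hT, rfl⟩
      rw [Finset.mem_filter, Finset.mem_powersetCard] at hT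
      exact ⟨sx_mem T hT.1.2, T, sx_self T, Or.inl (by rw [Finset.inter_comm]; exact hT.2)⟩
  rw [e, Set.ncard_coe_finset]
  have h1 := Finset.card_eq_sum_card_fiberwise (f := sx)
    (s := (Finset.univ.powersetCard 4).filter (fun T => (d ∩ T).card = 3))
    (t := ((Finset.univ.powersetCard 4).filter (fun T => (d ∩ T).card = 3)).image sx)
    (fun T hT => Finset.mem_image_of_mem _ hT)
  have h2 : ∀ S ∈ ((Finset.univ.powersetCard 4).filter (fun T => (d ∩ T).card = 3)).image sx,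
      (((Finset.univ.powersetCard 4).filter (fun T => (d ∩ T).card = 3)).filter
        (fun T => sx T = S)).card = 3 := by
    intro S hS
    rw [Finset.mem_image] at hS
    obtain ⟨T0, hT0, rfl⟩ := hS
    rw [Finset.mem_filter, Finset.mem_powersetCard] at hT0
    have hS := sx_mem T0 hT0.1.2
    have : ((Finset.univ.powersetCard 4).filter (fun T => (d ∩ T).card = 3)).filter
        (fun T => sx T = sx T0) = (sx T0).filter (fun t => (t ∩ d).card = 3) := by
      ext T
      rw [Finset.mem_filter, Finset.mem_filter, Finset.mem_filter, Finset.mem_powersetCard]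
      constructor
      · rintro ⟨⟨-, h3⟩, hsx⟩
        exact ⟨by rw [← hsx]; exact sx_self T, by rw [Finset.inter_comm]; exact h3⟩
      · rintro ⟨hT, h3⟩
        exact ⟨⟨⟨Finset.subset_univ _, hS.2.1 T hT⟩, by rw [Finset.inter_comm]; exact h3⟩,
          (sextet_eq hS hT).symm⟩
    rw [this]
    exact card_three_of hS hd (sx_self T0) (by rw [Finset.inter_comm]; exact hT0.2)
  rw [Finset.sum_congr rfl h2, card_inter_eq d 4 3 (by norm_num), ((mem_dodecads d).mp hd).2,
    card_pts] at h1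
  have h3 : Nat.choose 12 3 * Nat.choose (24 - 12) (4 - 3) = 2640 := by norm_num [Nat.choose]
  rw [h3] at h1
  exact fib_aux _ h1

theorem ncard_P1 (hd : d ∈ Cfsg.dodecads) :
    {S : Finset (Finset Cfsg.GolayPt) | S ∈ Cfsg.sextets ∧ P1 d S}.ncard = 396 := by
  have h2 := ncard_P2 hd
  have h3 := ncard_P3 hd
  have hs := ncard_sextets
  have e : Cfsg.sextets = {S : Finset (Finset Cfsg.GolayPt) | S ∈ Cfsg.sextets ∧ P1 d S} ∪
      ({S : Finset (Finset Cfsg.GolayPt) | S ∈ Cfsg.sextets ∧ P2 d S} ∪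
        {S : Finset (Finset Cfsg.GolayPt) | S ∈ Cfsg.sextets ∧ P3 d S}) := by
    ext S
    constructor
    · intro hS
      by_cases p2 : P2 d S
      · exact Or.inr (Or.inl ⟨hS, p2⟩)
      · by_cases p3 : P3 d S
        · exact Or.inr (Or.inr ⟨hS, p3⟩)
        · exact Or.inl ⟨hS, (P1_iff hS).mpr ⟨p2, p3⟩⟩
    · rintro (h | h | h) <;> exact h.1
  have d23 : Disjoint {S : Finset (Finset Cfsg.GolayPt) | S ∈ Cfsg.sextets ∧ P2 d S}
      {S : Finset (Finset Cfsg.GolayPt) | S ∈ Cfsg.sextets ∧ P3 d S} := by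
    rw [Set.disjoint_left]
    rintro S ⟨hS, p2⟩ ⟨-, p3⟩
    exact not_P2_P3 hS hd p2 p3
  have d1 : Disjoint {S : Finset (Finset Cfsg.GolayPt) | S ∈ Cfsg.sextets ∧ P1 d S}
      ({S : Finset (Finset Cfsg.GolayPt) | S ∈ Cfsg.sextets ∧ P2 d S} ∪
        {S : Finset (Finset Cfsg.GolayPt) | S ∈ Cfsg.sextets ∧ P3 d S}) := by
    rw [Set.disjoint_left]
    rintro S ⟨hS, p1⟩ (⟨-, p2⟩ | ⟨-, p3⟩)
    · exact ((P1_iff hS).mp p1).1 p2
    · exact ((P1_iff hS).mp p1).2 p3
  rw [e, Set.ncard_union_eq d1 (Set.toFinite _) (Set.toFinite _),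
    Set.ncard_union_eq d23 (Set.toFinite _) (Set.toFinite _), h2, h3] at hs
  omega

end Cfsg.Agent.Lib.Helper9.SextetD
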