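import Mathlib
import Cfsg.Prelude.Def_SporadicCombinatorics
import Cfsg.Agent.Lib.Helper9.SextetD
import Cfsg.Agent.Lib.Helper9.M24M9
import Cfsg.Agent.Lib.Helper9.M24M3
import Cfsg.Agent.Lib.Helper9.M24Conj

set_option autoImplicit false

/-! Orbits of the stabiliser of a complementary pair of dodecads on sextets. -/

namespace Cfsg.Agent.Lib.Helper9.SextetD2

open Cfsg.Agent.Lib.Helper9.Golay Cfsg.Agent.Lib.Helper9.GolayC Cfsg.Agent.Lib.Helper9.M24C
open Cfsg.Agent.Lib.Helper9.Octad Cfsg.Agent.Lib.Helper9.M24B Cfsg.Agent.Lib.Helper9.M24T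
open Cfsg.Agent.Lib.Helper9.M24O Cfsg.Agent.Lib.Helper9.M24F
open Cfsg.Agent.Lib.Helper9.M24Dod Cfsg.Agent.Lib.Helper9.M24Cnt
open Cfsg.Agent.Lib.Helper9.M24M Cfsg.Agent.Lib.Helper9.M24M3 Cfsg.Agent.Lib.Helper9.M24M11
open Cfsg.Agent.Lib.Helper9.M24M9 Cfsg.Agent.Lib.Helper9.M24Six Cfsg.Agent.Lib.Helper9.M24Tri
open Cfsg.Agent.Lib.Helper9.M24Rel Cfsg.Agent.Lib.Helper9.Sextet
open Cfsg.Agent.Lib.Helper9.SextetY Cfsg.Agent.Lib.Helper9.SextetD
open Cfsg.Agent.Lib.Helper9.M24Conj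
open scoped Pointwise

/-- The image of a tuple. -/
def img (y : ℕ → Cfsg.GolayPt) : Finset Cfsg.GolayPt := (Finset.range 4).image y

theorem smul_img (g : Equiv.Perm Cfsg.GolayPt) (y x : ℕ → Cfsg.GolayPt) (t : Finset Cfsg.GolayPt)
    (h4 : t.card = 4) (hy : ∀ i < 4, ∀ j < 4, y i = y j → i = j) (hx : ∀ i < 4, x i ∈ t)
    (hg : ∀ i < 4, g (y i) = x i) : g • img y = t :=
  smul_eq_img g _ t y x 4 (fun p hp => by
    unfold img at hp
    rw [Finset.mem_image] at hp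
    obtain ⟨i, hi, rfl⟩ := hp
    exact ⟨i, Finset.mem_range.mp hi, rfl⟩) hx (by unfold img; rw [card_img 4 y hy, h4]) hg

theorem app_inv (g : Equiv.Perm Cfsg.GolayPt) (x : Cfsg.GolayPt) : g (g⁻¹ x) = x := by simp

theorem mk0_of {k : ℕ} {u : Equiv.Perm Cfsg.GolayPt} (hu : u ∈ Mk k) : u ∈ Mk 0 :=
  ⟨hu.1, hu.2.1, fun i hi => absurd hi (Nat.not_lt_zero i)⟩

theorem inv_notMem {g : Equiv.Perm Cfsg.GolayPt} (hg : g ∈ Mk 0) {q : Cfsg.GolayPt}
    (hq : q ∉ Dset) : g⁻¹ q ∉ Dset := by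
  intro hmem
  have := (smul_mem_iff hg.2.1 (g⁻¹ q)).mpr hmem
  rw [app_inv] at this
  exact hq this

theorem norm2 (t : Finset Cfsg.GolayPt) (h4 : t.card = 4) (hn : (t ∩ Dset).card = 4) :
    ∃ h ∈ Mk 0, h • img C = t := by
  have hsub : t ⊆ Dset := by
    have : t ∩ Dset = t :=
      Finset.eq_of_subset_of_card_le Finset.inter_subset_left (by rw [hn, h4])
    rw [← this]
    exact Finset.inter_subset_right
  obtain ⟨x, hx1, hx2, -⟩ := exists_enum t 4 h4
  obtain ⟨g, hg, hgx⟩ := exists_tupleM 4 (by norm_num) x (fun i hi => hsub (hx1 i hi)) hx2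
  exact ⟨g, hg, smul_img g C x t h4 (fun i hi j hj => C_inj i (by omega) j (by omega)) hx1 hgx⟩

theorem norm3 (t : Finset Cfsg.GolayPt) (h4 : t.card = 4) (hn : (t ∩ Dset).card = 3) :
    ∃ h ∈ Mk 0, h • img (cat C (fun _ => E 0) 3) = t := by
  obtain ⟨x, hx1, hx2, -⟩ := exists_enum (t ∩ Dset) 3 hn
  have hc1 : (t \ Dset).card = 1 := by
    have := Finset.card_sdiff_add_card_inter t Dset
    omega
  obtain ⟨q, hq⟩ := Finset.card_eq_one.mp hc1
  have hqm : q ∈ t \ Dset := hq ▸ Finset.mem_singleton_self q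
  rw [Finset.mem_sdiff] at hqm
  obtain ⟨g1, hg1, hgx⟩ := exists_tupleM 3 (by norm_num) x
    (fun i hi => (Finset.mem_inter.mp (hx1 i hi)).2) hx2
  obtain ⟨u, hu, huq⟩ := exists_trans3 (g1⁻¹ q) (inv_notMem hg1 hqm.2)
  refine ⟨g1 * u, mul_mem hg1 (mk0_of hu), ?_⟩
  apply smul_img (g1 * u) _ (cat x (fun _ => q) 3) t h4
  · exact cat_inj Dset {E 0} (Finset.disjoint_singleton_right.mpr (E_notMem 0 (by norm_num)))
      C (fun _ => E 0) 3 1 (fun i hi => C_mem i (by omega))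
      (fun _ _ => Finset.mem_singleton_self _)
      (fun i hi j hj => C_inj i (by omega) j (by omega)) (fun i hi j hj _ => by omega)
  · intro i hi
    unfold cat
    by_cases h : i < 3
    · rw [if_pos h]
      exact (Finset.mem_inter.mp (hx1 i h)).1
    · rw [if_neg h]
      exact hqm.1
  · intro i hi
    unfold cat
    rw [Equiv.Perm.mul_apply]
    by_cases h : i < 3
    · rw [if_pos h, if_pos h, hu.2.2 i h, hgx i h]
    · rw [if_neg h, if_neg h, huq, app_inv]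

/-- Every octad through the set meets the dodecad in four points. -/
def GoodD (d t : Finset Cfsg.GolayPt) : Prop :=
  ∀ o ∈ Cfsg.octads, t ⊆ o → (o ∩ d).card = 4

/-- Index-level form of `GoodD` for the standard dodecad and the tetrads through its first two
base points. -/
def goodB (i j : ℕ) : Bool :=
  (List.range 4096).all (fun c =>
    !(decide (pc 24 (lin LB c) = 8) && (lin LB c).testBit 0 && (lin LB c).testBit 1 &&
      (lin LB c).testBit i && (lin LB c).testBit j) || decide (pc 24 (DM &&& lin LB c) = 4))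

set_option maxRecDepth 100000 in
theorem chk1 : (List.range 24).all (fun i => (List.range 24).all (fun j =>
    DM.testBit i || DM.testBit j || i == j ||
    (tabsM 3 2).any (fun tb => tb.getD 5 0 == i && tb.getD 7 0 == j) || !goodB i j)) = true := by
  decide +kernel

theorem E0_eq : E 0 = ptOf 5 := rfl

theorem E1_eq : E 1 = ptOf 7 := rfl

theorem exists_m10 (p q : Cfsg.GolayPt) (hp : p ∉ Dset) (hq : q ∉ Dset) (hpq : p ≠ q)
    (hgood : goodB (idx p) (idx q) = true) : ∃ u ∈ Mk 2, u (E 0) = p ∧ u (E 1) = q := by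
  have h := chk1
  rw [List.all_eq_true] at h
  have h1 := h (idx p) (List.mem_range.mpr (Cfsg.Agent.Lib.Helper9.M24C.idx_lt p))
  rw [List.all_eq_true] at h1
  have h2 := h1 (idx q) (List.mem_range.mpr (Cfsg.Agent.Lib.Helper9.M24C.idx_lt q))
  have b1 : DM.testBit (idx p) = false := by
    unfold Dset at hp
    rw [mem_maskSet] at hp
    simpa using hp
  have b2 : DM.testBit (idx q) = false := by
    unfold Dset at hq
    rw [mem_maskSet] at hq
    simpa using hq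
  have b3 : (idx p == idx q) = false := by
    rw [beq_eq_false_iff_ne]
    exact fun e => hpq (idx_inj e)
  rw [b1, b2, b3, hgood] at h2
  simp only [Bool.false_or, Bool.not_true, Bool.or_false, List.any_eq_true, Bool.and_eq_true,
    beq_iff_eq] at h2
  obtain ⟨tb, htb, e5, e7⟩ := h2
  obtain ⟨u, hu, hT⟩ := tabsM_mem 3 2 rfl tb htb
  refine ⟨u, hu, ?_, ?_⟩
  · rw [E0_eq, isTable_apply hT 5 (by norm_num), e5, ptOf_idx]
  · rw [E1_eq, isTable_apply hT 7 (by norm_num), e7, ptOf_idx]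

theorem norm1 (t : Finset Cfsg.GolayPt) (h4 : t.card = 4) (hn : (t ∩ Dset).card = 2)
    (hgood : GoodD Dset t) : ∃ h ∈ Mk 0, h • img (cat C E 2) = t := by
  obtain ⟨x, hx1, hx2, hx3⟩ := exists_enum (t ∩ Dset) 2 hn
  have hc1 : (t \ Dset).card = 2 := by
    have := Finset.card_sdiff_add_card_inter t Dset
    omega
  obtain ⟨z, hz1, hz2, hz3⟩ := exists_enum (t \ Dset) 2 hc1
  obtain ⟨g1, hg1, hgx⟩ := exists_tupleM 2 (by norm_num) x
    (fun i hi => (Finset.mem_inter.mp (hx1 i hi)).2) hx2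
  have hzD : ∀ i < 2, z i ∉ Dset := fun i hi => (Finset.mem_sdiff.mp (hz1 i hi)).2
  have hne : g1⁻¹ (z 0) ≠ g1⁻¹ (z 1) := by
    intro e
    have := hz2 0 (by norm_num) 1 (by norm_num) (g1⁻¹.injective e)
    omega
  have hg : goodB (idx (g1⁻¹ (z 0))) (idx (g1⁻¹ (z 1))) = true := by
    unfold goodB
    rw [List.all_eq_true]
    intro c _
    by_cases hcond : (decide (pc 24 (lin LB c) = 8) && (lin LB c).testBit 0 &&
        (lin LB c).testBit 1 && (lin LB c).testBit (idx (g1⁻¹ (z 0))) &&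
        (lin LB c).testBit (idx (g1⁻¹ (z 1)))) = true
    · rw [hcond]
      simp only [Bool.not_true, Bool.false_or, decide_eq_true_eq]
      simp only [Bool.and_eq_true, decide_eq_true_eq] at hcond
      obtain ⟨⟨⟨⟨h8, c0⟩, c1⟩, cp⟩, cq⟩ := hcond
      have ho := maskSet_octad c h8
      have m0 : C 0 ∈ maskSet (lin LB c) := by
        rw [mem_maskSet, idx_C 0 (by norm_num)]
        exact c0
      have m1 : C 1 ∈ maskSet (lin LB c) := by
        rw [mem_maskSet, idx_C 1 (by norm_num)]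
        exact c1
      have mp : g1⁻¹ (z 0) ∈ maskSet (lin LB c) := (mem_maskSet _ _).mpr cp
      have mq : g1⁻¹ (z 1) ∈ maskSet (lin LB c) := (mem_maskSet _ _).mpr cq
      have hsub : t ⊆ g1 • maskSet (lin LB c) := by
        intro p hp
        by_cases hpD : p ∈ Dset
        · obtain ⟨i, hi, rfl⟩ := hx3 p (Finset.mem_inter.mpr ⟨hp, hpD⟩)
          rw [← hgx i hi, mem_smul_iff]
          interval_cases i
          · exact m0
          · exact m1
        · obtain ⟨i, hi, rfl⟩ := hz3 p (Finset.mem_sdiff.mpr ⟨hp, hpD⟩)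
          have e : z i = g1 (g1⁻¹ (z i)) := by rw [app_inv]
          rw [e, mem_smul_iff]
          interval_cases i
          · exact mp
          · exact mq
      have h := hgood _ (smul_octad hg1.1 ho) hsub
      have e : (g1 • maskSet (lin LB c) ∩ Dset).card = (maskSet (lin LB c) ∩ Dset).card := by
        have := card_inter_smul g1 (maskSet (lin LB c)) Dset
        rw [hg1.2.1] at this
        exact this
      rw [e, Finset.inter_comm] at h
      unfold Dset at h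
      rw [← maskSet_and, card_maskSet] at h
      exact h
    · rw [Bool.not_eq_true] at hcond
      rw [hcond]
      rfl
  obtain ⟨u, hu, hu0, hu1⟩ := exists_m10 _ _ (inv_notMem hg1 (hzD 0 (by norm_num)))
    (inv_notMem hg1 (hzD 1 (by norm_num))) hne hg
  refine ⟨g1 * u, mul_mem hg1 (mk0_of hu), ?_⟩
  apply smul_img (g1 * u) _ (cat x z 2) t h4
  · exact cat_inj Dset Dsetᶜ disjoint_compl_right C E 2 2 (fun i hi => C_mem i (by omega))
      (fun i hi => Finset.mem_compl.mpr (E_notMem i (by omega)))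
      (fun i hi j hj => C_inj i (by omega) j (by omega))
      (fun i hi j hj => E_inj i (by omega) j (by omega))
  · intro i hi
    unfold cat
    by_cases h : i < 2
    · rw [if_pos h]
      exact (Finset.mem_inter.mp (hx1 i h)).1
    · rw [if_neg h]
      exact (Finset.mem_sdiff.mp (hz1 (i - 2) (by omega))).1
  · intro i hi
    unfold cat
    rw [Equiv.Perm.mul_apply]
    by_cases h : i < 2
    · rw [if_pos h, if_pos h, hu.2.2 i h, hgx i h]
    · rw [if_neg h, if_neg h]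
      have hi' : i = 2 ∨ i = 3 := by omega
      rcases hi' with rfl | rfl
      · show g1 (u (E 0)) = z 0
        rw [hu0, app_inv]
      · show g1 (u (E 1)) = z 1
        rw [hu1, app_inv]

theorem norm_trans (std t t' : Finset Cfsg.GolayPt) (h1 : ∃ h ∈ Mk 0, h • std = t)
    (h1' : ∃ h ∈ Mk 0, h • std = t') : ∃ k ∈ Mk 0, k • t = t' := by
  obtain ⟨h, hh, rfl⟩ := h1
  obtain ⟨h', hh', rfl⟩ := h1'
  exact ⟨h' * h⁻¹, mul_mem hh' (inv_mem hh), by rw [mul_smul, inv_smul_smul]⟩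

theorem tet_trans (d : Finset Cfsg.GolayPt) (hd : d ∈ Cfsg.dodecads)
    (t t' : Finset Cfsg.GolayPt) (h4 : t.card = 4) (h4' : t'.card = 4)
    (hty : ((t ∩ d).card = 4 ∧ (t' ∩ d).card = 4) ∨ ((t ∩ d).card = 3 ∧ (t' ∩ d).card = 3) ∨
      ((t ∩ d).card = 2 ∧ (t' ∩ d).card = 2 ∧ GoodD d t ∧ GoodD d t')) :
    ∃ g ∈ Cfsg.M24, g • d = d ∧ g • t = t' := by
  obtain ⟨g0, hg0, rfl⟩ := dodecad_trans Dset d Dset_mem hd
  have hn : ∀ s : Finset Cfsg.GolayPt, (g0⁻¹ • s ∩ Dset).card = (s ∩ g0 • Dset).card := by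
    intro s
    rw [Finset.inter_comm, card_inter_inv_smul, Finset.inter_comm]
  have hc : ∀ s : Finset Cfsg.GolayPt, s.card = 4 → (g0⁻¹ • s).card = 4 := by
    intro s hs
    rw [Finset.card_smul_finset, hs]
  have hG : ∀ s : Finset Cfsg.GolayPt, GoodD (g0 • Dset) s → GoodD Dset (g0⁻¹ • s) := by
    intro s hs o ho hso
    have h1 : s ⊆ g0 • o := by
      intro p hp
      have := hso (Finset.smul_mem_smul_finset (a := g0⁻¹) hp)
      have h2 := Finset.smul_mem_smul_finset (a := g0) this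
      rw [smul_inv_smul] at h2
      exact h2
    have := hs (g0 • o) (smul_octad hg0 ho) h1
    rw [card_inter_smul] at this
    exact this
  have key : ∃ k ∈ Mk 0, k • (g0⁻¹ • t) = g0⁻¹ • t' := by
    rcases hty with ⟨a, a'⟩ | ⟨a, a'⟩ | ⟨a, a', b, b'⟩
    · exact norm_trans _ _ _ (norm2 _ (hc t h4) (by rw [hn, a]))
        (norm2 _ (hc t' h4') (by rw [hn, a']))
    · exact norm_trans _ _ _ (norm3 _ (hc t h4) (by rw [hn, a]))
        (norm3 _ (hc t' h4') (by rw [hn, a']))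
    · exact norm_trans _ _ _ (norm1 _ (hc t h4) (by rw [hn, a]) (hG t b))
        (norm1 _ (hc t' h4') (by rw [hn, a']) (hG t' b'))
  obtain ⟨k, hk, hkt⟩ := key
  refine ⟨g0 * k * g0⁻¹, mul_mem (mul_mem hg0 hk.1) (inv_mem hg0), ?_, ?_⟩
  · rw [mul_smul, mul_smul, inv_smul_smul, hk.2.1]
  · rw [mul_smul, mul_smul, hkt, smul_inv_smul]

variable {S : Finset (Finset Cfsg.GolayPt)} {d : Finset Cfsg.GolayPt}

theorem good_of_P1 (hS : S ∈ Cfsg.sextets) (h1 : P1 d S) {t : Finset Cfsg.GolayPt}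
    (ht : t ∈ S) : GoodD d t := by
  intro o ho hto
  have hmem : o \ t ∈ S := by
    rw [sextet_eq hS ht]; unfold sx
    exact Finset.mem_insert_of_mem (Finset.mem_image_of_mem _ ((mem_pencil t o).mpr ⟨ho, hto⟩))
  have e : o ∩ d = (t ∩ d) ∪ ((o \ t) ∩ d) := by
    rw [← Finset.union_inter_distrib_right, Finset.union_sdiff_of_subset hto]
  rw [e, Finset.card_union_of_disjoint, h1 t ht, h1 _ hmem]
  exact (Finset.disjoint_sdiff).mono Finset.inter_subset_left Finset.inter_subset_left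

theorem trans_P2 (hd : d ∈ Cfsg.dodecads) (S S' : Finset (Finset Cfsg.GolayPt))
    (hS : S ∈ Cfsg.sextets) (hS' : S' ∈ Cfsg.sextets) (p : P2 d S) (p' : P2 d S') :
    ∃ g ∈ Cfsg.M24, g • d = d ∧ g • S = S' := by
  obtain ⟨t, ht, h⟩ := (P2_iff hS hd).mp p
  obtain ⟨t', ht', h'⟩ := (P2_iff hS' hd).mp p'
  obtain ⟨g, hg, hgd, hgt⟩ := tet_trans d hd t t' (hS.2.1 t ht) (hS'.2.1 t' ht')
    (Or.inl ⟨h, h'⟩)
  exact ⟨g, hg, hgd, conj_of_tet hg hS hS' ht ht' hgt⟩

theorem trans_P3 (hd : d ∈ Cfsg.dodecads) (S S' : Finset (Finset Cfsg.GolayPt))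
    (hS : S ∈ Cfsg.sextets) (hS' : S' ∈ Cfsg.sextets) (p : P3 d S) (p' : P3 d S') :
    ∃ g ∈ Cfsg.M24, g • d = d ∧ g • S = S' := by
  obtain ⟨t, ht, h⟩ := (P3_iff hS hd).mp p
  obtain ⟨t', ht', h'⟩ := (P3_iff hS' hd).mp p'
  obtain ⟨g, hg, hgd, hgt⟩ := tet_trans d hd t t' (hS.2.1 t ht) (hS'.2.1 t' ht')
    (Or.inr (Or.inl ⟨h, h'⟩))
  exact ⟨g, hg, hgd, conj_of_tet hg hS hS' ht ht' hgt⟩

theorem trans_P1 (hd : d ∈ Cfsg.dodecads) (S S' : Finset (Finset Cfsg.GolayPt))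
    (hS : S ∈ Cfsg.sextets) (hS' : S' ∈ Cfsg.sextets) (p : P1 d S) (p' : P1 d S') :
    ∃ g ∈ Cfsg.M24, g • d = d ∧ g • S = S' := by
  obtain ⟨t, ht⟩ := sextet_nonempty hS
  obtain ⟨t', ht'⟩ := sextet_nonempty hS'
  obtain ⟨g, hg, hgd, hgt⟩ := tet_trans d hd t t' (hS.2.1 t ht) (hS'.2.1 t' ht')
    (Or.inr (Or.inr ⟨p t ht, p' t' ht', good_of_P1 hS p ht, good_of_P1 hS' p' ht'⟩))
  exact ⟨g, hg, hgd, conj_of_tet hg hS hS' ht ht' hgt⟩

theorem n_smul (g : Equiv.Perm Cfsg.GolayPt) (hg : g • d = d ∨ g • d = Finset.univ \ d)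
    (t : Finset Cfsg.GolayPt) (h4 : t.card = 4) :
    (g • t ∩ d).card = (t ∩ d).card ∨ (g • t ∩ d).card + (t ∩ d).card = 4 := by
  rcases hg with h | h
  · left
    have := card_inter_smul g t d
    rw [h] at this
    exact this
  · right
    have h' : g • (Finset.univ \ d) = d := by
      rw [Finset.smul_finset_sdiff, Finset.smul_finset_univ, h,
        Finset.sdiff_sdiff_eq_self (Finset.subset_univ d)]
    have := card_inter_smul g t (Finset.univ \ d)
    rw [h'] at this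
    have e : t ∩ (Finset.univ \ d) = t \ d := by
      ext p
      simp
    rw [e] at this
    have := Finset.card_sdiff_add_card_inter t d
    omega

theorem inv_P (g : Equiv.Perm Cfsg.GolayPt) (hg : g • d = d ∨ g • d = Finset.univ \ d)
    (hS : S ∈ Cfsg.sextets) :
    (P1 d S → P1 d (g • S)) ∧ (P2 d S → P2 d (g • S)) ∧ (P3 d S → P3 d (g • S)) := by
  refine ⟨fun p u hu => ?_, fun p => ?_, fun p => ?_⟩
  · obtain ⟨t, ht, rfl⟩ := Finset.mem_smul_finset.mp hu
    have := n_smul g hg t (hS.2.1 t ht)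
    have := p t ht
    omega
  · obtain ⟨t, ht, h⟩ := p
    refine ⟨g • t, Finset.smul_mem_smul_finset ht, ?_⟩
    have := n_smul g hg t (hS.2.1 t ht)
    omega
  · obtain ⟨t, ht, h⟩ := p
    refine ⟨g • t, Finset.smul_mem_smul_finset ht, ?_⟩
    have := n_smul g hg t (hS.2.1 t ht)
    omega

theorem orbit_eq (P : Finset (Finset Cfsg.GolayPt) → Prop)
    (hinv : ∀ g : Equiv.Perm Cfsg.GolayPt, g ∈ Cfsg.M24 → (g • d = d ∨ g • d = Finset.univ \ d) →
      ∀ S ∈ Cfsg.sextets, P S → P (g • S))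
    (htr : ∀ S S' : Finset (Finset Cfsg.GolayPt), S ∈ Cfsg.sextets → S' ∈ Cfsg.sextets →
      P S → P S' → ∃ g ∈ Cfsg.M24, g • d = d ∧ g • S = S')
    (X : Finset (Finset Cfsg.GolayPt)) (hX : X ∈ Cfsg.sextets) (hPX : P X) :
    MulAction.orbit ↥(MulAction.stabilizer Cfsg.M24
      ({d, Finset.univ \ d} : Finset (Finset Cfsg.GolayPt))) X =
      {S : Finset (Finset Cfsg.GolayPt) | S ∈ Cfsg.sextets ∧ P S} := by
  ext S
  constructor
  · rintro ⟨k, rfl⟩
    have hk : ((k : Cfsg.M24) : Equiv.Perm Cfsg.GolayPt) •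
        ({d, Finset.univ \ d} : Finset (Finset Cfsg.GolayPt)) = {d, Finset.univ \ d} := k.2
    have hkd : ((k : Cfsg.M24) : Equiv.Perm Cfsg.GolayPt) • d ∈
        ({d, Finset.univ \ d} : Finset (Finset Cfsg.GolayPt)) := by
      have := Finset.smul_mem_smul_finset (a := ((k : Cfsg.M24) : Equiv.Perm Cfsg.GolayPt))
        (Finset.mem_insert_self d {Finset.univ \ d})
      rw [hk] at this
      exact this
    rw [Finset.mem_insert, Finset.mem_singleton] at hkd
    exact ⟨smul_sextet k.1.2 hX, hinv _ k.1.2 hkd X hX hPX⟩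
  · rintro ⟨hS, hPS⟩
    obtain ⟨g, hg, hgd, hgS⟩ := htr X S hX hS hPX hPS
    have hk : g • ({d, Finset.univ \ d} : Finset (Finset Cfsg.GolayPt)) =
        {d, Finset.univ \ d} := by
      rw [Finset.smul_finset_insert, Finset.smul_finset_singleton, (smul_compl g d).mpr hgd, hgd]
    exact ⟨⟨⟨g, hg⟩, hk⟩, hgS⟩

theorem s5617 (d : Finset Cfsg.GolayPt) (hd : d ∈ Cfsg.dodecads) :
    ∃ X₁ ∈ Cfsg.sextets, ∃ X₂ ∈ Cfsg.sextets, ∃ X₃ ∈ Cfsg.sextets,
      (MulAction.orbit ↥(MulAction.stabilizer Cfsg.M24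
        ({d, Finset.univ \ d} : Finset (Finset Cfsg.GolayPt))) X₁).ncard = 396 ∧
      (MulAction.orbit ↥(MulAction.stabilizer Cfsg.M24
        ({d, Finset.univ \ d} : Finset (Finset Cfsg.GolayPt))) X₂).ncard = 495 ∧
      (MulAction.orbit ↥(MulAction.stabilizer Cfsg.M24
        ({d, Finset.univ \ d} : Finset (Finset Cfsg.GolayPt))) X₃).ncard = 880 ∧
      Cfsg.sextets = MulAction.orbit ↥(MulAction.stabilizer Cfsg.M24
        ({d, Finset.univ \ d} : Finset (Finset Cfsg.GolayPt))) X₁ ∪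
        MulAction.orbit ↥(MulAction.stabilizer Cfsg.M24
        ({d, Finset.univ \ d} : Finset (Finset Cfsg.GolayPt))) X₂ ∪
        MulAction.orbit ↥(MulAction.stabilizer Cfsg.M24
        ({d, Finset.univ \ d} : Finset (Finset Cfsg.GolayPt))) X₃ := by
  have n1 := ncard_P1 hd
  have n2 := ncard_P2 hd
  have n3 := ncard_P3 hd
  obtain ⟨X₁, hX₁, p1⟩ : {S : Finset (Finset Cfsg.GolayPt) | S ∈ Cfsg.sextets ∧ P1 d S}.Nonempty :=
    Set.nonempty_of_ncard_ne_zero (by rw [n1]; norm_num)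
  obtain ⟨X₂, hX₂, p2⟩ : {S : Finset (Finset Cfsg.GolayPt) | S ∈ Cfsg.sextets ∧ P2 d S}.Nonempty :=
    Set.nonempty_of_ncard_ne_zero (by rw [n2]; norm_num)
  obtain ⟨X₃, hX₃, p3⟩ : {S : Finset (Finset Cfsg.GolayPt) | S ∈ Cfsg.sextets ∧ P3 d S}.Nonempty :=
    Set.nonempty_of_ncard_ne_zero (by rw [n3]; norm_num)
  have o1 := orbit_eq (P1 d) (fun g _ hgd S hS p => (inv_P g hgd hS).1 p)
    (fun S S' hS hS' p p' => trans_P1 hd S S' hS hS' p p') X₁ hX₁ p1
  have o2 := orbit_eq (P2 d) (fun g _ hgd S hS p => (inv_P g hgd hS).2.1 p)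
    (fun S S' hS hS' p p' => trans_P2 hd S S' hS hS' p p') X₂ hX₂ p2
  have o3 := orbit_eq (P3 d) (fun g _ hgd S hS p => (inv_P g hgd hS).2.2 p)
    (fun S S' hS hS' p p' => trans_P3 hd S S' hS hS' p p') X₃ hX₃ p3
  refine ⟨X₁, hX₁, X₂, hX₂, X₃, hX₃, ?_, ?_, ?_, ?_⟩
  · rw [o1, n1]
  · rw [o2, n2]
  · rw [o3, n3]
  · rw [o1, o2, o3]
    ext S
    constructor
    · intro hS
      by_cases q2 : P2 d S
      · exact Or.inl (Or.inr ⟨hS, q2⟩)
      · by_cases q3 : P3 d S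
        · exact Or.inr ⟨hS, q3⟩
        · exact Or.inl (Or.inl ⟨hS, (P1_iff hS).mpr ⟨q2, q3⟩⟩)
    · rintro ((h | h) | h) <;> exact h.1

end Cfsg.Agent.Lib.Helper9.SextetD2
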