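import Mathlib
import Cfsg.Prelude.Def_SporadicCombinatorics
import Cfsg.Agent.Lib.Helper9.OctSx
import Cfsg.Agent.Lib.Helper9.SextetD2
import Cfsg.Agent.Lib.Helper9.M24M2
import Cfsg.Agent.Lib.Helper9.M24Conj

set_option autoImplicit false

/-! The stabiliser of a Golay codeword fixes no non-zero coset of the code. -/

namespace Cfsg.Agent.Lib.Helper9.CosetFix

open Cfsg.Agent.Lib.Helper9.Golay Cfsg.Agent.Lib.Helper9.GolayC Cfsg.Agent.Lib.Helper9.M24C
open Cfsg.Agent.Lib.Helper9.Octad Cfsg.Agent.Lib.Helper9.M24B Cfsg.Agent.Lib.Helper9.M24T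
open Cfsg.Agent.Lib.Helper9.M24F Cfsg.Agent.Lib.Helper9.M24Dod
open Cfsg.Agent.Lib.Helper9.M24M Cfsg.Agent.Lib.Helper9.M24M2 Cfsg.Agent.Lib.Helper9.M24Conj
open Cfsg.Agent.Lib.Helper9.Sextet Cfsg.Agent.Lib.Helper9.SextetY
open Cfsg.Agent.Lib.Helper9.OctSx Cfsg.Agent.Lib.Helper9.SextetD Cfsg.Agent.Lib.Helper9.SextetD2
open scoped Pointwise

theorem mem_sx_of_union {E F : Finset Cfsg.GolayPt} (hd : Disjoint E F)
    (ho : E ∪ F ∈ Cfsg.octads) : F ∈ sx E := by
  unfold sx
  rw [Finset.mem_insert, Finset.mem_image]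
  right
  exact ⟨E ∪ F, (mem_pencil _ _).mpr ⟨ho, Finset.subset_union_left⟩,
    Finset.union_sdiff_cancel_left hd⟩

theorem not_mem_of (E F : Finset Cfsg.GolayPt) (hE : E.card ≤ 4) (hF : F.card = E.card)
    (hne : F ≠ E) (hsx : E.card = 4 → F ∉ sx E) : ind F + ind E ∉ Cfsg.golayCode := by
  intro hmem
  rw [ind_add] at hmem
  have hn := norm_mem _ hmem
  rw [norm_ind] at hn
  have hc := card_symmDiff_add F E
  have h0 : (symmDiff F E).card ≠ 0 := by
    intro h
    rw [Finset.card_eq_zero] at h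
    exact hne (symmDiff_eq_bot.mp h)
  have h8 : (symmDiff F E).card = 8 := by omega
  have hE4 : E.card = 4 := by omega
  have hi : (F ∩ E).card = 0 := by omega
  have hd : Disjoint E F := by
    rw [Finset.disjoint_iff_inter_eq_empty, Finset.inter_comm, ← Finset.card_eq_zero]
    exact hi
  have hu : symmDiff F E = E ∪ F := by
    rw [symmDiff_comm]
    exact hd.symmDiff_eq_sup
  refine hsx hE4 (mem_sx_of_union hd ?_)
  rw [← hu]
  exact (mem_octads _).mpr ⟨hmem, h8⟩

theorem comp_ind (σ : Equiv.Perm Cfsg.GolayPt) (E : Finset Cfsg.GolayPt) :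
    (fun p => ind E (σ.symm p)) = ind (σ • E) := by
  funext p
  unfold ind
  have : σ.symm p ∈ E ↔ p ∈ σ • E := by
    rw [Finset.mem_smul_finset]
    constructor
    · intro h
      exact ⟨σ.symm p, h, by simp⟩
    · rintro ⟨q, hq, rfl⟩
      simpa using hq
  simp only [this]

theorem two_zmod : ∀ x : ZMod 2, x + x = 0 := by decide

theorem main (u : Cfsg.GolayPt → ZMod 2) (w : Cfsg.GolayPt → ZMod 2) (hw : w ∉ Cfsg.golayCode)
    (key : ∀ E : Finset Cfsg.GolayPt, 1 ≤ E.card → E.card ≤ 4 →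
      ∃ σ ∈ Cfsg.M24, σ • supp u = supp u ∧ σ • E ≠ E ∧ (E.card = 4 → σ • E ∉ sx E)) :
    ∃ σ ∈ Cfsg.M24, (fun p => u (σ.symm p)) = u ∧
      (fun p => w (σ.symm p)) - w ∉ Cfsg.golayCode := by
  have hl : (lead Cfsg.golayCode 4 w).Nonempty := by
    rcases coset_leaders Cfsg.golayCode min_weight card_pts finrank_golay w with ⟨e, he, -⟩ | ⟨h6, -⟩
    · rw [he]; exact Finset.singleton_nonempty e
    · rw [← Finset.card_pos, h6]; norm_num
  obtain ⟨e, he⟩ := hl
  rw [mem_lead] at he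
  obtain ⟨hec, hen⟩ := he
  have hE4 : (supp e).card ≤ 4 := by rw [← hammingNorm_eq]; exact hen
  have hE1 : 1 ≤ (supp e).card := by
    by_contra h
    have h0 : (supp e).card = 0 := by omega
    rw [← hammingNorm_eq, norm_zero_iff] at h0
    rw [h0, zero_sub] at hec
    exact hw (by simpa using neg_mem hec)
  obtain ⟨σ, hσ, hu, hne, hsx⟩ := key (supp e) hE1 hE4
  refine ⟨σ, hσ, ?_, ?_⟩
  · apply supp_injective
    exact (smul_supp σ u).symm.trans hu
  · intro hmem
    have h1 : (fun p => (e - w) (σ.symm p)) ∈ Cfsg.golayCode := comp_mem_symm σ hσ _ hec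
    have h2 : ind (σ • supp e) + ind (supp e) ∈ Cfsg.golayCode := by
      have : ind (σ • supp e) + ind (supp e) =
          (fun p => (e - w) (σ.symm p)) - (e - w) + ((fun p => w (σ.symm p)) - w) := by
        rw [← comp_ind, ind_supp]
        funext p
        simp only [Pi.add_apply, Pi.sub_apply]
        linear_combination two_zmod (e p)
      rw [this]
      exact add_mem (sub_mem h1 hec) hmem
    exact not_mem_of (supp e) (σ • supp e) hE4 (Finset.card_smul_finset σ _) hne hsx h2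

theorem exists_ne_class {P : Finset (Finset Cfsg.GolayPt) → Prop}
    (S : Finset (Finset Cfsg.GolayPt))
    (h : 2 ≤ {S' : Finset (Finset Cfsg.GolayPt) | S' ∈ Cfsg.sextets ∧ P S'}.ncard) :
    ∃ S' ∈ Cfsg.sextets, P S' ∧ S' ≠ S := by
  have h' : 1 < {S' : Finset (Finset Cfsg.GolayPt) | S' ∈ Cfsg.sextets ∧ P S'}.ncard := by omega
  obtain ⟨S', ⟨h1, h2⟩, h3⟩ := Set.exists_ne_of_one_lt_ncard h' S
  exact ⟨S', h1, h2, h3⟩

theorem sx_move {g : Equiv.Perm Cfsg.GolayPt} (E : Finset Cfsg.GolayPt)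
    (hE : E.card = 4) {S' : Finset (Finset Cfsg.GolayPt)} (hS' : S' ∈ Cfsg.sextets)
    (hne : S' ≠ sx E) (h : g • sx E = S') :
    g • E ≠ E ∧ (E.card = 4 → g • E ∉ sx E) := by
  have hmem : g • E ∈ S' := by rw [← h]; exact Finset.smul_mem_smul_finset (sx_self E)
  have hnot : g • E ∉ sx E := by
    intro hin
    have e1 := sextet_eq hS' hmem
    have e2 := sextet_eq (sx_mem E hE) hin
    exact hne (e1.trans e2.symm)
  exact ⟨fun h' => hnot (by rw [h']; exact sx_self E), fun _ => hnot⟩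

theorem key_oct (o : Finset Cfsg.GolayPt) (ho : o ∈ Cfsg.octads) (E : Finset Cfsg.GolayPt)
    (h1 : 1 ≤ E.card) (h4 : E.card ≤ 4) :
    ∃ σ ∈ Cfsg.M24, σ • o = o ∧ σ • E ≠ E ∧ (E.card = 4 → σ • E ∉ sx E) := by
  by_cases hE : E.card = 4
  · have hS := sx_mem E hE
    rcases Q_cases hS ho with p | p | p
    · obtain ⟨S', hS', p', hne⟩ := exists_ne_class (P := Q4 o) (sx E)
        (by rw [ncard_Q4 ho]; norm_num)
      obtain ⟨g, hg, hgo, hgS⟩ := trans_Q4 ho (sx E) S' hS hS' p p'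
      exact ⟨g, hg, hgo, sx_move E hE hS' hne hgS⟩
    · obtain ⟨S', hS', p', hne⟩ := exists_ne_class (P := Q3 o) (sx E)
        (by rw [ncard_Q3 ho]; norm_num)
      obtain ⟨g, hg, hgo, hgS⟩ := trans_Q3 ho (sx E) S' hS hS' p p'
      exact ⟨g, hg, hgo, sx_move E hE hS' hne hgS⟩
    · obtain ⟨S', hS', p', hne⟩ := exists_ne_class (P := Q2 o) (sx E)
        (by rw [ncard_Q2 ho]; norm_num)
      obtain ⟨g, hg, hgo, hgS⟩ := trans_Q2 ho (sx E) S' hS hS' p p'
      exact ⟨g, hg, hgo, sx_move E hE hS' hne hgS⟩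
  · have h3 : E.card ≤ 3 := by omega
    by_cases hin : (E ∩ o).Nonempty
    · have hA : (E ∩ o).card ≤ 3 := le_trans (Finset.card_le_card Finset.inter_subset_left) h3
      obtain ⟨t, hAt, hto, ht4⟩ := Finset.exists_subsuperset_card_eq (s := E ∩ o) (t := o)
        (n := 4) Finset.inter_subset_right (by omega) (by rw [ho.2]; norm_num)
      have hc : 4 ≤ (o \ (E ∩ o)).card := by
        rw [Finset.card_sdiff_of_subset Finset.inter_subset_right, ho.2]; omega
      obtain ⟨t', ht'sub, ht'4⟩ := Finset.exists_subset_card_eq hc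
      have ht'o : t' ⊆ o := ht'sub.trans Finset.sdiff_subset
      obtain ⟨g, hg, hgo, hgt⟩ := in_oct_trans ho t t' ht4 ht'4
        (by rw [Finset.inter_eq_left.mpr hto]; exact ht4)
        (by rw [Finset.inter_eq_left.mpr ht'o]; exact ht'4)
      refine ⟨g, hg, hgo, ?_, fun h => absurd h hE⟩
      intro hgE
      obtain ⟨y, hy⟩ := hin
      have hyE := Finset.mem_inter.mp hy
      have m1 : g • y ∈ g • E := Finset.smul_mem_smul_finset hyE.1
      have m2 : g • y ∈ g • o := Finset.smul_mem_smul_finset hyE.2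
      have m3 : g • y ∈ g • t := Finset.smul_mem_smul_finset (hAt hy)
      rw [hgE] at m1
      rw [hgo] at m2
      rw [hgt] at m3
      exact (Finset.mem_sdiff.mp (ht'sub m3)).2 (Finset.mem_inter.mpr ⟨m1, m2⟩)
    · rw [Finset.not_nonempty_iff_eq_empty] at hin
      obtain ⟨y, hy⟩ := Finset.card_pos.mp h1
      have hyo : y ∉ o := fun h => by
        have : y ∈ E ∩ o := Finset.mem_inter.mpr ⟨hy, h⟩
        rw [hin] at this
        exact absurd this (Finset.notMem_empty y)
      have hc : (Finset.univ \ (o ∪ E)).Nonempty := by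
        rw [← Finset.card_pos, Finset.card_sdiff_of_subset (Finset.subset_univ _),
          Finset.card_univ, card_pts]
        have := Finset.card_union_le o E
        rw [ho.2] at this
        omega
      obtain ⟨z, hz⟩ := hc
      rw [Finset.mem_sdiff, Finset.mem_union] at hz
      have hzo : z ∉ o := fun h => hz.2 (Or.inl h)
      have hzE : z ∉ E := fun h => hz.2 (Or.inr h)
      obtain ⟨A, hAo, hA3⟩ := Finset.exists_subset_card_eq (s := o) (n := 3)
        (by rw [ho.2]; norm_num)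
      have hyA : y ∉ A := fun h => hyo (hAo h)
      have hzA : z ∉ A := fun h => hzo (hAo h)
      have e1 : insert y A ∩ o = A := by
        rw [Finset.insert_inter_of_notMem hyo]; exact Finset.inter_eq_left.mpr hAo
      have e2 : insert z A ∩ o = A := by
        rw [Finset.insert_inter_of_notMem hzo]; exact Finset.inter_eq_left.mpr hAo
      obtain ⟨g, hg, hgo, hgt⟩ := three_one_trans ho (insert y A) (insert z A)
        (by rw [Finset.card_insert_of_notMem hyA, hA3])
        (by rw [Finset.card_insert_of_notMem hzA, hA3])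
        (by rw [e1, hA3]) (by rw [e2, hA3])
      refine ⟨g, hg, hgo, ?_, fun h => absurd h hE⟩
      intro hgE
      have m1 : g • y ∈ g • E := Finset.smul_mem_smul_finset hy
      have m3 : g • y ∈ g • insert y A :=
        Finset.smul_mem_smul_finset (Finset.mem_insert_self y A)
      rw [hgE] at m1
      rw [hgt] at m3
      rcases Finset.mem_insert.mp m3 with h | h
      · rw [h] at m1; exact hzE m1
      · have : g • y ∈ g • o := by rw [hgo]; exact hAo h
        exact hyo ((Finset.smul_mem_smul_finset_iff g).mp this)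

theorem pt_dod (d : Finset Cfsg.GolayPt) (hd : d ∈ Cfsg.dodecads) (y z : Cfsg.GolayPt)
    (hy : y ∈ d) (hz : z ∈ d) : ∃ σ ∈ Cfsg.M24, σ • d = d ∧ σ y = z := by
  obtain ⟨g1, hg1, h1, h1'⟩ := pair_transD d hd y hy
  obtain ⟨g2, hg2, h2, h2'⟩ := pair_transD d hd z hz
  refine ⟨g2 * g1⁻¹, mul_mem hg2 (inv_mem hg1), ?_, ?_⟩
  · have : g1⁻¹ • d = Dset := by rw [← h1, inv_smul_smul]
    rw [mul_smul, this, h2]
  · have : g1⁻¹ y = C 0 := by rw [← h1']; simp
    rw [Equiv.Perm.mul_apply, this, h2']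

theorem move_dod (d : Finset Cfsg.GolayPt) (hd : d ∈ Cfsg.dodecads) (E : Finset Cfsg.GolayPt)
    (h3 : E.card ≤ 3) (hin : (E ∩ d).Nonempty) :
    ∃ σ ∈ Cfsg.M24, σ • d = d ∧ σ • E ≠ E := by
  obtain ⟨y, hy⟩ := hin
  have hyE := Finset.mem_inter.mp hy
  have hc : (d \ E).Nonempty := by
    rw [← Finset.card_pos]
    have := Finset.le_card_sdiff E d
    have h12 := ((mem_dodecads d).mp hd).2
    omega
  obtain ⟨z, hz⟩ := hc
  rw [Finset.mem_sdiff] at hz
  obtain ⟨g, hg, hgd, hgy⟩ := pt_dod d hd y z hyE.2 hz.1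
  refine ⟨g, hg, hgd, fun hgE => ?_⟩
  have m1 : g • y ∈ g • E := Finset.smul_mem_smul_finset hyE.1
  rw [hgE, Equiv.Perm.smul_def, hgy] at m1
  exact hz.2 m1

theorem key_dod (d : Finset Cfsg.GolayPt) (hd : d ∈ Cfsg.dodecads) (E : Finset Cfsg.GolayPt)
    (h1 : 1 ≤ E.card) (h4 : E.card ≤ 4) :
    ∃ σ ∈ Cfsg.M24, σ • d = d ∧ σ • E ≠ E ∧ (E.card = 4 → σ • E ∉ sx E) := by
  by_cases hE : E.card = 4
  · have hS := sx_mem E hE
    by_cases p2 : P2 d (sx E)
    · obtain ⟨S', hS', p', hne⟩ := exists_ne_class (P := P2 d) (sx E)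
        (by rw [ncard_P2 hd]; norm_num)
      obtain ⟨g, hg, hgo, hgS⟩ := trans_P2 hd (sx E) S' hS hS' p2 p'
      exact ⟨g, hg, hgo, sx_move E hE hS' hne hgS⟩
    · by_cases p3 : P3 d (sx E)
      · obtain ⟨S', hS', p', hne⟩ := exists_ne_class (P := P3 d) (sx E)
          (by rw [ncard_P3 hd]; norm_num)
        obtain ⟨g, hg, hgo, hgS⟩ := trans_P3 hd (sx E) S' hS hS' p3 p'
        exact ⟨g, hg, hgo, sx_move E hE hS' hne hgS⟩
      · have p1 : P1 d (sx E) := (P1_iff hS).mpr ⟨p2, p3⟩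
        obtain ⟨S', hS', p', hne⟩ := exists_ne_class (P := P1 d) (sx E)
          (by rw [ncard_P1 hd]; norm_num)
        obtain ⟨g, hg, hgo, hgS⟩ := trans_P1 hd (sx E) S' hS hS' p1 p'
        exact ⟨g, hg, hgo, sx_move E hE hS' hne hgS⟩
  · have h3 : E.card ≤ 3 := by omega
    by_cases hin : (E ∩ d).Nonempty
    · obtain ⟨g, hg, h, h'⟩ := move_dod d hd E h3 hin
      exact ⟨g, hg, h, h', fun h => absurd h hE⟩
    · have hin' : (E ∩ (Finset.univ \ d)).Nonempty := by
        obtain ⟨y, hy⟩ := Finset.card_pos.mp h1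
        exact ⟨y, Finset.mem_inter.mpr ⟨hy, Finset.mem_sdiff.mpr ⟨Finset.mem_univ y,
          fun hyd => hin ⟨y, Finset.mem_inter.mpr ⟨hy, hyd⟩⟩⟩⟩⟩
      obtain ⟨g, hg, h, h'⟩ := move_dod _ (compl_dodecad d hd) E h3 hin'
      exact ⟨g, hg, (smul_compl g d).mp h, h', fun h => absurd h hE⟩

theorem s5550 (u : Cfsg.GolayPt → ZMod 2) (hu : u ∈ Cfsg.golayCode)
    (w : Cfsg.GolayPt → ZMod 2) (hw : w ∉ Cfsg.golayCode) :
    ∃ σ ∈ Cfsg.M24, (fun p => u (σ.symm p)) = u ∧
      (fun p => w (σ.symm p)) - w ∉ Cfsg.golayCode := by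
  apply main u w hw
  intro E h1 h4
  have hn := norm_mem u hu
  rw [hammingNorm_eq] at hn
  rcases hn with h | h | h | h | h
  · have e : supp u = ∅ := Finset.card_eq_zero.mp h
    obtain ⟨σ, hσ, -, h2⟩ := key_oct Oset Oset_mem E h1 h4
    exact ⟨σ, hσ, by rw [e, Finset.smul_finset_empty], h2⟩
  · have ho : supp u ∈ Cfsg.octads := (mem_octads _).mpr ⟨by rw [ind_supp]; exact hu, h⟩
    exact key_oct _ ho E h1 h4
  · have hd : supp u ∈ Cfsg.dodecads := (mem_dodecads _).mpr ⟨by rw [ind_supp]; exact hu, h⟩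
    exact key_dod _ hd E h1 h4
  · have ho : Finset.univ \ supp u ∈ Cfsg.octads := by
      rw [mem_octads]
      refine ⟨?_, ?_⟩
      · have : ind (Finset.univ \ supp u) = 1 + ind (supp u) := by
          funext i
          by_cases hi : i ∈ supp u
          · simp only [ind, Finset.mem_sdiff, Finset.mem_univ, true_and, hi, not_true_eq_false,
              if_false, if_true, Pi.add_apply, Pi.one_apply]
            decide
          · simp only [ind, Finset.mem_sdiff, Finset.mem_univ, true_and, hi,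
              not_false_eq_true, if_false, if_true, Pi.add_apply, Pi.one_apply, add_zero]
        rw [this, ind_supp]
        exact Cfsg.golayCode.add_mem one_mem hu
      · rw [Finset.card_sdiff_of_subset (Finset.subset_univ _), Finset.card_univ, card_pts, h]
    obtain ⟨σ, hσ, h1', h2⟩ := key_oct _ ho E h1 h4
    exact ⟨σ, hσ, (smul_compl σ _).mp h1', h2⟩
  · have e : supp u = Finset.univ := (Finset.card_eq_iff_eq_univ _).mp (by rw [h, card_pts])
    obtain ⟨σ, hσ, -, h2⟩ := key_oct Oset Oset_mem E h1 h4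
    exact ⟨σ, hσ, by rw [e, Finset.smul_finset_univ], h2⟩

end Cfsg.Agent.Lib.Helper9.CosetFix
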