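import Mathlib

set_option autoImplicit false

/-! Duality between the orbits of two point stabilisers: the orbits of `G_a` on the orbit of `b`
correspond to the orbits of `G_b` on the orbit of `a`. -/

namespace Cfsg.Agent.Lib.Helper9.Dual

open scoped Pointwise

variable {G α β : Type*} [Group G] [MulAction G α] [MulAction G β]

theorem mem_orbit_stab (a : α) (y z : β) :
    z ∈ MulAction.orbit (MulAction.stabilizer G a) y ↔ ∃ g : G, g • a = a ∧ g • y = z := by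
  constructor
  · rintro ⟨k, rfl⟩
    exact ⟨k.1, k.2, rfl⟩
  · rintro ⟨g, hg, rfl⟩
    exact ⟨⟨g, hg⟩, rfl⟩

theorem card_mul (a : α) (b : β) :
    (MulAction.orbit (MulAction.stabilizer G a) b).ncard * (MulAction.orbit G a).ncard =
      (MulAction.stabilizer G b ⊓ MulAction.stabilizer G a).index := by
  rw [← MulAction.index_stabilizer (G := G) a,
    ← MulAction.index_stabilizer (G := ↥(MulAction.stabilizer G a)) b]
  have hstab : MulAction.stabilizer (↥(MulAction.stabilizer G a)) b =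
      (MulAction.stabilizer G b).subgroupOf (MulAction.stabilizer G a) := by
    ext h
    exact Iff.rfl
  rw [hstab]
  show (MulAction.stabilizer G b).relIndex (MulAction.stabilizer G a) *
    (MulAction.stabilizer G a).index = _
  rw [← Subgroup.inf_relIndex_right]
  exact Subgroup.relIndex_mul_index inf_le_right

theorem dual_card (a : α) (b : β) :
    (MulAction.orbit (MulAction.stabilizer G a) b).ncard * (MulAction.orbit G a).ncard =
      (MulAction.orbit (MulAction.stabilizer G b) a).ncard * (MulAction.orbit G b).ncard := by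
  rw [card_mul, card_mul, inf_comm]

theorem ncard_orbit_smul (g : G) (a : α) (y : β) :
    (MulAction.orbit (MulAction.stabilizer G (g • a)) (g • y)).ncard =
      (MulAction.orbit (MulAction.stabilizer G a) y).ncard := by
  have h : MulAction.orbit (MulAction.stabilizer G (g • a)) (g • y) =
      (fun z => g • z) '' MulAction.orbit (MulAction.stabilizer G a) y := by
    ext z
    rw [mem_orbit_stab, Set.mem_image]
    constructor
    · rintro ⟨k, hk, rfl⟩
      refine ⟨(g⁻¹ * k * g) • y, (mem_orbit_stab a y _).2 ⟨g⁻¹ * k * g, ?_, rfl⟩, ?_⟩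
      · rw [mul_smul, mul_smul, hk, inv_smul_smul]
      · show g • (g⁻¹ * k * g) • y = k • g • y
        rw [← mul_smul, ← mul_smul]
        congr 1
        group
    · rintro ⟨w, hw, rfl⟩
      obtain ⟨k, hk, rfl⟩ := (mem_orbit_stab a y w).1 hw
      refine ⟨g * k * g⁻¹, ?_, ?_⟩
      · rw [mul_smul, mul_smul, inv_smul_smul, hk]
      · rw [mul_smul, mul_smul, inv_smul_smul]
  rw [h, Set.ncard_image_of_injective _ (MulAction.injective g)]

/-- Orbit representatives of `G_a` on the orbit of `b` give orbit representatives of `G_b` on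
the orbit of `a`, with the sizes related by double counting. -/
theorem dual_orbits {ι : Type*} (a0 : α) (b : β) (Y : ι → β)
    (hY : ∀ i, Y i ∈ MulAction.orbit G b)
    (hcov : ∀ y ∈ MulAction.orbit G b, ∃ i, y ∈ MulAction.orbit (MulAction.stabilizer G a0) (Y i)) :
    ∃ X : ι → α, (∀ i, X i ∈ MulAction.orbit G a0) ∧
      (∀ i, (MulAction.orbit (MulAction.stabilizer G b) (X i)).ncard * (MulAction.orbit G b).ncard =
        (MulAction.orbit (MulAction.stabilizer G a0) (Y i)).ncard * (MulAction.orbit G a0).ncard) ∧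
      (∀ x ∈ MulAction.orbit G a0, ∃ i, x ∈ MulAction.orbit (MulAction.stabilizer G b) (X i)) := by
  classical
  have hg : ∀ i, ∃ g : G, g • Y i = b := by
    intro i
    obtain ⟨g, hg⟩ := hY i
    exact ⟨g⁻¹, by rw [← hg]; exact inv_smul_smul g b⟩
  choose g hg using hg
  refine ⟨fun i => g i • a0, fun i => ⟨g i, rfl⟩, ?_, ?_⟩
  · intro i
    show (MulAction.orbit (MulAction.stabilizer G b) (g i • a0)).ncard * _ = _
    rw [dual_card b (g i • a0)]
    have h1 : MulAction.orbit G (g i • a0) = MulAction.orbit G a0 := MulAction.orbit_smul _ _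
    rw [h1]
    congr 1
    have h2 := ncard_orbit_smul (g i) a0 (Y i)
    rw [hg i] at h2
    exact h2
  · rintro x ⟨h, rfl⟩
    obtain ⟨i, hi⟩ := hcov (h⁻¹ • b) ⟨h⁻¹, rfl⟩
    obtain ⟨k, hk, hkY⟩ := (mem_orbit_stab a0 (Y i) _).1 hi
    refine ⟨i, (mem_orbit_stab b _ _).2 ⟨h * k * (g i)⁻¹, ?_, ?_⟩⟩
    · rw [mul_smul, mul_smul, ← hg i, inv_smul_smul, hkY, hg i, smul_inv_smul]
    · show (h * k * (g i)⁻¹) • g i • a0 = h • a0
      rw [mul_smul, mul_smul, inv_smul_smul, hk]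

theorem sub_orbit (a0 : α) (b : β) (x : α) (hx : x ∈ MulAction.orbit G a0) :
    MulAction.orbit (MulAction.stabilizer G b) x ⊆ MulAction.orbit G a0 := by
  intro z hz
  obtain ⟨k, -, rfl⟩ := (mem_orbit_stab b x z).1 hz
  obtain ⟨h, rfl⟩ := hx
  exact ⟨k * h, mul_smul k h a0⟩

/-- Transfer of orbit representatives with explicit sizes. -/
theorem dual_transfer {ι : Type*} (a0 : α) (b : β) (n m : ι → ℕ) (A B : ℕ)
    (hA : (MulAction.orbit G a0).ncard = A) (hB : (MulAction.orbit G b).ncard = B) (hB0 : 0 < B)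
    (hnm : ∀ i, m i * B = n i * A)
    (h : ∃ Y : ι → β, (∀ i, Y i ∈ MulAction.orbit G b) ∧
      (∀ i, (MulAction.orbit (MulAction.stabilizer G a0) (Y i)).ncard = n i) ∧
      ∀ y ∈ MulAction.orbit G b, ∃ i, y ∈ MulAction.orbit (MulAction.stabilizer G a0) (Y i)) :
    ∃ X : ι → α, (∀ i, X i ∈ MulAction.orbit G a0) ∧
      (∀ i, (MulAction.orbit (MulAction.stabilizer G b) (X i)).ncard = m i) ∧
      ∀ x ∈ MulAction.orbit G a0, ∃ i, x ∈ MulAction.orbit (MulAction.stabilizer G b) (X i) := by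
  obtain ⟨Y, hY, hn, hcov⟩ := h
  obtain ⟨X, hX, hs, hc⟩ := dual_orbits a0 b Y hY hcov
  refine ⟨X, hX, ?_, hc⟩
  intro i
  have h1 := hs i
  rw [hA, hB, hn i, ← hnm i] at h1
  exact Nat.eq_of_mul_eq_mul_right hB0 h1

section conv

variable {γ : Type*}

theorem to_fin3 (W : Set γ) (O : γ → Set γ) (a b c : ℕ)
    (h : ∃ X₁ ∈ W, ∃ X₂ ∈ W, ∃ X₃ ∈ W, (O X₁).ncard = a ∧ (O X₂).ncard = b ∧ (O X₃).ncard = c ∧
      W = O X₁ ∪ O X₂ ∪ O X₃) :
    ∃ Y : Fin 3 → γ, (∀ i, Y i ∈ W) ∧ (∀ i, (O (Y i)).ncard = ![a, b, c] i) ∧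
      ∀ y ∈ W, ∃ i, y ∈ O (Y i) := by
  obtain ⟨X₁, h1, X₂, h2, X₃, h3, n1, n2, n3, hW⟩ := h
  refine ⟨![X₁, X₂, X₃], ?_, ?_, ?_⟩
  · intro i
    fin_cases i
    · exact h1
    · exact h2
    · exact h3
  · intro i
    fin_cases i
    · exact n1
    · exact n2
    · exact n3
  · intro y hy
    rw [hW] at hy
    rcases hy with (hy | hy) | hy
    · exact ⟨0, hy⟩
    · exact ⟨1, hy⟩
    · exact ⟨2, hy⟩

theorem of_fin3 (W : Set γ) (O : γ → Set γ) (a b c : ℕ) (hsub : ∀ y ∈ W, O y ⊆ W)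
    (h : ∃ Y : Fin 3 → γ, (∀ i, Y i ∈ W) ∧ (∀ i, (O (Y i)).ncard = ![a, b, c] i) ∧
      ∀ y ∈ W, ∃ i, y ∈ O (Y i)) :
    ∃ X₁ ∈ W, ∃ X₂ ∈ W, ∃ X₃ ∈ W, (O X₁).ncard = a ∧ (O X₂).ncard = b ∧ (O X₃).ncard = c ∧
      W = O X₁ ∪ O X₂ ∪ O X₃ := by
  obtain ⟨Y, hY, hn, hc⟩ := h
  refine ⟨Y 0, hY 0, Y 1, hY 1, Y 2, hY 2, hn 0, hn 1, hn 2, ?_⟩
  apply Set.Subset.antisymm
  · intro y hy
    obtain ⟨i, hi⟩ := hc y hy
    fin_cases i
    · exact Or.inl (Or.inl hi)
    · exact Or.inl (Or.inr hi)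
    · exact Or.inr hi
  · rintro y ((hy | hy) | hy)
    · exact hsub _ (hY 0) hy
    · exact hsub _ (hY 1) hy
    · exact hsub _ (hY 2) hy

theorem of_fin4 (W : Set γ) (O : γ → Set γ) (a b c d : ℕ) (hsub : ∀ y ∈ W, O y ⊆ W)
    (h : ∃ Y : Fin 4 → γ, (∀ i, Y i ∈ W) ∧ (∀ i, (O (Y i)).ncard = ![a, b, c, d] i) ∧
      ∀ y ∈ W, ∃ i, y ∈ O (Y i)) :
    ∃ X₁ ∈ W, ∃ X₂ ∈ W, ∃ X₃ ∈ W, ∃ X₄ ∈ W, (O X₁).ncard = a ∧ (O X₂).ncard = b ∧
      (O X₃).ncard = c ∧ (O X₄).ncard = d ∧ W = O X₁ ∪ O X₂ ∪ O X₃ ∪ O X₄ := by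
  obtain ⟨Y, hY, hn, hc⟩ := h
  refine ⟨Y 0, hY 0, Y 1, hY 1, Y 2, hY 2, Y 3, hY 3, hn 0, hn 1, hn 2, hn 3, ?_⟩
  apply Set.Subset.antisymm
  · intro y hy
    obtain ⟨i, hi⟩ := hc y hy
    fin_cases i
    · exact Or.inl (Or.inl (Or.inl hi))
    · exact Or.inl (Or.inl (Or.inr hi))
    · exact Or.inl (Or.inr hi)
    · exact Or.inr hi
  · rintro y (((hy | hy) | hy) | hy)
    · exact hsub _ (hY 0) hy
    · exact hsub _ (hY 1) hy
    · exact hsub _ (hY 2) hy
    · exact hsub _ (hY 3) hy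

end conv

end Cfsg.Agent.Lib.Helper9.Dual
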