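import Mathlib
import Cfsg.Prelude.Def_SporadicCombinatorics
import Cfsg.Agent.Lib.Helper9.M24St
import Cfsg.Agent.Lib.Helper9.M24Tri

set_option autoImplicit false

/-! Trios: the trio through two disjoint octads, the trios through an octad, their number. -/

namespace Cfsg.Agent.Lib.Helper9.Trio

open Cfsg.Agent.Lib.Helper9.Golay Cfsg.Agent.Lib.Helper9.GolayC Cfsg.Agent.Lib.Helper9.M24C
open Cfsg.Agent.Lib.Helper9.Octad Cfsg.Agent.Lib.Helper9.M24B Cfsg.Agent.Lib.Helper9.M24T
open Cfsg.Agent.Lib.Helper9.M24F Cfsg.Agent.Lib.Helper9.M24St Cfsg.Agent.Lib.Helper9.M24Tri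
open scoped Pointwise

theorem compl_octad {o o' : Finset Cfsg.GolayPt} (ho : o ∈ Cfsg.octads) (ho' : o' ∈ Cfsg.octads)
    (hd : Disjoint o o') : (o ∪ o')ᶜ ∈ Cfsg.octads := by
  rw [mem_octads] at ho ho' ⊢
  refine ⟨?_, ?_⟩
  · have h1 : ind (o ∪ o')ᶜ = ind o + ind o' + 1 := by
      funext p
      have h2 : (1 : ZMod 2) + 1 = 0 := by decide
      by_cases hp : p ∈ o
      · have hp' : p ∉ o' := Finset.disjoint_left.mp hd hp
        simp [ind, hp, hp', h2]
      · by_cases hp' : p ∈ o'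
        · simp [ind, hp, hp', h2]
        · simp [ind, hp, hp']
    rw [h1]
    exact Cfsg.golayCode.add_mem (Cfsg.golayCode.add_mem ho.1 ho'.1) one_mem
  · rw [Finset.card_compl, Finset.card_union_of_disjoint hd, card_pts, ho.2, ho'.2]

theorem octad_ne_of_disjoint {o q : Finset Cfsg.GolayPt} (ho : o ∈ Cfsg.octads)
    (hd : Disjoint o q) : o ≠ q := by
  rintro rfl
  rw [Finset.disjoint_self_iff_empty] at hd
  have := ((mem_octads _).mp ho).2
  rw [hd] at this
  simp at this

/-- The trio through two disjoint octads. -/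
def tr (o q : Finset Cfsg.GolayPt) : Finset (Finset Cfsg.GolayPt) := {o, q, (o ∪ q)ᶜ}

theorem tr_left (o q : Finset Cfsg.GolayPt) : o ∈ tr o q := by simp [tr]

theorem tr_right (o q : Finset Cfsg.GolayPt) : q ∈ tr o q := by simp [tr]

theorem tr_mem {o q : Finset Cfsg.GolayPt} (ho : o ∈ Cfsg.octads) (hq : q ∈ Cfsg.octads)
    (hd : Disjoint o q) : tr o q ∈ Cfsg.trios := by
  have hr := compl_octad ho hq hd
  have d1 : Disjoint o (o ∪ q)ᶜ := disjoint_compl_right.mono_left Finset.subset_union_left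
  have d2 : Disjoint q (o ∪ q)ᶜ := disjoint_compl_right.mono_left Finset.subset_union_right
  have n1 := octad_ne_of_disjoint ho hd
  have n2 := octad_ne_of_disjoint ho d1
  have n3 := octad_ne_of_disjoint hq d2
  refine ⟨Finset.card_eq_three.mpr ⟨o, q, _, n1, n2, n3, rfl⟩, ?_, ?_⟩
  · intro x hx
    simp only [tr, Finset.mem_insert, Finset.mem_singleton] at hx
    rcases hx with hx | hx | hx <;> rw [hx] <;> assumption
  · intro x hx y hy hne
    simp only [tr, Finset.mem_insert, Finset.mem_singleton] at hx hy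
    rcases hx with hx | hx | hx <;> rcases hy with hy | hy | hy <;> rw [hx, hy] <;>
      first
      | exact absurd (hx.trans hy.symm) hne
      | exact hd
      | exact hd.symm
      | exact d1
      | exact d1.symm
      | exact d2
      | exact d2.symm

theorem tr_eq {T : Finset (Finset Cfsg.GolayPt)} {o q : Finset Cfsg.GolayPt}
    (hT : T ∈ Cfsg.trios) (ho : o ∈ T) (hq : q ∈ T) (hne : q ≠ o) : T = tr o q := by
  have h1 : (T.erase o).card = 2 := by rw [Finset.card_erase_of_mem ho, hT.1]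
  have hq1 : q ∈ T.erase o := Finset.mem_erase.mpr ⟨hne, hq⟩
  have h2 : ((T.erase o).erase q).card = 1 := by rw [Finset.card_erase_of_mem hq1, h1]
  obtain ⟨r, hr⟩ := Finset.card_eq_one.mp h2
  have hr1 : r ∈ (T.erase o).erase q := by rw [hr]; exact Finset.mem_singleton_self r
  have hrq : r ≠ q := (Finset.mem_erase.mp hr1).1
  have hr2 := (Finset.mem_erase.mp hr1).2
  have hro : r ≠ o := (Finset.mem_erase.mp hr2).1
  have hrT : r ∈ T := (Finset.mem_erase.mp hr2).2
  have e : r = (o ∪ q)ᶜ := by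
    apply Finset.eq_of_subset_of_card_le
    · intro p hp
      rw [Finset.mem_compl, Finset.mem_union]
      rintro (h | h)
      · exact Finset.disjoint_left.mp (hT.2.2 r hrT o ho hro) hp h
      · exact Finset.disjoint_left.mp (hT.2.2 r hrT q hq hrq) hp h
    · rw [Finset.card_compl, Finset.card_union_of_disjoint (hT.2.2 o ho q hq (Ne.symm hne)),
        card_pts, (hT.2.1 o ho).2, (hT.2.1 q hq).2, (hT.2.1 r hrT).2]
  calc T = insert o (T.erase o) := (Finset.insert_erase ho).symm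
    _ = insert o (insert q ((T.erase o).erase q)) := by rw [Finset.insert_erase hq1]
    _ = tr o q := by rw [hr, e]; rfl

open Classical in
/-- The octads disjoint from a given set. -/
noncomputable def Dj (o : Finset Cfsg.GolayPt) : Finset (Finset Cfsg.GolayPt) :=
  octF.filter (fun q => Disjoint o q)

theorem mem_Dj (o q : Finset Cfsg.GolayPt) : q ∈ Dj o ↔ q ∈ Cfsg.octads ∧ Disjoint o q := by
  classical
  unfold Dj
  rw [Finset.mem_filter, mem_octF]

theorem card_Dj {o : Finset Cfsg.GolayPt} (ho : o ∈ Cfsg.octads) : (Dj o).card = 30 := by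
  have h := ncard_meet o ho 0 30 cntM0
  have e : {o' : Finset Cfsg.GolayPt | o' ∈ Cfsg.octads ∧ (o ∩ o').card = 0} = ↑(Dj o) := by
    ext q
    rw [Finset.mem_coe, mem_Dj, Set.mem_setOf_eq, Finset.card_eq_zero,
      Finset.disjoint_iff_inter_eq_empty]
  rw [e, Set.ncard_coe_finset] at h
  exact h

/-- The trios through an octad. -/
noncomputable def Tr (o : Finset Cfsg.GolayPt) : Finset (Finset (Finset Cfsg.GolayPt)) :=
  (Dj o).image (tr o)

theorem mem_Tr {o : Finset Cfsg.GolayPt} (ho : o ∈ Cfsg.octads)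
    (T : Finset (Finset Cfsg.GolayPt)) : T ∈ Tr o ↔ T ∈ Cfsg.trios ∧ o ∈ T := by
  unfold Tr
  rw [Finset.mem_image]
  constructor
  · rintro ⟨q, hq, rfl⟩
    rw [mem_Dj] at hq
    exact ⟨tr_mem ho hq.1 hq.2, tr_left o q⟩
  · rintro ⟨hT, hoT⟩
    have h1 : (T.erase o).card = 2 := by rw [Finset.card_erase_of_mem hoT, hT.1]
    obtain ⟨q, hq⟩ : (T.erase o).Nonempty := by rw [← Finset.card_pos, h1]; norm_num
    rw [Finset.mem_erase] at hq
    exact ⟨q, (mem_Dj o q).mpr ⟨hT.2.1 q hq.2, hT.2.2 o hoT q hq.2 (Ne.symm hq.1)⟩,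
      (tr_eq hT hoT hq.2 hq.1).symm⟩

theorem half_aux {α : Type*} (s : Finset α) (h : 30 = ∑ _x ∈ s, 2) : s.card = 15 := by
  rw [Finset.sum_const, smul_eq_mul] at h
  omega

theorem card_Tr {o : Finset Cfsg.GolayPt} (ho : o ∈ Cfsg.octads) : (Tr o).card = 15 := by
  have h1 := Finset.card_eq_sum_card_fiberwise (f := tr o) (s := Dj o) (t := Tr o)
    (fun q hq => by unfold Tr; exact Finset.mem_image_of_mem _ hq)
  have h2 : ∀ T ∈ Tr o, ((Dj o).filter (fun q => tr o q = T)).card = 2 := by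
    intro T hT
    rw [mem_Tr ho] at hT
    have : (Dj o).filter (fun q => tr o q = T) = T.erase o := by
      ext q
      rw [Finset.mem_filter, mem_Dj, Finset.mem_erase]
      constructor
      · rintro ⟨⟨hq, hd⟩, rfl⟩
        exact ⟨(octad_ne_of_disjoint ho hd).symm, tr_right o q⟩
      · rintro ⟨hne, hq⟩
        exact ⟨⟨hT.1.2.1 q hq, hT.1.2.2 o hT.2 q hq (Ne.symm hne)⟩,
          (tr_eq hT.1 hT.2 hq hne).symm⟩
    rw [this, Finset.card_erase_of_mem hT.2, hT.1.1]
  rw [Finset.sum_congr rfl h2, card_Dj ho] at h1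
  exact half_aux _ h1

theorem ncard_through {o : Finset Cfsg.GolayPt} (ho : o ∈ Cfsg.octads) :
    {T : Finset (Finset Cfsg.GolayPt) | T ∈ Cfsg.trios ∧ o ∈ T}.ncard = 15 := by
  have e : {T : Finset (Finset Cfsg.GolayPt) | T ∈ Cfsg.trios ∧ o ∈ T} = ↑(Tr o) := by
    ext T
    rw [Finset.mem_coe, mem_Tr ho]
    rfl
  rw [e, Set.ncard_coe_finset, card_Tr ho]

/-- All trios. -/
noncomputable def TR : Finset (Finset (Finset Cfsg.GolayPt)) := octF.biUnion Tr

theorem mem_TR (T : Finset (Finset Cfsg.GolayPt)) : T ∈ TR ↔ T ∈ Cfsg.trios := by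
  unfold TR
  rw [Finset.mem_biUnion]
  constructor
  · rintro ⟨o, ho, hT⟩
    rw [mem_octF] at ho
    exact ((mem_Tr ho T).mp hT).1
  · intro hT
    obtain ⟨o, ho⟩ : T.Nonempty := by rw [← Finset.card_pos, hT.1]; norm_num
    exact ⟨o, (mem_octF o).mpr (hT.2.1 o ho), (mem_Tr (hT.2.1 o ho) T).mpr ⟨hT, ho⟩⟩

theorem card_octF : octF.card = 759 := by
  have h := card_octads
  have e : Cfsg.octads = ↑octF := by
    ext o
    rw [Finset.mem_coe, mem_octF]
  rw [e, Set.ncard_coe_finset] at h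
  exact h

theorem count_aux {α β : Type*} (s : Finset α) (t : Finset β)
    (h : ∑ _a ∈ s, 15 = ∑ _b ∈ t, 3) (hs : s.card = 759) : t.card = 3795 := by
  rw [Finset.sum_const, Finset.sum_const, smul_eq_mul, smul_eq_mul, hs] at h
  omega

theorem card_TR : TR.card = 3795 := by
  have h := Finset.sum_card_bipartiteAbove_eq_sum_card_bipartiteBelow (s := octF) (t := TR)
    (fun (o : Finset Cfsg.GolayPt) (T : Finset (Finset Cfsg.GolayPt)) => o ∈ T)
  have h1 : ∀ o ∈ octF, (TR.bipartiteAbove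
      (fun (o : Finset Cfsg.GolayPt) (T : Finset (Finset Cfsg.GolayPt)) => o ∈ T) o).card = 15 := by
    intro o ho
    rw [mem_octF] at ho
    have : TR.bipartiteAbove
        (fun (o : Finset Cfsg.GolayPt) (T : Finset (Finset Cfsg.GolayPt)) => o ∈ T) o = Tr o := by
      ext T
      rw [Finset.mem_bipartiteAbove, mem_TR, mem_Tr ho]
    rw [this, card_Tr ho]
  have h2 : ∀ T ∈ TR, (octF.bipartiteBelow
      (fun (o : Finset Cfsg.GolayPt) (T : Finset (Finset Cfsg.GolayPt)) => o ∈ T) T).card = 3 := by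
    intro T hT
    rw [mem_TR] at hT
    have : octF.bipartiteBelow
        (fun (o : Finset Cfsg.GolayPt) (T : Finset (Finset Cfsg.GolayPt)) => o ∈ T) T = T := by
      ext o
      rw [Finset.mem_bipartiteBelow, mem_octF]
      exact ⟨fun h => h.2, fun h => ⟨hT.2.1 o h, h⟩⟩
    rw [this, hT.1]
  rw [Finset.sum_congr rfl h1, Finset.sum_congr rfl h2] at h
  exact count_aux _ _ h card_octF

theorem ncard_trios : Cfsg.trios.ncard = 3795 := by
  have e : Cfsg.trios = ↑TR := by
    ext T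
    rw [Finset.mem_coe, mem_TR]
  rw [e, Set.ncard_coe_finset, card_TR]

theorem s1557 : (∀ o o' : Finset Cfsg.GolayPt, o ∈ Cfsg.octads → o' ∈ Cfsg.octads →
    Disjoint o o' → (o ∪ o')ᶜ ∈ Cfsg.octads) ∧ Cfsg.trios.ncard = 3795 :=
  ⟨fun _ _ ho ho' hd => compl_octad ho ho' hd, ncard_trios⟩

end Cfsg.Agent.Lib.Helper9.Trio
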