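import Mathlib
import Cfsg.Prelude.Def_SporadicCombinatorics
import Cfsg.Agent.Lib.Helper9.Trio
import Cfsg.Agent.Lib.Helper9.TrioOrb
import Cfsg.Agent.Lib.Helper9.M24OS

set_option autoImplicit false

/-! The action of an octad stabiliser on the fifteen trios through the octad. -/

namespace Cfsg.Agent.Lib.Helper9.Trio2

open Cfsg.Agent.Lib.Helper9.Golay Cfsg.Agent.Lib.Helper9.GolayC Cfsg.Agent.Lib.Helper9.M24C
open Cfsg.Agent.Lib.Helper9.Octad Cfsg.Agent.Lib.Helper9.M24B Cfsg.Agent.Lib.Helper9.M24T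
open Cfsg.Agent.Lib.Helper9.M24O Cfsg.Agent.Lib.Helper9.M24Oct Cfsg.Agent.Lib.Helper9.M24OS
open Cfsg.Agent.Lib.Helper9.M24M Cfsg.Agent.Lib.Helper9.M24CO Cfsg.Agent.Lib.Helper9.M24F
open Cfsg.Agent.Lib.Helper9.M24St Cfsg.Agent.Lib.Helper9.M24Six
open Cfsg.Agent.Lib.Helper9.Trio Cfsg.Agent.Lib.Helper9.TrioOrb
open scoped Pointwise

theorem disjoint_smul_iff (g : Equiv.Perm Cfsg.GolayPt) (a b : Finset Cfsg.GolayPt) :
    Disjoint (g • a) (g • b) ↔ Disjoint a b := by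
  rw [Finset.disjoint_iff_inter_eq_empty, Finset.disjoint_iff_inter_eq_empty,
    ← Finset.card_eq_zero, ← Finset.card_eq_zero, card_inter_smul]

theorem card_zero_of_disjoint {a b : Finset Cfsg.GolayPt} (h : Disjoint a b) :
    (a ∩ b).card = 0 :=
  Finset.card_eq_zero.mpr (Finset.disjoint_iff_inter_eq_empty.mp h)

theorem smul_trio {g : Equiv.Perm Cfsg.GolayPt} (hg : g ∈ Cfsg.M24)
    {T : Finset (Finset Cfsg.GolayPt)} (hT : T ∈ Cfsg.trios) : g • T ∈ Cfsg.trios := by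
  refine ⟨by rw [Finset.card_smul_finset]; exact hT.1, ?_, ?_⟩
  · intro x hx
    obtain ⟨x0, hx0, rfl⟩ := Finset.mem_smul_finset.mp hx
    exact smul_octad hg (hT.2.1 x0 hx0)
  · intro x hx y hy hne
    obtain ⟨x0, hx0, rfl⟩ := Finset.mem_smul_finset.mp hx
    obtain ⟨y0, hy0, rfl⟩ := Finset.mem_smul_finset.mp hy
    exact (disjoint_smul_iff g x0 y0).mpr (hT.2.2 x0 hx0 y0 hy0 (fun h => hne (by rw [h])))

theorem smul_tr {g : Equiv.Perm Cfsg.GolayPt} (hg : g ∈ Cfsg.M24) {o q : Finset Cfsg.GolayPt}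
    (ho : o ∈ Cfsg.octads) (hq : q ∈ Cfsg.octads) (hd : Disjoint o q) (hgo : g • o = o) :
    g • tr o q = tr o (g • q) := by
  have hT := smul_trio hg (tr_mem ho hq hd)
  have h1 : o ∈ g • tr o q := by
    have := Finset.smul_mem_smul_finset (a := g) (tr_left o q)
    rwa [hgo] at this
  have h2 : g • q ∈ g • tr o q := Finset.smul_mem_smul_finset (tr_right o q)
  have hd' : Disjoint o (g • q) := by
    have := (disjoint_smul_iff g o q).mpr hd
    rwa [hgo] at this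
  exact tr_eq hT h1 h2 (octad_ne_of_disjoint ho hd').symm

theorem exists_tr {o : Finset Cfsg.GolayPt} (ho : o ∈ Cfsg.octads)
    {T : Finset (Finset Cfsg.GolayPt)} (hT : T ∈ Cfsg.trios) (hoT : o ∈ T) :
    ∃ q, q ∈ Cfsg.octads ∧ Disjoint o q ∧ T = tr o q := by
  have h := (mem_Tr ho T).mpr ⟨hT, hoT⟩
  unfold Tr at h
  obtain ⟨q, hq, rfl⟩ := Finset.mem_image.mp h
  rw [mem_Dj] at hq
  exact ⟨q, hq.1, hq.2, rfl⟩

theorem inter4 {o A C : Finset Cfsg.GolayPt} (ho : o ∈ Cfsg.octads) (hA : A ∈ Cfsg.octads)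
    (hC : C ∈ Cfsg.octads) (hd : Disjoint o A) (hdC : Disjoint o C) (h1 : C ≠ A)
    (h2 : C ≠ (o ∪ A)ᶜ) : (A ∩ C).card = 4 := by
  have hB := compl_octad ho hA hd
  have hsub : C ⊆ A ∪ (o ∪ A)ᶜ := by
    intro p hp
    by_cases hpA : p ∈ A
    · exact Finset.mem_union_left _ hpA
    · refine Finset.mem_union_right _ ?_
      rw [Finset.mem_compl, Finset.mem_union]
      rintro (h | h)
      · exact Finset.disjoint_left.mp hdC h hp
      · exact hpA h
  have hc : (A ∩ C).card + ((o ∪ A)ᶜ ∩ C).card = 8 := by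
    rw [← Finset.card_union_of_disjoint, ← Finset.union_inter_distrib_right,
      Finset.inter_eq_right.mpr hsub, hC.2]
    exact (disjoint_compl_right.mono_left Finset.subset_union_right).mono
      Finset.inter_subset_left Finset.inter_subset_left
  rcases inter_cases hA hC with h | h | h | h
  · rcases inter_cases hB hC with h' | h' | h' | h'
    · omega
    · omega
    · omega
    · exact absurd h'.symm h2
  · rcases inter_cases hB hC with h' | h' | h' | h'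
    · omega
    · omega
    · omega
    · exact absurd h'.symm h2
  · exact h
  · exact absurd h.symm h1

theorem two_trans {o : Finset Cfsg.GolayPt} (ho : o ∈ Cfsg.octads)
    (T₁ T₂ T₁' T₂' : Finset (Finset Cfsg.GolayPt)) (h1 : T₁ ∈ Cfsg.trios) (h2 : T₂ ∈ Cfsg.trios)
    (h1' : T₁' ∈ Cfsg.trios) (h2' : T₂' ∈ Cfsg.trios) (m1 : o ∈ T₁) (m2 : o ∈ T₂)
    (m1' : o ∈ T₁') (m2' : o ∈ T₂') (hne : T₁ ≠ T₂) (hne' : T₁' ≠ T₂') :
    ∃ g ∈ Cfsg.M24, g • o = o ∧ g • T₁ = T₁' ∧ g • T₂ = T₂' := by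
  obtain ⟨A, hA, dA, rfl⟩ := exists_tr ho h1 m1
  obtain ⟨C, hC, dC, rfl⟩ := exists_tr ho h2 m2
  obtain ⟨A', hA', dA', rfl⟩ := exists_tr ho h1' m1'
  obtain ⟨C', hC', dC', rfl⟩ := exists_tr ho h2' m2'
  have key : ∀ A C : Finset Cfsg.GolayPt, A ∈ Cfsg.octads → C ∈ Cfsg.octads → Disjoint o A →
      Disjoint o C → tr o A ≠ tr o C → (A ∩ C).card = 4 := by
    intro A C hA hC dA dC hne
    apply inter4 ho hA hC dA dC
    · rintro rfl; exact hne rfl
    · intro h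
      apply hne
      have hCm : C ∈ tr o A := by rw [h]; simp [tr]
      exact tr_eq (tr_mem ho hA dA) (tr_left o A) hCm (octad_ne_of_disjoint ho dC).symm
  have k4 := key A C hA hC dA dC hne
  have k4' := key A' C' hA' hC' dA' dC' hne'
  obtain ⟨g1, hg1, e1, e2⟩ := stab_trans o A A' ho hA hA'
    (by rw [card_zero_of_disjoint dA, card_zero_of_disjoint dA'])
  have dC1 : Disjoint o (g1 • C) := by
    have := (disjoint_smul_iff g1 o C).mpr dC
    rwa [e1] at this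
  have k41 : (A' ∩ g1 • C).card = 4 := by rw [← e2, card_inter_smul]; exact k4
  obtain ⟨g2, hg2, f1, f2, f3⟩ := trans2 o A' (g1 • C) C' ho hA' dA' (smul_octad hg1 hC) hC'
    (card_zero_of_disjoint dC1) (card_zero_of_disjoint dC') k41 k4'
  have hgo : (g2 * g1) • o = o := by rw [mul_smul, e1, f1]
  refine ⟨g2 * g1, mul_mem hg2 hg1, hgo, ?_, ?_⟩
  · rw [smul_tr (mul_mem hg2 hg1) ho hA dA hgo, mul_smul, e2, f2]
  · rw [smul_tr (mul_mem hg2 hg1) ho hC dC hgo, mul_smul, f3]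

set_option maxRecDepth 100000 in
theorem fix_chk : (List.range 4096).all (fun c => !selL 8 [(OM, 0)] c ||
    (tabs 1 6).all (fun t => decide (pmI t (lin LB c) = lin LB c) ||
      decide (pc 24 (pmI t (lin LB c) &&& lin LB c) = 0))) = true := by decide +kernel

theorem fix_std (g : Equiv.Perm Cfsg.GolayPt) (hg : g ∈ Gk 6) (A : Finset Cfsg.GolayPt)
    (hA : A ∈ Cfsg.octads) (hd : Disjoint Oset A) : g • A = A ∨ Disjoint (g • A) A := by
  obtain ⟨t, ht, hT⟩ := Gk_tabs 1 6 rfl g⁻¹ (inv_mem hg)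
  obtain ⟨c, hc, rfl⟩ := oct_mask A hA
  have hsel : selL 8 [(OM, 0)] c = true :=
    (selL_iff Cfsg.octads 8 W8 [(OM, 0)] c).mp
      ((selL1 _ _ _ _).mpr ⟨hA, card_zero_of_disjoint hd⟩)
  have h := fix_chk
  rw [List.all_eq_true] at h
  have h1 := h c (List.mem_range.mpr hc)
  rw [hsel] at h1
  simp only [Bool.not_true, Bool.false_or, List.all_eq_true] at h1
  have h2 := h1 t ht
  rw [Bool.or_eq_true, decide_eq_true_eq, decide_eq_true_eq] at h2
  have e : g • maskSet (lin LB c) = maskSet (pmI t (lin LB c)) := by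
    have := smul_maskSet_pmI hT (lin LB c)
    rw [← this, smul_inv_smul]
  rcases h2 with h2 | h2
  · left; rw [e, h2]
  · right
    rw [e, Finset.disjoint_iff_inter_eq_empty, ← Finset.card_eq_zero, ← maskSet_and, card_maskSet]
    exact h2

theorem fix_trio {o : Finset Cfsg.GolayPt} (ho : o ∈ Cfsg.octads) (g : Equiv.Perm Cfsg.GolayPt)
    (hg : g ∈ Cfsg.M24) (hfix : ∀ p ∈ o, g p = p) (T : Finset (Finset Cfsg.GolayPt))
    (hT : T ∈ Cfsg.trios) (hoT : o ∈ T) : g • T = T := by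
  obtain ⟨g0, hg0, rfl⟩ := octad_trans o ho
  obtain ⟨A, hA, dA, rfl⟩ := exists_tr ho hT hoT
  have hgo : g • (g0 • Oset) = g0 • Oset := smul_eq_of_fix hfix
  rw [smul_tr hg ho hA dA hgo]
  have hk : g0⁻¹ * g * g0 ∈ Gk 6 := by
    refine ⟨mul_mem (mul_mem (inv_mem hg0) hg) hg0, fun i hi => ?_⟩
    rw [Equiv.Perm.mul_apply, Equiv.Perm.mul_apply,
      hfix (g0 (B i)) ((mem_smul_iff g0 (B i) Oset).mpr (B_in i hi))]
    simp
  have hA0 : g0⁻¹ • A ∈ Cfsg.octads := smul_octad (inv_mem hg0) hA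
  have dA0 : Disjoint Oset (g0⁻¹ • A) := by
    have := (disjoint_smul_iff g0⁻¹ (g0 • Oset) A).mpr dA
    rwa [inv_smul_smul] at this
  have hdA' : Disjoint (g0 • Oset) (g • A) := by
    have := (disjoint_smul_iff g (g0 • Oset) A).mpr dA
    rwa [hgo] at this
  have hmem : g • A ∈ tr (g0 • Oset) A := by
    rcases fix_std _ hk _ hA0 dA0 with h | h
    · have : g • A = A := by
        have h' := congrArg (fun s => g0 • s) h
        simp only [mul_smul, smul_inv_smul] at h'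
        exact h'
      rw [this]; exact tr_right _ _
    · have hd2 : Disjoint (g • A) A := by
        rw [mul_smul, mul_smul, smul_inv_smul, disjoint_smul_iff] at h
        exact h
      have : g • A = (g0 • Oset ∪ A)ᶜ := by
        apply Finset.eq_of_subset_of_card_le
        · intro p hp
          rw [Finset.mem_compl, Finset.mem_union]
          rintro (h' | h')
          · exact Finset.disjoint_left.mp hdA' h' hp
          · exact Finset.disjoint_left.mp hd2 hp h'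
        · rw [(compl_octad ho hA dA).2, (smul_octad hg hA).2]
      rw [this]; simp [tr]
  exact (tr_eq (tr_mem ho hA dA) (tr_left _ _) hmem (octad_ne_of_disjoint ho hdA').symm).symm

theorem ker_le {o : Finset Cfsg.GolayPt} (ho : o ∈ Cfsg.octads) (g : Equiv.Perm Cfsg.GolayPt)
    (hg : g ∈ Cfsg.M24) (hgo : g • o = o)
    (hT : ∀ T ∈ Cfsg.trios, o ∈ T → g • T = T) : ∀ p ∈ o, g p = p := by
  have hsimple : IsSimpleGroup (alternatingGroup ↥o) := alternatingGroup.isSimpleGroup (by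
    rw [Nat.card_eq_fintype_card, Fintype.card_coe, ho.2]; norm_num)
  let N : Subgroup ↥(StabS o) :=
    { carrier := {x | ∀ T ∈ Cfsg.trios, o ∈ T → (x : Equiv.Perm Cfsg.GolayPt) • T = T}
      mul_mem' := fun {a b} ha hb T hT hoT => by
        show ((a : Equiv.Perm Cfsg.GolayPt) * (b : Equiv.Perm Cfsg.GolayPt)) • T = T
        rw [mul_smul, hb T hT hoT, ha T hT hoT]
      one_mem' := fun T _ _ => one_smul _ T
      inv_mem' := fun {a} ha T hT hoT => by
        show ((a : Equiv.Perm Cfsg.GolayPt))⁻¹ • T = T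
        rw [inv_smul_eq_iff, ha T hT hoT] }
  have hN : N.Normal := by
    constructor
    intro n hn h T hT hoT
    show ((h : Equiv.Perm Cfsg.GolayPt) * (n : Equiv.Perm Cfsg.GolayPt) *
      (h : Equiv.Perm Cfsg.GolayPt)⁻¹) • T = T
    have hh := (mem_StabS o h.1).mp h.2
    have h1 : (h : Equiv.Perm Cfsg.GolayPt)⁻¹ • T ∈ Cfsg.trios := smul_trio (inv_mem hh.1) hT
    have h2 : o ∈ (h : Equiv.Perm Cfsg.GolayPt)⁻¹ • T := by
      have := Finset.smul_mem_smul_finset (a := (h : Equiv.Perm Cfsg.GolayPt)⁻¹) hoT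
      rwa [inv_smul_eq_iff.mpr hh.2.symm] at this
    rw [mul_smul, mul_smul, hn _ h1 h2, smul_inv_smul]
  let ψ : ↥(StabS o) →* ↥(alternatingGroup ↥o) :=
    (res o).codRestrict (alternatingGroup ↥o) (fun x => by
      rw [← range_res o ho]; exact ⟨x, rfl⟩)
  have hψ : Function.Surjective ψ := by
    rintro ⟨σ, hσ⟩
    rw [← range_res o ho] at hσ
    obtain ⟨x, rfl⟩ := hσ
    exact ⟨x, rfl⟩
  have hM : (N.map ψ).Normal := hN.map ψ hψ
  have hgS : g ∈ StabS o := (mem_StabS o g).mpr ⟨hg, hgo⟩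
  rcases hM.eq_bot_or_eq_top with h | h
  · have hgN : (⟨g, hgS⟩ : ↥(StabS o)) ∈ N := hT
    have h1 : ψ ⟨g, hgS⟩ ∈ N.map ψ := Subgroup.mem_map_of_mem ψ hgN
    rw [h, Subgroup.mem_bot] at h1
    intro p hp
    have h2 := congrArg (fun e : ↥(alternatingGroup ↥o) =>
      (((e : Equiv.Perm ↥o) ⟨p, hp⟩ : ↥o) : Cfsg.GolayPt)) h1
    exact h2
  · exfalso
    obtain ⟨A, hA⟩ : (Dj o).Nonempty := by rw [← Finset.card_pos, card_Dj ho]; norm_num
    rw [mem_Dj] at hA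
    have hT1 := tr_mem ho hA.1 hA.2
    obtain ⟨C, hC, hCn⟩ := Finset.exists_mem_notMem_of_card_lt_card (s := tr o A) (t := Dj o)
      (by rw [hT1.1, card_Dj ho]; norm_num)
    rw [mem_Dj] at hC
    obtain ⟨k, hk, k1, k2⟩ := stab_trans o A C ho hA.1 hC.1
      (by rw [card_zero_of_disjoint hA.2, card_zero_of_disjoint hC.2])
    have hkS : k ∈ StabS o := (mem_StabS o k).mpr ⟨hk, k1⟩
    have h1 : ψ ⟨k, hkS⟩ ∈ N.map ψ := by rw [h]; exact Subgroup.mem_top _
    obtain ⟨n, hn, hnk⟩ := Subgroup.mem_map.mp h1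
    have hfixm : ∀ p ∈ o, ((n : Equiv.Perm Cfsg.GolayPt)⁻¹ * k) p = p := by
      intro p hp
      have h2 := congrArg (fun e : ↥(alternatingGroup ↥o) =>
        (((e : Equiv.Perm ↥o) ⟨p, hp⟩ : ↥o) : Cfsg.GolayPt)) hnk
      rw [Equiv.Perm.mul_apply, Equiv.Perm.inv_eq_iff_eq]
      exact h2.symm
    have hnS := (mem_StabS o n.1).mp n.2
    have hm := fix_trio ho ((n : Equiv.Perm Cfsg.GolayPt)⁻¹ * k)
      (mul_mem (inv_mem hnS.1) hk) hfixm (tr o A) hT1 (tr_left o A)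
    have hk' : k • tr o A = tr o A := by
      have e : k • tr o A = (n : Equiv.Perm Cfsg.GolayPt) •
          (((n : Equiv.Perm Cfsg.GolayPt)⁻¹ * k) • tr o A) := by
        rw [← mul_smul, mul_inv_cancel_left]
      rw [e, hm, hn (tr o A) hT1 (tr_left o A)]
    rw [smul_tr hk ho hA.1 hA.2 k1, k2] at hk'
    exact hCn (hk' ▸ tr_right o C)

theorem s5615 (o : Finset Cfsg.GolayPt) (ho : o ∈ Cfsg.octads) :
    {T : Finset (Finset Cfsg.GolayPt) | T ∈ Cfsg.trios ∧ o ∈ T}.ncard = 15 ∧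
    (∀ T₁ T₂ T₁' T₂' : Finset (Finset Cfsg.GolayPt), T₁ ∈ Cfsg.trios → T₂ ∈ Cfsg.trios →
      T₁' ∈ Cfsg.trios → T₂' ∈ Cfsg.trios → o ∈ T₁ → o ∈ T₂ → o ∈ T₁' → o ∈ T₂' → T₁ ≠ T₂ →
      T₁' ≠ T₂' → ∃ g ∈ Cfsg.M24, g • o = o ∧ g • T₁ = T₁' ∧ g • T₂ = T₂') ∧
    ∀ g ∈ Cfsg.M24, g • o = o →
      ((∀ T ∈ Cfsg.trios, o ∈ T → g • T = T) ↔ ∀ p ∈ o, g p = p) :=
  ⟨ncard_through ho,
    fun T₁ T₂ T₁' T₂' h1 h2 h1' h2' m1 m2 m1' m2' hne hne' =>
      two_trans ho T₁ T₂ T₁' T₂' h1 h2 h1' h2' m1 m2 m1' m2' hne hne',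
    fun g hg hgo => ⟨ker_le ho g hg hgo, fun hfix T hT hoT => fix_trio ho g hg hfix T hT hoT⟩⟩

end Cfsg.Agent.Lib.Helper9.Trio2
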