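import Mathlib
import Cfsg.Prelude.Def_SporadicCombinatorics
import Cfsg.Agent.Lib.Helper9.Trio2
import Cfsg.Agent.Lib.Helper9.OctSx

set_option autoImplicit false

/-! Trios relative to an octad: three types, their numbers, transitivity of the octad
stabiliser on each. -/

namespace Cfsg.Agent.Lib.Helper9.OctTr

open Cfsg.Agent.Lib.Helper9.Golay Cfsg.Agent.Lib.Helper9.GolayC Cfsg.Agent.Lib.Helper9.M24C
open Cfsg.Agent.Lib.Helper9.Octad Cfsg.Agent.Lib.Helper9.M24B Cfsg.Agent.Lib.Helper9.M24T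
open Cfsg.Agent.Lib.Helper9.M24F Cfsg.Agent.Lib.Helper9.M24St
open Cfsg.Agent.Lib.Helper9.Trio Cfsg.Agent.Lib.Helper9.Trio2
open Cfsg.Agent.Lib.Helper9.TrioOrb Cfsg.Agent.Lib.Helper9.OctOrb Cfsg.Agent.Lib.Helper9.OctSx
open scoped Pointwise

variable {T : Finset (Finset Cfsg.GolayPt)} {o : Finset Cfsg.GolayPt}

/-- The octad belongs to the trio. -/
def R1 (o : Finset Cfsg.GolayPt) (T : Finset (Finset Cfsg.GolayPt)) : Prop := o ∈ T

/-- The octad is not in the trio but is disjoint from a member. -/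
def R2 (o : Finset Cfsg.GolayPt) (T : Finset (Finset Cfsg.GolayPt)) : Prop :=
  o ∉ T ∧ ∃ Z ∈ T, Disjoint o Z

/-- The octad meets every member of the trio. -/
def R3 (o : Finset Cfsg.GolayPt) (T : Finset (Finset Cfsg.GolayPt)) : Prop :=
  ∀ Z ∈ T, ¬ Disjoint o Z

theorem R_cases (o : Finset Cfsg.GolayPt) (T : Finset (Finset Cfsg.GolayPt)) :
    R1 o T ∨ R2 o T ∨ R3 o T := by
  by_cases h1 : o ∈ T
  · exact Or.inl h1
  · by_cases h2 : ∃ Z ∈ T, Disjoint o Z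
    · exact Or.inr (Or.inl ⟨h1, h2⟩)
    · push Not at h2
      exact Or.inr (Or.inr h2)

theorem not_R13 (hT : T ∈ Cfsg.trios) (h1 : R1 o T) (h3 : R3 o T) : False := by
  obtain ⟨Z, hZ, hne⟩ := Finset.exists_mem_ne (by rw [hT.1]; norm_num : 1 < T.card) o
  exact h3 Z hZ (hT.2.2 o h1 Z hZ (Ne.symm hne))

theorem smul_tr2 {g : Equiv.Perm Cfsg.GolayPt} (hg : g ∈ Cfsg.M24) {Z X : Finset Cfsg.GolayPt}
    (hZ : Z ∈ Cfsg.octads) (hX : X ∈ Cfsg.octads) (hd : Disjoint Z X) :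
    g • tr Z X = tr (g • Z) (g • X) :=
  tr_eq (smul_trio hg (tr_mem hZ hX hd)) (Finset.smul_mem_smul_finset (tr_left Z X))
    (Finset.smul_mem_smul_finset (tr_right Z X))
    (octad_ne_of_disjoint (smul_octad hg hZ) ((disjoint_smul_iff g Z X).mpr hd)).symm

theorem ncard_R1 (ho : o ∈ Cfsg.octads) :
    {T : Finset (Finset Cfsg.GolayPt) | T ∈ Cfsg.trios ∧ R1 o T}.ncard = 15 :=
  ncard_through ho

theorem ncard_R2 (ho : o ∈ Cfsg.octads) :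
    {T : Finset (Finset Cfsg.GolayPt) | T ∈ Cfsg.trios ∧ R2 o T}.ncard = 420 := by
  have e : {T : Finset (Finset Cfsg.GolayPt) | T ∈ Cfsg.trios ∧ R2 o T} =
      ↑((Dj o).biUnion (fun Z => (Tr Z).erase (tr Z o))) := by
    ext T
    rw [Finset.mem_coe, Finset.mem_biUnion]
    constructor
    · rintro ⟨hT, hoT, Z, hZ, hd⟩
      have hZo := hT.2.1 Z hZ
      refine ⟨Z, (mem_Dj o Z).mpr ⟨hZo, hd⟩, Finset.mem_erase.mpr ⟨?_, (mem_Tr hZo T).mpr ⟨hT, hZ⟩⟩⟩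
      rintro rfl
      exact hoT (tr_right Z o)
    · rintro ⟨Z, hZ, hT⟩
      rw [mem_Dj] at hZ
      rw [Finset.mem_erase, mem_Tr hZ.1] at hT
      refine ⟨hT.2.1, ?_, Z, hT.2.2, hZ.2⟩
      intro hoT
      exact hT.1 (tr_eq hT.2.1 hT.2.2 hoT (octad_ne_of_disjoint ho hZ.2))
  rw [e, Set.ncard_coe_finset, Finset.card_biUnion]
  · have h14 : ∀ Z ∈ Dj o, ((Tr Z).erase (tr Z o)).card = 14 := by
      intro Z hZ
      rw [mem_Dj] at hZ
      rw [Finset.card_erase_of_mem ((mem_Tr hZ.1 _).mpr ⟨tr_mem hZ.1 ho hZ.2.symm, tr_left Z o⟩),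
        card_Tr hZ.1]
    rw [Finset.sum_congr rfl h14, Finset.sum_const, card_Dj ho]
    rfl
  · intro Z hZ Z' hZ' hne
    rw [Finset.mem_coe, mem_Dj] at hZ hZ'
    rw [Function.onFun, Finset.disjoint_left]
    intro T hT hT'
    rw [Finset.mem_erase, mem_Tr hZ.1] at hT
    rw [Finset.mem_erase, mem_Tr hZ'.1] at hT'
    apply hT.1
    have e1 := tr_eq hT.2.1 hT.2.2 hT'.2.2 (Ne.symm hne)
    have dZ := hT.2.1.2.2 Z hT.2.2 Z' hT'.2.2 hne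
    have e2 : o = (Z ∪ Z')ᶜ := by
      apply Finset.eq_of_subset_of_card_le
      · intro p hp
        rw [Finset.mem_compl, Finset.mem_union]
        rintro (h | h)
        · exact Finset.disjoint_left.mp hZ.2 hp h
        · exact Finset.disjoint_left.mp hZ'.2 hp h
      · rw [(compl_octad hZ.1 hZ'.1 dZ).2, ho.2]
    have hoT : o ∈ T := by
      rw [e1, e2]
      simp [tr]
    exact tr_eq hT.2.1 hT.2.2 hoT (octad_ne_of_disjoint ho hZ.2)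

theorem ncard_R3 (ho : o ∈ Cfsg.octads) :
    {T : Finset (Finset Cfsg.GolayPt) | T ∈ Cfsg.trios ∧ R3 o T}.ncard = 3360 := by
  have h1 := ncard_R1 ho
  have h2 := ncard_R2 ho
  have hs := ncard_trios
  have e : Cfsg.trios = {T : Finset (Finset Cfsg.GolayPt) | T ∈ Cfsg.trios ∧ R3 o T} ∪
      ({T : Finset (Finset Cfsg.GolayPt) | T ∈ Cfsg.trios ∧ R1 o T} ∪
        {T : Finset (Finset Cfsg.GolayPt) | T ∈ Cfsg.trios ∧ R2 o T}) := by
    ext T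
    constructor
    · intro hT
      rcases R_cases o T with h | h | h
      · exact Or.inr (Or.inl ⟨hT, h⟩)
      · exact Or.inr (Or.inr ⟨hT, h⟩)
      · exact Or.inl ⟨hT, h⟩
    · rintro (h | h | h) <;> exact h.1
  have d12 : Disjoint {T : Finset (Finset Cfsg.GolayPt) | T ∈ Cfsg.trios ∧ R1 o T}
      {T : Finset (Finset Cfsg.GolayPt) | T ∈ Cfsg.trios ∧ R2 o T} := by
    rw [Set.disjoint_left]
    rintro T ⟨-, p1⟩ ⟨-, p2⟩
    exact p2.1 p1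
  have d3 : Disjoint {T : Finset (Finset Cfsg.GolayPt) | T ∈ Cfsg.trios ∧ R3 o T}
      ({T : Finset (Finset Cfsg.GolayPt) | T ∈ Cfsg.trios ∧ R1 o T} ∪
        {T : Finset (Finset Cfsg.GolayPt) | T ∈ Cfsg.trios ∧ R2 o T}) := by
    rw [Set.disjoint_left]
    rintro T ⟨hT, p3⟩ (⟨-, p1⟩ | ⟨-, p2⟩)
    · exact not_R13 hT p1 p3
    · obtain ⟨Z, hZ, hd⟩ := p2.2
      exact p3 Z hZ hd
  rw [e, Set.ncard_union_eq d3 (Set.toFinite _) (Set.toFinite _),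
    Set.ncard_union_eq d12 (Set.toFinite _) (Set.toFinite _), h1, h2] at hs
  omega

theorem trans_R1 (ho : o ∈ Cfsg.octads) (T T' : Finset (Finset Cfsg.GolayPt))
    (hT : T ∈ Cfsg.trios) (hT' : T' ∈ Cfsg.trios) (p : R1 o T) (p' : R1 o T') :
    ∃ g ∈ Cfsg.M24, g • o = o ∧ g • T = T' := by
  obtain ⟨A, hA, dA, rfl⟩ := exists_tr ho hT p
  obtain ⟨A', hA', dA', rfl⟩ := exists_tr ho hT' p'
  obtain ⟨g, hg, e1, e2⟩ := stab_trans o A A' ho hA hA'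
    (by rw [card_zero_of_disjoint dA, card_zero_of_disjoint dA'])
  exact ⟨g, hg, e1, by rw [smul_tr hg ho hA dA e1, e2]⟩

theorem R2_data (ho : o ∈ Cfsg.octads) (hT : T ∈ Cfsg.trios) (p : R2 o T) :
    ∃ Z ∈ Cfsg.octads, ∃ X ∈ Cfsg.octads, Disjoint o Z ∧ Disjoint Z X ∧ (o ∩ X).card = 4 ∧
      T = tr Z X := by
  obtain ⟨hoT, Z, hZ, hd⟩ := p
  obtain ⟨X, hX, hne⟩ := Finset.exists_mem_ne (by rw [hT.1]; norm_num : 1 < T.card) Z
  have hZo := hT.2.1 Z hZ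
  have hXo := hT.2.1 X hX
  have dZX := hT.2.2 Z hZ X hX (Ne.symm hne)
  have e := tr_eq hT hZ hX hne
  refine ⟨Z, hZo, X, hXo, hd, dZX, ?_, e⟩
  apply inter4 hZo ho hXo hd.symm dZX
  · rintro rfl
    exact hoT hX
  · intro h
    apply hoT
    have h1 : X ∈ tr Z o := by rw [h]; simp [tr]
    have h2 := tr_eq (tr_mem hZo ho hd.symm) (tr_left Z o) h1 hne
    rw [e, ← h2]
    exact tr_right Z o

theorem trans_R2 (ho : o ∈ Cfsg.octads) (T T' : Finset (Finset Cfsg.GolayPt))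
    (hT : T ∈ Cfsg.trios) (hT' : T' ∈ Cfsg.trios) (p : R2 o T) (p' : R2 o T') :
    ∃ g ∈ Cfsg.M24, g • o = o ∧ g • T = T' := by
  obtain ⟨Z, hZ, X, hX, dZ, dZX, x4, rfl⟩ := R2_data ho hT p
  obtain ⟨Z', hZ', X', hX', dZ', dZX', x4', rfl⟩ := R2_data ho hT' p'
  obtain ⟨g1, hg1, e1, e2⟩ := stab_trans o Z Z' ho hZ hZ'
    (by rw [card_zero_of_disjoint dZ, card_zero_of_disjoint dZ'])
  have d1 : Disjoint Z' (g1 • X) := by
    rw [← e2, disjoint_smul_iff]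
    exact dZX
  have y4 : (o ∩ g1 • X).card = 4 := by
    have := card_inter_smul g1 o X
    rw [e1] at this
    rw [this, x4]
  obtain ⟨g2, hg2, f1, f2, f3⟩ := trans2 Z' o (g1 • X) X' hZ' ho dZ'.symm (smul_octad hg1 hX) hX'
    (card_zero_of_disjoint d1) (card_zero_of_disjoint dZX') y4 x4'
  have hg : g2 * g1 ∈ Cfsg.M24 := mul_mem hg2 hg1
  refine ⟨g2 * g1, hg, by rw [mul_smul, e1, f2], ?_⟩
  rw [smul_tr2 hg hZ hX dZX, mul_smul, mul_smul, e2, f1, f3]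

theorem R3_data (ho : o ∈ Cfsg.octads) (hT : T ∈ Cfsg.trios) (p : R3 o T) :
    ∃ X ∈ Cfsg.octads, ∃ Y ∈ Cfsg.octads, Disjoint X Y ∧ (o ∩ X).card = 4 ∧ (o ∩ Y).card = 2 ∧
      T = tr X Y := by
  have hn : ∀ Z ∈ T, (o ∩ Z).card = 2 ∨ (o ∩ Z).card = 4 := by
    intro Z hZ
    rcases inter_cases ho (hT.2.1 Z hZ) with h | h | h | h
    · exact absurd (Finset.disjoint_iff_inter_eq_empty.mpr (Finset.card_eq_zero.mp h)) (p Z hZ)
    · exact Or.inl h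
    · exact Or.inr h
    · exact absurd p (fun p3 => not_R13 hT (by rw [h]; exact hZ) p3)
  obtain ⟨X0, hX0, Y0, hY0, hne⟩ := Finset.one_lt_card.mp (by rw [hT.1]; norm_num : 1 < T.card)
  have d0 := hT.2.2 X0 hX0 Y0 hY0 hne
  have e0 := tr_eq hT hX0 hY0 (Ne.symm hne)
  have hW0 : (X0 ∪ Y0)ᶜ ∈ T := by rw [e0]; simp [tr]
  have hsum : (o ∩ X0).card + (o ∩ Y0).card + (o ∩ (X0 ∪ Y0)ᶜ).card = 8 := by
    have h1 := Finset.card_sdiff_add_card_inter o (X0 ∪ Y0)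
    have h2 : o ∩ (X0 ∪ Y0)ᶜ = o \ (X0 ∪ Y0) := by
      ext q
      simp
    have h3 : (o ∩ (X0 ∪ Y0)).card = (o ∩ X0).card + (o ∩ Y0).card := by
      rw [Finset.inter_union_distrib_left, Finset.card_union_of_disjoint
        (d0.mono Finset.inter_subset_right Finset.inter_subset_right)]
    rw [h2]
    have := ho.2
    omega
  have a := hn X0 hX0
  have b := hn Y0 hY0
  have c := hn _ hW0
  have dW1 : Disjoint X0 (X0 ∪ Y0)ᶜ := disjoint_compl_right.mono_left Finset.subset_union_left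
  rcases (by omega : (o ∩ X0).card = 4 ∨ (o ∩ Y0).card = 4 ∨ (o ∩ (X0 ∪ Y0)ᶜ).card = 4) with
    h | h | h
  · exact ⟨X0, hT.2.1 X0 hX0, Y0, hT.2.1 Y0 hY0, d0, h, by omega, e0⟩
  · exact ⟨Y0, hT.2.1 Y0 hY0, X0, hT.2.1 X0 hX0, d0.symm, h, by omega,
      tr_eq hT hY0 hX0 hne⟩
  · exact ⟨_, hT.2.1 _ hW0, X0, hT.2.1 X0 hX0, dW1.symm, h, by omega,
      tr_eq hT hW0 hX0 (octad_ne_of_disjoint (hT.2.1 X0 hX0) dW1)⟩

theorem trans_R3 (ho : o ∈ Cfsg.octads) (T T' : Finset (Finset Cfsg.GolayPt))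
    (hT : T ∈ Cfsg.trios) (hT' : T' ∈ Cfsg.trios) (p : R3 o T) (p' : R3 o T') :
    ∃ g ∈ Cfsg.M24, g • o = o ∧ g • T = T' := by
  obtain ⟨X, hX, Y, hY, dXY, x4, y2, rfl⟩ := R3_data ho hT p
  obtain ⟨X', hX', Y', hY', dXY', x4', y2', rfl⟩ := R3_data ho hT' p'
  obtain ⟨g1, hg1, e1, e2⟩ := stab_trans o X X' ho hX hX' (by rw [x4, x4'])
  have d1 : Disjoint X' (g1 • Y) := by
    rw [← e2, disjoint_smul_iff]
    exact dXY
  have z2 : (o ∩ g1 • Y).card = 2 := by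
    have := card_inter_smul g1 o Y
    rw [e1] at this
    rw [this, y2]
  obtain ⟨g2, hg2, f1, f2, f3⟩ := transV o X' (g1 • Y) Y' ho hX' x4' (smul_octad hg1 hY) hY'
    z2 y2' (card_zero_of_disjoint d1) (card_zero_of_disjoint dXY')
  have hg : g2 * g1 ∈ Cfsg.M24 := mul_mem hg2 hg1
  refine ⟨g2 * g1, hg, by rw [mul_smul, e1, f1], ?_⟩
  rw [smul_tr2 hg hX hY dXY, mul_smul, mul_smul, e2, f2, f3]

theorem inv_R (g : Equiv.Perm Cfsg.GolayPt) (hg : g • o = o) :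
    (R1 o T → R1 o (g • T)) ∧ (R2 o T → R2 o (g • T)) ∧ (R3 o T → R3 o (g • T)) := by
  have h1 : ∀ T : Finset (Finset Cfsg.GolayPt), o ∈ g • T ↔ o ∈ T := by
    intro T
    have : g • o ∈ g • T ↔ o ∈ T := Finset.smul_mem_smul_finset_iff g
    rw [hg] at this
    exact this
  have h2 : ∀ Z : Finset Cfsg.GolayPt, Disjoint o (g • Z) ↔ Disjoint o Z := by
    intro Z
    have := disjoint_smul_iff g o Z
    rw [hg] at this
    exact this
  refine ⟨fun p => (h1 T).mpr p, ?_, ?_⟩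
  · rintro ⟨hoT, Z, hZ, hd⟩
    exact ⟨fun h => hoT ((h1 T).mp h), g • Z, Finset.smul_mem_smul_finset hZ, (h2 Z).mpr hd⟩
  · intro p W hW
    obtain ⟨Z, hZ, rfl⟩ := Finset.mem_smul_finset.mp hW
    exact fun h => p Z hZ ((h2 Z).mp h)

theorem trio_orbits (o : Finset Cfsg.GolayPt) (ho : o ∈ Cfsg.octads) :
    ∃ X₁ ∈ Cfsg.trios, ∃ X₂ ∈ Cfsg.trios, ∃ X₃ ∈ Cfsg.trios,
      (MulAction.orbit ↥(MulAction.stabilizer Cfsg.M24 o) X₁).ncard = 15 ∧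
      (MulAction.orbit ↥(MulAction.stabilizer Cfsg.M24 o) X₂).ncard = 420 ∧
      (MulAction.orbit ↥(MulAction.stabilizer Cfsg.M24 o) X₃).ncard = 3360 ∧
      Cfsg.trios = MulAction.orbit ↥(MulAction.stabilizer Cfsg.M24 o) X₁ ∪
        MulAction.orbit ↥(MulAction.stabilizer Cfsg.M24 o) X₂ ∪
        MulAction.orbit ↥(MulAction.stabilizer Cfsg.M24 o) X₃ := by
  have n1 := ncard_R1 ho
  have n2 := ncard_R2 ho
  have n3 := ncard_R3 ho
  obtain ⟨X₁, hX₁, p1⟩ : {T : Finset (Finset Cfsg.GolayPt) | T ∈ Cfsg.trios ∧ R1 o T}.Nonempty :=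
    Set.nonempty_of_ncard_ne_zero (by rw [n1]; norm_num)
  obtain ⟨X₂, hX₂, p2⟩ : {T : Finset (Finset Cfsg.GolayPt) | T ∈ Cfsg.trios ∧ R2 o T}.Nonempty :=
    Set.nonempty_of_ncard_ne_zero (by rw [n2]; norm_num)
  obtain ⟨X₃, hX₃, p3⟩ : {T : Finset (Finset Cfsg.GolayPt) | T ∈ Cfsg.trios ∧ R3 o T}.Nonempty :=
    Set.nonempty_of_ncard_ne_zero (by rw [n3]; norm_num)
  have o1 := orbit_stab o Cfsg.trios (R1 o)
    (fun g hg hgo T hT p => ⟨smul_trio hg hT, (inv_R g hgo).1 p⟩)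
    (fun T T' hT hT' p p' => trans_R1 ho T T' hT hT' p p') X₁ hX₁ p1
  have o2 := orbit_stab o Cfsg.trios (R2 o)
    (fun g hg hgo T hT p => ⟨smul_trio hg hT, (inv_R g hgo).2.1 p⟩)
    (fun T T' hT hT' p p' => trans_R2 ho T T' hT hT' p p') X₂ hX₂ p2
  have o3 := orbit_stab o Cfsg.trios (R3 o)
    (fun g hg hgo T hT p => ⟨smul_trio hg hT, (inv_R g hgo).2.2 p⟩)
    (fun T T' hT hT' p p' => trans_R3 ho T T' hT hT' p p') X₃ hX₃ p3
  refine ⟨X₁, hX₁, X₂, hX₂, X₃, hX₃, ?_, ?_, ?_, ?_⟩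
  · rw [o1, n1]
  · rw [o2, n2]
  · rw [o3, n3]
  · rw [o1, o2, o3]
    ext T
    constructor
    · intro hT
      rcases R_cases o T with h | h | h
      · exact Or.inl (Or.inl ⟨hT, h⟩)
      · exact Or.inl (Or.inr ⟨hT, h⟩)
      · exact Or.inr ⟨hT, h⟩
    · rintro ((h | h) | h) <;> exact h.1

theorem s5610 (o : Finset Cfsg.GolayPt) (ho : o ∈ Cfsg.octads) :
    (∃ X₁ ∈ Cfsg.trios, ∃ X₂ ∈ Cfsg.trios, ∃ X₃ ∈ Cfsg.trios,
      (MulAction.orbit ↥(MulAction.stabilizer Cfsg.M24 o) X₁).ncard = 15 ∧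
      (MulAction.orbit ↥(MulAction.stabilizer Cfsg.M24 o) X₂).ncard = 420 ∧
      (MulAction.orbit ↥(MulAction.stabilizer Cfsg.M24 o) X₃).ncard = 3360 ∧
      Cfsg.trios = MulAction.orbit ↥(MulAction.stabilizer Cfsg.M24 o) X₁ ∪
        MulAction.orbit ↥(MulAction.stabilizer Cfsg.M24 o) X₂ ∪
        MulAction.orbit ↥(MulAction.stabilizer Cfsg.M24 o) X₃) ∧
    (∃ Y₁ ∈ Cfsg.sextets, ∃ Y₂ ∈ Cfsg.sextets, ∃ Y₃ ∈ Cfsg.sextets,
      (MulAction.orbit ↥(MulAction.stabilizer Cfsg.M24 o) Y₁).ncard = 35 ∧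
      (MulAction.orbit ↥(MulAction.stabilizer Cfsg.M24 o) Y₂).ncard = 840 ∧
      (MulAction.orbit ↥(MulAction.stabilizer Cfsg.M24 o) Y₃).ncard = 896 ∧
      Cfsg.sextets = MulAction.orbit ↥(MulAction.stabilizer Cfsg.M24 o) Y₁ ∪
        MulAction.orbit ↥(MulAction.stabilizer Cfsg.M24 o) Y₂ ∪
        MulAction.orbit ↥(MulAction.stabilizer Cfsg.M24 o) Y₃) :=
  ⟨trio_orbits o ho, sextet_orbits o ho⟩

end Cfsg.Agent.Lib.Helper9.OctTr
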