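import Mathlib
import Cfsg.Prelude.Def_SporadicCombinatorics
import Cfsg.Agent.Lib.Helper9.OctTr
import Cfsg.Agent.Lib.Helper9.M24Cnt

set_option autoImplicit false

/-! Counting the octads, dodecads, trios and sextets left invariant by a permutation given by
its table. -/

namespace Cfsg.Agent.Lib.Helper9.InvCnt

open Cfsg.Agent.Lib.Helper9.Golay Cfsg.Agent.Lib.Helper9.GolayC Cfsg.Agent.Lib.Helper9.M24C
open Cfsg.Agent.Lib.Helper9.Octad Cfsg.Agent.Lib.Helper9.M24B Cfsg.Agent.Lib.Helper9.M24T
open Cfsg.Agent.Lib.Helper9.M24O Cfsg.Agent.Lib.Helper9.M24Tri Cfsg.Agent.Lib.Helper9.M24DO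
open Cfsg.Agent.Lib.Helper9.M24Cnt Cfsg.Agent.Lib.Helper9.M24Dod
open Cfsg.Agent.Lib.Helper9.Sextet Cfsg.Agent.Lib.Helper9.SextetY
open Cfsg.Agent.Lib.Helper9.Trio Cfsg.Agent.Lib.Helper9.Trio2 Cfsg.Agent.Lib.Helper9.OctTr
open scoped Pointwise

def LM : List ℕ := [3277413, 6053905, 6554826, 2702848, 3719203, 705094, 42232, 1337732, 6594610, 5476616, 4721045, 4424227, 5405696, 7438406, 1410188, 924689, 84464, 2675464, 8077824, 4593028, 4800613, 2564625, 2232654, 1053483, 1384564, 126216, 545190, 459847, 145176, 3474978, 2422785, 5309160, 6488205, 7903248, 3182981, 2820376, 1849378, 168928, 902657, 4216883, 5350928, 5262104, 4490852, 7767041, 797449, 596054, 1212619, 2810896, 2130606, 5129250, 4465308, 4264387, 2106966, 2430217, 2769128, 252432, 1589901, 1188915, 2269481, 1090380, 1413139, 919694, 290352, 6949956, 4845570, 5770785, 1050548, 1728778, 314056, 2969648, 2229713, 4587803, 4403780, 6344194, 7417889, 6365962, 6557781, 5640752, 3698756, 337856, 5279, 684577, 1805314, 4726026, 45159, 361272,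 1134148, 2313249, 2890176, 3322370, 2135601, 3237906, 416040, 593097, 1217620, 7145475, 4301220, 632881, 1594898, 1192108, 2425238, 2110153, 5621792, 4261212, 4470275, 6493202, 4253780, 5514536, 3154402, 3050016, 1869893, 542009, 140167, 463064, 4213932, 4860434, 5538256, 1460739, 504864, 582081, 3179802, 2377830, 4538962, 4223245, 2180760, 2826278, 1839388, 1647171, 580704, 493953, 5210132, 5511305, 1302533, 138790, 555160, 3152963, 2220640, 2101096, 3457556, 442481, 628112, 1182989, 6857221, 5939296, 4459426, 786999, 602472, 418953, 2141072, 4063314, 5899416, 5268006, 4299781, 6447171, 7357552, 6588684, 4343317, 4726955, 2892897, 2322816, 36294, 1327290, 1975812, 4752467, 7397512, 675712, 10558, 334433, 1369154, 2916505, 3610628, 2242672, 1063445, 1378634, 762504, 115766, 7409024, 5003780, 90318, 283537, 722544, 3736597, 2268296, 4626498, 5780352, 6644740, 5296705, 4271202, 6475812, 832080, 622863, 1186194, 2435240, 6820450, 5902343, 4294810, 2460752, 3227948, 792232, 213833, 421910, 1836419,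 1265762, 175681, 3189796, 2384216, 2183687, 4850476, 4220306, 7864649, 3147996, 2854977, 2409888, 1675812, 133817, 551943, 4243818, 5508118, 4597797, 6979970, 7612992, 1722420, 1060490, 951624, 118953, 2640465, 6308804, 5390753, 6100032, 3739786, 2263063, 1084018, 280334, 95313, 926128, 39257, 371206, 1332261, 1769924, 2687905, 2512448, 4346506, 4731956, 2921478, 1009728, 15777, 1164162, 6359604, 5441617, 4755660, 4336072, 6062602, 1121336, 689317, 57883, 381252, 3704512, 2501890, 6570537, 4361520, 5652556, 3678776, 3294342, 1161408, 18147, 987906, 663645, 301236, 1070536, 2031657, 2634003, 2949708, 4415544, 4785798, 7622914, 2605066, 277580, 69395, 1110320, 6305926, 5017889, 4441280, 4202192, 6915112, 185603, 884962, 1256224, 2365978, 2173253, 6889680, 5325835, 4241960, 3489985, 3806496, 530245, 861210, 475812, 1573998, 1204944, 837906, 2121909, 2754059, 5112513, 4282144, 5286147, 8126628, 3410225, 2147405, 1230376, 1613974, 210955, 396116, 6842656, 4505735, 6326497, 5409412, 4788761, 4989254,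 2631052, 2245426, 298027, 1065303, 1405448, 5785794, 4645632, 6302745, 72588, 272595, 1737489, 2654580, 3951624, 4038912, 2296514, 1116327, 692282, 63108, 6406417, 4656648, 1351424, 21116, 352547, 668866, 3297305, 2738308, 5833010, 7221256, 4924673, 4485344, 3246601, 2126890, 2757268, 1577201, 1525008, 231532, 4510744, 5249380, 6429441, 1618953, 208020, 608810, 2150610, 2363013, 180636, 567074, 1445088, 1661185, 7473194, 4536592, 4196943, 864389, 525274, 157028, 1484824, 2201890, 3172097, 5329044, 4900873, 7079696, 2204803, 3168928, 153797, 855332, 1687640, 4563017, 4231958, 563843, 1664160, 1245726, 1454401, 2372388, 2162811, 4870480, 4523185, 6432416, 6832158, 5252293, 3416079, 3216208, 1608104, 804052, 201013, 402026, 4476225, 4921504, 5275709, 6455896, 1584464, 427666, 843820, 2115979, 3672838, 2531524, 1352353, 657763, 351362, 6379592, 4768432, 4367374, 1312345, 1127686, 52005, 3328320, 2908802, 2491452, 4325622, 4744776, 7340691, 6295992, 5709954, 4819776, 3351624, 267634, 75309, 737427,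 1103886, 4409606, 6337856, 99029, 307594, 1710664, 2627629, 3375280, 806987, 615188, 198058, 3421328, 5571333, 5255258, 6750560, 6837377, 3444840, 2120980, 1903248, 237906, 430605, 4287105, 5280930, 4229001, 6703248, 150618, 535268, 1474854, 2392899, 2207772, 3811457, 7479572, 4526126, 4203377, 2168036, 3031301, 560668, 190626, 1852256, 1250945, 78514, 262637, 742412, 1100945, 2664522, 3539848, 5375810, 5024896, 6292775, 2255372, 2624690, 304405, 104010, 1075305, 6656640, 5817604, 4982904, 4370577, 5842956, 2019456, 1148257, 31554, 346141, 2328324, 7345676, 4330601, 5063048, 2704706, 2494627, 1122713, 1315526, 702724, 8414120, 9045270, 12717187, 8439632, 9701932, 10881097, 11055264, 8657159, 8464984, 9465987, 8490656, 11015256, 13373586, 13721920, 8925710, 9240913, 8541360, 12912836, 8581192, 10554382, 10543366, 8592704, 9193633, 13641904, 9969957, 11150144, 11831426, 13667400, 12861748, 14682450, 9486564, 8654232, 10666625, 13370381, 11010247, 9462812, 10093218, 8694112, 8733800, 9048457, 9537812,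 14762146, 8773776, 14254209, 12720156, 12698124, 8796800, 9998658, 13303882, 10506593, 11469952, 9589508, 8922769, 8536111, 11551306, 13911680, 15274244, 12222476, 10557585, 8946281, 12594948, 9835530, 10560816, 12587685, 15864000, 10584520, 8919856, 12944642, 12871690, 8622214, 9963547, 10513600, 13631886, 10537016, 11797828, 8999616, 8783649, 9078992, 9708306, 9506893, 10687016, 13124355, 9055272, 8407702, 15762208, 12747077, 14716939, 9158944, 8688833, 14176296, 11731203, 8663097, 8455014, 10832640, 8619033, 9968772, 9204992, 8593633, 11608708, 13636881, 13262980, 12584506, 10748656, 9830549, 9279496, 12624578, 14551296, 8546577, 10790408, 9456930, 8683614, 8499969, 14714004, 8660134, 9323032, 11046145, 13771273, 14688364, 16056344, 12726562, 11100169, 9503954, 8412681, 9543722, 10916112, 11282452, 8421811, 15747077, 12733024, 8398155, 8721940, 12075408, 13142054, 14950785, 12780432, 10630149, 8505411, 9451104, 9112069, 9474712, 12126304, 8966165, 9652360, 13938692, 8855820, 8524371, 11538486,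 12638592, 12661896, 10486557, 10825794, 9568632, 8834052, 12685424, 15207048, 9610624, 9178690, 9769376, 10110017, 11028004, 10625178, 12985424, 10650722, 8484900, 9471495, 13009064, 13121601, 9721936, 8426796, 14747201, 13829156, 8716939, 8401364, 10305542, 10491778, 12656663, 12849992, 10846245, 9929280, 8989058, 15515712, 8561204, 8963210, 11575377, 15073798, 13893731, 11535529, 8937586, 8521420, 13276672, 8849458, 11548936, 14919680, 12604486, 10768524, 10028808, 10021376, 8983587, 8798658, 12880401, 14828808, 11654144, 10496547, 9578566, 9208708, 13148440, 9748745, 8391797, 11669008, 13062145, 13108704, 11272490, 10170384, 8431757, 8471941, 9310308, 12325377, 14709264, 8704546, 9776129, 13192208, 10525252, 9607201, 8978620, 8611330, 12650793, 9020484, 11163650, 8931660, 10257456, 13703682, 12641313, 8555274, 10232008, 10765331, 12599513, 16262146, 15335473, 14156372, 11952160, 8675909, 8474906, 13811730, 9347075, 9440193, 10619300, 11108882, 8394986, 14949408, 9519665, 8436754, 10698836,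 13443616]

/-! ### Masks -/

theorem ofBits_lt (f : ℕ → Bool) : ∀ n i, ofBits f n i < 2 ^ n := by
  intro n
  induction n with
  | zero => intro i; simp [ofBits]
  | succ n ih =>
    intro i
    have h := ih (i + 1)
    unfold ofBits
    rw [Nat.bit_val, pow_succ]
    cases f i <;> simp <;> omega

theorem pmI_lt (t : List ℕ) (m : ℕ) : pmI t m < 2 ^ 24 := ofBits_lt _ 24 0

theorem maskSet_inj {m m' : ℕ} (hm : m < 2 ^ 24) (hm' : m' < 2 ^ 24)
    (h : maskSet m = maskSet m') : m = m' := by
  apply Nat.eq_of_testBit_eq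
  intro i
  by_cases hi : i < 24
  · have h1 := mem_maskSet m (ptOf i)
    have h2 := mem_maskSet m' (ptOf i)
    rw [idx_ptOf i hi] at h1 h2
    rw [h] at h1
    exact Bool.eq_iff_iff.mpr (h1.symm.trans h2)
  · have hi' : 24 ≤ i := by omega
    rw [Nat.testBit_eq_false_of_lt (lt_of_lt_of_le hm (Nat.pow_le_pow_right (by norm_num) hi')),
      Nat.testBit_eq_false_of_lt (lt_of_lt_of_le hm' (Nat.pow_le_pow_right (by norm_num) hi'))]

theorem maskSet_eq_iff {m m' : ℕ} (hm : m < 2 ^ 24) (hm' : m' < 2 ^ 24) :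
    maskSet m = maskSet m' ↔ m = m' :=
  ⟨maskSet_inj hm hm', fun h => by rw [h]⟩

theorem maskSet_or (a b : ℕ) : maskSet (a ||| b) = maskSet a ∪ maskSet b := by
  ext p
  rw [Finset.mem_union, mem_maskSet, mem_maskSet, mem_maskSet, Nat.testBit_or, Bool.or_eq_true]

theorem ones_bit : ∀ i < 24, (16777215).testBit i = true := by decide

theorem maskSet_compl (m : ℕ) : maskSet (16777215 ^^^ m) = (maskSet m)ᶜ := by
  ext p
  rw [Finset.mem_compl, mem_maskSet, mem_maskSet, Nat.testBit_xor, ones_bit _ (idx_lt p)]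
  cases m.testBit (idx p) <;> simp

theorem maskSet_zero : maskSet 0 = ∅ := by
  ext p
  rw [mem_maskSet]
  simp

theorem disjoint_iff_and (a b : ℕ) (ha : a < 2 ^ 24) :
    Disjoint (maskSet a) (maskSet b) ↔ a &&& b = 0 := by
  rw [Finset.disjoint_iff_inter_eq_empty, ← maskSet_and, ← maskSet_zero,
    maskSet_eq_iff (lt_of_le_of_lt Nat.and_le_left ha) (by norm_num)]

set_option maxRecDepth 100000 in
theorem lin_lt : ∀ c < 4096, lin LB c < 2 ^ 24 := by decide +kernel

theorem ite_eq_toNat {P : Prop} [Decidable P] {b : Bool} (h : P ↔ b = true) :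
    (if P then 1 else 0) = b.toNat := by
  cases b <;> simp_all

/-! ### Transfer along conjugation -/

theorem ncard_conj {β : Type*} [MulAction (Equiv.Perm Cfsg.GolayPt) β] (W : Set β)
    (hW : ∀ k ∈ Cfsg.M24, ∀ X ∈ W, k • X ∈ W) {g r k : Equiv.Perm Cfsg.GolayPt}
    (hk : k ∈ Cfsg.M24) (h : k * g * k⁻¹ = r) :
    {X | X ∈ W ∧ g • X = X}.ncard = {X | X ∈ W ∧ r⁻¹ • X = X}.ncard := by
  have e : {X | X ∈ W ∧ r⁻¹ • X = X} = (fun X => k • X) '' {X | X ∈ W ∧ g • X = X} := by
    ext Y
    constructor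
    · rintro ⟨hY, hr⟩
      refine ⟨k⁻¹ • Y, ⟨hW _ (inv_mem hk) Y hY, ?_⟩, smul_inv_smul k Y⟩
      have hr' : r • Y = Y := by
        rw [inv_smul_eq_iff] at hr
        exact hr.symm
      have : g = k⁻¹ * r * k := by rw [← h]; group
      rw [this, mul_smul, mul_smul, smul_inv_smul, hr']
    · rintro ⟨X, ⟨hX, hg⟩, rfl⟩
      refine ⟨hW k hk X hX, ?_⟩
      rw [inv_smul_eq_iff, ← h, mul_smul, mul_smul, inv_smul_smul, hg]
  rw [e, Set.ncard_image_of_injective _ (MulAction.injective k)]

/-! ### Octads and dodecads -/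

/-- Selects the codes of the octads left invariant. -/
def octQ (R : List ℕ) (c : ℕ) : Bool :=
  decide (pc 24 (lin LB c) = 8) && (pmI R (lin LB c) == lin LB c)

/-- Selects the codes of the dodecads left invariant. -/
def dodQ (R : List ℕ) (c : ℕ) : Bool :=
  decide (pc 24 (lin LB c) = 12) && (pmI R (lin LB c) == lin LB c)

theorem oct_count (R : List ℕ) (h : Equiv.Perm Cfsg.GolayPt)
    (hR : ∀ m, h • maskSet m = maskSet (pmI R m)) :
    {o : Finset Cfsg.GolayPt | o ∈ Cfsg.octads ∧ h • o = o}.ncard =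
      (List.range 4096).countP (octQ R) := by
  apply ncard_code
  · rintro s ⟨hs, hfix⟩
    rw [octads_eq] at hs
    obtain ⟨c, hc, rfl⟩ := hs
    rw [Finset.mem_coe, Finset.mem_filter, Finset.mem_range] at hc
    refine ⟨c, hc.1, ?_, rfl⟩
    unfold octQ
    rw [Bool.and_eq_true, decide_eq_true_eq, beq_iff_eq]
    refine ⟨hc.2, ?_⟩
    apply maskSet_inj (pmI_lt _ _) (lin_lt c hc.1)
    rw [← hR]
    exact hfix
  · intro c hc hQ
    unfold octQ at hQ
    rw [Bool.and_eq_true, decide_eq_true_eq, beq_iff_eq] at hQ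
    exact ⟨maskSet_octad c hQ.1, by rw [hR, hQ.2]⟩

theorem dod_count (R : List ℕ) (h : Equiv.Perm Cfsg.GolayPt)
    (hR : ∀ m, h • maskSet m = maskSet (pmI R m)) :
    {d : Finset Cfsg.GolayPt | d ∈ Cfsg.dodecads ∧ h • d = d}.ncard =
      (List.range 4096).countP (dodQ R) := by
  apply ncard_code
  · rintro s ⟨hs, hfix⟩
    obtain ⟨c, hc, h12, rfl⟩ := dodecad_mask s hs
    refine ⟨c, hc, ?_, rfl⟩
    unfold dodQ
    rw [Bool.and_eq_true, decide_eq_true_eq, beq_iff_eq]
    refine ⟨h12, ?_⟩
    apply maskSet_inj (pmI_lt _ _) (lin_lt c hc)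
    rw [← hR]
    exact hfix
  · intro c hc hQ
    unfold dodQ at hQ
    rw [Bool.and_eq_true, decide_eq_true_eq, beq_iff_eq] at hQ
    exact ⟨maskSet_dodecad c hQ.1, by rw [hR, hQ.2]⟩

/-! ### The list of octad masks -/

set_option maxRecDepth 100000 in
theorem LM_eq : LM = ((List.range 4096).filter (fun c => decide (pc 24 (lin LB c) = 8))).map
    (lin LB) := by decide +kernel

theorem LM_mem (m : ℕ) : m ∈ LM ↔ ∃ c < 4096, pc 24 (lin LB c) = 8 ∧ lin LB c = m := by
  rw [LM_eq, List.mem_map]
  constructor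
  · rintro ⟨c, hc, rfl⟩
    rw [List.mem_filter, List.mem_range, decide_eq_true_eq] at hc
    exact ⟨c, hc.1, hc.2, rfl⟩
  · rintro ⟨c, hc, h8, rfl⟩
    exact ⟨c, by rw [List.mem_filter, List.mem_range, decide_eq_true_eq]; exact ⟨hc, h8⟩, rfl⟩

theorem LM_oct {m : ℕ} (hm : m ∈ LM) : maskSet m ∈ Cfsg.octads := by
  obtain ⟨c, -, h8, rfl⟩ := (LM_mem m).mp hm
  exact maskSet_octad c h8

theorem LM_lt {m : ℕ} (hm : m ∈ LM) : m < 2 ^ 24 := by
  obtain ⟨c, hc, -, rfl⟩ := (LM_mem m).mp hm
  exact lin_lt c hc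

theorem LM_of_oct {m : ℕ} (hm : m < 2 ^ 24) (ho : maskSet m ∈ Cfsg.octads) : m ∈ LM := by
  rw [octads_eq] at ho
  obtain ⟨c, hc, he⟩ := ho
  rw [Finset.mem_coe, Finset.mem_filter, Finset.mem_range] at hc
  have : lin LB c = m := maskSet_inj (lin_lt c hc.1) hm he
  exact (LM_mem m).mpr ⟨c, hc.1, hc.2, this⟩

theorem LM_nodup : LM.Nodup := by
  rw [LM_eq]
  apply List.Nodup.map_on
  · intro c hc c' hc' h
    rw [List.mem_filter, List.mem_range] at hc hc'
    exact maskSet_lin_inj c c' hc.1 hc'.1 (by rw [h])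
  · exact List.nodup_range.filter _

theorem LM_length : LM.length = 759 := by decide +kernel

def LMB : List (List ℕ) := [[2702848, 5405696, 8077824, 2322816, 675712, 7409024, 5780352, 4645632, 4038912, 1351424, 5024896, 6656640, 2019456, 8796800, 11469952, 13911680, 10832640, 9204992, 14551296, 12638592, 9610624, 13276672, 14919680, 10021376, 11654144],
  [2422785, 902657, 7767041, 493953, 4924673, 6429441, 1661185, 3172097, 6837377, 4287105, 3811457, 1250945, 10666625, 14254209, 8499969, 11046145, 14950785, 13062145, 12325377, 9776129],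
  [4845570, 6344194, 1805314, 3322370, 6979970, 1164162, 2501890, 987906, 7622914, 351362, 2908802, 5709954, 11831426, 12944642, 10491778, 8989058, 8611330, 11163650, 13703682, 16262146],
  [7145475, 4470275, 1460739, 1836419, 185603, 5286147, 2204803, 563843, 12717187, 9465987, 13124355, 11731203, 9347075],
  [1337732, 4593028, 1975812, 3610628, 5003780, 6644740, 5409412, 63108, 2738308, 5817604, 2328324, 702724, 9589508, 15274244, 12594948, 9968772, 11608708, 13262980, 13938692, 8834052, 9208708],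
  [3182981, 1302533, 6857221, 4299781, 2363013, 864389, 5571333, 3031301, 15747077, 10630149, 9112069, 8471941],
  [371206, 2921478, 3294342, 4785798, 6305926, 3672838, 1127686, 4409606, 10543366, 8622214, 10305542, 15073798],
  [140167, 5902343, 2183687, 551943, 4505735, 8657159, 9471495],
  [5476616, 2675464, 126216, 7397512, 762504, 2268296, 1405448, 3951624, 4656648, 7221256, 3539848, 5063048, 9279496, 10790408, 9652360, 12661896, 15207048, 11548936, 10028808, 14828808],
  [797449, 2430217, 5511305, 418953, 3246601, 1618953, 4900873, 4229001, 9048457, 13771273, 11100169, 8412681, 9748745],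
  [1728778, 6365962, 4726026, 1060490, 3739786, 4346506, 6062602, 2605066, 307594, 9835530, 12871690, 8963210, 8555274],
  [5325835, 2754059, 210955, 2115979, 14716939, 8716939],
  [1410188, 6588684, 2631052, 72588, 742412, 2255372, 5842956, 7345676, 12698124, 12222476, 8855820, 10768524],
  [6488205, 1589901, 4223245, 1182989, 430605, 13370381, 8431757],
  [919694, 280334, 4367374, 1103886, 8925710, 10554382, 13631886],
  [622863, 3416079],
  [7903248, 5350928, 2810896, 252432, 628112, 2141072, 1525008, 4536592, 7079696, 3421328, 1903248, 6703248, 8773776, 10916112, 12075408, 12780432, 11669008, 10170384, 14709264, 13192208],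
  [6053905, 924689, 2564625, 283537, 1737489, 6406417, 1100945, 4370577, 8922769, 10557585, 13636881, 8546577, 12880401],
  [3237906, 1594898, 6493202, 4860434, 1186194, 4220306, 837906, 427666, 13373586, 9708306, 13811730, 11108882, 8436754],
  [1413139, 2634003, 69395, 7340691, 737427, 10765331],
  [5210132, 3457556, 2757268, 208020, 5329044, 615188, 2120980, 7479572, 9537812, 14714004, 11282452, 8721940],
  [4721045, 4343317, 1063445, 3736597, 304405, 9830549, 8966165],
  [2425238, 421910, 5508118, 1613974, 4231958, 9045270, 8407702],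
  [2263063, 12656663],
  [145176, 2820376, 5262104, 2180760, 555160, 5899416, 4510744, 1484824, 8654232, 9323032, 16056344, 9474712, 13148440],
  [2916505, 4788761, 6302745, 3297305, 1122713, 8619033],
  [3179802, 4294810, 2365978, 861210, 10625178, 8474906],
  [4587803, 57883, 9963547],
  [4465308, 1839388, 180636, 2207772, 560668, 9462812, 12720156],
  [346141, 10486557],
  [1245726, 6832158],
  [5279],
  [5621792, 3050016, 504864, 2409888, 1256224, 3806496, 4282144, 6842656, 3168928, 1664160, 6432416, 4921504, 11055264, 8490656, 15762208, 9158944, 9769376, 11952160, 14949408, 13443616],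
  [5770785, 7417889, 684577, 2313249, 5390753, 2687905, 15777, 5017889, 1352353, 9193633, 8783649, 9607201, 12641313],
  [3474978, 1849378, 5129250, 4459426, 567074, 2201890, 5280930, 190626, 10093218, 14762146, 9456930, 12726562, 8704546],
  [3719203, 4424227, 352547, 2494627, 8983587, 10496547],
  [4301220, 6475812, 3189796, 1675812, 475812, 8126628, 855332, 2372388, 11028004, 8484900, 13829156, 10619300],
  [4597797, 1332261, 689317, 52005, 9969957, 12587685, 10846245],
  [545190, 2826278, 138790, 5268006, 1474854, 8660134, 13142054],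
  [1116327, 6292775],
  [416040, 5514536, 2435240, 792232, 6915112, 4241960, 1230376, 1608104, 8414120, 10687016, 9055272, 14176296, 13009064],
  [2269481, 118953, 6570537, 2031657, 11535529, 12650793],
  [2126890, 608810, 7473194, 198058, 9543722, 11272490],
  [1053483, 4726955, 298027],
  [1192108, 4213932, 3227948, 4850476, 843820, 9701932, 8426796],
  [75309, 2627629],
  [2130606, 4526126],
  [8536111],
  [290352, 2969648, 5640752, 926128, 4361520, 1110320, 4768432, 3375280, 8541360, 13641904, 10560816, 8919856, 10257456],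
  [2135601, 632881, 3410225, 4523185, 15335473, 9519665],
  [6594610, 2245426, 5833010, 78514, 2624690, 8849458],
  [4216883, 1188915, 8421811],
  [1050548, 1722420, 4731956, 6359604, 301236, 12861748, 8561204],
  [2121909, 201013],
  [115766, 11538486],
  [786999],
  [361272, 1121336, 3678776, 4415544, 6295992, 10537016],
  [542009, 133817, 8663097],
  [1327290, 692282, 12584506],
  [],
  [2491452, 8978620],
  [5275709],
  [10558],
  [],
  [337856, 2890176, 7612992, 6100032, 2512448, 1009728, 3704512, 1161408, 4441280, 3328320, 4819776, 6337856, 13721920, 8592704, 11150144, 15864000, 10513600, 8999616, 9929280, 15515712],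
  [582081, 5296705, 175681, 2854977, 3489985, 5112513, 1454401, 4476225, 8688833, 10110017, 13121601, 14747201, 9440193],
  [1369154, 4626498, 5785794, 2296514, 668866, 5375810, 31554, 2704706, 9998658, 12624578, 10825794, 9178690, 8798658],
  [4264387, 1647171, 3152963, 6447171, 2392899, 8505411],
  [6949956, 4403780, 3698756, 1134148, 6308804, 1769924, 381252, 2531524, 12912836, 11797828, 10525252, 9020484],
  [1869893, 2173253, 530245, 153797, 5252293, 12747077, 8675909],
  [705094, 7438406, 36294, 4989254, 1315526, 12604486, 9578566],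
  [459847, 11010247],
  [314056, 951624, 4336072, 1070536, 6379592, 4744776, 3351624, 1710664, 8581192, 13667400, 10584520, 12849992, 10232008],
  [593097, 2110153, 213833, 7864649, 4563017, 10881097],
  [6554826, 1378634, 2664522, 104010, 13303882, 11551306],
  [1212619, 806987, 8398155],
  [1090380, 4755660, 5652556, 2949708, 277580, 8521420, 8931660],
  [2147405, 9506893],
  [2232654, 90318],
  [4196943],
  [5538256, 832080, 2460752, 4202192, 6889680, 1204944, 4870480, 3216208, 1584464, 8439632, 9078992, 12985424, 9721936],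
  [2229713, 2640465, 95313, 5441617, 9240913, 11575377],
  [4538962, 4063314, 2150610, 237906, 14682450, 9503954],
  [4752467, 272595, 8524371],
  [1217620, 4253780, 396116, 804052, 8401364, 14156372, 10698836],
  [6557781, 99029],
  [596054, 2106966],
  [1065303],
  [463064, 2384216, 1687640, 6455896, 8464984, 11015256],
  [39257, 1312345, 12599513],
  [525274, 5255258, 150618],
  [],
  [4261212, 3147996],
  [663645],
  [8683614],
  [],
  [168928, 580704, 2220640, 5939296, 4485344, 1445088, 6750560, 1852256, 8694112, 12733024, 9451104, 12126304, 13108704],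
  [2892897, 334433, 6326497, 1148257, 10506593, 8593633],
  [3154402, 4271202, 6820450, 1265762, 884962, 10650722],
  [18147, 657763, 13893731],
  [4490852, 5249380, 157028, 535268, 2168036, 9486564, 9310308],
  [3277413, 4800613],
  [2377830, 8455014],
  [45159],
  [5309160, 2769128, 2101096, 602472, 3444840, 8733800],
  [1075305, 4330601, 8946281],
  [4243818, 402026, 8394986],
  [],
  [231532, 14688364],
  [262637],
  [1573998],
  [],
  [84464, 7357552, 2242672, 722544, 10748656, 12685424],
  [442481, 1577201, 4203377],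
  [1084018, 267634, 8937586],
  [],
  [1384564, 2654580],
  [8391797],
  [4325622],
  [],
  [42232, 4982904, 9568632],
  [],
  [],
  [2162811],
  [21116],
  [],
  [],
  []]

set_option maxRecDepth 100000 in
theorem LMB_ok1 : ∀ m ∈ LM, (LMB.getD (m % 128) []).contains m = true := by decide +kernel

set_option maxRecDepth 100000 in
theorem LMB_ok2 : ∀ b ∈ LMB, ∀ m ∈ b, LM.contains m = true := by decide +kernel

theorem LMB_length : LMB.length = 128 := by decide +kernel

/-- Fast membership test for the list of octad masks. -/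
def inB (x : ℕ) : Bool := (LMB.getD (x % 128) []).contains x

theorem inB_iff (x : ℕ) : inB x = true ↔ x ∈ LM := by
  unfold inB
  constructor
  · intro h
    rw [List.contains_iff_mem] at h
    have hb : LMB.getD (x % 128) [] ∈ LMB := by
      rw [List.getD_eq_getElem _ _ (by rw [LMB_length]; exact Nat.mod_lt _ (by norm_num))]
      exact List.getElem_mem _
    have := LMB_ok2 _ hb x h
    rwa [List.contains_iff_mem] at this
  · intro h
    exact LMB_ok1 x h

/-! ### Sums over families listed by masks -/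

theorem sum_masks (L : List ℕ) (hnd : L.Nodup) (hb : ∀ m ∈ L, m < 2 ^ 24)
    (F : Finset (Finset Cfsg.GolayPt)) (hF : ∀ m ∈ L, maskSet m ∈ F) (hc : F.card = L.length)
    (f : Finset Cfsg.GolayPt → ℕ) (f' : ℕ → ℕ) (hf : ∀ m ∈ L, f (maskSet m) = f' m) :
    ∑ t ∈ F, f t = (L.map f').sum := by
  have hinj : Set.InjOn maskSet (↑L.toFinset : Set ℕ) := by
    intro a ha b hb' h
    rw [Finset.mem_coe, List.mem_toFinset] at ha hb'
    exact maskSet_inj (hb a ha) (hb b hb') h
  have himg : L.toFinset.image maskSet = F := by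
    apply Finset.eq_of_subset_of_card_le
    · intro t ht
      rw [Finset.mem_image] at ht
      obtain ⟨m, hm, rfl⟩ := ht
      exact hF m (List.mem_toFinset.mp hm)
    · rw [Finset.card_image_of_injOn hinj, List.toFinset_card_of_nodup hnd, hc]
  rw [← himg, Finset.sum_image (fun a ha b hb h => hinj ha hb h), List.sum_toFinset _ hnd]
  congr 1
  exact List.map_congr_left hf

/-! ### Sextets -/

theorem mem_sx_iff (t u : Finset Cfsg.GolayPt) :
    u ∈ sx t ↔ u = t ∨ (Disjoint t u ∧ t ∪ u ∈ Cfsg.octads) := by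
  unfold sx
  rw [Finset.mem_insert, Finset.mem_image]
  constructor
  · rintro (h | ⟨q, hq, rfl⟩)
    · exact Or.inl h
    · rw [mem_pencil] at hq
      exact Or.inr ⟨Finset.disjoint_sdiff, by rw [Finset.union_sdiff_of_subset hq.2]; exact hq.1⟩
  · rintro (h | ⟨hd, ho⟩)
    · exact Or.inl h
    · exact Or.inr ⟨t ∪ u, (mem_pencil _ _).mpr ⟨ho, Finset.subset_union_left⟩,
        Finset.union_sdiff_cancel_left hd⟩

/-- Index-level test: the sextet through a 4-set is left invariant. -/
def sxB (R : List ℕ) (m : ℕ) : Bool :=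
  pmI R m == m || ((m &&& pmI R m == 0) && inB (m ||| pmI R m))

theorem sx_fix_iff (R : List ℕ) (h : Equiv.Perm Cfsg.GolayPt) (hh : h ∈ Cfsg.M24)
    (hR : ∀ m, h • maskSet m = maskSet (pmI R m)) {m : ℕ} (hm : m < 2 ^ 24)
    (h4 : pc 24 m = 4) : h • sx (maskSet m) = sx (maskSet m) ↔ sxB R m = true := by
  have ht4 : (maskSet m).card = 4 := by rw [card_maskSet]; exact h4
  rw [smul_sx hh _ ht4, hR]
  have e1 : sx (maskSet (pmI R m)) = sx (maskSet m) ↔ maskSet (pmI R m) ∈ sx (maskSet m) := by
    constructor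
    · intro e
      rw [← e]
      exact sx_self _
    · intro hmem
      exact (sextet_eq (sx_mem _ ht4) hmem).symm
  rw [e1, mem_sx_iff, maskSet_eq_iff (pmI_lt _ _) hm, disjoint_iff_and _ _ hm, ← maskSet_or]
  unfold sxB
  rw [Bool.or_eq_true, Bool.and_eq_true, beq_iff_eq, beq_iff_eq, inB_iff]
  constructor
  · rintro (h1 | ⟨h1, h2⟩)
    · exact Or.inl h1
    · exact Or.inr ⟨h1, LM_of_oct (Nat.or_lt_two_pow hm (pmI_lt _ _)) h2⟩
  · rintro (h1 | ⟨h1, h2⟩)
    · exact Or.inl h1
    · exact Or.inr ⟨h1, LM_oct h2⟩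

/-- The 4-sets with a given largest point, as masks, in increasing order. -/
def c4 (i : ℕ) : List ℕ := (List.range i).flatMap fun j =>
  (List.range j).flatMap fun k => (List.range k).map fun l => 2 ^ i + 2 ^ j + 2 ^ k + 2 ^ l

/-- The 4-sets as masks, in increasing order. -/
def L4 : List ℕ := (List.range 24).flatMap c4

/-- Strictly increasing list. -/
def sortedB : List ℕ → Bool
  | [] => true
  | [_] => true
  | a :: b :: l => decide (a < b) && sortedB (b :: l)

theorem sortedB_pairwise : ∀ l : List ℕ, sortedB l = true → l.Pairwise (· < ·)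
  | [], _ => List.Pairwise.nil
  | [a], _ => List.pairwise_singleton _ a
  | a :: b :: l, h => by
    unfold sortedB at h
    rw [Bool.and_eq_true, decide_eq_true_eq] at h
    have ih := sortedB_pairwise (b :: l) h.2
    rw [List.pairwise_cons]
    refine ⟨?_, ih⟩
    intro x hx
    rcases List.mem_cons.mp hx with rfl | hx'
    · exact h.1
    · exact lt_trans h.1 ((List.pairwise_cons.mp ih).1 x hx')

set_option maxRecDepth 100000 in
theorem L4_sorted : sortedB L4 = true := by decide +kernel

set_option maxRecDepth 100000 in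
theorem L4_props : ∀ m ∈ L4, m < 2 ^ 24 ∧ pc 24 m = 4 := by decide +kernel

set_option maxRecDepth 100000 in
theorem L4_length : L4.length = 10626 := by decide +kernel

theorem L4_nodup : L4.Nodup :=
  (sortedB_pairwise L4 L4_sorted).imp (fun h => ne_of_lt h)

/-- Partial sextet sum over a list of 4-sets. -/
def sxS (R : List ℕ) (l : List ℕ) : ℕ := (l.map (fun m => (sxB R m).toNat)).sum

theorem sx_count (R : List ℕ) (h : Equiv.Perm Cfsg.GolayPt) (hh : h ∈ Cfsg.M24)
    (hR : ∀ m, h • maskSet m = maskSet (pmI R m)) :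
    6 * {S : Finset (Finset Cfsg.GolayPt) | S ∈ Cfsg.sextets ∧ h • S = S}.ncard =
      sxS R L4 := by
  unfold sxS
  have eJ : {S : Finset (Finset Cfsg.GolayPt) | S ∈ Cfsg.sextets ∧ h • S = S} =
      ↑(SX.filter (fun S => h • S = S)) := by
    ext S
    rw [Finset.mem_coe, Finset.mem_filter, mem_SX]
    rfl
  rw [eJ, Set.ncard_coe_finset]
  have hP : ((Finset.powersetCard 4 (Finset.univ : Finset Cfsg.GolayPt)).filter
      (fun t => h • sx t = sx t)).card = 6 * (SX.filter (fun S => h • S = S)).card := by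
    have h1 := Finset.card_eq_sum_card_fiberwise (f := sx)
      (s := (Finset.powersetCard 4 (Finset.univ : Finset Cfsg.GolayPt)).filter
        (fun t => h • sx t = sx t)) (t := SX.filter (fun S => h • S = S)) (by
        intro t ht
        rw [Finset.coe_filter, Set.mem_ofPred_eq, Finset.mem_powersetCard] at ht
        rw [Finset.coe_filter, Set.mem_ofPred_eq, mem_SX]
        exact ⟨sx_mem t ht.1.2, ht.2⟩)
    have h2 : ∀ S ∈ SX.filter (fun S => h • S = S),
        (((Finset.powersetCard 4 (Finset.univ : Finset Cfsg.GolayPt)).filter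
          (fun t => h • sx t = sx t)).filter (fun t => sx t = S)).card = 6 := by
      intro S hS
      rw [Finset.mem_filter] at hS
      rw [← fib_card S hS.1]
      congr 1
      ext t
      rw [Finset.mem_filter, Finset.mem_filter, Finset.mem_filter]
      constructor
      · rintro ⟨⟨h1, -⟩, h2⟩
        exact ⟨h1, h2⟩
      · rintro ⟨h1, h2⟩
        exact ⟨⟨h1, by rw [h2]; exact hS.2⟩, h2⟩
    rw [h1, Finset.sum_congr rfl h2, Finset.sum_const, smul_eq_mul, mul_comm]
  rw [← hP, Finset.card_filter]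
  apply sum_masks L4 L4_nodup (fun m hm => (L4_props m hm).1) _
    (fun m hm => by
      rw [Finset.mem_powersetCard]
      exact ⟨Finset.subset_univ _, by rw [card_maskSet]; exact (L4_props m hm).2⟩)
    (by rw [card_p4, L4_length])
  intro m hm
  exact ite_eq_toNat (sx_fix_iff R h hh hR (L4_props m hm).1 (L4_props m hm).2)

/-! ### Trios -/

/-- Index-level test: two octads are disjoint and their trio is left invariant. -/
def trB (R : List ℕ) (m1 m2 : ℕ) : Bool :=
  (m1 &&& m2 == 0) &&
    ((pmI R m1 == m1 || pmI R m1 == m2 || pmI R m1 == 16777215 ^^^ (m1 ||| m2)) &&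
     (pmI R m2 == m1 || pmI R m2 == m2 || pmI R m2 == 16777215 ^^^ (m1 ||| m2)))

theorem mem_tr_mask {m1 m2 a : ℕ} (h1 : m1 < 2 ^ 24) (h2 : m2 < 2 ^ 24) (ha : a < 2 ^ 24) :
    maskSet a ∈ tr (maskSet m1) (maskSet m2) ↔
      (a == m1 || a == m2 || a == 16777215 ^^^ (m1 ||| m2)) = true := by
  unfold tr
  rw [Finset.mem_insert, Finset.mem_insert, Finset.mem_singleton, ← maskSet_or, ← maskSet_compl,
    maskSet_eq_iff ha h1, maskSet_eq_iff ha h2,
    maskSet_eq_iff ha (Nat.xor_lt_two_pow (by norm_num) (Nat.or_lt_two_pow h1 h2))]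
  simp only [Bool.or_eq_true, beq_iff_eq, or_assoc]

theorem tr_fix_iff (R : List ℕ) (h : Equiv.Perm Cfsg.GolayPt) (hh : h ∈ Cfsg.M24)
    (hR : ∀ m, h • maskSet m = maskSet (pmI R m)) {m1 m2 : ℕ} (hm1 : m1 ∈ LM) (hm2 : m2 ∈ LM) :
    (Disjoint (maskSet m1) (maskSet m2) ∧
      h • tr (maskSet m1) (maskSet m2) = tr (maskSet m1) (maskSet m2)) ↔ trB R m1 m2 = true := by
  have b1 := LM_lt hm1
  have b2 := LM_lt hm2
  have o1 := LM_oct hm1
  have o2 := LM_oct hm2
  unfold trB
  rw [Bool.and_eq_true, beq_iff_eq, ← disjoint_iff_and m1 m2 b1, Bool.and_eq_true,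
    ← mem_tr_mask b1 b2 (pmI_lt _ _), ← mem_tr_mask b1 b2 (pmI_lt _ _)]
  constructor
  · rintro ⟨hd, hfix⟩
    refine ⟨hd, ?_⟩
    rw [smul_tr2 hh o1 o2 hd, hR, hR] at hfix
    rw [← hfix]
    exact ⟨tr_left _ _, tr_right _ _⟩
  · rintro ⟨hd, hmem⟩
    refine ⟨hd, ?_⟩
    rw [smul_tr2 hh o1 o2 hd, hR, hR]
    symm
    apply tr_eq (tr_mem o1 o2 hd) hmem.1 hmem.2
    rw [← hR, ← hR]
    intro e
    exact octad_ne_of_disjoint o1 hd (smul_left_cancel h e).symm

/-- Index-level guard: the image of an octad is the octad itself or disjoint from it. -/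
def grdB (R : List ℕ) (m1 : ℕ) : Bool := pmI R m1 == m1 || (pmI R m1 &&& m1 == 0)

/-- Partial trio sum over a list of first octads. -/
def trS (R : List ℕ) (l : List ℕ) : ℕ :=
  (l.map (fun m1 => if grdB R m1 then (LM.map (fun m2 => (trB R m1 m2).toNat)).sum else 0)).sum

theorem trio_count (R : List ℕ) (h : Equiv.Perm Cfsg.GolayPt) (hh : h ∈ Cfsg.M24)
    (hR : ∀ m, h • maskSet m = maskSet (pmI R m)) :
    6 * {T : Finset (Finset Cfsg.GolayPt) | T ∈ Cfsg.trios ∧ h • T = T}.ncard =
      trS R LM := by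
  unfold trS
  have eI : {T : Finset (Finset Cfsg.GolayPt) | T ∈ Cfsg.trios ∧ h • T = T} =
      ↑(Trio.TR.filter (fun T => h • T = T)) := by
    ext T
    rw [Finset.mem_coe, Finset.mem_filter, mem_TR]
    rfl
  rw [eI, Set.ncard_coe_finset]
  have hP : ((octF ×ˢ octF).filter (fun p : Finset Cfsg.GolayPt × Finset Cfsg.GolayPt =>
      Disjoint p.1 p.2 ∧ h • tr p.1 p.2 = tr p.1 p.2)).card =
      6 * (Trio.TR.filter (fun T => h • T = T)).card := by
    have h1 := Finset.card_eq_sum_card_fiberwise
      (f := fun p : Finset Cfsg.GolayPt × Finset Cfsg.GolayPt => tr p.1 p.2)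
      (s := (octF ×ˢ octF).filter (fun p : Finset Cfsg.GolayPt × Finset Cfsg.GolayPt =>
        Disjoint p.1 p.2 ∧ h • tr p.1 p.2 = tr p.1 p.2))
      (t := TR.filter (fun T => h • T = T)) (by
        intro p hp
        rw [Finset.coe_filter, Set.mem_ofPred_eq, Finset.mem_product, mem_octF, mem_octF] at hp
        rw [Finset.coe_filter, Set.mem_ofPred_eq, mem_TR]
        exact ⟨tr_mem hp.1.1 hp.1.2 hp.2.1, hp.2.2⟩)
    have h2 : ∀ T ∈ Trio.TR.filter (fun T => h • T = T),
        (((octF ×ˢ octF).filter (fun p : Finset Cfsg.GolayPt × Finset Cfsg.GolayPt =>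
          Disjoint p.1 p.2 ∧ h • tr p.1 p.2 = tr p.1 p.2)).filter
          (fun p => tr p.1 p.2 = T)).card = 6 := by
      intro T hT
      rw [Finset.mem_filter, mem_TR] at hT
      have e : ((octF ×ˢ octF).filter (fun p : Finset Cfsg.GolayPt × Finset Cfsg.GolayPt =>
          Disjoint p.1 p.2 ∧ h • tr p.1 p.2 = tr p.1 p.2)).filter
          (fun p => tr p.1 p.2 = T) = T.offDiag := by
        ext ⟨o, q⟩
        rw [Finset.mem_filter, Finset.mem_filter, Finset.mem_product, mem_octF, mem_octF,
          Finset.mem_offDiag]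
        constructor
        · rintro ⟨⟨⟨ho, hq⟩, hd, -⟩, rfl⟩
          exact ⟨tr_left o q, tr_right o q, octad_ne_of_disjoint ho hd⟩
        · rintro ⟨ho, hq, hne⟩
          have e := tr_eq hT.1 ho hq (Ne.symm hne)
          refine ⟨⟨⟨hT.1.2.1 o ho, hT.1.2.1 q hq⟩, hT.1.2.2 o ho q hq hne, ?_⟩, e.symm⟩
          rw [← e]
          exact hT.2
      rw [e, Finset.offDiag_card, hT.1.1]
    rw [h1, Finset.sum_congr rfl h2, Finset.sum_const, smul_eq_mul, mul_comm]
  rw [← hP, Finset.card_filter, Finset.sum_product]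
  apply sum_masks LM LM_nodup (fun m hm => LM_lt hm) _
    (fun m hm => (mem_octF _).mpr (LM_oct hm)) (by rw [card_octF, LM_length])
  intro m1 hm1
  beta_reduce
  by_cases hg : grdB R m1 = true
  · rw [if_pos hg]
    apply sum_masks LM LM_nodup (fun m hm => LM_lt hm) _
      (fun m hm => (mem_octF _).mpr (LM_oct hm)) (by rw [card_octF, LM_length])
    intro m2 hm2
    exact ite_eq_toNat (tr_fix_iff R h hh hR hm1 hm2)
  · rw [if_neg hg]
    apply Finset.sum_eq_zero
    intro q _
    rw [if_neg]
    rintro ⟨hd, hfix⟩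
    apply hg
    have hmem : h • maskSet m1 ∈ tr (maskSet m1) q := by
      rw [← hfix]
      exact Finset.smul_mem_smul_finset (tr_left _ _)
    unfold grdB
    rw [Bool.or_eq_true, beq_iff_eq, beq_iff_eq, ← maskSet_eq_iff (pmI_lt _ _) (LM_lt hm1),
      ← disjoint_iff_and _ _ (pmI_lt _ _), ← hR]
    unfold tr at hmem
    rw [Finset.mem_insert, Finset.mem_insert, Finset.mem_singleton] at hmem
    rcases hmem with e | e | e
    · exact Or.inl e
    · right
      rw [e]
      exact hd.symm
    · right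
      rw [e]
      exact disjoint_compl_left.mono_right Finset.subset_union_left

/-! ### Counts for a conjugate of a permutation given by its table -/

theorem hR_of {r : Equiv.Perm Cfsg.GolayPt} {R : List ℕ} (hT : IsTable r R) :
    ∀ m, r⁻¹ • maskSet m = maskSet (pmI R m) := by
  intro m
  rw [inv_smul_eq_iff, smul_maskSet_pmI hT]

theorem oct_of {g r k : Equiv.Perm Cfsg.GolayPt} {R : List ℕ} (hk : k ∈ Cfsg.M24)
    (hT : IsTable r R) (h : k * g * k⁻¹ = r) :
    {o : Finset Cfsg.GolayPt | o ∈ Cfsg.octads ∧ g • o = o}.ncard =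
      (List.range 4096).countP (octQ R) := by
  rw [ncard_conj Cfsg.octads (fun k hk X hX => smul_octad hk hX) hk h]
  exact oct_count R r⁻¹ (hR_of hT)

theorem dod_of {g r k : Equiv.Perm Cfsg.GolayPt} {R : List ℕ} (hk : k ∈ Cfsg.M24)
    (hT : IsTable r R) (h : k * g * k⁻¹ = r) :
    {d : Finset Cfsg.GolayPt | d ∈ Cfsg.dodecads ∧ g • d = d}.ncard =
      (List.range 4096).countP (dodQ R) := by
  rw [ncard_conj Cfsg.dodecads (fun k hk X hX => smul_dodecad hk hX) hk h]
  exact dod_count R r⁻¹ (hR_of hT)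

theorem ncard_fix (g : Equiv.Perm Cfsg.GolayPt) :
    {p : Cfsg.GolayPt | g p = p}.ncard = (Finset.univ.filter fun p => g p = p).card := by
  rw [← Set.ncard_coe_finset]
  congr 1
  ext p
  simp

/-! ### Chunked sums (to keep each kernel computation small) -/

theorem trS_append (R : List ℕ) (a b : List ℕ) : trS R (a ++ b) = trS R a + trS R b := by
  unfold trS
  rw [List.map_append, List.sum_append]

theorem sxS_append (R : List ℕ) (a b : List ℕ) : sxS R (a ++ b) = sxS R a + sxS R b := by
  unfold sxS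
  rw [List.map_append, List.sum_append]

theorem sxS_flatMap (R : List ℕ) (f : ℕ → List ℕ) (l : List ℕ) :
    sxS R (l.flatMap f) = (l.map (fun a => sxS R (f a))).sum := by
  induction l with
  | nil => rfl
  | cons a l ih => rw [List.flatMap_cons, sxS_append, ih, List.map_cons, List.sum_cons]

/-- Chunks of the octad list. -/
def ch (k : ℕ) : List ℕ := (LM.drop (64 * k)).take 64

set_option maxRecDepth 100000 in
theorem LM_split : LM = ch 0 ++ (ch 1 ++ (ch 2 ++ (ch 3 ++ (ch 4 ++ (ch 5 ++ (ch 6 ++ (ch 7 ++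
    (ch 8 ++ (ch 9 ++ (ch 10 ++ ch 11)))))))))) := by decide +kernel

theorem trS_LM (R : List ℕ) : trS R LM = trS R (ch 0) + (trS R (ch 1) + (trS R (ch 2) +
    (trS R (ch 3) + (trS R (ch 4) + (trS R (ch 5) + (trS R (ch 6) + (trS R (ch 7) +
    (trS R (ch 8) + (trS R (ch 9) + (trS R (ch 10) + trS R (ch 11))))))))))) := by
  conv_lhs => rw [LM_split]
  simp only [trS_append]

theorem range24 : List.range 24 = [0, 1, 2, 3, 4, 5, 6, 7, 8, 9, 10, 11, 12, 13, 14, 15, 16, 17,
    18, 19, 20, 21, 22, 23] := by decide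

theorem flat24 (F : List ℕ → ℕ) (c : ℕ → List ℕ) (h0 : F [] = 0)
    (hadd : ∀ a b, F (a ++ b) = F a + F b) :
    F ((List.range 24).flatMap c) = F (c 0) + (F (c 1) + (F (c 2) + (F (c 3) + (F (c 4) + (F (c 5) + (F (c 6) + (F (c 7) + (F (c 8) + (F (c 9) + (F (c 10) + (F (c 11) + (F (c 12) + (F (c 13) + (F (c 14) + (F (c 15) + (F (c 16) + (F (c 17) + (F (c 18) + (F (c 19) + (F (c 20) + (F (c 21) + (F (c 22) + (F (c 23) + (0)))))))))))))))))))))))) := by
  have key : ∀ l : List ℕ, F (l.flatMap c) = (l.map (fun a => F (c a))).sum := by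
    intro l
    induction l with
    | nil => simpa using h0
    | cons a l ih => rw [List.flatMap_cons, hadd, ih, List.map_cons, List.sum_cons]
  rw [key, range24]
  simp only [List.map_cons, List.map_nil, List.sum_cons, List.sum_nil]

theorem sxS_nil (R : List ℕ) : sxS R [] = 0 := rfl

theorem sxS_L4 (R : List ℕ) : sxS R L4 = sxS R (c4 0) + (sxS R (c4 1) + (sxS R (c4 2) + (sxS R (c4 3) + (sxS R (c4 4) + (sxS R (c4 5) + (sxS R (c4 6) + (sxS R (c4 7) + (sxS R (c4 8) + (sxS R (c4 9) + (sxS R (c4 10) + (sxS R (c4 11) + (sxS R (c4 12) + (sxS R (c4 13) + (sxS R (c4 14) + (sxS R (c4 15) + (sxS R (c4 16) + (sxS R (c4 17) + (sxS R (c4 18) + (sxS R (c4 19) + (sxS R (c4 20) + (sxS R (c4 21) + (sxS R (c4 22) + (sxS R (c4 23) + (0)))))))))))))))))))))))) :=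
  flat24 (sxS R) c4 (sxS_nil R) (sxS_append R)

theorem sum12 {a0 a1 a2 a3 a4 a5 a6 a7 a8 a9 a10 a11 v0 v1 v2 v3 v4 v5 v6 v7 v8 v9 v10 v11 : ℕ}
    (h0 : a0 = v0) (h1 : a1 = v1) (h2 : a2 = v2) (h3 : a3 = v3) (h4 : a4 = v4) (h5 : a5 = v5) (h6 : a6 = v6) (h7 : a7 = v7) (h8 : a8 = v8) (h9 : a9 = v9) (h10 : a10 = v10) (h11 : a11 = v11) :
    a0 + (a1 + (a2 + (a3 + (a4 + (a5 + (a6 + (a7 + (a8 + (a9 + (a10 + (a11))))))))))) = v0 + (v1 + (v2 + (v3 + (v4 + (v5 + (v6 + (v7 + (v8 + (v9 + (v10 + (v11))))))))))) := by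
  subst_vars
  rfl

theorem sum24 {a0 a1 a2 a3 a4 a5 a6 a7 a8 a9 a10 a11 a12 a13 a14 a15 a16 a17 a18 a19 a20 a21 a22 a23 v0 v1 v2 v3 v4 v5 v6 v7 v8 v9 v10 v11 v12 v13 v14 v15 v16 v17 v18 v19 v20 v21 v22 v23 : ℕ}
    (h0 : a0 = v0) (h1 : a1 = v1) (h2 : a2 = v2) (h3 : a3 = v3) (h4 : a4 = v4) (h5 : a5 = v5) (h6 : a6 = v6) (h7 : a7 = v7) (h8 : a8 = v8) (h9 : a9 = v9) (h10 : a10 = v10) (h11 : a11 = v11) (h12 : a12 = v12) (h13 : a13 = v13) (h14 : a14 = v14) (h15 : a15 = v15) (h16 : a16 = v16) (h17 : a17 = v17) (h18 : a18 = v18) (h19 : a19 = v19) (h20 : a20 = v20) (h21 : a21 = v21) (h22 : a22 = v22) (h23 : a23 = v23) :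
    a0 + (a1 + (a2 + (a3 + (a4 + (a5 + (a6 + (a7 + (a8 + (a9 + (a10 + (a11 + (a12 + (a13 + (a14 + (a15 + (a16 + (a17 + (a18 + (a19 + (a20 + (a21 + (a22 + (a23 + (0)))))))))))))))))))))))) = v0 + (v1 + (v2 + (v3 + (v4 + (v5 + (v6 + (v7 + (v8 + (v9 + (v10 + (v11 + (v12 + (v13 + (v14 + (v15 + (v16 + (v17 + (v18 + (v19 + (v20 + (v21 + (v22 + (v23 + (0)))))))))))))))))))))))) := by
  subst_vars
  rfl

theorem tr_of {g r k : Equiv.Perm Cfsg.GolayPt} {R : List ℕ} (hr : r ∈ Cfsg.M24)
    (hk : k ∈ Cfsg.M24) (hT : IsTable r R) (h : k * g * k⁻¹ = r) :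
    6 * {T : Finset (Finset Cfsg.GolayPt) | T ∈ Cfsg.trios ∧ g • T = T}.ncard =
      trS R (ch 0) + (trS R (ch 1) + (trS R (ch 2) +
      (trS R (ch 3) + (trS R (ch 4) + (trS R (ch 5) + (trS R (ch 6) + (trS R (ch 7) +
      (trS R (ch 8) + (trS R (ch 9) + (trS R (ch 10) + trS R (ch 11))))))))))) := by
  rw [ncard_conj Cfsg.trios (fun k hk X hX => smul_trio hk hX) hk h,
    trio_count R r⁻¹ (inv_mem hr) (hR_of hT)]
  exact trS_LM R

theorem sx_of {g r k : Equiv.Perm Cfsg.GolayPt} {R : List ℕ} (hr : r ∈ Cfsg.M24)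
    (hk : k ∈ Cfsg.M24) (hT : IsTable r R) (h : k * g * k⁻¹ = r) :
    6 * {S : Finset (Finset Cfsg.GolayPt) | S ∈ Cfsg.sextets ∧ g • S = S}.ncard =
      sxS R (c4 0) + (sxS R (c4 1) + (sxS R (c4 2) + (sxS R (c4 3) + (sxS R (c4 4) + (sxS R (c4 5) + (sxS R (c4 6) + (sxS R (c4 7) + (sxS R (c4 8) + (sxS R (c4 9) + (sxS R (c4 10) + (sxS R (c4 11) + (sxS R (c4 12) + (sxS R (c4 13) + (sxS R (c4 14) + (sxS R (c4 15) + (sxS R (c4 16) + (sxS R (c4 17) + (sxS R (c4 18) + (sxS R (c4 19) + (sxS R (c4 20) + (sxS R (c4 21) + (sxS R (c4 22) + (sxS R (c4 23) + (0)))))))))))))))))))))))) := by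
  rw [ncard_conj Cfsg.sextets (fun k hk X hX => smul_sextet hk hX) hk h,
    sx_count R r⁻¹ (inv_mem hr) (hR_of hT)]
  exact sxS_L4 R

end Cfsg.Agent.Lib.Helper9.InvCnt
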