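import Mathlib
import Cfsg.Prelude.Def_Sporadic_a
import Cfsg.Agent.Lib.Helper9.M24Sx
import Cfsg.Agent.Lib.Helper9.Octad

set_option autoImplicit false

/-! The two classes of involutions of the group of the length-24 code. -/

namespace Cfsg.Agent.Lib.Helper9.Invol

open Cfsg.Agent.Lib.Helper9.Golay Cfsg.Agent.Lib.Helper9.GolayC Cfsg.Agent.Lib.Helper9.M24C
open Cfsg.Agent.Lib.Helper9.Octad Cfsg.Agent.Lib.Helper9.M24B Cfsg.Agent.Lib.Helper9.M24T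
open Cfsg.Agent.Lib.Helper9.M24O Cfsg.Agent.Lib.Helper9.M24Sx
open scoped Pointwise

def PRI : List (ℕ × ℕ) := [(1, 106), (223, 141), (1, 2), (225, 9), (226, 2), (227, 2), (228, 9), (229, 1), (230, 2), (231, 0), (12, 0), (233, 11), (234, 9), (235, 11), (236, 0), (237, 11), (238, 9), (14, 9), (240, 11), (241, 11), (242, 0), (243, 2), (244, 2), (4, 0), (5, 11), (247, 0), (248, 0), (249, 1), (250, 0), (36, 2), (252, 9), (253, 2), (254, 9), (255, 9), (11, 11), (257, 9), (258, 1), (259, 11), (260, 9), (261, 11), (13, 2), (263, 2), (264, 9), (265, 2), (266, 0), (267, 0), (253, 9), (269, 9), (270, 9), (271, 2), (42, 2), (273, 0), (274, 0), (275, 2), (13, 0), (277, 1), (278, 9), (279, 2), (280, 9), (12, 2), (282, 9), (283, 9), (284, 11), (285, 9), (286, 9), (287, 9), (263, 9), (289, 1), (290, 2), (291, 2), (225, 0), (293, 11), (294, 0), (295, 1), (296, 9), (297, 2), (12, 9), (14,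 0), (300, 11), (4, 11), (302, 9), (303, 9), (304, 9), (305, 1), (30, 0), (307, 2), (308, 9), (246, 2), (310, 9), (311, 9), (312, 1), (313, 11), (314, 11), (4, 2), (316, 0), (317, 2), (318, 9), (319, 1), (320, 0), (321, 11), (11, 9), (323, 2), (324, 0), (325, 11), (326, 9), (327, 9), (263, 0), (329, 2), (330, 9), (331, 11), (332, 0), (5, 1), (334, 11), (335, 11), (336, 9), (337, 2), (338, 0), (316, 2), (340, 0), (341, 11), (342, 0), (343, 1), (2, 9), (345, 9), (346, 9), (347, 11), (348, 0), (349, 0), (350, 0), (351, 2), (12, 11), (353, 0), (354, 2), (355, 9), (356, 9), (357, 2), (358, 0), (225, 2), (233, 2), (361, 2), (362, 0), (363, 11), (364, 0), (293, 1), (366, 2), (367, 0), (368, 1), (369, 9), (370, 2), (11, 0), (372, 11), (373, 11), (374, 9), (375, 1), (376, 0), (67, 2), (378, 0), (31, 11), (380, 9), (381, 11), (282, 0), (383, 2), (384, 0), (385, 2), (226, 11), (387,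 9), (388, 1), (389, 11), (390, 9), (354, 0), (392, 1), (393, 0), (394, 11), (10, 9), (396, 1), (397, 2), (398, 9), (399, 1), (400, 0), (20, 9), (402, 9), (403, 1), (404, 0), (378, 9), (406, 11), (407, 9), (408, 9), (409, 2), (410, 2), (312, 11), (412, 11), (43, 11), (414, 9), (415, 9), (379, 11), (417, 0), (418, 0), (419, 0), (420, 1), (277, 11), (422, 9), (423, 2), (424, 2), (277, 2), (426, 2), (427, 0), (428, 0), (429, 1), (430, 0), (0, 2), (432, 9), (433, 9), (434, 1), (435, 2), (436, 2), (437, 0), (303, 1), (439, 0), (440, 2), (441, 9), (442, 9), (37, 9), (444, 2), (445, 0), (446, 0), (447, 0), (448, 2), (1, 11), (450, 0), (451, 2), (452, 0), (453, 2), (454, 0), (9, 2), (456, 2), (457, 9), (458, 9), (459, 2), (460, 2), (461, 0), (2, 0), (463, 2), (464, 9), (465, 2), (466, 0), (467, 0), (468, 11), (469, 9), (29, 0), (471, 11), (472, 9), (473, 2), (474, 0), (372, 0),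 (476, 0), (477, 0), (478, 11), (479, 9), (317, 1), (481, 9), (482, 2), (483, 9), (484, 2), (16, 9), (486, 11), (9, 11), (488, 11), (489, 9), (490, 11), (491, 9), (492, 9), (493, 2), (26, 2), (495, 0), (496, 0), (497, 0), (323, 9), (499, 9), (500, 9), (501, 2), (502, 2), (503, 0), (388, 11), (505, 9), (35, 9), (507, 11), (508, 9), (509, 1), (510, 2), (511, 2), (36, 11), (513, 9), (514, 9), (515, 11), (516, 9), (517, 2), (518, 9), (361, 9), (520, 11), (521, 0), (522, 1), (463, 0), (524, 1), (525, 2), (526, 9), (527, 9), (528, 2), (252, 0), (530, 2), (531, 0), (532, 1), (465, 9), (534, 9), (535, 9), (536, 2), (478, 1), (538, 11), (539, 9), (13, 11), (541, 11), (542, 0), (543, 1), (544, 11), (545, 0), (283, 2), (547, 9), (548, 9), (549, 11), (550, 11), (451, 11), (552, 9), (553, 1), (554, 0), (555, 0), (556, 2), (488, 9), (558, 9), (559, 2), (560, 9), (561, 9), (562, 11),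 (478, 0), (564, 2), (565, 0), (566, 2), (293, 0), (568, 11), (569, 9), (570, 9), (571, 9), (572, 1), (456, 0), (23, 2), (575, 2), (576, 0), (577, 0), (574, 0), (579, 0), (580, 0), (581, 1), (582, 0), (583, 11), (302, 0), (585, 2), (586, 2), (587, 9), (588, 2), (589, 0), (24, 2), (591, 0), (592, 0), (593, 2), (283, 1), (595, 11), (596, 9), (597, 1), (36, 1), (599, 11), (600, 0), (601, 11), (602, 9), (603, 1), (526, 0), (605, 11), (606, 9), (224, 221)]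

def S0 : List ℕ := [23, 2, 1, 16, 14, 4, 21, 19, 15, 11, 18, 10, 20, 5, 13, 12, 17, 22, 9, 7, 8, 6, 3, 0]

def R1 : List ℕ := [0, 1, 2, 3, 6, 5, 4, 22, 20, 12, 11, 10, 9, 19, 14, 18, 21, 17, 15, 13, 8, 16, 7, 23]

def R2 : List ℕ := [23, 2, 1, 16, 5, 4, 7, 6, 10, 12, 8, 15, 9, 14, 13, 11, 3, 22, 20, 21, 18, 19, 17, 0]

def CL : List (List ℕ) := [[0, 1, 2, 3, 4, 5, 6, 7, 8, 9, 10, 11, 12, 13, 14, 15, 16, 17, 18, 19, 20, 21, 22, 23],
  [6, 14, 13, 11, 8, 21, 20, 9, 22, 3, 1, 5, 12, 19, 23, 2, 15, 10, 18, 4, 16, 17, 0, 7],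
  [2, 21, 19, 16, 4, 13, 15, 10, 6, 11, 20, 7, 0, 22, 5, 9, 3, 17, 23, 18, 8, 12, 14, 1],
  [1, 7, 6, 23, 8, 21, 12, 18, 16, 5, 17, 3, 14, 15, 0, 4, 10, 19, 13, 20, 22, 9, 11, 2],
  [10, 20, 18, 15, 21, 9, 19, 0, 14, 5, 22, 4, 17, 2, 11, 13, 6, 12, 16, 1, 3, 7, 23, 8],
  [23, 16, 3, 21, 1, 13, 6, 2, 22, 15, 10, 8, 11, 9, 19, 4, 18, 14, 5, 20, 17, 12, 7, 0],
  [10, 13, 19, 12, 22, 21, 6, 4, 3, 1, 2, 17, 5, 18, 9, 0, 15, 16, 23, 20, 14, 8, 7, 11],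
  [7, 21, 16, 12, 23, 18, 2, 0, 13, 10, 11, 6, 4, 1, 9, 8, 14, 15, 19, 17, 20, 3, 5, 22],
  [23, 14, 13, 3, 12, 21, 2, 6, 5, 4, 17, 10, 15, 1, 16, 8, 7, 19, 22, 9, 11, 18, 20, 0],
  [23, 19, 21, 6, 9, 1, 11, 8, 22, 16, 13, 5, 17, 12, 7, 14, 18, 2, 4, 15, 3, 10, 20, 0],
  [19, 10, 8, 15, 20, 23, 4, 22, 13, 16, 14, 7, 2, 17, 11, 1, 5, 0, 3, 9, 6, 18, 12, 21],
  [2, 16, 3, 9, 12, 20, 15, 8, 13, 23, 11, 14, 7, 18, 4, 10, 5, 17, 6, 0, 21, 19, 22, 1],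
  [22, 6, 7, 3, 16, 8, 4, 5, 21, 0, 9, 23, 20, 15, 13, 18, 10, 11, 12, 1, 19, 2, 14, 17],
  [12, 10, 8, 13, 14, 4, 0, 19, 1, 11, 18, 7, 23, 22, 17, 20, 16, 3, 21, 2, 15, 6, 5, 9],
  [2, 23, 0, 12, 16, 18, 10, 20, 14, 21, 6, 17, 3, 22, 8, 19, 4, 11, 5, 15, 7, 9, 13, 1],
  [1, 15, 11, 19, 8, 22, 17, 4, 9, 20, 14, 16, 18, 6, 23, 12, 7, 5, 13, 0, 3, 21, 10, 2],
  [23, 13, 14, 11, 1, 4, 10, 22, 16, 6, 18, 21, 3, 20, 17, 2, 12, 8, 19, 5, 9, 15, 7, 0],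
  [8, 21, 19, 2, 5, 3, 14, 6, 11, 18, 4, 0, 15, 12, 13, 9, 20, 7, 23, 1, 22, 16, 17, 10],
  [23, 15, 11, 12, 13, 20, 18, 4, 6, 19, 10, 16, 1, 7, 5, 21, 2, 17, 14, 9, 8, 22, 3, 0],
  [22, 14, 13, 19, 16, 2, 6, 1, 8, 10, 12, 9, 15, 4, 23, 11, 5, 7, 18, 21, 20, 0, 3, 17],
  [0, 13, 14, 18, 21, 6, 5, 15, 4, 1, 12, 8, 11, 3, 2, 20, 19, 9, 17, 22, 7, 10, 16, 23],
  [17, 10, 8, 19, 18, 0, 4, 15, 20, 23, 3, 1, 6, 7, 16, 21, 12, 13, 9, 5, 14, 11, 2, 22],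
  [5, 20, 18, 15, 13, 23, 3, 7, 22, 21, 0, 12, 9, 2, 10, 11, 16, 19, 17, 14, 8, 1, 6, 4],
  [23, 6, 7, 10, 3, 12, 19, 2, 20, 5, 17, 8, 9, 14, 18, 16, 4, 15, 11, 1, 13, 21, 22, 0],
  [0, 6, 7, 14, 2, 3, 15, 12, 16, 8, 11, 13, 17, 1, 4, 20, 21, 22, 5, 18, 9, 10, 19, 23],
  [2, 16, 3, 20, 23, 4, 15, 0, 22, 7, 6, 18, 12, 21, 9, 13, 11, 17, 5, 19, 14, 8, 10, 1],
  [23, 17, 22, 15, 19, 8, 14, 12, 7, 20, 9, 1, 10, 21, 2, 3, 5, 6, 11, 18, 13, 16, 4, 0],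
  [2, 13, 14, 4, 19, 18, 23, 8, 22, 3, 16, 20, 9, 0, 17, 6, 11, 12, 5, 15, 7, 21, 10, 1],
  [16, 5, 4, 8, 0, 18, 14, 17, 20, 7, 2, 11, 12, 21, 9, 19, 1, 15, 10, 22, 23, 13, 6, 3],
  [12, 19, 21, 16, 20, 10, 22, 1, 4, 8, 3, 2, 7, 0, 11, 14, 18, 13, 17, 5, 15, 6, 23, 9],
  [3, 15, 11, 2, 20, 6, 8, 14, 19, 22, 1, 18, 12, 0, 5, 4, 9, 17, 23, 10, 7, 13, 21, 16],
  [2, 23, 0, 16, 12, 4, 10, 20, 21, 14, 3, 7, 6, 11, 13, 5, 18, 22, 19, 15, 17, 9, 8, 1],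
  [22, 0, 23, 9, 8, 3, 10, 1, 4, 16, 14, 21, 19, 2, 20, 18, 15, 13, 5, 11, 12, 7, 6, 17],
  [20, 4, 5, 3, 22, 7, 19, 15, 8, 13, 2, 21, 0, 12, 1, 6, 17, 14, 11, 23, 16, 10, 9, 18],
  [21, 16, 3, 18, 8, 9, 14, 0, 5, 1, 12, 15, 10, 4, 2, 7, 11, 6, 22, 13, 20, 23, 17, 19],
  [11, 8, 10, 6, 16, 7, 5, 17, 18, 21, 23, 9, 12, 13, 2, 0, 14, 1, 20, 22, 19, 4, 3, 15],
  [0, 1, 2, 19, 9, 21, 3, 5, 11, 16, 4, 8, 18, 20, 6, 13, 10, 7, 12, 14, 22, 17, 15, 23],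
  [0, 3, 16, 21, 17, 19, 9, 7, 8, 20, 2, 11, 22, 4, 14, 12, 10, 13, 5, 18, 6, 1, 15, 23],
  [23, 5, 4, 17, 8, 22, 12, 3, 11, 14, 20, 10, 6, 15, 19, 16, 1, 21, 2, 18, 9, 13, 7, 0],
  [23, 19, 21, 4, 12, 5, 8, 10, 16, 7, 6, 14, 3, 18, 22, 1, 9, 17, 13, 15, 2, 11, 20, 0],
  [7, 16, 21, 8, 19, 20, 2, 0, 15, 1, 5, 18, 9, 13, 11, 23, 6, 10, 12, 3, 14, 17, 4, 22],
  [8, 6, 7, 2, 23, 1, 9, 13, 0, 14, 12, 21, 4, 19, 11, 3, 5, 15, 17, 18, 20, 16, 22, 10],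
  [16, 11, 10, 12, 2, 9, 8, 22, 5, 6, 15, 17, 0, 1, 19, 4, 3, 13, 14, 20, 18, 7, 23, 21],
  [19, 6, 7, 9, 11, 10, 1, 2, 22, 3, 5, 4, 13, 12, 20, 17, 18, 15, 16, 0, 14, 23, 8, 21],
  [23, 4, 5, 12, 14, 3, 1, 7, 6, 21, 17, 2, 10, 9, 13, 22, 16, 18, 11, 15, 19, 8, 20, 0],
  [23, 11, 15, 14, 3, 16, 17, 5, 8, 18, 4, 10, 21, 13, 1, 22, 7, 6, 19, 12, 9, 20, 2, 0],
  [0, 16, 3, 5, 1, 8, 13, 21, 17, 2, 6, 10, 4, 7, 11, 20, 18, 22, 15, 19, 12, 14, 9, 23],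
  [0, 14, 13, 18, 19, 9, 10, 22, 1, 17, 4, 7, 20, 21, 2, 8, 16, 6, 12, 5, 11, 15, 3, 23],
  [18, 4, 5, 19, 14, 10, 2, 16, 8, 9, 12, 0, 21, 3, 23, 17, 7, 15, 11, 13, 22, 6, 1, 20],
  [0, 18, 20, 12, 10, 19, 17, 2, 22, 8, 14, 6, 5, 16, 21, 3, 11, 9, 1, 7, 15, 4, 13, 23],
  [18, 13, 14, 9, 0, 3, 8, 2, 1, 17, 23, 15, 6, 4, 16, 21, 19, 12, 10, 7, 5, 11, 22, 20],
  [4, 20, 8, 9, 7, 21, 0, 2, 3, 19, 10, 17, 5, 18, 16, 11, 22, 12, 23, 14, 13, 1, 15, 6],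
  [0, 19, 21, 9, 10, 20, 5, 17, 6, 16, 3, 7, 1, 15, 18, 14, 11, 12, 2, 4, 13, 22, 8, 23],
  [18, 8, 20, 21, 17, 13, 11, 9, 22, 0, 3, 4, 7, 2, 19, 14, 1, 16, 6, 12, 23, 10, 5, 15],
  [0, 21, 19, 4, 8, 22, 14, 13, 18, 6, 1, 9, 12, 10, 17, 7, 15, 5, 20, 3, 2, 16, 11, 23],
  [23, 17, 22, 19, 15, 5, 14, 12, 20, 7, 10, 13, 9, 6, 4, 11, 8, 21, 3, 18, 1, 16, 2, 0],
  [0, 5, 4, 17, 1, 21, 18, 13, 9, 6, 10, 14, 20, 8, 19, 11, 7, 22, 16, 3, 2, 12, 15, 23],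
  [23, 3, 16, 20, 9, 6, 21, 19, 5, 4, 10, 22, 8, 7, 12, 15, 1, 2, 11, 13, 17, 14, 18, 0],
  [1, 4, 5, 20, 0, 23, 3, 13, 16, 7, 17, 14, 10, 9, 21, 22, 19, 12, 15, 8, 6, 11, 18, 2],
  [7, 12, 9, 13, 23, 3, 10, 11, 1, 15, 17, 2, 18, 19, 21, 5, 16, 0, 20, 4, 8, 22, 14, 6],
  [0, 6, 7, 14, 1, 4, 8, 9, 12, 13, 5, 15, 10, 21, 22, 17, 2, 3, 18, 11, 16, 20, 19, 23],
  [0, 4, 5, 15, 20, 8, 19, 22, 12, 11, 2, 13, 3, 14, 7, 10, 9, 1, 18, 21, 6, 17, 16, 23],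
  [20, 23, 0, 5, 11, 1, 14, 15, 21, 4, 17, 9, 12, 13, 22, 7, 10, 6, 19, 3, 2, 8, 16, 18],
  [8, 18, 20, 2, 5, 6, 0, 1, 4, 9, 15, 16, 17, 13, 21, 12, 3, 23, 14, 19, 11, 7, 22, 10],
  [2, 19, 21, 3, 6, 4, 13, 16, 12, 8, 9, 10, 18, 23, 14, 11, 0, 22, 15, 5, 20, 17, 7, 1],
  [9, 4, 5, 10, 7, 0, 23, 8, 18, 3, 2, 22, 20, 16, 21, 14, 13, 15, 17, 11, 6, 19, 1, 12],
  [0, 22, 17, 7, 16, 10, 4, 21, 6, 13, 3, 15, 2, 14, 11, 9, 18, 1, 8, 19, 20, 5, 12, 23],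
  [0, 18, 20, 10, 12, 11, 17, 2, 8, 22, 5, 15, 14, 9, 13, 1, 19, 16, 3, 7, 6, 4, 21, 23],
  [0, 5, 4, 6, 14, 11, 13, 18, 7, 22, 17, 8, 15, 16, 2, 19, 20, 10, 1, 12, 21, 3, 9, 23],
  [22, 12, 9, 11, 14, 8, 15, 19, 6, 5, 18, 13, 2, 1, 0, 4, 7, 21, 16, 10, 20, 23, 3, 17],
  [2, 10, 8, 19, 6, 17, 21, 0, 18, 13, 12, 3, 9, 15, 23, 16, 11, 4, 14, 5, 20, 22, 7, 1],
  [0, 7, 6, 9, 14, 8, 12, 10, 2, 13, 5, 21, 1, 22, 11, 16, 4, 20, 19, 15, 17, 18, 3, 23],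
  [22, 15, 18, 17, 10, 23, 9, 21, 2, 8, 20, 14, 0, 11, 5, 4, 19, 3, 1, 16, 6, 12, 13, 7],
  [19, 11, 10, 23, 2, 17, 9, 12, 15, 6, 20, 18, 7, 14, 3, 8, 0, 5, 22, 21, 4, 16, 1, 13],
  [22, 21, 16, 0, 20, 2, 14, 5, 19, 15, 12, 4, 13, 10, 17, 18, 11, 3, 6, 1, 9, 23, 8, 7],
  [4, 13, 19, 17, 9, 3, 8, 11, 16, 5, 1, 7, 22, 15, 2, 23, 12, 0, 21, 20, 14, 10, 18, 6]]

set_option maxRecDepth 100000 in
theorem cl_run : ∀ t ∈ S0 :: R1 :: R2 :: CL, t ∈ run TT PRI := by decide +kernel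

theorem cl_mem : ∀ t ∈ S0 :: R1 :: R2 :: CL, ∃ g ∈ Cfsg.M24, IsTable g t :=
  fun t ht => run_TT PRI t (cl_run t ht)

/-- Index-level test for an involution (or the identity). -/
def isInv (u : List ℕ) : Bool := (List.range 24).all (fun i => u.getD (u.getD i 0) 0 == i)

/-- Per-table check: not an involution, or conjugate to a representative by a listed element. -/
def chkInv (u : List ℕ) : Bool :=
  !(isInv u) || CL.any (fun kk => comp kk u == comp R1 kk || comp kk u == comp R2 kk)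

set_option maxRecDepth 100000 in
theorem cert : (tabs 3 4).all (fun t => chkInv (comp S0 t)) = true := by decide +kernel

theorem S0_base : S0.getD 23 0 = 0 ∧ S0.getD 0 0 = 23 ∧ S0.getD 1 0 = 2 ∧ S0.getD 2 0 = 1 := by
  decide

theorem B0_eq : B 0 = ptOf 23 := rfl
theorem B1_eq : B 1 = ptOf 0 := rfl
theorem B2_eq : B 2 = ptOf 1 := rfl
theorem B3_eq : B 3 = ptOf 2 := rfl

theorem isInv_of {g : Equiv.Perm Cfsg.GolayPt} {u : List ℕ} (hT : IsTable g u)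
    (h2 : g * g = 1) : isInv u = true := by
  unfold isInv
  rw [List.all_eq_true]
  intro i hi
  rw [List.mem_range] at hi
  rw [beq_iff_eq]
  have h3 := hT (g (ptOf i))
  have h4 : g (g (ptOf i)) = ptOf i := by
    have := congrArg (fun f => f (ptOf i)) h2
    simpa using this
  rw [h4, idx_ptOf i hi, hT (ptOf i), idx_ptOf i hi] at h3
  exact h3.symm

theorem normal_form (g : Equiv.Perm Cfsg.GolayPt) (hg : g ∈ Cfsg.M24) (h2 : g * g = 1)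
    (h01 : g (B 0) = B 1) (h10 : g (B 1) = B 0) (h23 : g (B 2) = B 3) (h32 : g (B 3) = B 2) :
    ∃ R, (R = R1 ∨ R = R2) ∧ ∃ r ∈ Cfsg.M24, IsTable r R ∧ ∃ k ∈ Cfsg.M24, k * g * k⁻¹ = r := by
  obtain ⟨s0, hs0, hS0⟩ := cl_mem S0 (by simp)
  obtain ⟨b23, b0, b1, b2⟩ := S0_base
  have s01 : s0 (B 0) = B 1 := by
    rw [B0_eq, B1_eq, isTable_apply hS0 23 (by norm_num), b23]
  have s10 : s0 (B 1) = B 0 := by
    rw [B0_eq, B1_eq, isTable_apply hS0 0 (by norm_num), b0]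
  have s23 : s0 (B 2) = B 3 := by
    rw [B2_eq, B3_eq, isTable_apply hS0 1 (by norm_num), b1]
  have s32 : s0 (B 3) = B 2 := by
    rw [B2_eq, B3_eq, isTable_apply hS0 2 (by norm_num), b2]
  have hk0 : s0⁻¹ * g ∈ Gk 4 := by
    refine ⟨mul_mem (inv_mem hs0) hg, fun i hi => ?_⟩
    rw [Equiv.Perm.mul_apply, Equiv.Perm.inv_eq_iff_eq]
    interval_cases i
    · rw [h01, s01]
    · rw [h10, s10]
    · rw [h23, s23]
    · rw [h32, s32]
  obtain ⟨t, ht, hT⟩ := Gk_tabs 3 4 rfl _ hk0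
  have hgT : IsTable g (comp S0 t) := by
    have := isTable_mul hS0 hT
    rwa [mul_inv_cancel_left] at this
  have hc := List.all_eq_true.mp cert t ht
  unfold chkInv at hc
  rw [isInv_of hgT h2] at hc
  simp only [Bool.not_true, Bool.false_or, List.any_eq_true] at hc
  obtain ⟨kk, hkk, hor⟩ := hc
  obtain ⟨κ, hκ, hK⟩ := cl_mem kk (by simp [hkk])
  rw [Bool.or_eq_true, beq_iff_eq, beq_iff_eq] at hor
  rcases hor with h | h
  · obtain ⟨r, hr, hR⟩ := cl_mem R1 (by simp)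
    refine ⟨R1, Or.inl rfl, r, hr, hR, κ, hκ, ?_⟩
    have e : κ * g = r * κ := by
      apply isTable_inj (isTable_mul hK hgT)
      rw [h]
      exact isTable_mul hR hK
    rw [e, mul_inv_cancel_right]
  · obtain ⟨r, hr, hR⟩ := cl_mem R2 (by simp)
    refine ⟨R2, Or.inr rfl, r, hr, hR, κ, hκ, ?_⟩
    have e : κ * g = r * κ := by
      apply isTable_inj (isTable_mul hK hgT)
      rw [h]
      exact isTable_mul hR hK
    rw [e, mul_inv_cancel_right]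

/-- A non-identity element of the group moves at least three points. -/
theorem exists_second (g : Equiv.Perm Cfsg.GolayPt) (hg : g ∈ Cfsg.M24) (a : Cfsg.GolayPt)
    (ha : g a ≠ a) : ∃ c, c ≠ a ∧ c ≠ g a ∧ g c ≠ c := by
  by_contra hcon
  push Not at hcon
  obtain ⟨T, haT, hTs, hT4⟩ := Finset.exists_subsuperset_card_eq (s := {a})
    (t := Finset.univ \ {g a}) (n := 4) (by
      intro x hx
      rw [Finset.mem_singleton] at hx
      rw [hx, Finset.mem_sdiff, Finset.mem_singleton]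
      exact ⟨Finset.mem_univ _, fun h => ha h.symm⟩) (by simp) (by
      rw [Finset.card_sdiff_of_subset (Finset.subset_univ _), Finset.card_univ, card_pts,
        Finset.card_singleton]
      norm_num)
  have hb : g a ∉ T := fun h => by
    have := hTs h
    rw [Finset.mem_sdiff, Finset.mem_singleton] at this
    exact this.2 rfl
  have ha' : a ∈ T := haT (Finset.mem_singleton_self a)
  obtain ⟨q, hq, q', hq', hne⟩ := Finset.one_lt_card.mp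
    (by rw [pencil_card T hT4]; norm_num : 1 < (pencil T).card)
  rw [mem_pencil] at hq hq'
  have key : ∀ o ∈ Cfsg.octads, a ∈ o → g a ∈ o := by
    intro o ho hao
    have hfix : g • o = o := by
      apply octad_fixed hg ho
      have hsub : o \ {a, g a} ⊆ o.filter (fun p => g p = p) := by
        intro p hp
        rw [Finset.mem_sdiff, Finset.mem_insert, Finset.mem_singleton] at hp
        rw [Finset.mem_filter]
        exact ⟨hp.1, hcon p (fun h => hp.2 (Or.inl h)) (fun h => hp.2 (Or.inr h))⟩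
      have h1 := Finset.card_le_card hsub
      have h2 := Finset.le_card_sdiff ({a, g a} : Finset Cfsg.GolayPt) o
      have h3 : ({a, g a} : Finset Cfsg.GolayPt).card ≤ 2 := Finset.card_le_two
      have h8 := ho.2
      omega
    exact (smul_mem_iff hfix a).mpr hao
  have m1 := key q hq.1 (hq.2 ha')
  have m2 := key q' hq'.1 (hq'.2 ha')
  have := pencil_inter hT4 hq.1 hq'.1 hne hq.2 hq'.2
  exact hb (by rw [← this]; exact Finset.mem_inter.mpr ⟨m1, m2⟩)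

theorem conj_rep (g : Equiv.Perm Cfsg.GolayPt) (hg : g ∈ Cfsg.M24) (ho : orderOf g = 2) :
    ∃ R, (R = R1 ∨ R = R2) ∧ ∃ r ∈ Cfsg.M24, IsTable r R ∧ ∃ k ∈ Cfsg.M24, k * g * k⁻¹ = r := by
  have h2 : g * g = 1 := by rw [← sq, ← ho]; exact pow_orderOf_eq_one g
  have hne : g ≠ 1 := by
    intro h
    rw [h, orderOf_one] at ho
    norm_num at ho
  obtain ⟨a, ha⟩ : ∃ a, g a ≠ a := by
    by_contra hcon
    push Not at hcon
    exact hne (Equiv.ext hcon)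
  obtain ⟨c, hca, hcb, hc⟩ := exists_second g hg a ha
  have gg : ∀ p, g (g p) = p := fun p => by
    have := congrArg (fun f => f p) h2
    simpa using this
  obtain ⟨x, hx0, hx1, hx2, hx3⟩ : ∃ x : ℕ → Cfsg.GolayPt,
      x 0 = a ∧ x 1 = g a ∧ x 2 = c ∧ x 3 = g c :=
    ⟨fun i => match i with
      | 0 => a
      | 1 => g a
      | 2 => c
      | _ => g c, rfl, rfl, rfl, rfl⟩
  have d1 : a ≠ g a := fun h => ha h.symm
  have d2 : a ≠ c := fun h => hca h.symm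
  have d3 : a ≠ g c := fun h => hcb (by rw [h, gg])
  have d4 : g a ≠ c := fun h => hcb h.symm
  have d5 : g a ≠ g c := fun h => d2 (g.injective h)
  have d6 : c ≠ g c := fun h => hc h.symm
  have hx : ∀ i < 4, ∀ j < 4, x i = x j → i = j := by
    intro i hi j hj hij
    interval_cases i <;> interval_cases j <;> first
      | rfl
      | (rw [hx0, hx1] at hij; exact absurd hij d1)
      | (rw [hx1, hx0] at hij; exact absurd hij.symm d1)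
      | (rw [hx0, hx2] at hij; exact absurd hij d2)
      | (rw [hx2, hx0] at hij; exact absurd hij.symm d2)
      | (rw [hx0, hx3] at hij; exact absurd hij d3)
      | (rw [hx3, hx0] at hij; exact absurd hij.symm d3)
      | (rw [hx1, hx2] at hij; exact absurd hij d4)
      | (rw [hx2, hx1] at hij; exact absurd hij.symm d4)
      | (rw [hx1, hx3] at hij; exact absurd hij d5)
      | (rw [hx3, hx1] at hij; exact absurd hij.symm d5)
      | (rw [hx2, hx3] at hij; exact absurd hij d6)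
      | (rw [hx3, hx2] at hij; exact absurd hij.symm d6)
  obtain ⟨h, hh, hB⟩ := exists_tuple 4 (by norm_num) x hx
  have hi : ∀ p q, h p = q → h⁻¹ q = p := fun p q hpq => by rw [← hpq]; simp
  have e0 : (h⁻¹ * g * h) (B 0) = B 1 := by
    rw [Equiv.Perm.mul_apply, Equiv.Perm.mul_apply, hB 0 (by norm_num), hx0]
    exact hi _ _ (by rw [hB 1 (by norm_num), hx1])
  have e1 : (h⁻¹ * g * h) (B 1) = B 0 := by
    rw [Equiv.Perm.mul_apply, Equiv.Perm.mul_apply, hB 1 (by norm_num), hx1, gg]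
    exact hi _ _ (by rw [hB 0 (by norm_num), hx0])
  have e2 : (h⁻¹ * g * h) (B 2) = B 3 := by
    rw [Equiv.Perm.mul_apply, Equiv.Perm.mul_apply, hB 2 (by norm_num), hx2]
    exact hi _ _ (by rw [hB 3 (by norm_num), hx3])
  have e3 : (h⁻¹ * g * h) (B 3) = B 2 := by
    rw [Equiv.Perm.mul_apply, Equiv.Perm.mul_apply, hB 3 (by norm_num), hx3, gg]
    exact hi _ _ (by rw [hB 2 (by norm_num), hx2])
  have h2' : (h⁻¹ * g * h) * (h⁻¹ * g * h) = 1 := by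
    have : (h⁻¹ * g * h) * (h⁻¹ * g * h) = h⁻¹ * (g * g) * h := by group
    rw [this, h2]
    group
  obtain ⟨R, hR, r, hr, hT, k, hk, hkg⟩ := normal_form (h⁻¹ * g * h)
    (mul_mem (mul_mem (inv_mem hh) hg) hh) h2' e0 e1 e2 e3
  refine ⟨R, hR, r, hr, hT, k * h⁻¹, mul_mem hk (inv_mem hh), ?_⟩
  rw [← hkg]
  group

theorem R1_fix : ∀ i < 24, (R1.getD i 0 = i ↔ OM.testBit i = true) := by decide +kernel

theorem R2_fix : ∀ i < 24, R2.getD i 0 ≠ i := by decide +kernel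

theorem R1_sq : powT 2 R1 = List.range 24 := by decide +kernel

theorem R2_sq : powT 2 R2 = List.range 24 := by decide +kernel

theorem r1_fix {r : Equiv.Perm Cfsg.GolayPt} (hR : IsTable r R1) (p : Cfsg.GolayPt) :
    r p = p ↔ p ∈ Oset := by
  unfold Oset
  rw [mem_maskSet, ← R1_fix (idx p) (idx_lt p), ← hR p]
  exact ⟨fun h => by rw [h], fun h => idx_inj h⟩

theorem r2_fix {r : Equiv.Perm Cfsg.GolayPt} (hR : IsTable r R2) (p : Cfsg.GolayPt) :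
    r p ≠ p := by
  intro h
  have := hR p
  rw [h] at this
  exact R2_fix (idx p) (idx_lt p) this.symm

theorem r1_order {r : Equiv.Perm Cfsg.GolayPt} (hR : IsTable r R1) : orderOf r = 2 :=
  order_prime hR 2 R1_sq 4 (by norm_num) (by decide)

theorem r2_order {r : Equiv.Perm Cfsg.GolayPt} (hR : IsTable r R2) : orderOf r = 2 :=
  order_prime hR 2 R2_sq 4 (by norm_num) (by decide)

theorem fix_conj1 {g r k : Equiv.Perm Cfsg.GolayPt} (hR : IsTable r R1)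
    (h : k * g * k⁻¹ = r) : (Finset.univ.filter fun p => g p = p) = k⁻¹ • Oset := by
  ext p
  rw [Finset.mem_filter, Finset.mem_inv_smul_finset_iff, Equiv.Perm.smul_def, ← r1_fix hR, ← h]
  simp

theorem fix_conj2 {g r k : Equiv.Perm Cfsg.GolayPt} (hR : IsTable r R2)
    (h : k * g * k⁻¹ = r) (p : Cfsg.GolayPt) : g p ≠ p := by
  intro hp
  apply r2_fix hR (k p)
  rw [← h]
  simp [hp]

theorem s5394 : (∀ g ∈ Cfsg.M24, orderOf g = 2 →
      (Finset.univ.filter fun p => g p = p) ∈ Cfsg.octads ∨ ∀ p, g p ≠ p) ∧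
    (∃ g ∈ Cfsg.M24, orderOf g = 2 ∧ (Finset.univ.filter fun p => g p = p) ∈ Cfsg.octads) ∧
    (∃ g ∈ Cfsg.M24, orderOf g = 2 ∧ ∀ p, g p ≠ p) ∧
    ∀ g ∈ Cfsg.M24, ∀ h ∈ Cfsg.M24, orderOf g = 2 → orderOf h = 2 →
      ((∀ p, g p ≠ p) ↔ (∀ p, h p ≠ p)) → ∃ k ∈ Cfsg.M24, k * g * k⁻¹ = h := by
  have oct : ∀ {g r k : Equiv.Perm Cfsg.GolayPt}, k ∈ Cfsg.M24 → IsTable r R1 →
      k * g * k⁻¹ = r → (Finset.univ.filter fun p => g p = p) ∈ Cfsg.octads := by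
    intro g r k hk hR h
    rw [fix_conj1 hR h]
    exact smul_octad (inv_mem hk) Oset_mem
  refine ⟨?_, ?_, ?_, ?_⟩
  · intro g hg ho
    obtain ⟨R, hR | hR, r, hr, hT, k, hk, hkg⟩ := conj_rep g hg ho
    · subst hR
      exact Or.inl (oct hk hT hkg)
    · subst hR
      exact Or.inr (fix_conj2 hT hkg)
  · obtain ⟨r, hr, hR⟩ := cl_mem R1 (by simp)
    exact ⟨r, hr, r1_order hR, oct (one_mem _) hR (by simp)⟩
  · obtain ⟨r, hr, hR⟩ := cl_mem R2 (by simp)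
    exact ⟨r, hr, r2_order hR, r2_fix hR⟩
  · intro g hg h hh ho ho' hiff
    obtain ⟨R, hR, r, hr, hT, k, hk, hkg⟩ := conj_rep g hg ho
    obtain ⟨R', hR', r', hr', hT', k', hk', hkg'⟩ := conj_rep h hh ho'
    have same : ∀ {R0 : List ℕ}, IsTable r R0 → IsTable r' R0 →
        ∃ k ∈ Cfsg.M24, k * g * k⁻¹ = h := by
      intro R0 a b
      have e : r = r' := isTable_inj a b
      refine ⟨k'⁻¹ * k, mul_mem (inv_mem hk') hk, ?_⟩
      have : k * g * k⁻¹ = k' * h * k'⁻¹ := by rw [hkg, hkg', e]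
      have e2 : h = k'⁻¹ * (k * g * k⁻¹) * k' := by rw [this]; group
      rw [e2]
      group
    have nofix : ∀ {g0 r0 k0 : Equiv.Perm Cfsg.GolayPt}, k0 ∈ Cfsg.M24 → IsTable r0 R1 →
        k0 * g0 * k0⁻¹ = r0 → ¬ ∀ p, g0 p ≠ p := by
      intro g0 r0 k0 hk0 hR0 h0 hall
      have ho8 := (oct hk0 hR0 h0).2
      have : (Finset.univ.filter fun p => g0 p = p) = ∅ := by
        rw [Finset.filter_eq_empty_iff]
        intro p _
        exact hall p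
      rw [this] at ho8
      simp at ho8
    rcases hR with hR | hR <;> rcases hR' with hR' | hR'
    · subst hR; subst hR'
      exact same hT hT'
    · subst hR; subst hR'
      exact absurd (hiff.mpr (fix_conj2 hT' hkg')) (nofix hk hT hkg)
    · subst hR; subst hR'
      exact absurd (hiff.mp (fix_conj2 hT hkg)) (nofix hk' hT' hkg')
    · subst hR; subst hR'
      exact same hT hT'

end Cfsg.Agent.Lib.Helper9.Invol
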