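import Mathlib
import Cfsg.Prelude.Def_Sporadic_a
import Cfsg.Agent.Lib.Helper9.M24Sx
import Cfsg.Agent.Lib.Helper9.Octad

set_option autoImplicit false

/-! The two classes of subgroups of order three of the group of the length-24 code. -/

namespace Cfsg.Agent.Lib.Helper9.Ord3

open Cfsg.Agent.Lib.Helper9.Golay Cfsg.Agent.Lib.Helper9.GolayC Cfsg.Agent.Lib.Helper9.M24C
open Cfsg.Agent.Lib.Helper9.Octad Cfsg.Agent.Lib.Helper9.M24B Cfsg.Agent.Lib.Helper9.M24T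
open Cfsg.Agent.Lib.Helper9.M24O Cfsg.Agent.Lib.Helper9.M24Sx
open scoped Pointwise

def PRI : List (ℕ × ℕ) := [(34, 140), (11, 0), (224, 0), (225, 11), (226, 11), (227, 9), (228, 11), (229, 0), (230, 2), (231, 0), (11, 9), (44, 0), (234, 2), (235, 9), (236, 9), (237, 1), (238, 2), (239, 9), (9, 11), (241, 0), (242, 2), (243, 0), (244, 0), (245, 1), (246, 0), (247, 2), (12, 9), (249, 9), (250, 11), (251, 11), (252, 0), (253, 11), (254, 11), (255, 0), (256, 1), (9, 2), (258, 9), (259, 2), (260, 0), (261, 11), (262, 0), (263, 11), (264, 11), (265, 9), (249, 11), (267, 11), (268, 0), (269, 11), (270, 9), (271, 2), (272, 2), (273, 0), (12, 11), (275, 0), (276, 2), (277, 9), (278, 9), (279, 9), (280, 9), (281, 2), (4, 11), (283, 9), (284, 11), (285, 9), (286, 9), (287, 9), (288, 2), (0, 2), (290, 9), (26, 0), (292, 1), (293, 11), (12, 0), (295, 2), (296, 2), (297, 0), (298, 2), (299, 9), (300,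 1), (301, 0), (302, 2), (303, 9), (4, 2), (305, 9), (306, 1), (307, 2), (308, 2), (309, 0), (310, 2), (311, 2), (312, 0), (10, 0), (314, 2), (315, 0), (316, 2), (317, 0), (318, 11), (2, 0), (320, 2), (321, 2), (322, 0), (323, 11), (324, 0), (325, 11), (326, 0), (327, 2), (15, 9), (329, 9), (330, 11), (331, 0), (332, 11), (333, 11), (334, 9), (225, 0), (336, 1), (337, 9), (338, 9), (339, 9), (340, 2), (0, 11), (342, 0), (343, 2), (344, 9), (345, 1), (346, 0), (347, 1), (348, 2), (342, 9), (350, 2), (351, 0), (352, 11), (353, 9), (354, 9), (355, 1), (356, 11), (284, 2), (358, 9), (359, 2), (360, 0), (361, 0), (362, 11), (291, 9), (364, 2), (365, 0), (366, 2), (367, 9), (368, 1), (369, 11), (370, 9), (371, 9), (241, 11), (373, 9), (374, 9), (375, 2), (376, 0), (377, 0), (2, 9), (379, 9), (380, 2), (381, 0), (382, 2), (383, 9), (384, 9), (385, 11), (386, 9), (387, 9), (320, 0), (389, 11), (390,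 9), (391, 2), (392, 9), (393, 11), (394, 0), (242, 0), (396, 0), (397, 0), (398, 1), (399, 2), (400, 2), (401, 0), (402, 2), (379, 11), (404, 0), (405, 11), (406, 11), (407, 0), (408, 2), (409, 0), (410, 11), (89, 2), (412, 2), (413, 9), (414, 9), (415, 9), (416, 11), (417, 0), (67, 11), (419, 9), (420, 2), (421, 2), (422, 0), (423, 11), (424, 9), (13, 0), (426, 0), (427, 11), (428, 9), (429, 11), (430, 11), (431, 0), (20, 9), (433, 11), (434, 9), (435, 2), (436, 9), (437, 11), (438, 0), (439, 2), (15, 2), (441, 2), (442, 0), (443, 0), (444, 2), (445, 0), (446, 2), (294, 0), (448, 1), (1, 2), (450, 0), (451, 1), (452, 9), (453, 2), (454, 0), (455, 1), (36, 1), (457, 2), (458, 2), (459, 0), (460, 0), (461, 0), (462, 1), (463, 2), (464, 0), (1, 11), (466, 0), (467, 11), (468, 0), (469, 2), (470, 9), (471, 1), (472, 2), (473, 9), (474, 2), (466, 9), (476, 2), (477, 0), (478, 1), (479, 2),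 (480, 9), (481, 9), (482, 11), (483, 9), (14, 2), (485, 9), (486, 9), (487, 9), (488, 11), (489, 11), (490, 9), (491, 2), (492, 0), (420, 1), (494, 11), (495, 0), (496, 2), (497, 0), (498, 11), (25, 2), (500, 2), (501, 9), (502, 11), (503, 9), (504, 1), (290, 0), (506, 1), (507, 11), (508, 11), (509, 9), (510, 11), (511, 0), (450, 9), (513, 9), (514, 1), (515, 11), (516, 0), (517, 0), (518, 0), (10, 9), (520, 9), (521, 9), (522, 1), (523, 2), (524, 0), (525, 11), (526, 11), (321, 9), (528, 1), (529, 2), (530, 0), (531, 0), (532, 2), (533, 9), (314, 0), (535, 2), (536, 0), (537, 1), (538, 11), (539, 0), (540, 11), (541, 9), (11, 11), (543, 0), (544, 11), (545, 11), (546, 0), (547, 0), (548, 0), (549, 1), (550, 2), (364, 9), (552, 9), (553, 2), (554, 2), (555, 0), (556, 1), (305, 2), (558, 0), (559, 11), (560, 0), (561, 11), (562, 0), (563, 1), (308, 0), (24, 9), (566, 11), (567, 0), (568,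 2), (569, 2), (570, 0), (571, 11), (466, 11), (573, 9), (574, 9), (575, 9), (576, 9), (577, 9), (578, 9), (579, 11), (433, 2), (581, 0), (582, 11), (583, 0), (584, 0), (305, 0), (586, 2), (587, 0), (588, 2), (589, 2), (590, 9), (233, 11), (592, 9), (593, 11), (594, 0), (595, 0), (596, 1), (597, 9), (598, 9), (599, 2), (543, 9), (601, 9), (602, 2), (603, 9), (604, 9), (605, 11), (606, 0), (586, 0), (608, 1), (609, 9), (610, 11), (611, 11), (395, 0), (613, 1), (592, 11), (615, 9), (616, 9), (617, 2), (618, 0), (619, 0), (620, 11), (307, 0), (622, 1), (623, 11), (624, 0), (625, 1), (320, 11), (627, 9), (628, 1), (629, 11), (630, 0), (631, 0), (632, 11), (633, 9), (634, 9), (14, 9), (636, 11), (637, 9), (638, 1), (639, 0), (640, 11), (641, 9), (642, 11), (643, 11), (223, 175), (645, 188), (646, 214), (223, 220)]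

def S0 : List ℕ := [1, 23, 3, 11, 16, 20, 22, 21, 17, 13, 10, 14, 2, 7, 19, 8, 9, 4, 5, 15, 6, 12, 18, 0]

def R1 : List ℕ := [1, 23, 3, 17, 4, 5, 16, 7, 8, 22, 21, 6, 13, 20, 14, 15, 11, 2, 10, 9, 12, 18, 19, 0]

def R2 : List ℕ := [1, 23, 3, 11, 18, 20, 21, 22, 5, 10, 13, 2, 14, 9, 19, 6, 7, 4, 17, 12, 8, 15, 16, 0]

def FM : ℕ := 49584

def CL : List (List ℕ) := [[0, 1, 2, 3, 4, 5, 6, 7, 8, 9, 10, 11, 12, 13, 14, 15, 16, 17, 18, 19, 20, 21, 22, 23],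
  [0, 1, 6, 21, 12, 7, 18, 20, 14, 8, 10, 15, 11, 4, 19, 13, 17, 2, 16, 22, 3, 5, 9, 23],
  [8, 5, 3, 11, 22, 7, 1, 0, 14, 4, 23, 2, 16, 10, 15, 17, 18, 19, 21, 12, 6, 9, 13, 20],
  [10, 13, 7, 22, 8, 17, 19, 4, 3, 15, 14, 11, 1, 6, 21, 12, 16, 5, 20, 23, 2, 0, 18, 9],
  [1, 23, 5, 20, 15, 6, 12, 16, 14, 21, 13, 2, 3, 7, 18, 11, 8, 22, 17, 10, 9, 19, 4, 0],
  [0, 1, 17, 4, 19, 9, 2, 14, 22, 21, 16, 11, 7, 13, 12, 8, 18, 6, 10, 3, 20, 5, 15, 23],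
  [23, 0, 6, 21, 22, 19, 17, 9, 8, 11, 16, 3, 10, 20, 2, 14, 5, 7, 13, 12, 15, 4, 18, 1],
  [23, 0, 17, 4, 10, 6, 5, 3, 8, 19, 15, 21, 16, 7, 9, 13, 11, 12, 20, 14, 18, 2, 22, 1],
  [0, 1, 6, 21, 3, 2, 20, 5, 17, 11, 16, 12, 4, 8, 7, 14, 13, 19, 9, 22, 15, 18, 10, 23],
  [15, 6, 10, 13, 7, 12, 11, 4, 1, 0, 3, 17, 5, 19, 8, 14, 20, 22, 23, 18, 2, 16, 9, 21],
  [2, 3, 15, 6, 22, 16, 10, 19, 13, 14, 12, 0, 7, 18, 17, 20, 8, 5, 23, 9, 1, 4, 21, 11],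
  [7, 22, 6, 21, 17, 13, 5, 20, 1, 11, 23, 0, 12, 14, 4, 18, 10, 19, 8, 3, 2, 9, 15, 16],
  [0, 1, 15, 6, 4, 16, 3, 22, 13, 20, 10, 17, 19, 8, 14, 2, 5, 11, 18, 12, 9, 21, 7, 23],
  [0, 1, 3, 11, 15, 4, 17, 5, 7, 13, 10, 16, 18, 22, 20, 8, 21, 19, 9, 14, 6, 2, 12, 23],
  [17, 4, 0, 1, 19, 8, 2, 7, 13, 15, 14, 21, 16, 12, 3, 5, 10, 22, 9, 20, 6, 23, 11, 18],
  [17, 2, 1, 23, 18, 14, 15, 22, 20, 12, 21, 16, 9, 19, 5, 6, 11, 0, 4, 13, 8, 10, 7, 3],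
  [16, 11, 3, 17, 18, 5, 23, 9, 12, 7, 10, 14, 22, 8, 15, 0, 1, 2, 21, 13, 19, 4, 20, 6],
  [23, 0, 10, 21, 3, 4, 9, 20, 11, 16, 5, 22, 7, 13, 14, 19, 8, 18, 17, 15, 12, 2, 6, 1],
  [0, 1, 21, 15, 19, 3, 16, 20, 11, 10, 14, 13, 5, 6, 22, 4, 2, 12, 9, 17, 18, 8, 7, 23],
  [13, 9, 23, 0, 16, 7, 22, 8, 18, 20, 12, 3, 15, 1, 19, 6, 14, 4, 21, 2, 5, 11, 17, 10],
  [0, 1, 22, 16, 10, 2, 18, 20, 9, 21, 3, 19, 14, 7, 13, 15, 17, 4, 8, 5, 12, 6, 11, 23],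
  [0, 1, 4, 18, 3, 10, 15, 8, 13, 12, 17, 16, 22, 19, 14, 6, 11, 21, 2, 7, 9, 5, 20, 23],
  [0, 1, 12, 14, 6, 13, 22, 3, 8, 5, 19, 11, 18, 9, 7, 10, 17, 20, 2, 15, 16, 21, 4, 23],
  [4, 18, 7, 22, 10, 11, 2, 0, 19, 3, 16, 13, 5, 15, 14, 12, 1, 21, 8, 23, 6, 20, 9, 17],
  [0, 1, 16, 11, 21, 14, 3, 18, 4, 12, 19, 13, 22, 20, 6, 10, 8, 15, 2, 9, 5, 7, 17, 23],
  [0, 1, 20, 12, 3, 14, 18, 5, 2, 16, 8, 15, 9, 11, 13, 17, 19, 7, 10, 22, 21, 6, 4, 23],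
  [0, 1, 19, 9, 5, 14, 7, 2, 3, 15, 18, 11, 4, 16, 22, 17, 10, 8, 20, 21, 13, 6, 12, 23],
  [19, 9, 18, 10, 2, 8, 6, 17, 3, 23, 13, 1, 20, 14, 21, 5, 12, 4, 15, 7, 16, 0, 11, 22],
  [11, 2, 13, 9, 22, 14, 18, 10, 5, 15, 23, 1, 8, 20, 17, 7, 19, 21, 4, 6, 0, 12, 16, 3],
  [17, 4, 9, 10, 12, 1, 16, 13, 14, 6, 8, 19, 3, 20, 15, 2, 22, 7, 23, 0, 11, 21, 5, 18],
  [21, 15, 5, 20, 23, 3, 2, 8, 16, 11, 22, 13, 9, 1, 18, 7, 17, 12, 14, 4, 0, 19, 10, 6],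
  [14, 19, 4, 18, 7, 16, 22, 6, 9, 0, 2, 20, 10, 11, 5, 23, 3, 21, 1, 17, 15, 8, 13, 12],
  [13, 9, 21, 15, 17, 23, 2, 1, 14, 19, 12, 0, 20, 7, 3, 16, 5, 18, 8, 6, 11, 4, 22, 10],
  [8, 5, 6, 21, 9, 7, 0, 10, 4, 12, 11, 23, 3, 18, 13, 2, 19, 1, 17, 15, 22, 16, 14, 20],
  [17, 4, 16, 7, 1, 3, 21, 0, 22, 20, 14, 15, 19, 11, 12, 8, 23, 6, 2, 9, 10, 13, 5, 18],
  [3, 11, 5, 20, 21, 18, 10, 22, 8, 16, 17, 4, 1, 0, 9, 15, 19, 23, 13, 7, 6, 14, 12, 2],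
  [4, 18, 5, 20, 23, 12, 14, 15, 8, 3, 10, 7, 19, 16, 22, 21, 11, 9, 13, 0, 2, 6, 1, 17],
  [5, 20, 10, 13, 15, 3, 23, 11, 19, 9, 2, 12, 21, 0, 18, 7, 16, 22, 17, 14, 4, 1, 6, 8],
  [12, 14, 16, 7, 5, 9, 20, 0, 17, 22, 15, 2, 3, 18, 6, 13, 21, 23, 10, 8, 1, 11, 4, 19],
  [5, 20, 6, 21, 4, 1, 12, 22, 19, 15, 10, 18, 14, 17, 7, 16, 23, 13, 9, 11, 0, 2, 3, 8],
  [22, 16, 10, 13, 9, 3, 8, 20, 5, 17, 15, 0, 4, 2, 12, 6, 1, 23, 18, 11, 14, 21, 19, 7],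
  [6, 21, 13, 9, 10, 16, 23, 4, 11, 17, 2, 19, 1, 12, 14, 18, 22, 5, 3, 20, 7, 0, 8, 15],
  [22, 16, 12, 14, 19, 20, 9, 15, 0, 10, 13, 8, 1, 11, 4, 23, 17, 2, 6, 18, 3, 21, 5, 7],
  [23, 0, 13, 20, 5, 12, 17, 19, 16, 3, 8, 22, 2, 21, 7, 10, 11, 14, 4, 18, 6, 15, 9, 1],
  [23, 0, 9, 22, 21, 19, 4, 6, 2, 18, 16, 15, 10, 13, 8, 7, 5, 14, 20, 12, 3, 17, 11, 1],
  [23, 0, 12, 13, 22, 20, 9, 6, 5, 8, 11, 16, 19, 21, 7, 18, 3, 14, 10, 4, 2, 17, 15, 1],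
  [11, 6, 19, 9, 21, 22, 18, 14, 12, 10, 0, 1, 4, 5, 8, 3, 20, 15, 2, 17, 7, 13, 23, 16],
  [22, 16, 2, 3, 12, 17, 8, 5, 19, 6, 18, 10, 1, 14, 21, 11, 20, 0, 9, 13, 23, 15, 4, 7],
  [1, 23, 13, 9, 7, 11, 4, 22, 17, 8, 6, 18, 15, 12, 21, 10, 14, 5, 19, 16, 3, 2, 20, 0],
  [11, 2, 15, 6, 14, 17, 0, 13, 9, 18, 22, 19, 4, 1, 5, 21, 12, 16, 10, 23, 8, 7, 20, 3],
  [0, 1, 16, 7, 5, 3, 22, 2, 17, 6, 11, 8, 20, 10, 9, 14, 19, 18, 21, 4, 15, 13, 12, 23],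
  [18, 17, 11, 2, 23, 8, 3, 15, 21, 19, 10, 7, 14, 5, 6, 12, 16, 9, 22, 20, 0, 13, 1, 4],
  [0, 1, 12, 14, 17, 7, 19, 10, 22, 18, 8, 3, 15, 9, 20, 11, 4, 13, 21, 5, 2, 16, 6, 23],
  [5, 20, 3, 11, 23, 7, 13, 18, 16, 0, 9, 14, 2, 17, 15, 12, 4, 19, 21, 10, 1, 22, 6, 8],
  [23, 0, 18, 17, 2, 19, 16, 7, 21, 22, 20, 14, 4, 8, 15, 6, 11, 13, 10, 3, 5, 9, 12, 1],
  [0, 1, 20, 8, 12, 21, 19, 3, 22, 10, 9, 18, 5, 14, 17, 15, 13, 16, 6, 11, 2, 4, 7, 23],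
  [22, 16, 6, 21, 23, 4, 3, 9, 17, 12, 0, 14, 10, 2, 19, 8, 18, 13, 15, 5, 1, 20, 11, 7],
  [13, 9, 12, 14, 20, 7, 4, 3, 11, 22, 18, 21, 16, 5, 2, 1, 6, 15, 19, 8, 0, 17, 23, 10],
  [7, 22, 17, 4, 19, 9, 15, 10, 1, 0, 3, 13, 20, 11, 8, 2, 5, 23, 18, 6, 21, 14, 12, 16]]

set_option maxRecDepth 100000 in
theorem cl_run : ∀ t ∈ S0 :: R1 :: R2 :: CL, t ∈ run TT PRI := by decide +kernel

theorem cl_mem : ∀ t ∈ S0 :: R1 :: R2 :: CL, ∃ g ∈ Cfsg.M24, IsTable g t :=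
  fun t ht => run_TT PRI t (cl_run t ht)

/-- Index-level test for a table whose cube is the identity. -/
def isCube (u : List ℕ) : Bool :=
  (List.range 24).all (fun i => u.getD (u.getD (u.getD i 0) 0) 0 == i)

/-- Per-table check: cube not the identity, or conjugate to a representative by a listed
element. -/
def chk3 (u : List ℕ) : Bool :=
  !(isCube u) || CL.any (fun kk => comp kk u == comp R1 kk || comp kk u == comp R2 kk)

set_option maxRecDepth 100000 in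
theorem cert : (tabs 3 4).all (fun t => chk3 (comp S0 t)) = true := by decide +kernel

theorem S0_base : S0.getD 23 0 = 0 ∧ S0.getD 0 0 = 1 ∧ S0.getD 1 0 = 23 ∧ S0.getD 2 0 = 3 := by
  decide

theorem B0_eq : B 0 = ptOf 23 := rfl
theorem B1_eq : B 1 = ptOf 0 := rfl
theorem B2_eq : B 2 = ptOf 1 := rfl
theorem B3_eq : B 3 = ptOf 2 := rfl
theorem B4_eq : B 4 = ptOf 3 := rfl

theorem isCube_of {g : Equiv.Perm Cfsg.GolayPt} {u : List ℕ} (hT : IsTable g u)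
    (h3 : ∀ p, g (g (g p)) = p) : isCube u = true := by
  unfold isCube
  rw [List.all_eq_true]
  intro i hi
  rw [List.mem_range] at hi
  rw [beq_iff_eq]
  have e1 : idx (g (ptOf i)) = u.getD i 0 := by rw [hT, idx_ptOf i hi]
  have e2 : idx (g (g (ptOf i))) = u.getD (u.getD i 0) 0 := by rw [hT, e1]
  have e3 : idx (g (g (g (ptOf i)))) = u.getD (u.getD (u.getD i 0) 0) 0 := by rw [hT, e2]
  rw [h3, idx_ptOf i hi] at e3
  exact e3.symm

theorem normal_form (g : Equiv.Perm Cfsg.GolayPt) (hg : g ∈ Cfsg.M24)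
    (h3 : ∀ p, g (g (g p)) = p)
    (h01 : g (B 0) = B 1) (h12 : g (B 1) = B 2) (h20 : g (B 2) = B 0) (h34 : g (B 3) = B 4) :
    ∃ R, (R = R1 ∨ R = R2) ∧ ∃ r ∈ Cfsg.M24, IsTable r R ∧ ∃ k ∈ Cfsg.M24, k * g * k⁻¹ = r := by
  obtain ⟨s0, hs0, hS0⟩ := cl_mem S0 (by simp)
  obtain ⟨b23, b0, b1, b2⟩ := S0_base
  have s01 : s0 (B 0) = B 1 := by
    rw [B0_eq, B1_eq, isTable_apply hS0 23 (by norm_num), b23]
  have s12 : s0 (B 1) = B 2 := by
    rw [B1_eq, B2_eq, isTable_apply hS0 0 (by norm_num), b0]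
  have s20 : s0 (B 2) = B 0 := by
    rw [B2_eq, B0_eq, isTable_apply hS0 1 (by norm_num), b1]
  have s34 : s0 (B 3) = B 4 := by
    rw [B3_eq, B4_eq, isTable_apply hS0 2 (by norm_num), b2]
  have hk0 : s0⁻¹ * g ∈ Gk 4 := by
    refine ⟨mul_mem (inv_mem hs0) hg, fun i hi => ?_⟩
    rw [Equiv.Perm.mul_apply, Equiv.Perm.inv_eq_iff_eq]
    interval_cases i
    · rw [h01, s01]
    · rw [h12, s12]
    · rw [h20, s20]
    · rw [h34, s34]
  obtain ⟨t, ht, hT⟩ := Gk_tabs 3 4 rfl _ hk0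
  have hgT : IsTable g (comp S0 t) := by
    have := isTable_mul hS0 hT
    rwa [mul_inv_cancel_left] at this
  have hc := List.all_eq_true.mp cert t ht
  unfold chk3 at hc
  rw [isCube_of hgT h3] at hc
  simp only [Bool.not_true, Bool.false_or, List.any_eq_true] at hc
  obtain ⟨kk, hkk, hor⟩ := hc
  obtain ⟨κ, hκ, hK⟩ := cl_mem kk (by simp [hkk])
  rw [Bool.or_eq_true, beq_iff_eq, beq_iff_eq] at hor
  rcases hor with h | h
  · obtain ⟨r, hr, hR⟩ := cl_mem R1 (by simp)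
    refine ⟨R1, Or.inl rfl, r, hr, hR, κ, hκ, ?_⟩
    have e : κ * g = r * κ := by
      apply isTable_inj (isTable_mul hK hgT)
      rw [h]
      exact isTable_mul hR hK
    rw [e, mul_inv_cancel_right]
  · obtain ⟨r, hr, hR⟩ := cl_mem R2 (by simp)
    refine ⟨R2, Or.inr rfl, r, hr, hR, κ, hκ, ?_⟩
    have e : κ * g = r * κ := by
      apply isTable_inj (isTable_mul hK hgT)
      rw [h]
      exact isTable_mul hR hK
    rw [e, mul_inv_cancel_right]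

/-- An element of the group fixing all points outside a set of at most three points is the
identity. -/
theorem eq_one_of_fix (g : Equiv.Perm Cfsg.GolayPt) (hg : g ∈ Cfsg.M24)
    (Z : Finset Cfsg.GolayPt) (hZ : Z.card ≤ 3) (hfix : ∀ p, p ∉ Z → g p = p) : g = 1 := by
  by_contra hne
  obtain ⟨a, ha⟩ : ∃ a, g a ≠ a := by
    by_contra hcon
    push Not at hcon
    exact hne (Equiv.ext hcon)
  obtain ⟨T, haT, hTs, hT4⟩ := Finset.exists_subsuperset_card_eq (s := {a})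
    (t := Finset.univ \ {g a}) (n := 4) (by
      intro x hx
      rw [Finset.mem_singleton] at hx
      rw [hx, Finset.mem_sdiff, Finset.mem_singleton]
      exact ⟨Finset.mem_univ _, fun h => ha h.symm⟩) (by simp) (by
      rw [Finset.card_sdiff_of_subset (Finset.subset_univ _), Finset.card_univ, card_pts,
        Finset.card_singleton]
      norm_num)
  have hb : g a ∉ T := fun h => by
    have := hTs h
    rw [Finset.mem_sdiff, Finset.mem_singleton] at this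
    exact this.2 rfl
  have ha' : a ∈ T := haT (Finset.mem_singleton_self a)
  obtain ⟨q, hq, q', hq', hne'⟩ := Finset.one_lt_card.mp
    (by rw [pencil_card T hT4]; norm_num : 1 < (pencil T).card)
  rw [mem_pencil] at hq hq'
  have key : ∀ o ∈ Cfsg.octads, a ∈ o → g a ∈ o := by
    intro o ho hao
    have hfx : g • o = o := by
      apply octad_fixed hg ho
      have hsub : o \ Z ⊆ o.filter (fun p => g p = p) := by
        intro p hp
        rw [Finset.mem_sdiff] at hp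
        rw [Finset.mem_filter]
        exact ⟨hp.1, hfix p hp.2⟩
      have h1 := Finset.card_le_card hsub
      have h2 := Finset.le_card_sdiff Z o
      have h8 := ho.2
      omega
    exact (smul_mem_iff hfx a).mpr hao
  have m1 := key q hq.1 (hq.2 ha')
  have m2 := key q' hq'.1 (hq'.2 ha')
  have := pencil_inter hT4 hq.1 hq'.1 hne' hq.2 hq'.2
  exact hb (by rw [← this]; exact Finset.mem_inter.mpr ⟨m1, m2⟩)

theorem inj5 {α : Type*} (x : ℕ → α) (h01 : x 0 ≠ x 1) (h02 : x 0 ≠ x 2) (h03 : x 0 ≠ x 3)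
    (h04 : x 0 ≠ x 4) (h12 : x 1 ≠ x 2) (h13 : x 1 ≠ x 3) (h14 : x 1 ≠ x 4) (h23 : x 2 ≠ x 3)
    (h24 : x 2 ≠ x 4) (h34 : x 3 ≠ x 4) : ∀ i < 5, ∀ j < 5, x i = x j → i = j := by
  intro i hi j hj hij
  interval_cases i <;> interval_cases j <;> first
    | rfl
    | exact absurd hij h01 | exact absurd hij.symm h01
    | exact absurd hij h02 | exact absurd hij.symm h02
    | exact absurd hij h03 | exact absurd hij.symm h03
    | exact absurd hij h04 | exact absurd hij.symm h04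
    | exact absurd hij h12 | exact absurd hij.symm h12
    | exact absurd hij h13 | exact absurd hij.symm h13
    | exact absurd hij h14 | exact absurd hij.symm h14
    | exact absurd hij h23 | exact absurd hij.symm h23
    | exact absurd hij h24 | exact absurd hij.symm h24
    | exact absurd hij h34 | exact absurd hij.symm h34

theorem conj_rep (g : Equiv.Perm Cfsg.GolayPt) (hg : g ∈ Cfsg.M24) (ho : orderOf g = 3) :
    ∃ R, (R = R1 ∨ R = R2) ∧ ∃ r ∈ Cfsg.M24, IsTable r R ∧ ∃ k ∈ Cfsg.M24, k * g * k⁻¹ = r := by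
  have hp : g ^ 3 = 1 := by rw [← ho]; exact pow_orderOf_eq_one g
  have gg : ∀ p, g (g (g p)) = p := fun p => by
    have := congrArg (fun f => f p) hp
    simpa [pow_succ] using this
  have hne : g ≠ 1 := by
    intro h
    rw [h, orderOf_one] at ho
    norm_num at ho
  obtain ⟨a, ha⟩ : ∃ a, g a ≠ a := by
    by_contra hcon
    push Not at hcon
    exact hne (Equiv.ext hcon)
  have d1 : a ≠ g a := fun h => ha h.symm
  have d2 : g a ≠ g (g a) := fun h => d1 (g.injective h)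
  have d3 : a ≠ g (g a) := fun h => by
    apply ha
    have := congrArg g h
    rw [gg] at this
    exact this
  obtain ⟨d, hdZ, hd⟩ : ∃ d, d ∉ ({a, g a, g (g a)} : Finset Cfsg.GolayPt) ∧ g d ≠ d := by
    by_contra hcon
    push Not at hcon
    exact hne (eq_one_of_fix g hg {a, g a, g (g a)} Finset.card_le_three hcon)
  rw [Finset.mem_insert, Finset.mem_insert, Finset.mem_singleton] at hdZ
  have d4 : a ≠ d := fun h => hdZ (Or.inl h.symm)
  have d5 : g a ≠ d := fun h => hdZ (Or.inr (Or.inl h.symm))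
  have d6 : g (g a) ≠ d := fun h => hdZ (Or.inr (Or.inr h.symm))
  have d7 : d ≠ g d := fun h => hd h.symm
  have d8 : a ≠ g d := fun h => d6 (by
    apply g.injective
    rw [gg]
    exact h)
  have d9 : g a ≠ g d := fun h => d4 (g.injective h)
  have d10 : g (g a) ≠ g d := fun h => d5 (g.injective h)
  obtain ⟨x, hx0, hx1, hx2, hx3, hx4⟩ : ∃ x : ℕ → Cfsg.GolayPt,
      x 0 = a ∧ x 1 = g a ∧ x 2 = g (g a) ∧ x 3 = d ∧ x 4 = g d :=
    ⟨fun i => match i with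
      | 0 => a
      | 1 => g a
      | 2 => g (g a)
      | 3 => d
      | _ => g d, rfl, rfl, rfl, rfl, rfl⟩
  have hx : ∀ i < 5, ∀ j < 5, x i = x j → i = j :=
    inj5 x (by rw [hx0, hx1]; exact d1) (by rw [hx0, hx2]; exact d3)
      (by rw [hx0, hx3]; exact d4) (by rw [hx0, hx4]; exact d8)
      (by rw [hx1, hx2]; exact d2) (by rw [hx1, hx3]; exact d5)
      (by rw [hx1, hx4]; exact d9) (by rw [hx2, hx3]; exact d6)
      (by rw [hx2, hx4]; exact d10) (by rw [hx3, hx4]; exact d7)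
  obtain ⟨h, hh, hB⟩ := exists_tuple 5 le_rfl x hx
  have hi : ∀ p q, h p = q → h⁻¹ q = p := fun p q hpq => by rw [← hpq]; simp
  have e0 : (h⁻¹ * g * h) (B 0) = B 1 := by
    rw [Equiv.Perm.mul_apply, Equiv.Perm.mul_apply, hB 0 (by norm_num), hx0]
    exact hi _ _ (by rw [hB 1 (by norm_num), hx1])
  have e1 : (h⁻¹ * g * h) (B 1) = B 2 := by
    rw [Equiv.Perm.mul_apply, Equiv.Perm.mul_apply, hB 1 (by norm_num), hx1]
    exact hi _ _ (by rw [hB 2 (by norm_num), hx2])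
  have e2 : (h⁻¹ * g * h) (B 2) = B 0 := by
    rw [Equiv.Perm.mul_apply, Equiv.Perm.mul_apply, hB 2 (by norm_num), hx2, gg]
    exact hi _ _ (by rw [hB 0 (by norm_num), hx0])
  have e3 : (h⁻¹ * g * h) (B 3) = B 4 := by
    rw [Equiv.Perm.mul_apply, Equiv.Perm.mul_apply, hB 3 (by norm_num), hx3]
    exact hi _ _ (by rw [hB 4 (by norm_num), hx4])
  have h3' : ∀ p, (h⁻¹ * g * h) ((h⁻¹ * g * h) ((h⁻¹ * g * h) p)) = p := by
    intro p
    simp [gg]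
  obtain ⟨R, hR, r, hr, hT, k, hk, hkg⟩ := normal_form (h⁻¹ * g * h)
    (mul_mem (mul_mem (inv_mem hh) hg) hh) h3' e0 e1 e2 e3
  refine ⟨R, hR, r, hr, hT, k * h⁻¹, mul_mem hk (inv_mem hh), ?_⟩
  rw [← hkg]
  group

theorem R1_fix : ∀ i < 24, (R1.getD i 0 = i ↔ FM.testBit i = true) := by decide +kernel

theorem R2_fix : ∀ i < 24, R2.getD i 0 ≠ i := by decide +kernel

theorem R1_cube : powT 3 R1 = List.range 24 := by decide +kernel

theorem R2_cube : powT 3 R2 = List.range 24 := by decide +kernel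

theorem FM_card : pc 24 FM = 6 := by decide +kernel

theorem r1_fix {r : Equiv.Perm Cfsg.GolayPt} (hR : IsTable r R1) (p : Cfsg.GolayPt) :
    r p = p ↔ p ∈ maskSet FM := by
  rw [mem_maskSet, ← R1_fix (idx p) (idx_lt p), ← hR p]
  exact ⟨fun h => by rw [h], fun h => idx_inj h⟩

theorem r2_fix {r : Equiv.Perm Cfsg.GolayPt} (hR : IsTable r R2) (p : Cfsg.GolayPt) :
    r p ≠ p := by
  intro h
  have := hR p
  rw [h] at this
  exact R2_fix (idx p) (idx_lt p) this.symm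

theorem r1_order {r : Equiv.Perm Cfsg.GolayPt} (hR : IsTable r R1) : orderOf r = 3 :=
  order_prime hR 3 R1_cube 0 (by norm_num) (by decide)

theorem r2_order {r : Equiv.Perm Cfsg.GolayPt} (hR : IsTable r R2) : orderOf r = 3 :=
  order_prime hR 3 R2_cube 0 (by norm_num) (by decide)

theorem fix_conj1 {g r k : Equiv.Perm Cfsg.GolayPt} (hR : IsTable r R1)
    (h : k * g * k⁻¹ = r) : {p : Cfsg.GolayPt | g p = p}.ncard = 6 := by
  have e : {p : Cfsg.GolayPt | g p = p} = ↑(k⁻¹ • maskSet FM) := by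
    ext p
    rw [Set.mem_ofPred_eq, Finset.mem_coe, Finset.mem_inv_smul_finset_iff, Equiv.Perm.smul_def,
      ← r1_fix hR, ← h]
    simp
  rw [e, Set.ncard_coe_finset, Finset.card_smul_finset, card_maskSet, FM_card]

theorem fix_conj2 {g r k : Equiv.Perm Cfsg.GolayPt} (hR : IsTable r R2)
    (h : k * g * k⁻¹ = r) : {p : Cfsg.GolayPt | g p = p}.ncard = 0 := by
  have e : {p : Cfsg.GolayPt | g p = p} = ∅ := by
    ext p
    simp only [Set.mem_ofPred_eq, Set.mem_empty_iff_false, iff_false]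
    intro hp
    apply r2_fix hR (k p)
    rw [← h]
    simp [hp]
  rw [e, Set.ncard_empty]

theorem fix_zpowers (x : ↥Cfsg.M24) :
    {p : Cfsg.GolayPt | ∀ y ∈ Subgroup.zpowers x,
      ((y : ↥Cfsg.M24) : Equiv.Perm Cfsg.GolayPt) p = p} =
    {p | (x : Equiv.Perm Cfsg.GolayPt) p = p} := by
  ext p
  simp only [Set.mem_ofPred_eq]
  constructor
  · intro h
    exact h x (Subgroup.mem_zpowers x)
  · intro h y hy
    obtain ⟨n, rfl⟩ := Subgroup.mem_zpowers_iff.mp hy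
    rw [Subgroup.coe_zpow]
    exact Equiv.Perm.zpow_apply_eq_self_of_apply_eq_self h n

theorem exists_gen (X : Subgroup ↥Cfsg.M24) (hX : Nat.card X = 3) :
    ∃ x : ↥Cfsg.M24, orderOf x = 3 ∧ X = Subgroup.zpowers x := by
  have hne : X ≠ ⊥ := by
    intro h
    rw [h, Subgroup.card_bot] at hX
    norm_num at hX
  obtain ⟨⟨x, hx⟩, hx1⟩ := (Subgroup.ne_bot_iff_exists_ne_one).mp hne
  have hd : orderOf x ∣ 3 := by
    have := orderOf_dvd_natCard (⟨x, hx⟩ : X)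
    rwa [Subgroup.orderOf_mk, hX] at this
  have h1 : orderOf x ≠ 1 := by
    intro h
    rw [orderOf_eq_one_iff] at h
    exact hx1 (Subtype.ext h)
  have h3 : orderOf x = 3 := by
    rcases (Nat.dvd_prime (by norm_num : Nat.Prime 3)).mp hd with h | h
    · exact absurd h h1
    · exact h
  refine ⟨x, h3, ?_⟩
  symm
  apply Subgroup.eq_of_le_of_card_ge (Subgroup.zpowers_le.mpr hx)
  rw [Nat.card_zpowers, h3, hX]

theorem conj_zpowers {G : Type*} [Group G] (k x : G) :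
    MulAut.conj k • Subgroup.zpowers x = Subgroup.zpowers (k * x * k⁻¹) := by
  have h : MulAut.conj k • Subgroup.zpowers x =
      (Subgroup.zpowers x).map (MulAut.conj k).toMonoidHom := rfl
  rw [h, MonoidHom.map_zpowers]
  rfl

theorem s5601 : (∀ X : Subgroup ↥Cfsg.M24, Nat.card X = 3 →
      {p : Cfsg.GolayPt | ∀ x ∈ X, ((x : ↥Cfsg.M24) : Equiv.Perm Cfsg.GolayPt) p = p}.ncard = 6 ∨
      {p : Cfsg.GolayPt | ∀ x ∈ X, ((x : ↥Cfsg.M24) : Equiv.Perm Cfsg.GolayPt) p = p}.ncard = 0) ∧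
    (∃ X : Subgroup ↥Cfsg.M24, Nat.card X = 3 ∧
      {p : Cfsg.GolayPt | ∀ x ∈ X, ((x : ↥Cfsg.M24) : Equiv.Perm Cfsg.GolayPt) p = p}.ncard = 6) ∧
    (∃ X : Subgroup ↥Cfsg.M24, Nat.card X = 3 ∧
      {p : Cfsg.GolayPt | ∀ x ∈ X, ((x : ↥Cfsg.M24) : Equiv.Perm Cfsg.GolayPt) p = p}.ncard = 0) ∧
    ∀ X Y : Subgroup ↥Cfsg.M24, Nat.card X = 3 → Nat.card Y = 3 →
      {p : Cfsg.GolayPt | ∀ x ∈ X, ((x : ↥Cfsg.M24) : Equiv.Perm Cfsg.GolayPt) p = p}.ncard =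
        {p : Cfsg.GolayPt | ∀ x ∈ Y, ((x : ↥Cfsg.M24) : Equiv.Perm Cfsg.GolayPt) p = p}.ncard →
      ∃ k : ↥Cfsg.M24, MulAut.conj k • X = Y := by
  refine ⟨?_, ?_, ?_, ?_⟩
  · intro X hX
    obtain ⟨x, hx3, rfl⟩ := exists_gen X hX
    rw [fix_zpowers]
    obtain ⟨R, hR | hR, r, hr, hT, k, hk, hkg⟩ := conj_rep (x : Equiv.Perm Cfsg.GolayPt) x.2
      (by rw [Subgroup.orderOf_coe]; exact hx3)
    · subst hR
      exact Or.inl (fix_conj1 hT hkg)
    · subst hR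
      exact Or.inr (fix_conj2 hT hkg)
  · obtain ⟨r, hr, hR⟩ := cl_mem R1 (by simp)
    refine ⟨Subgroup.zpowers ⟨r, hr⟩, ?_, ?_⟩
    · rw [Nat.card_zpowers, Subgroup.orderOf_mk, r1_order hR]
    · rw [fix_zpowers]
      exact fix_conj1 (k := 1) hR (by simp)
  · obtain ⟨r, hr, hR⟩ := cl_mem R2 (by simp)
    refine ⟨Subgroup.zpowers ⟨r, hr⟩, ?_, ?_⟩
    · rw [Nat.card_zpowers, Subgroup.orderOf_mk, r2_order hR]
    · rw [fix_zpowers]
      exact fix_conj2 (k := 1) hR (by simp)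
  · intro X Y hX hY hXY
    obtain ⟨x, hx3, rfl⟩ := exists_gen X hX
    obtain ⟨y, hy3, rfl⟩ := exists_gen Y hY
    rw [fix_zpowers, fix_zpowers] at hXY
    obtain ⟨R, hR, r, hr, hT, k, hk, hkg⟩ := conj_rep (x : Equiv.Perm Cfsg.GolayPt) x.2
      (by rw [Subgroup.orderOf_coe]; exact hx3)
    obtain ⟨R', hR', r', hr', hT', k', hk', hkg'⟩ := conj_rep (y : Equiv.Perm Cfsg.GolayPt) y.2
      (by rw [Subgroup.orderOf_coe]; exact hy3)
    have same : ∀ {R0 : List ℕ}, IsTable r R0 → IsTable r' R0 →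
        ∃ k : ↥Cfsg.M24, MulAut.conj k • Subgroup.zpowers x = Subgroup.zpowers y := by
      intro R0 a b
      have e : r = r' := isTable_inj a b
      refine ⟨⟨k'⁻¹ * k, mul_mem (inv_mem hk') hk⟩, ?_⟩
      rw [conj_zpowers]
      congr 1
      apply Subtype.ext
      have : k * (x : Equiv.Perm Cfsg.GolayPt) * k⁻¹ = k' * (y : Equiv.Perm Cfsg.GolayPt) * k'⁻¹ := by
        rw [hkg, hkg', e]
      have e2 : (y : Equiv.Perm Cfsg.GolayPt) =
          k'⁻¹ * (k * (x : Equiv.Perm Cfsg.GolayPt) * k⁻¹) * k' := by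
        rw [this]; group
      rw [e2]
      simp only [Subgroup.coe_mul, Subgroup.coe_inv]
      group
    rcases hR with hR | hR <;> rcases hR' with hR' | hR'
    · subst hR; subst hR'
      exact same hT hT'
    · subst hR; subst hR'
      rw [fix_conj1 hT hkg, fix_conj2 hT' hkg'] at hXY
      norm_num at hXY
    · subst hR; subst hR'
      rw [fix_conj2 hT hkg, fix_conj1 hT' hkg'] at hXY
      norm_num at hXY
    · subst hR; subst hR'
      exact same hT hT'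

end Cfsg.Agent.Lib.Helper9.Ord3
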