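import Mathlib
import Cfsg.Prelude.Def_SporadicCombinatorics
import Cfsg.Agent.Lib.Helper9.InvCnt
import Cfsg.Agent.Lib.Helper9.Invol
import Cfsg.Agent.Lib.Helper9.Ord3

set_option autoImplicit false

namespace Cfsg.Agent.Lib.Helper9.InvA

open Cfsg.Agent.Lib.Helper9.Golay Cfsg.Agent.Lib.Helper9.GolayC Cfsg.Agent.Lib.Helper9.M24C
open Cfsg.Agent.Lib.Helper9.M24B Cfsg.Agent.Lib.Helper9.M24T Cfsg.Agent.Lib.Helper9.InvCnt
open scoped Pointwise

set_option maxRecDepth 100000 in
theorem n_oct : (List.range 4096).countP (octQ Invol.R1) = 71 := by decide +kernel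

set_option maxRecDepth 100000 in
theorem t0 : trS Invol.R1 (ch 0) = 30 := by decide +kernel

set_option maxRecDepth 100000 in
theorem t1 : trS Invol.R1 (ch 1) = 48 := by decide +kernel

set_option maxRecDepth 100000 in
theorem t2 : trS Invol.R1 (ch 2) = 70 := by decide +kernel

set_option maxRecDepth 100000 in
theorem t3 : trS Invol.R1 (ch 3) = 48 := by decide +kernel

set_option maxRecDepth 100000 in
theorem t4 : trS Invol.R1 (ch 4) = 50 := by decide +kernel

set_option maxRecDepth 100000 in
theorem t5 : trS Invol.R1 (ch 5) = 50 := by decide +kernel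

set_option maxRecDepth 100000 in
theorem t6 : trS Invol.R1 (ch 6) = 52 := by decide +kernel

set_option maxRecDepth 100000 in
theorem t7 : trS Invol.R1 (ch 7) = 54 := by decide +kernel

set_option maxRecDepth 100000 in
theorem t8 : trS Invol.R1 (ch 8) = 66 := by decide +kernel

set_option maxRecDepth 100000 in
theorem t9 : trS Invol.R1 (ch 9) = 54 := by decide +kernel

set_option maxRecDepth 100000 in
theorem t10 : trS Invol.R1 (ch 10) = 36 := by decide +kernel

set_option maxRecDepth 100000 in
theorem t11 : trS Invol.R1 (ch 11) = 36 := by decide +kernel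

set_option maxRecDepth 100000 in
theorem x0 : sxS Invol.R1 (c4 0) = 0 := by decide +kernel

set_option maxRecDepth 100000 in
theorem x1 : sxS Invol.R1 (c4 1) = 0 := by decide +kernel

set_option maxRecDepth 100000 in
theorem x2 : sxS Invol.R1 (c4 2) = 0 := by decide +kernel

set_option maxRecDepth 100000 in
theorem x3 : sxS Invol.R1 (c4 3) = 1 := by decide +kernel

set_option maxRecDepth 100000 in
theorem x4 : sxS Invol.R1 (c4 4) = 0 := by decide +kernel

set_option maxRecDepth 100000 in
theorem x5 : sxS Invol.R1 (c4 5) = 4 := by decide +kernel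

set_option maxRecDepth 100000 in
theorem x6 : sxS Invol.R1 (c4 6) = 10 := by decide +kernel

set_option maxRecDepth 100000 in
theorem x7 : sxS Invol.R1 (c4 7) = 0 := by decide +kernel

set_option maxRecDepth 100000 in
theorem x8 : sxS Invol.R1 (c4 8) = 0 := by decide +kernel

set_option maxRecDepth 100000 in
theorem x9 : sxS Invol.R1 (c4 9) = 0 := by decide +kernel

set_option maxRecDepth 100000 in
theorem x10 : sxS Invol.R1 (c4 10) = 2 := by decide +kernel

set_option maxRecDepth 100000 in
theorem x11 : sxS Invol.R1 (c4 11) = 13 := by decide +kernel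

set_option maxRecDepth 100000 in
theorem x12 : sxS Invol.R1 (c4 12) = 16 := by decide +kernel

set_option maxRecDepth 100000 in
theorem x13 : sxS Invol.R1 (c4 13) = 6 := by decide +kernel

set_option maxRecDepth 100000 in
theorem x14 : sxS Invol.R1 (c4 14) = 25 := by decide +kernel

set_option maxRecDepth 100000 in
theorem x15 : sxS Invol.R1 (c4 15) = 12 := by decide +kernel

set_option maxRecDepth 100000 in
theorem x16 : sxS Invol.R1 (c4 16) = 19 := by decide +kernel

set_option maxRecDepth 100000 in
theorem x17 : sxS Invol.R1 (c4 17) = 38 := by decide +kernel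

set_option maxRecDepth 100000 in
theorem x18 : sxS Invol.R1 (c4 18) = 43 := by decide +kernel

set_option maxRecDepth 100000 in
theorem x19 : sxS Invol.R1 (c4 19) = 51 := by decide +kernel

set_option maxRecDepth 100000 in
theorem x20 : sxS Invol.R1 (c4 20) = 60 := by decide +kernel

set_option maxRecDepth 100000 in
theorem x21 : sxS Invol.R1 (c4 21) = 71 := by decide +kernel

set_option maxRecDepth 100000 in
theorem x22 : sxS Invol.R1 (c4 22) = 84 := by decide +kernel

set_option maxRecDepth 100000 in
theorem x23 : sxS Invol.R1 (c4 23) = 91 := by decide +kernel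

theorem s5605 (g : Equiv.Perm Cfsg.GolayPt) (hg : g ∈ Cfsg.M24) (h₂ : orderOf g = 2)
    (h₈ : (Finset.univ.filter fun p => g p = p).card = 8) :
    {o : Finset Cfsg.GolayPt | o ∈ Cfsg.octads ∧ g • o = o}.ncard = 71 ∧
    {T : Finset (Finset Cfsg.GolayPt) | T ∈ Cfsg.trios ∧ g • T = T}.ncard = 99 ∧
    {S : Finset (Finset Cfsg.GolayPt) | S ∈ Cfsg.sextets ∧ g • S = S}.ncard = 91 := by
  obtain ⟨R, hR | hR, r, hr, hT, k, hk, hkg⟩ := Invol.conj_rep g hg h₂
  · subst hR
    refine ⟨?_, ?_, ?_⟩
    · rw [oct_of hk hT hkg]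
      exact n_oct
    · have := (tr_of hr hk hT hkg).trans (sum12 t0 t1 t2 t3 t4 t5 t6 t7 t8 t9 t10 t11)
      omega
    · have := (sx_of hr hk hT hkg).trans (sum24 x0 x1 x2 x3 x4 x5 x6 x7 x8 x9 x10 x11 x12 x13 x14 x15 x16 x17 x18 x19 x20 x21 x22 x23)
      omega
  · subst hR
    exfalso
    have h0 := Invol.fix_conj2 hT hkg
    have e : (Finset.univ.filter fun p => g p = p) = ∅ :=
      Finset.filter_eq_empty_iff.mpr (fun p _ => h0 p)
    rw [e] at h₈
    simp at h₈

end Cfsg.Agent.Lib.Helper9.InvA
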