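import Mathlib
import Cfsg.Prelude.Def_SporadicCombinatorics
import Cfsg.Agent.Lib.Helper9.InvCnt
import Cfsg.Agent.Lib.Helper9.Invol
import Cfsg.Agent.Lib.Helper9.Ord3

set_option autoImplicit false

namespace Cfsg.Agent.Lib.Helper9.InvB

open Cfsg.Agent.Lib.Helper9.Golay Cfsg.Agent.Lib.Helper9.GolayC Cfsg.Agent.Lib.Helper9.M24C
open Cfsg.Agent.Lib.Helper9.M24B Cfsg.Agent.Lib.Helper9.M24T Cfsg.Agent.Lib.Helper9.InvCnt
open scoped Pointwise

set_option maxRecDepth 100000 in
theorem n_oct : (List.range 4096).countP (octQ Invol.R2) = 15 := by decide +kernel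

set_option maxRecDepth 100000 in
theorem t0 : trS Invol.R2 (ch 0) = 44 := by decide +kernel

set_option maxRecDepth 100000 in
theorem t1 : trS Invol.R2 (ch 1) = 40 := by decide +kernel

set_option maxRecDepth 100000 in
theorem t2 : trS Invol.R2 (ch 2) = 40 := by decide +kernel

set_option maxRecDepth 100000 in
theorem t3 : trS Invol.R2 (ch 3) = 12 := by decide +kernel

set_option maxRecDepth 100000 in
theorem t4 : trS Invol.R2 (ch 4) = 48 := by decide +kernel

set_option maxRecDepth 100000 in
theorem t5 : trS Invol.R2 (ch 5) = 58 := by decide +kernel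

set_option maxRecDepth 100000 in
theorem t6 : trS Invol.R2 (ch 6) = 34 := by decide +kernel

set_option maxRecDepth 100000 in
theorem t7 : trS Invol.R2 (ch 7) = 24 := by decide +kernel

set_option maxRecDepth 100000 in
theorem t8 : trS Invol.R2 (ch 8) = 26 := by decide +kernel

set_option maxRecDepth 100000 in
theorem t9 : trS Invol.R2 (ch 9) = 52 := by decide +kernel

set_option maxRecDepth 100000 in
theorem t10 : trS Invol.R2 (ch 10) = 16 := by decide +kernel

set_option maxRecDepth 100000 in
theorem t11 : trS Invol.R2 (ch 11) = 56 := by decide +kernel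

set_option maxRecDepth 100000 in
theorem x0 : sxS Invol.R2 (c4 0) = 0 := by decide +kernel

set_option maxRecDepth 100000 in
theorem x1 : sxS Invol.R2 (c4 1) = 0 := by decide +kernel

set_option maxRecDepth 100000 in
theorem x2 : sxS Invol.R2 (c4 2) = 0 := by decide +kernel

set_option maxRecDepth 100000 in
theorem x3 : sxS Invol.R2 (c4 3) = 0 := by decide +kernel

set_option maxRecDepth 100000 in
theorem x4 : sxS Invol.R2 (c4 4) = 0 := by decide +kernel

set_option maxRecDepth 100000 in
theorem x5 : sxS Invol.R2 (c4 5) = 1 := by decide +kernel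

set_option maxRecDepth 100000 in
theorem x6 : sxS Invol.R2 (c4 6) = 0 := by decide +kernel

set_option maxRecDepth 100000 in
theorem x7 : sxS Invol.R2 (c4 7) = 2 := by decide +kernel

set_option maxRecDepth 100000 in
theorem x8 : sxS Invol.R2 (c4 8) = 0 := by decide +kernel

set_option maxRecDepth 100000 in
theorem x9 : sxS Invol.R2 (c4 9) = 0 := by decide +kernel

set_option maxRecDepth 100000 in
theorem x10 : sxS Invol.R2 (c4 10) = 3 := by decide +kernel

set_option maxRecDepth 100000 in
theorem x11 : sxS Invol.R2 (c4 11) = 8 := by decide +kernel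

set_option maxRecDepth 100000 in
theorem x12 : sxS Invol.R2 (c4 12) = 4 := by decide +kernel

set_option maxRecDepth 100000 in
theorem x13 : sxS Invol.R2 (c4 13) = 6 := by decide +kernel

set_option maxRecDepth 100000 in
theorem x14 : sxS Invol.R2 (c4 14) = 11 := by decide +kernel

set_option maxRecDepth 100000 in
theorem x15 : sxS Invol.R2 (c4 15) = 18 := by decide +kernel

set_option maxRecDepth 100000 in
theorem x16 : sxS Invol.R2 (c4 16) = 23 := by decide +kernel

set_option maxRecDepth 100000 in
theorem x17 : sxS Invol.R2 (c4 17) = 24 := by decide +kernel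

set_option maxRecDepth 100000 in
theorem x18 : sxS Invol.R2 (c4 18) = 28 := by decide +kernel

set_option maxRecDepth 100000 in
theorem x19 : sxS Invol.R2 (c4 19) = 16 := by decide +kernel

set_option maxRecDepth 100000 in
theorem x20 : sxS Invol.R2 (c4 20) = 38 := by decide +kernel

set_option maxRecDepth 100000 in
theorem x21 : sxS Invol.R2 (c4 21) = 27 := by decide +kernel

set_option maxRecDepth 100000 in
theorem x22 : sxS Invol.R2 (c4 22) = 46 := by decide +kernel

set_option maxRecDepth 100000 in
theorem x23 : sxS Invol.R2 (c4 23) = 51 := by decide +kernel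

theorem s5606 (g : Equiv.Perm Cfsg.GolayPt) (hg : g ∈ Cfsg.M24) (h₂ : orderOf g = 2)
    (h₀ : ∀ p, g p ≠ p) :
    {o : Finset Cfsg.GolayPt | o ∈ Cfsg.octads ∧ g • o = o}.ncard = 15 ∧
    {T : Finset (Finset Cfsg.GolayPt) | T ∈ Cfsg.trios ∧ g • T = T}.ncard = 75 ∧
    {S : Finset (Finset Cfsg.GolayPt) | S ∈ Cfsg.sextets ∧ g • S = S}.ncard = 51 := by
  obtain ⟨R, hR | hR, r, hr, hT, k, hk, hkg⟩ := Invol.conj_rep g hg h₂
  · subst hR
    exfalso
    have e := Invol.fix_conj1 hT hkg
    have hc : (Finset.univ.filter fun p => g p = p).card = 8 := by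
      rw [e, Finset.card_smul_finset]
      exact Oset_mem.2
    have hne : (Finset.univ.filter fun p => g p = p).Nonempty := by
      rw [← Finset.card_pos, hc]
      norm_num
    obtain ⟨p, hp⟩ := hne
    rw [Finset.mem_filter] at hp
    exact h₀ p hp.2
  · subst hR
    refine ⟨?_, ?_, ?_⟩
    · rw [oct_of hk hT hkg]
      exact n_oct
    · have := (tr_of hr hk hT hkg).trans (sum12 t0 t1 t2 t3 t4 t5 t6 t7 t8 t9 t10 t11)
      omega
    · have := (sx_of hr hk hT hkg).trans (sum24 x0 x1 x2 x3 x4 x5 x6 x7 x8 x9 x10 x11 x12 x13 x14 x15 x16 x17 x18 x19 x20 x21 x22 x23)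
      omega

end Cfsg.Agent.Lib.Helper9.InvB
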