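import Mathlib
import Cfsg.Prelude.Def_SporadicCombinatorics
import Cfsg.Agent.Lib.Helper9.InvCnt
import Cfsg.Agent.Lib.Helper9.Invol
import Cfsg.Agent.Lib.Helper9.Ord3

set_option autoImplicit false

namespace Cfsg.Agent.Lib.Helper9.InvD

open Cfsg.Agent.Lib.Helper9.Golay Cfsg.Agent.Lib.Helper9.GolayC Cfsg.Agent.Lib.Helper9.M24C
open Cfsg.Agent.Lib.Helper9.M24B Cfsg.Agent.Lib.Helper9.M24T Cfsg.Agent.Lib.Helper9.InvCnt
open scoped Pointwise

set_option maxRecDepth 100000 in
theorem t0 : trS Ord3.R2 (ch 0) = 2 := by decide +kernel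

set_option maxRecDepth 100000 in
theorem t1 : trS Ord3.R2 (ch 1) = 10 := by decide +kernel

set_option maxRecDepth 100000 in
theorem t2 : trS Ord3.R2 (ch 2) = 8 := by decide +kernel

set_option maxRecDepth 100000 in
theorem t3 : trS Ord3.R2 (ch 3) = 6 := by decide +kernel

set_option maxRecDepth 100000 in
theorem t4 : trS Ord3.R2 (ch 4) = 10 := by decide +kernel

set_option maxRecDepth 100000 in
theorem t5 : trS Ord3.R2 (ch 5) = 4 := by decide +kernel

set_option maxRecDepth 100000 in
theorem t6 : trS Ord3.R2 (ch 6) = 8 := by decide +kernel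

set_option maxRecDepth 100000 in
theorem t7 : trS Ord3.R2 (ch 7) = 12 := by decide +kernel

set_option maxRecDepth 100000 in
theorem t8 : trS Ord3.R2 (ch 8) = 4 := by decide +kernel

set_option maxRecDepth 100000 in
theorem t9 : trS Ord3.R2 (ch 9) = 6 := by decide +kernel

set_option maxRecDepth 100000 in
theorem t10 : trS Ord3.R2 (ch 10) = 8 := by decide +kernel

set_option maxRecDepth 100000 in
theorem t11 : trS Ord3.R2 (ch 11) = 12 := by decide +kernel

set_option maxRecDepth 100000 in
theorem x0 : sxS Ord3.R2 (c4 0) = 0 := by decide +kernel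

set_option maxRecDepth 100000 in
theorem x1 : sxS Ord3.R2 (c4 1) = 0 := by decide +kernel

set_option maxRecDepth 100000 in
theorem x2 : sxS Ord3.R2 (c4 2) = 0 := by decide +kernel

set_option maxRecDepth 100000 in
theorem x3 : sxS Ord3.R2 (c4 3) = 0 := by decide +kernel

set_option maxRecDepth 100000 in
theorem x4 : sxS Ord3.R2 (c4 4) = 0 := by decide +kernel

set_option maxRecDepth 100000 in
theorem x5 : sxS Ord3.R2 (c4 5) = 0 := by decide +kernel

set_option maxRecDepth 100000 in
theorem x6 : sxS Ord3.R2 (c4 6) = 0 := by decide +kernel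

set_option maxRecDepth 100000 in
theorem x7 : sxS Ord3.R2 (c4 7) = 0 := by decide +kernel

set_option maxRecDepth 100000 in
theorem x8 : sxS Ord3.R2 (c4 8) = 0 := by decide +kernel

set_option maxRecDepth 100000 in
theorem x9 : sxS Ord3.R2 (c4 9) = 1 := by decide +kernel

set_option maxRecDepth 100000 in
theorem x10 : sxS Ord3.R2 (c4 10) = 0 := by decide +kernel

set_option maxRecDepth 100000 in
theorem x11 : sxS Ord3.R2 (c4 11) = 0 := by decide +kernel

set_option maxRecDepth 100000 in
theorem x12 : sxS Ord3.R2 (c4 12) = 0 := by decide +kernel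

set_option maxRecDepth 100000 in
theorem x13 : sxS Ord3.R2 (c4 13) = 1 := by decide +kernel

set_option maxRecDepth 100000 in
theorem x14 : sxS Ord3.R2 (c4 14) = 1 := by decide +kernel

set_option maxRecDepth 100000 in
theorem x15 : sxS Ord3.R2 (c4 15) = 2 := by decide +kernel

set_option maxRecDepth 100000 in
theorem x16 : sxS Ord3.R2 (c4 16) = 2 := by decide +kernel

set_option maxRecDepth 100000 in
theorem x17 : sxS Ord3.R2 (c4 17) = 4 := by decide +kernel

set_option maxRecDepth 100000 in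
theorem x18 : sxS Ord3.R2 (c4 18) = 2 := by decide +kernel

set_option maxRecDepth 100000 in
theorem x19 : sxS Ord3.R2 (c4 19) = 4 := by decide +kernel

set_option maxRecDepth 100000 in
theorem x20 : sxS Ord3.R2 (c4 20) = 7 := by decide +kernel

set_option maxRecDepth 100000 in
theorem x21 : sxS Ord3.R2 (c4 21) = 7 := by decide +kernel

set_option maxRecDepth 100000 in
theorem x22 : sxS Ord3.R2 (c4 22) = 4 := by decide +kernel

set_option maxRecDepth 100000 in
theorem x23 : sxS Ord3.R2 (c4 23) = 7 := by decide +kernel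

theorem s5603 (g : Equiv.Perm Cfsg.GolayPt) (hg : g ∈ Cfsg.M24) (h₃ : orderOf g = 3)
    (h₀ : ∀ p, g p ≠ p) :
    {S : Finset (Finset Cfsg.GolayPt) | S ∈ Cfsg.sextets ∧ g • S = S}.ncard = 7 ∧
    {T : Finset (Finset Cfsg.GolayPt) | T ∈ Cfsg.trios ∧ g • T = T}.ncard = 15 := by
  obtain ⟨R, hR | hR, r, hr, hT, k, hk, hkg⟩ := Ord3.conj_rep g hg h₃
  · subst hR
    exfalso
    have h6 := Ord3.fix_conj1 hT hkg
    have e : {p : Cfsg.GolayPt | g p = p} = ∅ := by
      ext p
      simp only [Set.mem_ofPred_eq, Set.mem_empty_iff_false, iff_false]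
      exact h₀ p
    rw [e, Set.ncard_empty] at h6
    norm_num at h6
  · subst hR
    refine ⟨?_, ?_⟩
    · have := (sx_of hr hk hT hkg).trans (sum24 x0 x1 x2 x3 x4 x5 x6 x7 x8 x9 x10 x11 x12 x13 x14 x15 x16 x17 x18 x19 x20 x21 x22 x23)
      omega
    · have := (tr_of hr hk hT hkg).trans (sum12 t0 t1 t2 t3 t4 t5 t6 t7 t8 t9 t10 t11)
      omega

end Cfsg.Agent.Lib.Helper9.InvD
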