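import Mathlib
import Cfsg.Prelude.Def_Sporadic_a
import Cfsg.Agent.Lib.Helper9.M24F

set_option autoImplicit false

/-! Dodecad intersections and flags of a dodecad and a point. -/

namespace Cfsg.Agent.Lib.Helper9.M24F2

open Cfsg.Agent.Lib.Helper9.Golay Cfsg.Agent.Lib.Helper9.GolayC Cfsg.Agent.Lib.Helper9.M24C
open Cfsg.Agent.Lib.Helper9.Octad Cfsg.Agent.Lib.Helper9.M24B Cfsg.Agent.Lib.Helper9.M24T
open Cfsg.Agent.Lib.Helper9.M24O Cfsg.Agent.Lib.Helper9.M24Oct Cfsg.Agent.Lib.Helper9.M24OS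
open Cfsg.Agent.Lib.Helper9.M24Dod Cfsg.Agent.Lib.Helper9.M24M Cfsg.Agent.Lib.Helper9.M24CO
open Cfsg.Agent.Lib.Helper9.M24DO Cfsg.Agent.Lib.Helper9.M24Cnt Cfsg.Agent.Lib.Helper9.M24Cnt2
open Cfsg.Agent.Lib.Helper9.M24F
open scoped Pointwise

/-- Two dodecads meet in 0, 4, 6 or 8 points, or are equal. -/
theorem dod_inter_cases {d d' : Finset Cfsg.GolayPt} (hd : d ∈ Cfsg.dodecads)
    (hd' : d' ∈ Cfsg.dodecads) :
    (d ∩ d').card = 0 ∨ (d ∩ d').card = 4 ∨ (d ∩ d').card = 6 ∨ (d ∩ d').card = 8 ∨ d = d' := by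
  rw [mem_dodecads] at hd hd'
  have h1 := norm_add (ind d) (ind d')
  rw [supp_ind, supp_ind, norm_ind, norm_ind, hd.2, hd'.2] at h1
  have h2 := norm_mem _ (Cfsg.golayCode.add_mem hd.1 hd'.1)
  by_cases h12 : (d ∩ d').card = 12
  · right; right; right; right
    have e1 : d ∩ d' = d :=
      Finset.eq_of_subset_of_card_le Finset.inter_subset_left (by rw [h12, hd.2])
    have e2 : d ∩ d' = d' :=
      Finset.eq_of_subset_of_card_le Finset.inter_subset_right (by rw [h12, hd'.2])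
    rw [← e1, e2]
  · omega

/-- The group is transitive on pairs of a dodecad and a point in it. -/
theorem flagD_trans (d : Finset Cfsg.GolayPt) (hd : d ∈ Cfsg.dodecads) (x : Cfsg.GolayPt)
    (hx : x ∈ d) : ∃ g0 ∈ Cfsg.M24, g0 • Dset = d ∧ g0 (ptOf 0) = x := by
  obtain ⟨g1, hg1, rfl⟩ := dodecad_trans Dset d Dset_mem hd
  have hx' : g1⁻¹ x ∈ Dset := by
    rw [← mem_smul_iff g1]
    simpa using hx
  have hq : dM 0 (idx (g1⁻¹ x)) = true := by
    unfold Dset at hx'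
    rw [mem_maskSet] at hx'
    unfold dM
    rw [hx']
    rfl
  obtain ⟨g2, hg2, hg2x⟩ := exists_transM 0 (by norm_num) (g1⁻¹ x) hq
  have hC : C 0 = ptOf 0 := rfl
  rw [hC] at hg2x
  refine ⟨g1 * g2, mul_mem hg1 hg2.1, ?_, ?_⟩
  · rw [mul_smul, hg2.2.1]
  · rw [Equiv.Perm.mul_apply, hg2x]
    simp

theorem ncard_dod_std (k n : ℕ) (h : (List.range 4096).countP (selL 12 [(DM, k)]) = n) :
    {d' : Finset Cfsg.GolayPt | d' ∈ Cfsg.dodecads ∧ (Dset ∩ d').card = k}.ncard = n := by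
  have e : {d' : Finset Cfsg.GolayPt | d' ∈ Cfsg.dodecads ∧ (Dset ∩ d').card = k} =
      {s | SelL Cfsg.dodecads [(DM, k)] s} := by
    ext s
    exact (selL1 _ _ _ s).symm
  rw [e, ncard_sel12, h]

set_option maxRecDepth 100000 in
theorem cntD4 : (List.range 4096).countP (selL 12 [(DM, 4)]) = 495 := by decide +kernel

set_option maxRecDepth 100000 in
theorem cntD6 : (List.range 4096).countP (selL 12 [(DM, 6)]) = 1584 := by decide +kernel

set_option maxRecDepth 100000 in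
theorem cntD8 : (List.range 4096).countP (selL 12 [(DM, 8)]) = 495 := by decide +kernel

/-- Intersection numbers of dodecads. -/
theorem dodecad_meet (d : Finset Cfsg.GolayPt) (hd : d ∈ Cfsg.dodecads) :
    (∀ d' ∈ Cfsg.dodecads, d' ≠ d → (d ∩ d').card = 0 ∨ (d ∩ d').card = 4 ∨
      (d ∩ d').card = 6 ∨ (d ∩ d').card = 8) ∧
    {d' : Finset Cfsg.GolayPt | d' ∈ Cfsg.dodecads ∧ (d ∩ d').card = 4}.ncard = 495 ∧
    {d' : Finset Cfsg.GolayPt | d' ∈ Cfsg.dodecads ∧ (d ∩ d').card = 6}.ncard = 1584 ∧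
    {d' : Finset Cfsg.GolayPt | d' ∈ Cfsg.dodecads ∧ (d ∩ d').card = 8}.ncard = 495 := by
  refine ⟨fun d' hd' hne => ?_, ?_⟩
  · rcases dod_inter_cases hd hd' with h | h | h | h | h
    · exact Or.inl h
    · exact Or.inr (Or.inl h)
    · exact Or.inr (Or.inr (Or.inl h))
    · exact Or.inr (Or.inr (Or.inr h))
    · exact absurd h.symm hne
  · obtain ⟨g0, hg0, rfl⟩ := dodecad_trans Dset d Dset_mem hd
    have htr : ∀ k : ℕ, ∀ s : Finset Cfsg.GolayPt,
        g0 • s ∈ {d' : Finset Cfsg.GolayPt | d' ∈ Cfsg.dodecads ∧ (g0 • Dset ∩ d').card = k} ↔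
        s ∈ {d' : Finset Cfsg.GolayPt | d' ∈ Cfsg.dodecads ∧ (Dset ∩ d').card = k} := by
      intro k s
      exact ⟨fun ⟨h1, h3⟩ => ⟨(smul_dodecad_iff hg0 s).mp h1,
          by rw [← card_inter_smul g0]; exact h3⟩,
        fun ⟨h1, h3⟩ => ⟨(smul_dodecad_iff hg0 s).mpr h1,
          by rw [card_inter_smul g0]; exact h3⟩⟩
    refine ⟨?_, ?_, ?_⟩
    · rw [ncard_transfer g0 _ _ (htr 4)]
      exact ncard_dod_std 4 495 cntD4
    · rw [ncard_transfer g0 _ _ (htr 6)]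
      exact ncard_dod_std 6 1584 cntD6
    · rw [ncard_transfer g0 _ _ (htr 8)]
      exact ncard_dod_std 8 495 cntD8

end Cfsg.Agent.Lib.Helper9.M24F2
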