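import Mathlib
import Cfsg.Prelude.Def_Sporadic_a
import Cfsg.Agent.Lib.Helper9.M24F2

set_option autoImplicit false

/-! The code modulo the all-ones word is irreducible for its group. -/

namespace Cfsg.Agent.Lib.Helper9.M24Irr

open Cfsg.Agent.Lib.Helper9.Golay Cfsg.Agent.Lib.Helper9.GolayC Cfsg.Agent.Lib.Helper9.M24C
open Cfsg.Agent.Lib.Helper9.Octad Cfsg.Agent.Lib.Helper9.M24B Cfsg.Agent.Lib.Helper9.M24T
open Cfsg.Agent.Lib.Helper9.M24O Cfsg.Agent.Lib.Helper9.M24Oct Cfsg.Agent.Lib.Helper9.M24OS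
open Cfsg.Agent.Lib.Helper9.M24Dod Cfsg.Agent.Lib.Helper9.M24M Cfsg.Agent.Lib.Helper9.M24CO
open Cfsg.Agent.Lib.Helper9.M24DO Cfsg.Agent.Lib.Helper9.M24Cnt Cfsg.Agent.Lib.Helper9.M24Cnt2
open Cfsg.Agent.Lib.Helper9.M24F Cfsg.Agent.Lib.Helper9.M24F2
open scoped Pointwise

theorem perm_word (σ : Equiv.Perm Cfsg.GolayPt) (s : Finset Cfsg.GolayPt) :
    (fun p => ind s (σ.symm p)) = ind (σ • s) := by
  funext p
  unfold ind
  have : σ.symm p ∈ s ↔ p ∈ σ • s := by
    rw [← mem_smul_iff σ (σ.symm p) s]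
    simp
  by_cases h : p ∈ σ • s
  · rw [if_pos h, if_pos (this.mpr h)]
  · rw [if_neg h, if_neg (fun h' => h (this.mp h'))]

theorem octad_of_word (c : Cfsg.GolayPt → ZMod 2) (hc : c ∈ Cfsg.golayCode)
    (h8 : hammingNorm c = 8) : supp c ∈ Cfsg.octads :=
  (mem_octads _).mpr ⟨by rw [ind_supp]; exact hc, by rw [← hammingNorm_eq]; exact h8⟩

theorem irreducible (W : Submodule (ZMod 2) (Cfsg.GolayPt → ZMod 2))
    (h1 : (fun _ => (1 : ZMod 2)) ∈ W) (hW : W ≤ Cfsg.golayCode)
    (hinv : ∀ σ ∈ Cfsg.M24, ∀ w ∈ W, (fun p => w (σ.symm p)) ∈ W) :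
    W = Submodule.span (ZMod 2) {fun _ => (1 : ZMod 2)} ∨ W = Cfsg.golayCode := by
  have h1' : (1 : Cfsg.GolayPt → ZMod 2) ∈ W := h1
  have key : ∀ o ∈ Cfsg.octads, ind o ∈ W → W = Cfsg.golayCode := by
    intro o ho hoW
    apply le_antisymm hW
    rw [← span_octads Cfsg.golayCode min_weight card_pts finrank_golay, Submodule.span_le]
    rintro c ⟨hc, hc8⟩
    have hco := octad_of_word c hc hc8
    obtain ⟨g1, hg1, h1o⟩ := octad_trans o ho
    obtain ⟨g2, hg2, h2o⟩ := octad_trans (supp c) hco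
    have hg : g2 * g1⁻¹ ∈ Cfsg.M24 := mul_mem hg2 (inv_mem hg1)
    have := hinv _ hg (ind o) hoW
    rw [perm_word, ← h1o, mul_smul, inv_smul_smul, h2o, ind_supp] at this
    exact this
  by_cases hex : ∃ w ∈ W, w ≠ 0 ∧ w ≠ 1
  · right
    obtain ⟨w, hw, hw0, hw1⟩ := hex
    have hwc := hW hw
    have hwW : ind (supp w) ∈ W := by rw [ind_supp]; exact hw
    rcases norm_mem w hwc with h | h | h | h | h
    · exact absurd ((norm_zero_iff w).mp h) hw0
    · exact key (supp w) (octad_of_word w hwc h) hwW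
    · have hd : supp w ∈ Cfsg.dodecads :=
        (mem_dodecads _).mpr ⟨by rw [ind_supp]; exact hwc, by rw [← hammingNorm_eq]; exact h⟩
      obtain ⟨d', hd', h8⟩ : ∃ d' ∈ Cfsg.dodecads, (supp w ∩ d').card = 8 := by
        have hcnt := (dodecad_meet (supp w) hd).2.2.2
        have hne : {d' : Finset Cfsg.GolayPt | d' ∈ Cfsg.dodecads ∧
            (supp w ∩ d').card = 8}.Nonempty := by
          apply Set.nonempty_of_ncard_ne_zero
          rw [hcnt]
          norm_num
        obtain ⟨d', hd'⟩ := hne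
        exact ⟨d', hd'.1, hd'.2⟩
      obtain ⟨g, hg, hgd⟩ := dodecad_trans (supp w) d' hd hd'
      have hw' : ind d' ∈ W := by
        have := hinv g hg (ind (supp w)) hwW
        rwa [perm_word, hgd] at this
      have hsum : ind (supp w) + ind d' ∈ W := W.add_mem hwW hw'
      have hsumc : ind (supp w) + ind d' ∈ Cfsg.golayCode := hW hsum
      rw [ind_add] at hsum hsumc
      apply key (symmDiff (supp w) d') _ hsum
      rw [mem_octads]
      refine ⟨hsumc, ?_⟩
      have e := card_symmDiff_add (supp w) d'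
      have e1 : (supp w).card = 12 := ((mem_dodecads _).mp hd).2
      have e2 : d'.card = 12 := ((mem_dodecads _).mp hd').2
      omega
    · have hw' : w + 1 ∈ W := W.add_mem hw h1'
      have hn := norm_add w 1
      have hs1 : supp (1 : Cfsg.GolayPt → ZMod 2) = Finset.univ := by
        ext p
        simp [mem_supp]
      have h24 : hammingNorm (1 : Cfsg.GolayPt → ZMod 2) = 24 := by
        rw [hammingNorm_eq, hs1, Finset.card_univ, card_pts]
      rw [hs1, Finset.inter_univ, ← hammingNorm_eq, h, h24] at hn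
      have h8 : hammingNorm (w + 1) = 8 := by omega
      apply key (supp (w + 1)) (octad_of_word _ (hW hw') h8)
      rw [ind_supp]
      exact hw'
    · exfalso
      apply hw1
      have hsupp : supp w = Finset.univ := by
        apply Finset.eq_univ_of_card
        rw [← hammingNorm_eq, h, card_pts]
      funext p
      have hp : p ∈ supp w := by rw [hsupp]; exact Finset.mem_univ p
      exact (mem_supp' w p).mp hp
  · left
    push Not at hex
    apply le_antisymm
    · intro w hw
      by_cases h0 : w = 0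
      · rw [h0]
        exact Submodule.zero_mem _
      · rw [hex w hw h0]
        exact Submodule.subset_span rfl
    · rw [Submodule.span_le]
      rintro _ rfl
      exact h1

end Cfsg.Agent.Lib.Helper9.M24Irr
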