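import Mathlib
import Cfsg.Agent.Lib.Helper9.M24Irr
import Cfsg.Agent.Lib.Helper9.M24Rel
import Cfsg.Agent.Lib.Helper9.OctOrb

set_option autoImplicit false

/-! Invariant subspaces of the binary permutation module of the code group. -/

namespace Cfsg.Agent.Lib.Helper9.InvSub

open Cfsg.Agent.Lib.Helper9.Golay Cfsg.Agent.Lib.Helper9.GolayC Cfsg.Agent.Lib.Helper9.M24C
open Cfsg.Agent.Lib.Helper9.Octad Cfsg.Agent.Lib.Helper9.M24B Cfsg.Agent.Lib.Helper9.M24T
open Cfsg.Agent.Lib.Helper9.M24Irr
open scoped Pointwise

/-- Invariance under the code group. -/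
def Inv (W : Submodule (ZMod 2) (Cfsg.GolayPt → ZMod 2)) : Prop :=
  ∀ σ ∈ Cfsg.M24, ∀ w ∈ W, (fun p => w (σ.symm p)) ∈ W

theorem char2 (u : Cfsg.GolayPt → ZMod 2) : u + u = 0 := by
  funext p
  have : ∀ a : ZMod 2, a + a = 0 := by decide
  exact this _

theorem code_le_of_octad (W : Submodule (ZMod 2) (Cfsg.GolayPt → ZMod 2)) (hinv : Inv W)
    (o : Finset Cfsg.GolayPt) (ho : o ∈ Cfsg.octads) (hoW : ind o ∈ W) :
    Cfsg.golayCode ≤ W := by
  rw [← span_octads Cfsg.golayCode min_weight card_pts finrank_golay, Submodule.span_le]
  rintro c ⟨hc, hc8⟩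
  have hco := octad_of_word c hc hc8
  obtain ⟨g1, hg1, h1o⟩ := octad_trans o ho
  obtain ⟨g2, hg2, h2o⟩ := octad_trans (supp c) hco
  have hg : g2 * g1⁻¹ ∈ Cfsg.M24 := mul_mem hg2 (inv_mem hg1)
  have := hinv _ hg (ind o) hoW
  rw [perm_word, ← h1o, mul_smul, inv_smul_smul, h2o, ind_supp] at this
  exact this

theorem zmod2_cases (a : ZMod 2) : a = 0 ∨ a = 1 := by
  revert a
  decide

theorem sub_code (W : Submodule (ZMod 2) (Cfsg.GolayPt → ZMod 2)) (hinv : Inv W)
    (hW : W ≤ Cfsg.golayCode) :
    W = ⊥ ∨ W = Submodule.span (ZMod 2) {fun _ => (1 : ZMod 2)} ∨ W = Cfsg.golayCode := by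
  by_cases h1 : (fun _ => (1 : ZMod 2)) ∈ W
  · exact Or.inr (irreducible W h1 hW hinv)
  · left
    rw [Submodule.eq_bot_iff]
    intro w hw
    by_contra hw0
    have h1C : (fun _ => (1 : ZMod 2)) ∈ Cfsg.golayCode := one_mem
    have hinv' : Inv (W ⊔ Submodule.span (ZMod 2) {fun _ => (1 : ZMod 2)}) := by
      intro σ hσ x hx
      rw [Submodule.mem_sup] at hx ⊢
      obtain ⟨y, hy, z, hz, rfl⟩ := hx
      rw [Submodule.mem_span_singleton] at hz
      obtain ⟨a, rfl⟩ := hz
      exact ⟨_, hinv σ hσ y hy, a • (fun _ => (1 : ZMod 2)),
        Submodule.smul_mem _ _ (Submodule.subset_span rfl), rfl⟩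
    have hle : W ⊔ Submodule.span (ZMod 2) {fun _ => (1 : ZMod 2)} ≤ Cfsg.golayCode :=
      sup_le hW (by rw [Submodule.span_le]; rintro _ rfl; exact h1C)
    have hmem1 : (fun _ => (1 : ZMod 2)) ∈
        W ⊔ Submodule.span (ZMod 2) {fun _ => (1 : ZMod 2)} :=
      Submodule.mem_sup_right (Submodule.subset_span rfl)
    rcases irreducible _ hmem1 hle hinv' with h | h
    · have hw' : w ∈ Submodule.span (ZMod 2) {fun _ => (1 : ZMod 2)} := by
        rw [← h]; exact Submodule.mem_sup_left hw
      rw [Submodule.mem_span_singleton] at hw'
      obtain ⟨a, rfl⟩ := hw'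
      rcases zmod2_cases a with rfl | rfl
      · exact hw0 (zero_smul _ _)
      · apply h1
        rw [one_smul] at hw
        exact hw
    · have hdec : ∀ o ∈ Cfsg.octads, ind o ∈ W ∨ ind o + 1 ∈ W := by
        intro o ho
        have hoC : ind o ∈ W ⊔ Submodule.span (ZMod 2) {fun _ => (1 : ZMod 2)} := by
          rw [h]; exact ((mem_octads o).mp ho).1
        rw [Submodule.mem_sup] at hoC
        obtain ⟨y, hy, z, hz, hyz⟩ := hoC
        rw [Submodule.mem_span_singleton] at hz
        obtain ⟨a, rfl⟩ := hz
        rcases zmod2_cases a with rfl | rfl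
        · left
          rw [zero_smul, add_zero] at hyz
          rw [← hyz]; exact hy
        · right
          rw [one_smul] at hyz
          have e : ind o + 1 = y := by
            rw [← hyz]
            show y + (fun _ => (1 : ZMod 2)) + (fun _ => (1 : ZMod 2)) = y
            rw [add_assoc, char2, add_zero]
          rw [e]; exact hy
      have noct : ∀ o ∈ Cfsg.octads, ind o ∉ W := by
        intro o ho hoW
        exact h1 (code_le_of_octad W hinv o ho hoW h1C)
      have hO := (hdec Oset Oset_mem).resolve_left (noct _ Oset_mem)
      have hX := (hdec _ Cfsg.Agent.Lib.Helper9.OctOrb.Xset_mem).resolve_left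
        (noct _ Cfsg.Agent.Lib.Helper9.OctOrb.Xset_mem)
      have hq := symmDiff_mem Oset_mem Cfsg.Agent.Lib.Helper9.OctOrb.Xset_mem
        Cfsg.Agent.Lib.Helper9.OctOrb.OX_card
      apply noct _ hq
      have hsum := W.add_mem hO hX
      have e : ind Oset + 1 + (ind Cfsg.Agent.Lib.Helper9.OctOrb.Xset + 1) =
          ind (symmDiff Oset Cfsg.Agent.Lib.Helper9.OctOrb.Xset) := by
        rw [← ind_add]
        have h2 := char2 (1 : Cfsg.GolayPt → ZMod 2)
        calc ind Oset + 1 + (ind Cfsg.Agent.Lib.Helper9.OctOrb.Xset + 1)
            = ind Oset + ind Cfsg.Agent.Lib.Helper9.OctOrb.Xset + (1 + 1) := by abel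
          _ = ind Oset + ind Cfsg.Agent.Lib.Helper9.OctOrb.Xset := by rw [h2, add_zero]
      rw [e] at hsum
      exact hsum

theorem ind_insert_add {s : Finset Cfsg.GolayPt} {d e : Cfsg.GolayPt} (hd : d ∉ s) (he : e ∉ s)
    (hde : d ≠ e) : ind (insert d s) + ind (insert e s) = ind {d, e} := by
  rw [ind_add]
  congr 1
  ext p
  simp only [Finset.mem_symmDiff, Finset.mem_insert, Finset.mem_singleton]
  constructor
  · rintro (⟨h1 | h1, h2⟩ | ⟨h1 | h1, h2⟩)
    · exact Or.inl h1
    · exact absurd (Or.inr h1) h2
    · exact Or.inr h1
    · exact absurd (Or.inr h1) h2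
  · rintro (rfl | rfl)
    · left
      exact ⟨Or.inl rfl, fun h => h.elim (fun h => hde h) (fun h => hd h)⟩
    · right
      exact ⟨Or.inl rfl, fun h => h.elim (fun h => hde h.symm) (fun h => he h)⟩

theorem pair_trans' (d e a b : Cfsg.GolayPt) (hde : d ≠ e) (hab : a ≠ b) :
    ∃ g ∈ Cfsg.M24, g • ({d, e} : Finset Cfsg.GolayPt) = {a, b} := by
  obtain ⟨g, hg, -, h⟩ := Cfsg.Agent.Lib.Helper9.M24Rel.rel_trans ∅ {d, e} {a, b}
    (by rw [Finset.card_pair hde, Finset.card_pair hab])
    (by rw [Finset.empty_inter, Finset.empty_inter])
    (by rw [Finset.card_empty, Finset.card_pair hde]; omega)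
  exact ⟨g, hg, h⟩

theorem pairs_of_gt (U : Submodule (ZMod 2) (Cfsg.GolayPt → ZMod 2)) (hinv : Inv U)
    (hC : Cfsg.golayCode ≤ U) (u : Cfsg.GolayPt → ZMod 2) (hu : u ∈ U)
    (huC : u ∉ Cfsg.golayCode) :
    ∀ a b : Cfsg.GolayPt, a ≠ b → ind {a, b} ∈ U := by
  obtain ⟨l, hl⟩ : ∃ l, l ∈ lead Cfsg.golayCode 4 u := by
    rcases coset_leaders Cfsg.golayCode min_weight card_pts finrank_golay u with
      ⟨l, hl, -⟩ | ⟨h6, -⟩
    · exact ⟨l, by rw [hl]; exact Finset.mem_singleton_self _⟩
    · exact Finset.card_pos.mp (by rw [h6]; norm_num)
  rw [mem_lead] at hl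
  obtain ⟨hlC, hl4⟩ := hl
  have hlU : l ∈ U := by
    have : l = (l - u) + u := by abel
    rw [this]
    exact U.add_mem (hC hlC) hu
  have hl0 : l ≠ 0 := by
    rintro rfl
    apply huC
    have : u = -(0 - u) := by abel
    rw [this]
    exact Cfsg.golayCode.neg_mem hlC
  have hs : (supp l).Nonempty := by
    rw [Finset.nonempty_iff_ne_empty]
    intro h
    apply hl0
    rw [← ind_supp l, h]
    funext p
    simp [ind]
  obtain ⟨d, hd⟩ := hs
  have hcard : (supp l).card ≤ 4 := by rw [← hammingNorm_eq]; exact hl4
  obtain ⟨e, he⟩ : ∃ e, e ∉ supp l := by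
    by_contra hall
    push Not at hall
    have : supp l = Finset.univ := Finset.eq_univ_of_forall hall
    rw [this, Finset.card_univ, card_pts] at hcard
    omega
  have hde : d ≠ e := fun h => he (h ▸ hd)
  have hd' : d ∉ (supp l).erase d := Finset.notMem_erase d _
  have he' : e ∉ (supp l).erase d := fun h => he (Finset.mem_of_mem_erase h)
  obtain ⟨g, hg, hgs, hgd⟩ := Cfsg.Agent.Lib.Helper9.M24Rel.rel_trans ((supp l).erase d) {d} {e}
    (by rw [Finset.card_singleton, Finset.card_singleton])
    (by rw [Finset.disjoint_iff_inter_eq_empty.mp (Finset.disjoint_singleton_right.mpr hd'),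
      Finset.disjoint_iff_inter_eq_empty.mp (Finset.disjoint_singleton_right.mpr he')])
    (by rw [Finset.card_erase_of_mem hd, Finset.card_singleton]; omega)
  have hpair : ind {d, e} ∈ U := by
    have h1 : ind (supp l) ∈ U := by rw [ind_supp]; exact hlU
    have h2 := hinv g hg _ h1
    rw [perm_word] at h2
    have e1 : supp l = insert d ((supp l).erase d) := (Finset.insert_erase hd).symm
    have hgd' : g • d = e := by
      rw [Finset.smul_finset_singleton] at hgd
      exact Finset.singleton_injective hgd
    have e2 : g • supp l = insert e ((supp l).erase d) := by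
      rw [e1, Finset.smul_finset_insert, hgs, hgd', Finset.erase_insert hd']
    have h3 := U.add_mem h1 h2
    rw [e2] at h3
    nth_rewrite 1 [e1] at h3
    rw [ind_insert_add hd' he' hde] at h3
    exact h3
  intro a b hab
  obtain ⟨g', hg', hg'p⟩ := pair_trans' d e a b hde hab
  have := hinv g' hg' _ hpair
  rw [perm_word, hg'p] at this
  exact this

theorem sum_eq_card (w : Cfsg.GolayPt → ZMod 2) : ∑ p, w p = ((supp w).card : ZMod 2) := by
  have h := dot_eq w w
  rw [Finset.inter_self] at h
  rw [← h]
  apply Finset.sum_congr rfl
  intro p _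
  have : ∀ a : ZMod 2, a = a * a := by decide
  exact this _

theorem even_mem (W : Submodule (ZMod 2) (Cfsg.GolayPt → ZMod 2))
    (hp : ∀ a b : Cfsg.GolayPt, a ≠ b → ind {a, b} ∈ W) (w : Cfsg.GolayPt → ZMod 2)
    (hw : ∑ p, w p = 0) : w ∈ W := by
  classical
  have hc : ((supp w).card : ZMod 2) = 0 := by rw [← sum_eq_card]; exact hw
  have key : w = ∑ p ∈ supp w, (ind {p} + ind {(none : Cfsg.GolayPt)}) := by
    funext q
    rw [Finset.sum_apply]
    simp only [Pi.add_apply]
    rw [Finset.sum_add_distrib, Finset.sum_const, nsmul_eq_mul, hc, zero_mul, add_zero]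
    have h1 : ∀ p, ind ({p} : Finset Cfsg.GolayPt) q = if q = p then 1 else 0 := by
      intro p
      simp [ind]
    simp only [h1]
    rw [Finset.sum_ite_eq]
    have := congrFun (ind_supp w) q
    rw [← this]
    rfl
  rw [key]
  apply Submodule.sum_mem
  intro p _
  by_cases h : p = none
  · rw [h, char2]
    exact W.zero_mem
  · have e := ind_insert_add (s := ∅) (Finset.notMem_empty p) (Finset.notMem_empty none) h
    have e' : ind {p} + ind {(none : Cfsg.GolayPt)} = ind {p, none} := e
    rw [e']
    exact hp p none h

theorem s5548 (W : Submodule (ZMod 2) (Cfsg.GolayPt → ZMod 2)) (hW : ∀ σ ∈ Cfsg.M24, ∀ w ∈ W, (fun p => w (σ.symm p)) ∈ W) : W = ⊥ ∨ W = Submodule.span (ZMod 2) {fun _ => (1 : ZMod 2)} ∨ W = Cfsg.golayCode ∨ (W : Set (Cfsg.GolayPt → ZMod 2)) = {w | ∑ p, w p = 0} ∨ W = ⊤ := by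
  by_cases hle : W ≤ Cfsg.golayCode
  · rcases sub_code W hW hle with h | h | h
    · exact Or.inl h
    · exact Or.inr (Or.inl h)
    · exact Or.inr (Or.inr (Or.inl h))
  · right; right; right
    have hpairs : ∀ a b : Cfsg.GolayPt, a ≠ b → ind {a, b} ∈ W := by
      obtain ⟨u, hu, huC⟩ := SetLike.not_le_iff_exists.mp hle
      have hinvC : Inv Cfsg.golayCode := fun σ hσ w hw => comp_mem_symm σ hσ w hw
      have hinvU : Inv (W ⊔ Cfsg.golayCode) := by
        intro σ hσ x hx
        rw [Submodule.mem_sup] at hx ⊢
        obtain ⟨y, hy, z, hz, rfl⟩ := hx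
        exact ⟨_, hW σ hσ y hy, _, hinvC σ hσ z hz, rfl⟩
      have hU := pairs_of_gt (W ⊔ Cfsg.golayCode) hinvU le_sup_right u
        (Submodule.mem_sup_left hu) huC
      have hinvI : Inv (W ⊓ Cfsg.golayCode) :=
        fun σ hσ x hx => ⟨hW σ hσ x hx.1, hinvC σ hσ x hx.2⟩
      have h01 : (Cfsg.golayCode ≤ W) ∨
          ∀ x ∈ W, x ∈ Cfsg.golayCode → x = 0 ∨ x = 1 := by
        rcases sub_code (W ⊓ Cfsg.golayCode) hinvI inf_le_right with h | h | h
        · right
          intro x hx hxC
          have : x ∈ W ⊓ Cfsg.golayCode := ⟨hx, hxC⟩
          rw [h, Submodule.mem_bot] at this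
          exact Or.inl this
        · right
          intro x hx hxC
          have : x ∈ W ⊓ Cfsg.golayCode := ⟨hx, hxC⟩
          rw [h, Submodule.mem_span_singleton] at this
          obtain ⟨a, rfl⟩ := this
          rcases zmod2_cases a with rfl | rfl
          · exact Or.inl (zero_smul _ _)
          · exact Or.inr (one_smul _ _)
        · left
          rw [← h]
          exact inf_le_left
      rcases h01 with hCW | h01
      · exact pairs_of_gt W hW hCW u hu huC
      · -- step 1
        have step1 : ∀ a b : Cfsg.GolayPt, a ≠ b → ind {a, b} ∈ W ∨ ind {a, b} + 1 ∈ W := by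
          intro a b hab
          have hm := hU a b hab
          rw [Submodule.mem_sup] at hm
          obtain ⟨y, hy, c, hc, hyc⟩ := hm
          have hy' : y = ind {a, b} + c := by
            rw [← hyc, add_assoc, char2, add_zero]
          have hc01 : c = 0 ∨ c = 1 := by
            by_contra hcn
            push Not at hcn
            obtain ⟨hc0, hc1⟩ := hcn
            have hn : 8 ≤ hammingNorm c ∧ hammingNorm c ≤ 16 := by
              rcases norm_mem c hc with h | h | h | h | h
              · exact absurd ((norm_zero_iff c).mp h) hc0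
              · omega
              · omega
              · omega
              · exfalso
                apply hc1
                have hsupp : supp c = Finset.univ := by
                  apply Finset.eq_univ_of_card
                  rw [← hammingNorm_eq, h, card_pts]
                funext p
                have hp : p ∈ supp c := by rw [hsupp]; exact Finset.mem_univ p
                exact (mem_supp' c p).mp hp
            rw [hammingNorm_eq] at hn
            have h2 : ({a, b} : Finset Cfsg.GolayPt).card = 2 := Finset.card_pair hab
            -- p, q in supp c outside {a,b}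
            have hcard1 : 1 < (supp c \ {a, b}).card := by
              have := Finset.le_card_sdiff ({a, b} : Finset Cfsg.GolayPt) (supp c)
              omega
            obtain ⟨p, hp, q, hq, hpq⟩ := Finset.one_lt_card.mp hcard1
            rw [Finset.mem_sdiff] at hp hq
            -- r outside supp c and {a,b}
            have hcard2 : 0 < (Finset.univ \ (supp c ∪ {a, b})).card := by
              have h3 := Finset.le_card_sdiff (supp c ∪ {a, b}) (Finset.univ : Finset Cfsg.GolayPt)
              have h4 := Finset.card_union_le (supp c) ({a, b} : Finset Cfsg.GolayPt)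
              rw [Finset.card_univ, card_pts] at h3
              omega
            obtain ⟨r, hr⟩ := Finset.card_pos.mp hcard2
            rw [Finset.mem_sdiff, Finset.mem_union, not_or] at hr
            have hpr : p ≠ r := fun h => hr.2.1 (h ▸ hp.1)
            obtain ⟨g, hg, hgab, hgpq⟩ := Cfsg.Agent.Lib.Helper9.M24Rel.rel_trans {a, b} {p, q} {p, r}
              (by rw [Finset.card_pair hpq, Finset.card_pair hpr])
              (by
                have e1 : ({a, b} : Finset Cfsg.GolayPt) ∩ {p, q} = ∅ := by
                  rw [← Finset.disjoint_iff_inter_eq_empty, Finset.disjoint_right]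
                  intro x hx
                  rw [Finset.mem_insert, Finset.mem_singleton] at hx
                  rcases hx with rfl | rfl
                  · exact hp.2
                  · exact hq.2
                have e2 : ({a, b} : Finset Cfsg.GolayPt) ∩ {p, r} = ∅ := by
                  rw [← Finset.disjoint_iff_inter_eq_empty, Finset.disjoint_right]
                  intro x hx
                  rw [Finset.mem_insert, Finset.mem_singleton] at hx
                  rcases hx with rfl | rfl
                  · exact hp.2
                  · exact hr.2.2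
                rw [e1, e2])
              (by rw [h2, Finset.card_pair hpq]; omega)
            -- the image word
            have hgy := hW g hg y hy
            have hgc := hinvC g hg c hc
            have hdiff : c + (fun x => c (g.symm x)) ∈ W := by
              have e : c + (fun x => c (g.symm x)) = y + (fun x => y (g.symm x)) := by
                have e1 : (fun x => y (g.symm x)) =
                    (fun x => ind {a, b} (g.symm x)) + (fun x => c (g.symm x)) := by
                  rw [hy']; rfl
                rw [e1, perm_word, hgab, hy']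
                have := char2 (ind ({a, b} : Finset Cfsg.GolayPt))
                calc c + (fun x => c (g.symm x))
                    = (ind {a, b} + ind {a, b}) + (c + (fun x => c (g.symm x))) := by
                      rw [this, zero_add]
                  _ = ind {a, b} + c + (ind {a, b} + fun x => c (g.symm x)) := by abel
              rw [e]
              exact W.add_mem hy hgy
            have hdiffC : c + (fun x => c (g.symm x)) ∈ Cfsg.golayCode :=
              Cfsg.golayCode.add_mem hc hgc
            have hgw : (fun x => c (g.symm x)) = ind (g • supp c) := by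
              rw [← perm_word, ind_supp]
            have hps : p ∈ g • supp c := by
              have : p ∈ g • ({p, q} : Finset Cfsg.GolayPt) := by
                rw [hgpq]; exact Finset.mem_insert_self _ _
              exact Finset.smul_finset_subset_smul_finset (by
                intro x hx
                rw [Finset.mem_insert, Finset.mem_singleton] at hx
                rcases hx with rfl | rfl
                · exact hp.1
                · exact hq.1) this
            have hrs : r ∈ g • supp c := by
              have : r ∈ g • ({p, q} : Finset Cfsg.GolayPt) := by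
                rw [hgpq]; exact Finset.mem_insert_of_mem (Finset.mem_singleton_self _)
              exact Finset.smul_finset_subset_smul_finset (by
                intro x hx
                rw [Finset.mem_insert, Finset.mem_singleton] at hx
                rcases hx with rfl | rfl
                · exact hp.1
                · exact hq.1) this
            have cp : c p = 1 := (mem_supp' c p).mp hp.1
            have cr : c r = 0 := by
              by_contra h
              exact hr.2.1 ((mem_supp c r).mpr h)
            rcases h01 _ hdiff hdiffC with h | h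
            · have := congrFun h r
              rw [hgw] at this
              simp only [Pi.add_apply, Pi.zero_apply, ind, if_pos hrs, cr] at this
              exact absurd this (by decide)
            · have := congrFun h p
              rw [hgw] at this
              simp only [Pi.add_apply, Pi.one_apply, ind, if_pos hps, cp] at this
              exact absurd this (by decide)
          rcases hc01 with rfl | rfl
          · left
            rw [hy', add_zero] at hy
            exact hy
          · right
            rw [hy'] at hy
            exact hy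
        -- step 2
        intro a b hab
        rcases step1 a b hab with h | h
        · exact h
        · obtain ⟨d, hd⟩ : ∃ d, d ∉ ({a, b} : Finset Cfsg.GolayPt) := by
            by_contra hall
            push Not at hall
            have := Finset.eq_univ_of_forall hall
            have h2 := Finset.card_pair hab
            rw [this, Finset.card_univ, card_pts] at h2
            omega
          rw [Finset.mem_insert, Finset.mem_singleton, not_or] at hd
          have hbd : b ≠ d := fun e => hd.2 e.symm
          have had : a ≠ d := fun e => hd.1 e.symm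
          obtain ⟨g1, hg1, e1⟩ := pair_trans' a b b d hab hbd
          obtain ⟨g2, hg2, e2⟩ := pair_trans' a b a d hab had
          have w1 := hW g1 hg1 _ h
          have w2 := hW g2 hg2 _ h
          have f1 : (fun p => (ind ({a, b} : Finset Cfsg.GolayPt) + 1) (g1.symm p)) =
              ind {b, d} + 1 := by
            rw [← e1, ← perm_word]; rfl
          have f2 : (fun p => (ind ({a, b} : Finset Cfsg.GolayPt) + 1) (g2.symm p)) =
              ind {a, d} + 1 := by
            rw [← e2, ← perm_word]; rfl
          rw [f1] at w1
          rw [f2] at w2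
          have hs := W.add_mem w1 w2
          have e3 : ind ({b, d} : Finset Cfsg.GolayPt) + 1 + (ind {a, d} + 1) = ind {a, b} := by
            have h2 := char2 (1 : Cfsg.GolayPt → ZMod 2)
            have h3 : ind ({b, d} : Finset Cfsg.GolayPt) + ind {a, d} = ind {b, a} :=
              ind_insert_add (s := {d}) (by rw [Finset.mem_singleton]; exact hbd)
                (by rw [Finset.mem_singleton]; exact had) (Ne.symm hab)
            calc ind ({b, d} : Finset Cfsg.GolayPt) + 1 + (ind {a, d} + 1)
                = ind {b, d} + ind {a, d} + (1 + 1) := by abel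
              _ = ind {a, b} := by rw [h2, add_zero, h3, Finset.pair_comm]
          rw [e3] at hs
          exact hs
    have hE : ∀ w : Cfsg.GolayPt → ZMod 2, ∑ p, w p = 0 → w ∈ W := even_mem W hpairs
    by_cases hsub : ∀ w ∈ W, ∑ p, w p = 0
    · left
      ext w
      exact ⟨fun h => hsub w h, fun h => hE w h⟩
    · right
      push Not at hsub
      obtain ⟨u, hu, hu1⟩ := hsub
      rw [Submodule.eq_top_iff']
      intro v
      by_cases hv : ∑ p, v p = 0
      · exact hE v hv
      · have h1 : ∀ a : ZMod 2, a ≠ 0 → a = 1 := by decide
        have hvu0 : ∑ p, (v + u) p = 0 := by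
          simp only [Pi.add_apply]
          rw [Finset.sum_add_distrib, h1 _ hv, h1 _ hu1]
          decide
        have hvu := W.add_mem (hE _ hvu0) hu
        have e : v + u + u = v := by rw [add_assoc, char2, add_zero]
        rw [e] at hvu
        exact hvu

end Cfsg.Agent.Lib.Helper9.InvSub
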