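import Mathlib
import Cfsg.Prelude.Def_Sporadic_a
import Cfsg.Agent.Lib.Helper9.Golay
import Cfsg.Agent.Lib.Helper9.GolayC
import Cfsg.Agent.Lib.Helper9.Leech

set_option autoImplicit false

/-! A subgroup of index `2 ^ 12` of the lattice containing twice the lattice on which the
squared length is divisible by 32. -/

namespace Cfsg.Agent.Lib.Helper9.LeechIdx

open Cfsg.Agent.Lib.Helper9.Golay Cfsg.Agent.Lib.Helper9.GolayC Cfsg.Agent.Lib.Helper9.Leech

/-- Vectors with all coordinates congruent to `0` or all congruent to `2` modulo 4, and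
coordinate sum divisible by 8. -/
def A : AddSubgroup (Cfsg.GolayPt → ℤ) where
  carrier := {v | ∃ m : ℤ, (∀ i, v i % 4 = (2 * m) % 4) ∧ (∑ i, v i) % 8 = 0}
  zero_mem' := ⟨0, fun i => rfl, by simp⟩
  add_mem' := by
    rintro v w ⟨m, h1, h2⟩ ⟨m', h1', h2'⟩
    refine ⟨m + m', fun i => ?_, ?_⟩
    · have := h1 i
      have := h1' i
      simp only [Pi.add_apply]
      omega
    · simp only [Pi.add_apply, Finset.sum_add_distrib]
      omega
  neg_mem' := by
    rintro v ⟨m, h1, h2⟩
    refine ⟨-m, fun i => ?_, ?_⟩
    · have := h1 i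
      simp only [Pi.neg_apply]
      omega
    · simp only [Pi.neg_apply, Finset.sum_neg_distrib]
      omega

theorem mem_A (v : Cfsg.GolayPt → ℤ) :
    v ∈ A ↔ ∃ m : ℤ, (∀ i, v i % 4 = (2 * m) % 4) ∧ (∑ i, v i) % 8 = 0 := Iff.rfl

theorem A_le : A ≤ Cfsg.leechLattice := by
  intro v hv
  rw [mem_lattice, mem_leechSet]
  obtain ⟨m, h1, h2⟩ := hv
  refine ⟨0, fun i => ?_, ?_, fun k => ?_⟩
  · have := h1 i
    omega
  · omega
  · by_cases hk : k % 4 = (2 * m) % 4
    · have : cls v k = Finset.univ := by
        ext i
        rw [mem_cls]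
        have := h1 i
        simp only [Finset.mem_univ, iff_true]
        omega
      rw [this, ind_univ]
      exact one_mem
    · have : cls v k = ∅ := by
        ext i
        rw [mem_cls]
        have := h1 i
        simp only [Finset.notMem_empty, iff_false]
        omega
      rw [this, ind_empty]
      exact Cfsg.golayCode.zero_mem

theorem two_smul_mem (v : Cfsg.GolayPt → ℤ) (hv : v ∈ Cfsg.leechLattice) : (2 : ℤ) • v ∈ A := by
  rw [mem_lattice, mem_leechSet] at hv
  obtain ⟨m, h1, h2, -⟩ := hv
  refine ⟨m, fun i => ?_, ?_⟩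
  · have := h1 i
    simp only [Pi.smul_apply, smul_eq_mul]
    omega
  · simp only [Pi.smul_apply, smul_eq_mul, ← Finset.mul_sum]
    omega

theorem dvd_sqNorm (v : Cfsg.GolayPt → ℤ) (hv : v ∈ A) : (32 : ℤ) ∣ Cfsg.sqNorm v := by
  obtain ⟨m, h1, h2⟩ := hv
  unfold Cfsg.sqNorm
  rcases Int.emod_two_eq_zero_or_one m with hm | hm
  · have hsplit : ∑ i, v i ^ 2 = ∑ i, (v i ^ 2 - 4 * v i) + 4 * ∑ i, v i := by
      rw [Finset.mul_sum, ← Finset.sum_add_distrib]
      apply Finset.sum_congr rfl
      intro i _
      ring
    rw [hsplit]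
    apply dvd_add
    · apply Finset.dvd_sum
      intro i _
      have hi := h1 i
      obtain ⟨a, ha⟩ : ∃ a, v i = 4 * a := ⟨v i / 4, by omega⟩
      obtain ⟨t, ht⟩ := Int.even_mul_succ_self (a - 1)
      exact ⟨t, by rw [ha]; linear_combination 16 * ht⟩
    · obtain ⟨q, hq⟩ : ∃ q, ∑ i, v i = 8 * q := ⟨(∑ i, v i) / 8, by omega⟩
      rw [hq]
      exact ⟨q, by ring⟩
  · have hsplit : ∑ i, v i ^ 2 = ∑ i, (v i ^ 2 - 4) + 96 := by
      rw [Finset.sum_sub_distrib, Finset.sum_const, Finset.card_univ, card_pts]
      norm_num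
    rw [hsplit]
    apply dvd_add
    · apply Finset.dvd_sum
      intro i _
      obtain ⟨a, ha⟩ : ∃ a, v i = 4 * a + 2 := ⟨v i / 4, by have := h1 i; omega⟩
      obtain ⟨t, ht⟩ := Int.even_mul_succ_self a
      exact ⟨t, by rw [ha]; linear_combination 16 * ht⟩
    · norm_num

theorem cast_eq (n : ℤ) : ((n : ℤ) : ZMod 2) = if n % 2 = 1 then 1 else 0 := by
  rcases Int.emod_two_eq_zero_or_one n with h | h
  · rw [if_neg (by omega)]
    exact (ZMod.intCast_zmod_eq_zero_iff_dvd n 2).mpr (Int.dvd_of_emod_eq_zero h)
  · rw [if_pos h]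
    have h2 : n = 2 * (n / 2) + 1 := by omega
    rw [h2]
    push_cast
    have : (2 : ZMod 2) = 0 := by decide
    rw [this, zero_mul, zero_add]

/-- The map to the code: the second binary digit of `x i - x ∞`, twisted by the parity. -/
def h0 (x : Cfsg.GolayPt → ℤ) : Cfsg.GolayPt → ZMod 2 :=
  fun i => (((x i - x none) / 2 : ℤ) : ZMod 2) + ((x none : ℤ) : ZMod 2)

theorem h0_add (x y : Cfsg.GolayPt → ℤ) (hx : x ∈ Cfsg.leechSet) (hy : y ∈ Cfsg.leechSet) :
    h0 (x + y) = h0 x + h0 y := by
  rw [mem_leechSet] at hx hy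
  obtain ⟨m, h1, -, -⟩ := hx
  obtain ⟨m', h1', -, -⟩ := hy
  funext i
  simp only [h0, Pi.add_apply]
  have e : (x i + y i - (x none + y none)) / 2 = (x i - x none) / 2 + (y i - y none) / 2 := by
    have := h1 i
    have := h1 none
    have := h1' i
    have := h1' none
    omega
  rw [e]
  push_cast
  ring

theorem h0_mem (x : Cfsg.GolayPt → ℤ) (hx : x ∈ Cfsg.leechSet) : h0 x ∈ Cfsg.golayCode := by
  rw [mem_leechSet] at hx
  obtain ⟨m, h1, -, h3⟩ := hx
  have : h0 x = ind (cls x (x none + 2)) + (((x none : ℤ)) : ZMod 2) • (1 : Cfsg.GolayPt → ZMod 2) := by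
    funext i
    simp only [h0, Pi.add_apply, Pi.smul_apply, Pi.one_apply, smul_eq_mul, mul_one, ind_cls]
    congr 1
    have := h1 i
    have := h1 none
    rw [cast_eq]
    by_cases hc : x i % 4 = (x none + 2) % 4
    · rw [if_pos hc, if_pos (by omega)]
    · rw [if_neg hc, if_neg (by omega)]
  rw [this]
  exact Cfsg.golayCode.add_mem (h3 _) (Cfsg.golayCode.smul_mem _ one_mem)

theorem h0_eq_zero_iff (x : Cfsg.GolayPt → ℤ) (hx : x ∈ Cfsg.leechSet) : h0 x = 0 ↔ x ∈ A := by
  obtain ⟨m, h1, h2, -⟩ := (mem_leechSet x).mp hx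
  constructor
  · intro h
    have hn := congrFun h none
    simp only [h0, sub_self, Int.zero_ediv, Int.cast_zero, zero_add, Pi.zero_apply] at hn
    rw [cast_eq] at hn
    have hpar : x none % 2 = 0 := by
      by_contra hc
      rw [if_pos (by omega)] at hn
      exact one_ne_zero hn
    refine ⟨x none / 2, fun i => ?_, ?_⟩
    · have hi := congrFun h i
      simp only [h0, Pi.zero_apply] at hi
      rw [cast_eq, cast_eq, if_neg (show ¬ (x none % 2 = 1) by omega), add_zero] at hi
      have h5 : ¬ ((x i - x none) / 2 % 2 = 1) := by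
        intro hc
        rw [if_pos hc] at hi
        exact one_ne_zero hi
      have := h1 i
      have := h1 none
      omega
    · have := h1 none
      omega
  · rintro ⟨m', h1', h2'⟩
    funext i
    simp only [h0, Pi.zero_apply]
    rw [cast_eq, cast_eq, if_neg, if_neg, add_zero]
    · have := h1' none
      omega
    · have := h1' i
      have := h1' none
      omega

theorem ind_compl (s : Finset Cfsg.GolayPt) : ind sᶜ = 1 + ind s := by
  funext i
  by_cases hi : i ∈ s
  · simp only [ind, Finset.mem_compl, hi, not_true_eq_false, if_false, if_true, Pi.add_apply,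
      Pi.one_apply]
    decide
  · simp only [ind, Finset.mem_compl, hi, not_false_eq_true, if_false, if_true, Pi.add_apply,
      Pi.one_apply, add_zero]

/-- Vectors taking two values modulo 4, on the support of a codeword and off it. -/
theorem two_val (c : Cfsg.GolayPt → ZMod 2) (hc : c ∈ Cfsg.golayCode) (a b m : ℤ)
    (x : Cfsg.GolayPt → ℤ) (hx : ∀ i, x i % 4 = if i ∈ supp c then a % 4 else b % 4)
    (hab : a % 4 ≠ b % 4) (ha : a % 2 = m % 2) (hb : b % 2 = m % 2)
    (hsum : (∑ i, x i) % 8 = (4 * m) % 8) : x ∈ Cfsg.leechSet := by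
  rw [mem_leechSet]
  refine ⟨m, fun i => ?_, hsum, fun k => ?_⟩
  · have := hx i
    split_ifs at this <;> omega
  · by_cases hka : k % 4 = a % 4
    · have : cls x k = supp c := by
        ext i
        rw [mem_cls, hx i]
        by_cases hi : i ∈ supp c
        · simp only [hi, if_true, iff_true]
          exact hka.symm
        · simp only [hi, if_false, iff_false]
          omega
      rw [this, ind_supp]
      exact hc
    · by_cases hkb : k % 4 = b % 4
      · have : cls x k = (supp c)ᶜ := by
          ext i
          rw [mem_cls, hx i, Finset.mem_compl]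
          by_cases hi : i ∈ supp c
          · simp only [hi, if_true, not_true_eq_false, iff_false]
            omega
          · simp only [hi, if_false, not_false_eq_true, iff_true]
            exact hkb.symm
        rw [this, ind_compl, ind_supp]
        exact Cfsg.golayCode.add_mem one_mem hc
      · have : cls x k = ∅ := by
          ext i
          rw [mem_cls, hx i]
          simp only [Finset.notMem_empty, iff_false]
          split_ifs <;> omega
        rw [this, ind_empty]
        exact Cfsg.golayCode.zero_mem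

theorem surj (c : Cfsg.GolayPt → ZMod 2) (hc : c ∈ Cfsg.golayCode) :
    ∃ x ∈ Cfsg.leechSet, h0 x = c := by
  classical
  have hw := norm_mem c hc
  rw [hammingNorm_eq] at hw
  have hcz : ∀ i, c i = 0 ∨ c i = 1 := fun i => by
    have : ∀ a : ZMod 2, a = 0 ∨ a = 1 := by decide
    exact this _
  have hsupp : ∀ i, i ∈ supp c ↔ c i = 1 := mem_supp' c
  have hnsupp : ∀ i, i ∉ supp c → c i = 0 := by
    intro i hi
    rcases hcz i with h | h
    · exact h
    · exact absurd ((hsupp i).mpr h) hi
  have hcard : (Finset.univ : Finset Cfsg.GolayPt).card = 24 := by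
    rw [Finset.card_univ, card_pts]
  rcases hcz none with hn | hn
  · have hnone : (none : Cfsg.GolayPt) ∉ supp c := by
      intro h
      rw [hsupp, hn] at h
      exact zero_ne_one h
    refine ⟨fun i => if i ∈ supp c then 2 else 0, ?_, ?_⟩
    · apply two_val c hc 2 0 0
      · intro i
        split_ifs <;> rfl
      · norm_num
      · norm_num
      · norm_num
      · rw [sum_ind]
        rcases hw with h | h | h | h | h <;> rw [h] <;> norm_num
    · funext i
      simp only [h0, if_neg hnone, sub_zero, Int.cast_zero, add_zero]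
      rw [cast_eq]
      by_cases hi : i ∈ supp c
      · rw [if_pos hi, if_pos (by norm_num), (hsupp i).mp hi]
      · rw [if_neg hi, if_neg (by norm_num), hnsupp i hi]
  · have hnone : (none : Cfsg.GolayPt) ∈ supp c := (hsupp none).mpr hn
    refine ⟨fun i => (if i ∈ supp c then 2 else 0) - 1 -
      (if i ∈ ({none} : Finset Cfsg.GolayPt) then 4 else 0), ?_, ?_⟩
    · apply two_val c hc 1 3 1
      · intro i
        by_cases hi : i ∈ supp c
        · by_cases hi' : i ∈ ({none} : Finset Cfsg.GolayPt)
          · simp only [hi, hi', if_true]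
            norm_num
          · simp only [hi, hi', if_true, if_false]
            norm_num
        · have hi' : i ∉ ({none} : Finset Cfsg.GolayPt) := by
            intro h
            rw [Finset.mem_singleton] at h
            rw [h] at hi
            exact hi hnone
          simp only [hi, hi', if_false]
          norm_num
      · norm_num
      · norm_num
      · norm_num
      · rw [Finset.sum_sub_distrib, Finset.sum_sub_distrib, sum_ind, sum_ind, Finset.sum_const,
          hcard, Finset.card_singleton]
        rcases hw with h | h | h | h | h <;> rw [h] <;> norm_num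
    · funext i
      have hnn : (none : Cfsg.GolayPt) ∈ ({none} : Finset Cfsg.GolayPt) := Finset.mem_singleton_self _
      simp only [h0, if_pos hnone, if_pos hnn]
      rw [cast_eq, cast_eq]
      by_cases hi : i ∈ supp c
      · rw [(hsupp i).mp hi]
        by_cases hi' : i ∈ ({none} : Finset Cfsg.GolayPt)
        · simp only [hi, hi', if_true]
          decide
        · simp only [hi, hi', if_true, if_false]
          decide
      · have hi' : i ∉ ({none} : Finset Cfsg.GolayPt) := by
          intro h
          rw [Finset.mem_singleton] at h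
          rw [h] at hi
          exact hi hnone
        rw [hnsupp i hi]
        simp only [hi, hi', if_false]
        decide

/-- The homomorphism from the lattice onto the code. -/
noncomputable def hHom : ↥Cfsg.leechLattice →+ ↥Cfsg.golayCode :=
  AddMonoidHom.mk' (fun x => ⟨h0 x.1, h0_mem x.1 ((mem_lattice _).mp x.2)⟩)
    (fun x y => Subtype.ext (h0_add x.1 y.1 ((mem_lattice _).mp x.2) ((mem_lattice _).mp y.2)))

theorem hHom_surj : Function.Surjective hHom := by
  rintro ⟨c, hc⟩
  obtain ⟨x, hx, hxc⟩ := surj c hc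
  exact ⟨⟨x, (mem_lattice x).mpr hx⟩, Subtype.ext hxc⟩

theorem ker_eq : hHom.ker = A.addSubgroupOf Cfsg.leechLattice := by
  ext ⟨x, hx⟩
  rw [AddMonoidHom.mem_ker, AddSubgroup.mem_addSubgroupOf]
  rw [← h0_eq_zero_iff x ((mem_lattice x).mp hx)]
  constructor
  · intro h
    exact congrArg Subtype.val h
  · intro h
    exact Subtype.ext h

theorem index_A : (A.addSubgroupOf Cfsg.leechLattice).index = 2 ^ 12 := by
  rw [← ker_eq, AddSubgroup.index_ker, AddMonoidHom.range_eq_top_of_surjective _ hHom_surj,
    AddSubgroup.card_top, card_golay]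
  norm_num

end Cfsg.Agent.Lib.Helper9.LeechIdx
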