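import Mathlib
import Cfsg.Prelude.Def_Sporadic_a
import Cfsg.Agent.Lib.Helper9.M24M

set_option autoImplicit false

/-! Fast orbit certificates on codewords, keyed by their coordinates in the standard basis. -/

namespace Cfsg.Agent.Lib.Helper9.M24CO

open Cfsg.Agent.Lib.Helper9.Golay Cfsg.Agent.Lib.Helper9.GolayC Cfsg.Agent.Lib.Helper9.M24C
open Cfsg.Agent.Lib.Helper9.Octad Cfsg.Agent.Lib.Helper9.M24B Cfsg.Agent.Lib.Helper9.M24T
open Cfsg.Agent.Lib.Helper9.M24O
open scoped Pointwise

/-- Look up the `n`-th table and continue with it. -/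
def nthT : List (List ℕ) → ℕ → (List ℕ → Bool) → Bool
  | [], _, _ => false
  | t :: _, 0, k => k t
  | _ :: ts, n + 1, k => nthT ts n k

theorem nthT_spec : ∀ (l : List (List ℕ)) (n : ℕ) (k : List ℕ → Bool), nthT l n k = true →
    ∃ t ∈ l, k t = true := by
  intro l
  induction l with
  | nil =>
    intro n k h
    simp [nthT] at h
  | cons t ts ih =>
    intro n k h
    cases n with
    | zero => exact ⟨t, List.mem_cons_self, h⟩
    | succ n =>
      obtain ⟨t', ht', hk⟩ := ih n k h
      exact ⟨t', List.mem_cons_of_mem _ ht', hk⟩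

/-- Run an orbit certificate: entries `(c, i, c')` say that the codeword with coordinates `c`
is the preimage of the already reached codeword `c'` under generator `i`.  The result is the
bitset of reached coordinates (`0` on failure). -/
def orbC (gs : List (List ℕ)) : ℕ → List (ℕ × ℕ × ℕ) → ℕ
  | V, [] => V
  | V, (c, gi, c') :: rest =>
    bif V.testBit c' && nthT gs gi (fun t => decide (lin LB c = pmI t (lin LB c'))) then
      match V ||| (1 <<< c) with
      | 0 => 0
      | W + 1 => orbC gs (W + 1) rest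
    else 0

theorem orbC_sound (K : Subgroup (Equiv.Perm Cfsg.GolayPt)) (gs : List (List ℕ)) (c0 : ℕ)
    (hgs : ∀ t ∈ gs, ∃ g ∈ K, IsTable g t) (cert : List (ℕ × ℕ × ℕ)) :
    ∀ V : ℕ, (∀ c, V.testBit c = true →
        ∃ g ∈ K, g • maskSet (lin LB c) = maskSet (lin LB c0)) →
      ∀ c, (orbC gs V cert).testBit c = true →
        ∃ g ∈ K, g • maskSet (lin LB c) = maskSet (lin LB c0) := by
  induction cert with
  | nil =>
    intro V hV c hc
    exact hV c hc
  | cons a rest ih =>
    obtain ⟨c1, gi, c'⟩ := a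
    intro V hV c hc
    unfold orbC at hc
    by_cases hcond : (V.testBit c' && nthT gs gi (fun t => decide (lin LB c1 = pmI t (lin LB c')))) = true
    · rw [hcond, cond_true] at hc
      rw [Bool.and_eq_true] at hcond
      obtain ⟨hV', hn⟩ := hcond
      obtain ⟨t, ht, hk⟩ := nthT_spec gs gi _ hn
      rw [decide_eq_true_eq] at hk
      obtain ⟨g, hg, hT⟩ := hgs t ht
      obtain ⟨g', hg', hg'X⟩ := hV c' hV'
      have hnew : ∀ c, (V ||| (1 <<< c1)).testBit c = true →
          ∃ g ∈ K, g • maskSet (lin LB c) = maskSet (lin LB c0) := by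
        intro c2 hc2
        rw [Nat.testBit_or, Bool.or_eq_true] at hc2
        rcases hc2 with hc2 | hc2
        · exact hV c2 hc2
        · have h1 : c1 = c2 := by
            rw [Nat.one_shiftLeft, Nat.testBit_two_pow] at hc2
            simpa using hc2
          subst h1
          refine ⟨g' * g, K.mul_mem hg' hg, ?_⟩
          rw [hk, mul_smul, smul_maskSet_pmI hT, hg'X]
      split at hc
      · simp at hc
      · rename_i W hW
        have hW' : V ||| (1 <<< c1) = W + 1 := hW
        rw [← hW'] at hc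
        exact ih _ hnew c hc
    · rw [Bool.not_eq_true] at hcond
      rw [hcond, cond_false] at hc
      simp at hc

/-- The orbit bitset starting from one codeword. -/
theorem orbC_start (K : Subgroup (Equiv.Perm Cfsg.GolayPt)) (gs : List (List ℕ)) (c0 : ℕ)
    (hgs : ∀ t ∈ gs, ∃ g ∈ K, IsTable g t) (cert : List (ℕ × ℕ × ℕ)) (c : ℕ)
    (hc : (orbC gs (1 <<< c0) cert).testBit c = true) :
    ∃ g ∈ K, g • maskSet (lin LB c) = maskSet (lin LB c0) := by
  apply orbC_sound K gs c0 hgs cert (1 <<< c0) _ c hc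
  intro c2 hc2
  have h1 : c0 = c2 := by
    rw [Nat.one_shiftLeft, Nat.testBit_two_pow] at hc2
    simpa using hc2
  subst h1
  exact ⟨1, K.one_mem, one_smul _ _⟩

theorem orbC_trans (K : Subgroup (Equiv.Perm Cfsg.GolayPt)) (gs : List (List ℕ)) (c0 : ℕ)
    (hgs : ∀ t ∈ gs, ∃ g ∈ K, IsTable g t) (cert : List (ℕ × ℕ × ℕ)) (a b : ℕ)
    (ha : (orbC gs (1 <<< c0) cert).testBit a = true)
    (hb : (orbC gs (1 <<< c0) cert).testBit b = true) :
    ∃ g ∈ K, g • maskSet (lin LB a) = maskSet (lin LB b) := by
  obtain ⟨g1, hg1, h1⟩ := orbC_start K gs c0 hgs cert a ha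
  obtain ⟨g2, hg2, h2⟩ := orbC_start K gs c0 hgs cert b hb
  refine ⟨g2⁻¹ * g1, K.mul_mem (K.inv_mem hg2) hg1, ?_⟩
  rw [mul_smul, h1, ← h2, inv_smul_smul]

/-- Check that every coordinate below `4096` satisfying `p` is in the bitset. -/
def coverB (V : ℕ) (p : ℕ → Bool) : Bool :=
  match V with
  | 0 => false
  | W + 1 => (List.range 4096).all (fun c => !p c || (W + 1).testBit c)

theorem coverB_spec (V : ℕ) (p : ℕ → Bool) (h : coverB V p = true) (c : ℕ) (hc : c < 4096)
    (hp : p c = true) : V.testBit c = true := by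
  unfold coverB at h
  split at h
  · simp at h
  · rw [List.all_eq_true] at h
    have := h c (List.mem_range.mpr hc)
    rw [hp] at this
    simpa using this

end Cfsg.Agent.Lib.Helper9.M24CO
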