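import Mathlib
import Cfsg.Prelude.Def_Sporadic_a
import Cfsg.Agent.Lib.Helper9.M24DO
import Cfsg.Agent.Lib.Helper9.M24F2
import Cfsg.Agent.Lib.Helper9.M24Cnt
import Cfsg.Agent.Lib.Helper9.M24Conj
import Cfsg.Agent.Lib.Helper9.Prim

set_option autoImplicit false

/-! Maximality of the stabiliser of a pair of complementary dodecads. -/

namespace Cfsg.Agent.Lib.Helper9.M24DP

open Cfsg.Agent.Lib.Helper9.Golay Cfsg.Agent.Lib.Helper9.GolayC Cfsg.Agent.Lib.Helper9.M24C
open Cfsg.Agent.Lib.Helper9.Octad Cfsg.Agent.Lib.Helper9.M24B Cfsg.Agent.Lib.Helper9.M24T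
open Cfsg.Agent.Lib.Helper9.M24Dod Cfsg.Agent.Lib.Helper9.M24DO Cfsg.Agent.Lib.Helper9.M24F2
open Cfsg.Agent.Lib.Helper9.M24Cnt Cfsg.Agent.Lib.Helper9.M24Conj Cfsg.Agent.Lib.Helper9.Prim
open scoped Pointwise

/-- Counting unordered complementary pairs. -/
theorem pair_count {α : Type*} [Fintype α] [DecidableEq α] (S : Set (Finset α))
    (hS : ∀ e ∈ S, eᶜ ∈ S) (hne : ∀ e ∈ S, e ≠ eᶜ) :
    {P : Finset (Finset α) | ∃ e ∈ S, P = {e, eᶜ}}.ncard * 2 = S.ncard := by
  classical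
  have hmem : ∀ e, e ∈ Finset.univ.filter (fun e => e ∈ S) ↔ e ∈ S := by
    intro e
    rw [Finset.mem_filter]
    exact ⟨fun h => h.2, fun h => ⟨Finset.mem_univ _, h⟩⟩
  have hSf : S = ↑(Finset.univ.filter (fun e => e ∈ S)) := by
    ext e
    rw [Finset.mem_coe, hmem]
  generalize Finset.univ.filter (fun e => e ∈ S) = Sf at hmem hSf
  have hT : {P : Finset (Finset α) | ∃ e ∈ S, P = {e, eᶜ}} =
      ↑(Sf.image (fun e => ({e, eᶜ} : Finset (Finset α)))) := by
    ext P
    rw [Finset.mem_coe, Finset.mem_image]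
    constructor
    · rintro ⟨e, he, rfl⟩
      exact ⟨e, (hmem e).mpr he, rfl⟩
    · rintro ⟨e, he, rfl⟩
      exact ⟨e, (hmem e).mp he, rfl⟩
  rw [hT, Set.ncard_coe_finset]
  have hS2 : S.ncard = Sf.card := by rw [hSf, Set.ncard_coe_finset]
  rw [hS2]
  have h1 : Sf.card = ∑ P ∈ Sf.image (fun e => ({e, eᶜ} : Finset (Finset α))),
      (Sf.filter (fun e => ({e, eᶜ} : Finset (Finset α)) = P)).card :=
    Finset.card_eq_sum_card_fiberwise (fun e he => Finset.mem_image_of_mem _ he)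
  have h2 : ∀ P ∈ Sf.image (fun e => ({e, eᶜ} : Finset (Finset α))),
      (Sf.filter (fun e => ({e, eᶜ} : Finset (Finset α)) = P)).card = 2 := by
    intro P hP
    rw [Finset.mem_image] at hP
    obtain ⟨e0, he0, rfl⟩ := hP
    have : Sf.filter (fun e => ({e, eᶜ} : Finset (Finset α)) = {e0, e0ᶜ}) = {e0, e0ᶜ} := by
      ext e
      rw [Finset.mem_filter, Finset.mem_insert, Finset.mem_singleton]
      constructor
      · rintro ⟨-, h⟩
        have : e ∈ ({e0, e0ᶜ} : Finset (Finset α)) := by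
          rw [← h]
          exact Finset.mem_insert_self _ _
        rwa [Finset.mem_insert, Finset.mem_singleton] at this
      · rintro (rfl | rfl)
        · exact ⟨he0, rfl⟩
        · refine ⟨(hmem _).mpr (hS e0 ((hmem e0).mp he0)), ?_⟩
          rw [compl_compl, Finset.pair_comm]
    rw [this]
    exact Finset.card_pair_eq_two_iff.mpr (hne e0 ((hmem e0).mp he0))
  rw [h1, Finset.sum_congr rfl h2, Finset.sum_const, smul_eq_mul]

theorem compl_mem (e : Finset Cfsg.GolayPt) (he : e ∈ Cfsg.dodecads) : eᶜ ∈ Cfsg.dodecads := by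
  rw [Finset.compl_eq_univ_sdiff]
  exact compl_dodecad e he

theorem ne_compl (e : Finset Cfsg.GolayPt) : e ≠ eᶜ := by
  intro h
  by_cases hn : (none : Cfsg.GolayPt) ∈ e
  · have h2 : (none : Cfsg.GolayPt) ∈ eᶜ := by
      rw [← h]
      exact hn
    exact (Finset.mem_compl.mp h2) hn
  · have h2 : (none : Cfsg.GolayPt) ∈ eᶜ := Finset.mem_compl.mpr hn
    apply hn
    rw [h]
    exact h2

theorem inter_compl_card (d e : Finset Cfsg.GolayPt) (hd : d.card = 12) :
    (d ∩ eᶜ).card = 12 - (d ∩ e).card := by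
  have := Finset.card_sdiff_add_card_inter d e
  rw [Finset.sdiff_eq_inter_compl] at this
  omega

theorem smul_compl' (g : Equiv.Perm Cfsg.GolayPt) (e : Finset Cfsg.GolayPt) :
    g • eᶜ = (g • e)ᶜ := by
  rw [Finset.compl_eq_univ_sdiff, Finset.compl_eq_univ_sdiff, Finset.smul_finset_sdiff,
    Finset.smul_finset_univ]

theorem smul_pairset (g : Equiv.Perm Cfsg.GolayPt) (e : Finset Cfsg.GolayPt) :
    g • ({e, eᶜ} : Finset (Finset Cfsg.GolayPt)) = {g • e, (g • e)ᶜ} := by
  rw [Finset.smul_finset_insert, Finset.smul_finset_singleton, smul_compl']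

theorem orbit_pair (d : Finset Cfsg.GolayPt) (hd : d ∈ Cfsg.dodecads) :
    MulAction.orbit ↥Cfsg.M24 ({d, dᶜ} : Finset (Finset Cfsg.GolayPt)) =
      {P | ∃ e ∈ Cfsg.dodecads, P = {e, eᶜ}} := by
  ext P
  constructor
  · rintro ⟨g, rfl⟩
    exact ⟨(g : Equiv.Perm Cfsg.GolayPt) • d, smul_dodecad g.2 hd, smul_pairset g.1 d⟩
  · rintro ⟨e, he, rfl⟩
    obtain ⟨g, hg, hge⟩ := dodecad_trans d e hd he
    refine ⟨⟨g, hg⟩, ?_⟩
    show g • ({d, dᶜ} : Finset (Finset Cfsg.GolayPt)) = {e, eᶜ}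
    rw [smul_pairset, hge]

theorem pair_eq_iff (e f : Finset Cfsg.GolayPt) :
    ({e, eᶜ} : Finset (Finset Cfsg.GolayPt)) = {f, fᶜ} ↔ e = f ∨ e = fᶜ := by
  constructor
  · intro h
    have : e ∈ ({f, fᶜ} : Finset (Finset Cfsg.GolayPt)) := by
      rw [← h]
      exact Finset.mem_insert_self _ _
    rwa [Finset.mem_insert, Finset.mem_singleton] at this
  · rintro (rfl | rfl)
    · rfl
    · rw [compl_compl, Finset.pair_comm]

theorem cls_iff (d e : Finset Cfsg.GolayPt) (hd : d.card = 12) :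
    (∃ e' ∈ ({e, eᶜ} : Finset (Finset Cfsg.GolayPt)), (d ∩ e').card = 6) ↔ (d ∩ e).card = 6 := by
  have := inter_compl_card d e hd
  constructor
  · rintro ⟨e', he', h6⟩
    rw [Finset.mem_insert, Finset.mem_singleton] at he'
    rcases he' with rfl | rfl
    · exact h6
    · omega
  · intro h
    exact ⟨e, Finset.mem_insert_self _ _, h⟩

theorem coatom_pair (d : Finset Cfsg.GolayPt) (hd : d ∈ Cfsg.dodecads) :
    IsCoatom (MulAction.stabilizer Cfsg.M24 ({d, dᶜ} : Finset (Finset Cfsg.GolayPt))) := by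
  classical
  have hd12 : d.card = 12 := ((mem_dodecads d).mp hd).2
  obtain ⟨-, h4, h6, h8⟩ := dodecad_meet d hd
  -- intersection sizes for pairs different from the base pair
  have hsz : ∀ e ∈ Cfsg.dodecads, ({e, eᶜ} : Finset (Finset Cfsg.GolayPt)) ≠ {d, dᶜ} →
      (d ∩ e).card = 4 ∨ (d ∩ e).card = 6 ∨ (d ∩ e).card = 8 := by
    intro e he hne
    rcases dod_inter_cases hd he with h | h | h | h | h
    · exfalso
      apply hne
      rw [pair_eq_iff]
      right
      have hdis : Disjoint d e := Finset.disjoint_iff_inter_eq_empty.mpr (Finset.card_eq_zero.mp h)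
      apply Finset.eq_of_subset_of_card_le
      · intro p hp
        rw [Finset.mem_compl]
        exact fun hpd => Finset.disjoint_left.mp hdis hpd hp
      · rw [Finset.card_compl, card_pts, hd12, ((mem_dodecads e).mp he).2]
    · exact Or.inl h
    · exact Or.inr (Or.inl h)
    · exact Or.inr (Or.inr h)
    · exfalso
      apply hne
      rw [h]
  have hsz' : ∀ e : Finset Cfsg.GolayPt, ((d ∩ e).card = 4 ∨ (d ∩ e).card = 6 ∨ (d ∩ e).card = 8) →
      ({e, eᶜ} : Finset (Finset Cfsg.GolayPt)) ≠ {d, dᶜ} := by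
    intro e h heq
    rw [pair_eq_iff] at heq
    rcases heq with rfl | rfl
    · rw [Finset.inter_self] at h
      omega
    · rw [Finset.inter_compl] at h
      simp at h
  have norm8 : ∀ e ∈ Cfsg.dodecads, ((d ∩ e).card = 4 ∨ (d ∩ e).card = 8) →
      ∃ e1 ∈ Cfsg.dodecads, (d ∩ e1).card = 8 ∧
        ({e1, e1ᶜ} : Finset (Finset Cfsg.GolayPt)) = {e, eᶜ} := by
    intro e he h
    rcases h with h | h
    · refine ⟨eᶜ, compl_mem e he, ?_, ?_⟩
      · rw [inter_compl_card d e hd12, h]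
      · rw [compl_compl, Finset.pair_comm]
    · exact ⟨e, he, h, rfl⟩
  apply coatom_of_orbits (G := ↥Cfsg.M24) ({d, dᶜ} : Finset (Finset Cfsg.GolayPt)) 1288 2
    (fun i => [495, 792].getD i 0) (fun P => if ∃ e ∈ P, (d ∩ e).card = 6 then 1 else 0)
  · rw [MulAction.index_stabilizer, orbit_pair d hd]
    have := pair_count Cfsg.dodecads (fun e he => compl_mem e he) (fun e _ => ne_compl e)
    rw [card_dodecads] at this
    omega
  · norm_num
  · intro P hP hne
    show (if ∃ e ∈ P, (d ∩ e).card = 6 then 1 else 0) < 2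
    split_ifs <;> norm_num
  · intro P hP Q hQ hPne hQne hcls
    rw [orbit_pair d hd] at hP hQ
    obtain ⟨e, he, rfl⟩ := hP
    obtain ⟨f, hf, rfl⟩ := hQ
    have hcls' : (if ∃ e' ∈ ({e, eᶜ} : Finset (Finset Cfsg.GolayPt)), (d ∩ e').card = 6 then 1
        else 0) = (if ∃ e' ∈ ({f, fᶜ} : Finset (Finset Cfsg.GolayPt)), (d ∩ e').card = 6 then 1
        else 0) := hcls
    have he3 := hsz e he hPne
    have hf3 := hsz f hf hQne
    have fin : ∀ e1 f1 : Finset Cfsg.GolayPt, e1 ∈ Cfsg.dodecads → f1 ∈ Cfsg.dodecads →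
        (d ∩ e1).card = (d ∩ f1).card →
        ({e1, e1ᶜ} : Finset (Finset Cfsg.GolayPt)) = {e, eᶜ} →
        ({f1, f1ᶜ} : Finset (Finset Cfsg.GolayPt)) = {f, fᶜ} →
        ∃ k ∈ MulAction.stabilizer ↥Cfsg.M24 ({d, dᶜ} : Finset (Finset Cfsg.GolayPt)),
          k • ({e, eᶜ} : Finset (Finset Cfsg.GolayPt)) = {f, fᶜ} := by
      intro e1 f1 he1 hf1 hc hE hF
      obtain ⟨g, hg, hgd, hge⟩ := dodecad_orbits' d e1 f1 hd he1 hf1 hc
      refine ⟨⟨g, hg⟩, ?_, ?_⟩
      · show g • ({d, dᶜ} : Finset (Finset Cfsg.GolayPt)) = {d, dᶜ}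
        rw [smul_pairset, hgd]
      · show g • ({e, eᶜ} : Finset (Finset Cfsg.GolayPt)) = {f, fᶜ}
        rw [← hE, ← hF, smul_pairset, hge]
    by_cases h6 : (d ∩ e).card = 6
    · have h6f : (d ∩ f).card = 6 := by
        by_contra hno
        rw [if_pos ((cls_iff d e hd12).mpr h6),
          if_neg (fun h => hno ((cls_iff d f hd12).mp h))] at hcls'
        omega
      exact fin e f he hf (by rw [h6, h6f]) rfl rfl
    · have h6f : ¬ (d ∩ f).card = 6 := by
        intro hyes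
        rw [if_neg (fun h => h6 ((cls_iff d e hd12).mp h)),
          if_pos ((cls_iff d f hd12).mpr hyes)] at hcls'
        omega
      obtain ⟨e1, he1, h8e, hE⟩ := norm8 e he (by omega)
      obtain ⟨f1, hf1, h8f, hF⟩ := norm8 f hf (by omega)
      exact fin e1 f1 he1 hf1 (by rw [h8e, h8f]) hE hF
  · intro i hi
    rw [orbit_pair d hd]
    show {P : Finset (Finset Cfsg.GolayPt) | P ∈ {P | ∃ e ∈ Cfsg.dodecads, P = {e, eᶜ}} ∧
      P ≠ {d, dᶜ} ∧ (if ∃ e ∈ P, (d ∩ e).card = 6 then 1 else 0) = i}.ncard = [495, 792].getD i 0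
    interval_cases i
    · have hset : {P : Finset (Finset Cfsg.GolayPt) | P ∈ {P | ∃ e ∈ Cfsg.dodecads, P = {e, eᶜ}} ∧
          P ≠ {d, dᶜ} ∧ (if ∃ e ∈ P, (d ∩ e).card = 6 then 1 else 0) = 0} =
          {P : Finset (Finset Cfsg.GolayPt) | ∃ e ∈ {e : Finset Cfsg.GolayPt | e ∈ Cfsg.dodecads ∧
            ((d ∩ e).card = 4 ∨ (d ∩ e).card = 8)}, P = {e, eᶜ}} := by
        ext P
        constructor
        · rintro ⟨⟨e, he, rfl⟩, hne, hc⟩
          refine ⟨e, ⟨he, ?_⟩, rfl⟩
          have h3 := hsz e he hne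
          have hn6 : ¬ (d ∩ e).card = 6 := by
            intro h6
            rw [if_pos ((cls_iff d e hd12).mpr h6)] at hc
            omega
          omega
        · rintro ⟨e, ⟨he, h48⟩, rfl⟩
          refine ⟨⟨e, he, rfl⟩, hsz' e (by omega), ?_⟩
          rw [if_neg (fun h => by have := (cls_iff d e hd12).mp h; omega)]
      rw [hset]
      have hcnt := pair_count {e : Finset Cfsg.GolayPt | e ∈ Cfsg.dodecads ∧
          ((d ∩ e).card = 4 ∨ (d ∩ e).card = 8)} (fun e he => ⟨compl_mem e he.1, by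
            have := inter_compl_card d e hd12
            rcases he.2 with h | h
            · right; omega
            · left; omega⟩) (fun e _ => ne_compl e)
      have hun : {e : Finset Cfsg.GolayPt | e ∈ Cfsg.dodecads ∧
          ((d ∩ e).card = 4 ∨ (d ∩ e).card = 8)} =
          {e : Finset Cfsg.GolayPt | e ∈ Cfsg.dodecads ∧ (d ∩ e).card = 4} ∪
          {e : Finset Cfsg.GolayPt | e ∈ Cfsg.dodecads ∧ (d ∩ e).card = 8} := by
        ext e
        constructor
        · rintro ⟨h1, h2 | h2⟩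
          · exact Or.inl ⟨h1, h2⟩
          · exact Or.inr ⟨h1, h2⟩
        · rintro (⟨h1, h2⟩ | ⟨h1, h2⟩)
          · exact ⟨h1, Or.inl h2⟩
          · exact ⟨h1, Or.inr h2⟩
      have hdisj : Disjoint {e : Finset Cfsg.GolayPt | e ∈ Cfsg.dodecads ∧ (d ∩ e).card = 4}
          {e : Finset Cfsg.GolayPt | e ∈ Cfsg.dodecads ∧ (d ∩ e).card = 8} := by
        rw [Set.disjoint_left]
        rintro e ⟨-, h1⟩ ⟨-, h2⟩
        omega
      have h990 : {e : Finset Cfsg.GolayPt | e ∈ Cfsg.dodecads ∧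
          ((d ∩ e).card = 4 ∨ (d ∩ e).card = 8)}.ncard = 990 := by
        rw [hun, Set.ncard_union_eq hdisj (Set.toFinite _) (Set.toFinite _), h4, h8]
      rw [h990] at hcnt
      show _ = 495
      omega
    · have hset : {P : Finset (Finset Cfsg.GolayPt) | P ∈ {P | ∃ e ∈ Cfsg.dodecads, P = {e, eᶜ}} ∧
          P ≠ {d, dᶜ} ∧ (if ∃ e ∈ P, (d ∩ e).card = 6 then 1 else 0) = 1} =
          {P : Finset (Finset Cfsg.GolayPt) | ∃ e ∈ {e : Finset Cfsg.GolayPt | e ∈ Cfsg.dodecads ∧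
            (d ∩ e).card = 6}, P = {e, eᶜ}} := by
        ext P
        constructor
        · rintro ⟨⟨e, he, rfl⟩, hne, hc⟩
          refine ⟨e, ⟨he, ?_⟩, rfl⟩
          by_contra hn6
          rw [if_neg (fun h => hn6 ((cls_iff d e hd12).mp h))] at hc
          omega
        · rintro ⟨e, ⟨he, h6'⟩, rfl⟩
          refine ⟨⟨e, he, rfl⟩, hsz' e (by omega), ?_⟩
          rw [if_pos ((cls_iff d e hd12).mpr h6')]
      rw [hset]
      have hcnt := pair_count {e : Finset Cfsg.GolayPt | e ∈ Cfsg.dodecads ∧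
          (d ∩ e).card = 6} (fun e he => ⟨compl_mem e he.1, by
            have := inter_compl_card d e hd12
            have := he.2
            omega⟩) (fun e _ => ne_compl e)
      rw [h6] at hcnt
      show _ = 792
      omega
  · decide

end Cfsg.Agent.Lib.Helper9.M24DP
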