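import Mathlib
import Cfsg.Prelude.Def_Sporadic_a
import Cfsg.Agent.Lib.Helper9.M24F

set_option autoImplicit false

/-! Orbits of a flag stabiliser on codewords (generated certificates). -/

namespace Cfsg.Agent.Lib.Helper9.M24FA

open Cfsg.Agent.Lib.Helper9.Golay Cfsg.Agent.Lib.Helper9.GolayC Cfsg.Agent.Lib.Helper9.M24C
open Cfsg.Agent.Lib.Helper9.Octad Cfsg.Agent.Lib.Helper9.M24B Cfsg.Agent.Lib.Helper9.M24T
open Cfsg.Agent.Lib.Helper9.M24O Cfsg.Agent.Lib.Helper9.M24Oct Cfsg.Agent.Lib.Helper9.M24OS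
open Cfsg.Agent.Lib.Helper9.M24Dod Cfsg.Agent.Lib.Helper9.M24M Cfsg.Agent.Lib.Helper9.M24CO
open Cfsg.Agent.Lib.Helper9.M24DO Cfsg.Agent.Lib.Helper9.M24Cnt Cfsg.Agent.Lib.Helper9.M24Cnt2
open Cfsg.Agent.Lib.Helper9.M24F
open scoped Pointwise

def PRA : List (ℕ × ℕ) := [(0, 2), (1, 2), (2, 0), (12, 0), (223, 0), (36, 1), (224, 0), (224, 2), (225, 2), (226, 0), (227, 0), (228, 2), (229, 0), (229, 2), (230, 0), (231, 2), (5, 2), (232, 2), (233, 1), (21, 0), (234, 0), (235, 0), (236, 0), (237, 0), (238, 0), (240, 0), (241, 0), (242, 0), (243, 1), (244, 0), (245, 0), (246, 1), (247, 0), (248, 1), (26, 2), (249, 2), (250, 0), (251, 2), (252, 1), (254, 0), (259, 0), (258, 0), (257, 257), (257, 265), (265, 265), (267, 267), (266, 268), (264, 269), (262, 2), (256, 256), (272, 272), (272, 273), (273, 273), (275, 275), (274, 276), (271, 277), (263, 0), (261, 261), (280, 280), (280, 281), (279, 282), (260, 2), (255,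 255), (285, 285), (285, 286), (284, 287), (253, 0), (239, 239), (290, 290), (290, 291), (289, 292), (270, 283), (283, 283), (283, 288), (295, 270), (294, 294), (294, 298), (297, 299), (270, 278), (283, 295), (301, 302), (293, 293), (288, 270), (296, 296), (296, 306), (306, 306), (308, 308), (307, 309), (305, 310), (295, 278), (270, 270), (313, 313), (270, 314), (312, 315), (270, 293), (317, 315), (304, 295)]

def GA : List (List ℕ) := [[0, 5, 2, 3, 13, 17, 21, 16, 7, 11, 10, 12, 9, 20, 14, 6, 8, 1, 22, 18, 4, 15, 19, 23],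
  [14, 2, 0, 1, 18, 5, 11, 22, 4, 10, 7, 19, 15, 9, 3, 8, 6, 17, 12, 20, 16, 21, 13, 23],
  [14, 3, 5, 17, 7, 2, 15, 21, 12, 10, 6, 20, 19, 13, 0, 18, 8, 1, 22, 11, 16, 4, 9, 23],
  [1, 14, 3, 2, 20, 5, 13, 11, 8, 7, 15, 16, 12, 21, 17, 10, 9, 0, 4, 18, 19, 22, 6, 23],
  [0, 1, 17, 3, 4, 2, 7, 22, 16, 15, 18, 20, 8, 9, 14, 13, 12, 5, 21, 11, 19, 10, 6, 23],
  [17, 1, 0, 3, 21, 5, 22, 10, 6, 18, 19, 4, 9, 16, 14, 15, 20, 2, 12, 7, 13, 11, 8, 23]]

set_option maxRecDepth 100000 in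
theorem runA : ∀ t ∈ GA, t ∈ run TT PRA := by decide +kernel

set_option maxRecDepth 100000 in
theorem okA : ∀ t ∈ GA, ksOk 8536111 [23] t = true := by decide +kernel

theorem memA : ∀ t ∈ GA, ∃ g ∈ KS 8536111 [23], IsTable g t :=
  ks_mem PRA GA 8536111 [23] runA okA

def cA2 : ℕ := 2098

set_option maxRecDepth 100000 in
def QA2 : List (ℕ × ℕ × ℕ) := [(3683, 0, 2098), (2959, 1, 2098), (3426, 2, 2098), (2616, 3, 2098), (3807, 4, 2098), (3254, 5, 2098), (2651, 0, 3683), (3788, 1, 3683), (4023, 2, 3683), (4068, 3, 3683), (2819, 4, 3683), (2410, 5, 3683), (2534, 0, 2959), (3225, 1, 2959), (2190, 2, 2959), (2248, 3, 2959), (2775, 0, 3426), (2860, 1, 3426), (2518, 2, 3426), (3621, 3, 3426), (3130, 4, 3426), (3453, 5, 3426), (2483, 0, 2616), (3191, 1, 2616), (3496, 2, 2616), (2988, 3, 2616), (3469, 4, 2616), (2912, 5, 2616), (3410, 0, 3807), (3285, 3, 3807), (2205, 2, 3254), (2680, 4, 3254), (3533, 5, 3254),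 (2501, 2, 2651), (3113, 5, 2651), (3393, 0, 3788), (3078, 1, 3788), (3770, 3, 3788), (3823, 4, 3788), (3109, 5, 3788), (3895, 1, 4023), (3836, 2, 4023), (3148, 3, 4023), (2522, 5, 4023), (3737, 0, 4068), (3475, 1, 4068), (2283, 2, 4068), (4039, 4, 4068), (2285, 5, 4068), (3550, 1, 2819), (2425, 2, 2819), (3502, 3, 2819), (2848, 4, 2819), (2867, 1, 2410), (3318, 3, 2410), (3648, 5, 2410), (2676, 1, 2534), (2448, 3, 2534), (2162, 1, 3225), (2364, 2, 3225), (2156, 3, 3225), (2148, 4, 3225), (2313, 3, 2190), (3645, 2, 2248), (3590, 3, 2775), (3695, 5, 2775), (3963, 1, 2860), (2264, 2, 2860), (2127, 3, 2860), (3667, 2, 2518), (2901, 0, 3621), (2589, 1, 3621), (3941, 2, 3621), (2960, 1, 3130), (3979, 5, 3130), (2373, 0, 3453), (2573, 2, 3453), (3296, 4, 3453), (2918, 5, 3453), (3754, 0, 2483), (3614, 0, 3191), (2909, 5, 3191), (2119, 0, 3496), (2291, 2, 3496), (2553, 4, 3496), (3860, 1, 2988), (3312, 3, 2988),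 (2942, 1, 3469), (3065, 0, 2912), (3275, 1, 2912), (3348, 2, 2912), (2454, 5, 2912), (2690, 0, 3285), (3010, 1, 3285), (2692, 5, 3285), (3928, 3, 2680), (2831, 5, 2501), (2209, 1, 3393), (3918, 4, 3078), (2737, 2, 3109), (3164, 2, 3895), (3332, 0, 3148), (3304, 2, 3737), (3036, 3, 3648), (3713, 3, 2676), (4049, 4, 2676), (2606, 0, 2448), (2327, 1, 2162), (2598, 1, 2313), (3199, 5, 2264), (4082, 3, 2901)]

set_option maxRecDepth 100000 in
theorem covA2 : coverB (orbC GA (1 <<< cA2) QA2) (selL 8 [(8536111, 2), (8388608, 1)]) = true := by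
  decide +kernel

set_option maxRecDepth 100000 in
theorem cntA2 : (List.range 4096).countP (selL 8 [(8536111, 2), (8388608, 1)]) = 112 := by
  decide +kernel

def cA4 : ℕ := 2073

set_option maxRecDepth 100000 in
def QA4 : List (ℕ × ℕ × ℕ) := [(3993, 0, 2073), (3933, 1, 2073), (3474, 2, 2073), (2813, 3, 2073), (2229, 4, 2073), (2799, 5, 2073), (3213, 0, 3993), (3730, 1, 3993), (2802, 2, 3993), (2126, 3, 3993), (2629, 5, 3993), (3944, 0, 3933), (2578, 1, 3933), (3992, 2, 3933), (3361, 3, 3933), (2332, 4, 3933), (2323, 5, 3933), (2906, 0, 3474), (2666, 1, 3474), (3991, 2, 3474), (2105, 3, 3474), (3087, 4, 3474), (3689, 5, 3474), (2641, 0, 2813), (3063, 1, 2813), (3437, 2, 2813), (3872, 3, 2813), (3020, 4, 2813), (2672, 0, 2229), (3753, 1, 2229), (3108, 2, 2229), (3631, 3, 2229), (2436, 4, 2229), (2251, 1, 2799), (3244, 3, 2799), (2369, 5, 2799), (3335, 1, 3213), (2646, 2, 3213), (2731, 3, 3213), (3914,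 4, 3213), (3025, 5, 3213), (3210, 1, 3730), (3161, 2, 3730), (2075, 3, 3730), (3058, 4, 3730), (2851, 0, 2802), (2529, 1, 2802), (2933, 3, 2802), (3184, 0, 2126), (2958, 1, 2126), (2772, 2, 2126), (2370, 3, 2126), (3653, 4, 2126), (3556, 5, 2126), (2983, 0, 2629), (3958, 1, 2629), (4017, 2, 2629), (2357, 3, 2629), (3539, 4, 2629), (2504, 5, 2629), (3284, 1, 3944), (2981, 1, 2578), (2295, 2, 2578), (2698, 3, 2578), (3779, 5, 2578), (2477, 3, 3992), (2495, 5, 3992), (3578, 2, 3361), (2480, 0, 2332), (3155, 1, 2332), (3870, 3, 2332), (2242, 0, 2323), (3734, 2, 2323), (2891, 3, 2323), (3098, 4, 2323), (2276, 0, 2906), (3234, 0, 2666), (3600, 2, 2666), (4047, 4, 2666), (3576, 0, 3991), (3972, 1, 3991), (3773, 2, 3991), (3295, 4, 3991), (4065, 5, 3991), (2542, 0, 2105), (4078, 1, 2105), (2889, 3, 2105), (2347, 4, 2105), (3414, 1, 3087), (2683, 3, 3087), (3235, 4, 3087), (3123, 5, 3087), (3537, 0, 3689), (2729,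 2, 3689), (4024, 0, 2641), (2563, 1, 2641), (3291, 2, 2641), (3338, 0, 3063), (3939, 4, 3063), (2362, 1, 3437), (2102, 2, 3437), (3452, 0, 3872), (3457, 2, 3872), (3003, 5, 3872), (3391, 1, 3020), (3563, 5, 3020), (3901, 3, 3753), (3776, 4, 3753), (2824, 0, 3108), (2750, 3, 3108), (2761, 4, 3108), (2399, 4, 3631), (3654, 5, 3631), (3633, 0, 2436), (2145, 1, 2436), (2239, 3, 2436), (2711, 0, 2251), (3336, 5, 2251), (3764, 1, 3244), (2812, 3, 3244), (3374, 2, 2369), (3672, 4, 2369), (4002, 3, 3335), (3093, 4, 3335), (2996, 0, 2646), (2360, 5, 3025), (2693, 1, 3161), (2087, 3, 3161), (3867, 1, 2772), (2954, 3, 2772), (2430, 1, 4017), (2206, 2, 2357), (3495, 2, 2295), (3371, 3, 2698), (3818, 4, 2242), (3868, 0, 3234), (3686, 5, 3600), (3573, 2, 4078), (2204, 2, 2729)]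

set_option maxRecDepth 100000 in
theorem covA4 : coverB (orbC GA (1 <<< cA4) QA4) (selL 8 [(8536111, 4), (8388608, 1)]) = true := by
  decide +kernel

set_option maxRecDepth 100000 in
theorem cntA4 : (List.range 4096).countP (selL 8 [(8536111, 4), (8388608, 1)]) = 140 := by
  decide +kernel

theorem selA_iff (k : ℕ) (s : Finset Cfsg.GolayPt) :
    SelL Cfsg.octads [(OM, k), (1 <<< 23, 1)] s ↔
      s ∈ Cfsg.octads ∧ ptOf 23 ∈ s ∧ (Oset ∩ s).card = k := by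
  rw [selL2, mem_iff_card (ptOf 23) s, idx_ptOf 23 (by norm_num)]
  unfold Oset
  exact ⟨fun ⟨a, b, c⟩ => ⟨a, c, b⟩, fun ⟨a, b, c⟩ => ⟨a, c, b⟩⟩

theorem stdA_cnt (k n : ℕ) (h : (List.range 4096).countP (selL 8 [(OM, k), (1 <<< 23, 1)]) = n) :
    {o' : Finset Cfsg.GolayPt | o' ∈ Cfsg.octads ∧ ptOf 23 ∈ o' ∧ (Oset ∩ o').card = k}.ncard
      = n := by
  have e : {o' : Finset Cfsg.GolayPt | o' ∈ Cfsg.octads ∧ ptOf 23 ∈ o' ∧ (Oset ∩ o').card = k} =
      {s | SelL Cfsg.octads [(OM, k), (1 <<< 23, 1)] s} := by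
    ext s
    exact (selA_iff k s).symm
  rw [e, ncard_sel8, h]

theorem pt23_mem : ptOf 23 ∈ Oset := by
  unfold Oset
  rw [mem_maskSet, idx_ptOf 23 (by norm_num)]
  have h := B_mem_O 0 (by norm_num)
  rw [idx_B 0 (by norm_num)] at h
  have hb : BASE.getD 0 0 = 23 := rfl
  rw [hb] at h
  exact h

theorem stdA_orb (o' o'' : Finset Cfsg.GolayPt) (ho' : o' ∈ Cfsg.octads)
    (ho'' : o'' ∈ Cfsg.octads) (hx' : ptOf 23 ∈ o') (hx'' : ptOf 23 ∈ o'')
    (h : (Oset ∩ o').card = (Oset ∩ o'').card) : ∃ g ∈ KS OM [23], g • o' = o'' := by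
  have hpos : ∀ s : Finset Cfsg.GolayPt, ptOf 23 ∈ s → (Oset ∩ s).card ≠ 0 := by
    intro s hs h0
    rw [Finset.card_eq_zero] at h0
    have : ptOf 23 ∈ Oset ∩ s := Finset.mem_inter.mpr ⟨pt23_mem, hs⟩
    rw [h0] at this
    simp at this
  have h8 : Oset.card = 8 := ((mem_octads _).mp Oset_mem).2
  rcases inter_cases Oset_mem ho' with h0 | h2 | h4 | h8'
  · exact absurd h0 (hpos o' hx')
  · exact orb_sel8 _ GA memA _ cA2 QA2 covA2 o' o'' ((selA_iff 2 o').mpr ⟨ho', hx', h2⟩)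
      ((selA_iff 2 o'').mpr ⟨ho'', hx'', by omega⟩)
  · exact orb_sel8 _ GA memA _ cA4 QA4 covA4 o' o'' ((selA_iff 4 o').mpr ⟨ho', hx', h4⟩)
      ((selA_iff 4 o'').mpr ⟨ho'', hx'', by omega⟩)
  · rw [← h8', Finset.inter_self, h8] at h
    have : Oset = o'' := by
      rcases inter_cases Oset_mem ho'' with h0 | h2 | h4 | h8''
      · omega
      · omega
      · omega
      · exact h8''
    exact ⟨1, one_mem _, by rw [one_smul, ← h8', this]⟩

/-- Rank 3 action of a point stabiliser on the octads through the point. -/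
theorem thmA (x : Cfsg.GolayPt) (o : Finset Cfsg.GolayPt) (ho : o ∈ Cfsg.octads) (hx : x ∈ o) :
    {o' : Finset Cfsg.GolayPt | o' ∈ Cfsg.octads ∧ x ∈ o' ∧ (o ∩ o').card = 2}.ncard = 112 ∧
    {o' : Finset Cfsg.GolayPt | o' ∈ Cfsg.octads ∧ x ∈ o' ∧ (o ∩ o').card = 4}.ncard = 140 ∧
    ∀ o' o'' : Finset Cfsg.GolayPt, o' ∈ Cfsg.octads → o'' ∈ Cfsg.octads → x ∈ o' → x ∈ o'' →
      (o ∩ o').card = (o ∩ o'').card →
      ∃ g : Equiv.Perm Cfsg.GolayPt, g ∈ Cfsg.M24 ∧ g x = x ∧ g • o = o ∧ g • o' = o'' := by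
  obtain ⟨g0, hg0, rfl, hg0x⟩ := flag_trans o ho (fun _ => x) 1 (by norm_num) (fun _ _ => hx)
    (fun i hi j hj _ => by omega)
  have hx0 : g0 (ptOf 23) = x := hg0x 0 (by norm_num)
  subst hx0
  have htr : ∀ k : ℕ, ∀ s : Finset Cfsg.GolayPt,
      g0 • s ∈ {o' : Finset Cfsg.GolayPt | o' ∈ Cfsg.octads ∧ g0 (ptOf 23) ∈ o' ∧
        (g0 • Oset ∩ o').card = k} ↔
      s ∈ {o' : Finset Cfsg.GolayPt | o' ∈ Cfsg.octads ∧ ptOf 23 ∈ o' ∧
        (Oset ∩ o').card = k} := by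
    intro k s
    exact ⟨fun ⟨h1, h2, h3⟩ => ⟨(smul_octad_iff hg0 s).mp h1, (mem_smul_iff g0 _ s).mp h2,
        by rw [← card_inter_smul g0]; exact h3⟩,
      fun ⟨h1, h2, h3⟩ => ⟨(smul_octad_iff hg0 s).mpr h1, (mem_smul_iff g0 _ s).mpr h2,
        by rw [card_inter_smul g0]; exact h3⟩⟩
  refine ⟨?_, ?_, ?_⟩
  · rw [ncard_transfer g0 _ _ (htr 2)]
    exact stdA_cnt 2 112 cntA2
  · rw [ncard_transfer g0 _ _ (htr 4)]
    exact stdA_cnt 4 140 cntA4
  · intro o' o'' ho' ho'' hx' hx'' h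
    obtain ⟨k, hk, hko⟩ := stdA_orb (g0⁻¹ • o') (g0⁻¹ • o'') (smul_octad (inv_mem hg0) ho')
      (smul_octad (inv_mem hg0) ho'') ((inv_smul_mem_iff g0 _ o').mpr hx')
      ((inv_smul_mem_iff g0 _ o'').mpr hx'')
      (by rw [card_inter_inv_smul, card_inter_inv_smul]; exact h)
    obtain ⟨c1, c2, c3, c4⟩ := conj_KS g0 k hg0 OM [23] hk
    exact ⟨g0 * k * g0⁻¹, c1, c3 23 (by simp), c2, c4 o' o'' hko⟩

end Cfsg.Agent.Lib.Helper9.M24FA
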