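import Mathlib
import Cfsg.Prelude.Def_Sporadic_a
import Cfsg.Agent.Lib.Helper9.M24F

set_option autoImplicit false

/-! Orbits of a flag stabiliser on codewords (generated certificates). -/

namespace Cfsg.Agent.Lib.Helper9.M24FC

open Cfsg.Agent.Lib.Helper9.Golay Cfsg.Agent.Lib.Helper9.GolayC Cfsg.Agent.Lib.Helper9.M24C
open Cfsg.Agent.Lib.Helper9.Octad Cfsg.Agent.Lib.Helper9.M24B Cfsg.Agent.Lib.Helper9.M24T
open Cfsg.Agent.Lib.Helper9.M24O Cfsg.Agent.Lib.Helper9.M24Oct Cfsg.Agent.Lib.Helper9.M24OS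
open Cfsg.Agent.Lib.Helper9.M24Dod Cfsg.Agent.Lib.Helper9.M24M Cfsg.Agent.Lib.Helper9.M24CO
open Cfsg.Agent.Lib.Helper9.M24DO Cfsg.Agent.Lib.Helper9.M24Cnt Cfsg.Agent.Lib.Helper9.M24Cnt2
open Cfsg.Agent.Lib.Helper9.M24F
open scoped Pointwise

def PRCx : List (ℕ × ℕ) := [(0, 2), (1, 2), (2, 0), (12, 0), (223, 0), (36, 1), (224, 0), (224, 2), (225, 2), (226, 0), (227, 0), (228, 2), (229, 0), (229, 2), (230, 0), (231, 2), (5, 2), (232, 2), (233, 1), (21, 0), (234, 0), (235, 0), (236, 0), (237, 0), (238, 0), (240, 0), (241, 0), (242, 0), (243, 1), (244, 0), (245, 0), (246, 1), (247, 0), (248, 1), (26, 2), (249, 2), (250, 0), (251, 2), (252, 1), (254, 0), (259, 0), (258, 0), (257, 257), (257, 265), (265, 265), (267, 267), (266, 268), (264, 269), (262, 2), (256, 256), (272, 272), (272, 273), (273, 273), (275, 275), (274, 276), (271, 277), (263, 0), (261, 261), (280, 280), (280, 281), (279, 282), (260,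 2), (255, 255), (285, 285), (285, 286), (284, 287), (253, 0), (239, 239), (290, 290), (290, 291), (289, 292), (270, 283), (283, 283), (283, 288), (295, 270), (294, 294), (294, 298), (297, 299), (270, 278), (283, 295), (301, 302), (293, 293), (288, 270), (296, 296), (296, 306), (306, 306), (308, 308), (307, 309), (305, 310), (295, 278), (270, 270), (313, 313), (270, 314), (312, 315), (304, 295), (303, 303), (303, 311), (303, 316), (320, 317), (320, 320), (320, 322), (321, 323), (303, 300), (318, 318), (325, 326), (326, 326), (319, 303), (319, 319), (330, 330), (329, 331), (311, 300), (311, 311), (334, 334), (311, 335), (333, 336), (318, 317), (338, 328)]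

def GCx : List (List ℕ) := [[0, 2, 14, 3, 9, 5, 16, 7, 12, 11, 20, 4, 19, 6, 1, 22, 13, 17, 15, 8, 21, 10, 18, 23],
  [0, 1, 5, 3, 22, 17, 4, 7, 11, 16, 19, 21, 13, 20, 14, 10, 18, 2, 9, 15, 12, 8, 6, 23],
  [0, 1, 2, 3, 10, 14, 16, 4, 18, 19, 7, 8, 12, 9, 17, 21, 20, 5, 11, 13, 6, 22, 15, 23],
  [0, 5, 2, 14, 8, 3, 4, 11, 16, 7, 9, 21, 15, 20, 17, 22, 19, 1, 18, 6, 12, 10, 13, 23],
  [0, 3, 1, 2, 18, 5, 6, 13, 12, 11, 20, 22, 21, 16, 14, 4, 7, 17, 15, 10, 19, 8, 9, 23],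
  [0, 1, 2, 17, 4, 5, 10, 15, 7, 18, 11, 6, 21, 22, 3, 8, 13, 14, 19, 9, 12, 20, 16, 23]]

set_option maxRecDepth 100000 in
theorem runCx : ∀ t ∈ GCx, t ∈ run TT PRCx := by decide +kernel

set_option maxRecDepth 100000 in
theorem okCx : ∀ t ∈ GCx, ksOk 8536111 [23, 0] t = true := by decide +kernel

theorem memCx : ∀ t ∈ GCx, ∃ g ∈ KS 8536111 [23, 0], IsTable g t :=
  ks_mem PRCx GCx 8536111 [23, 0] runCx okCx

def cCx2 : ℕ := 2205

set_option maxRecDepth 100000 in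
def QCx2 : List (ℕ × ℕ × ℕ) := [(3393, 0, 2205), (3426, 1, 2205), (4023, 2, 2205), (3550, 4, 2205), (3667, 5, 2205), (2959, 0, 3393), (2867, 1, 3393), (3788, 2, 3393), (2425, 3, 3393), (3823, 5, 3393), (2988, 3, 3426), (2501, 0, 4023), (3130, 1, 4023), (2775, 4, 3550), (2534, 5, 3550)]

set_option maxRecDepth 100000 in
theorem covCx2 : coverB (orbC GCx (1 <<< cCx2) QCx2) (selL 8 [(8536111, 2), (8388608, 1), (1, 1)]) = true := by
  decide +kernel

set_option maxRecDepth 100000 in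
theorem cntCx2 : (List.range 4096).countP (selL 8 [(8536111, 2), (8388608, 1), (1, 1)]) = 16 := by
  decide +kernel

def cCx4 : ℕ := 2087

set_option maxRecDepth 100000 in
def QCx4 : List (ℕ × ℕ × ℕ) := [(2332, 0, 2087), (3087, 1, 2087), (3944, 2, 2087), (3184, 4, 2087), (3108, 5, 2087), (2906, 0, 2332), (2251, 1, 2332), (3933, 2, 2332), (3058, 3, 2332), (3753, 4, 2332), (2370, 5, 2332), (2357, 1, 3087), (3235, 3, 3087), (3495, 4, 3087), (3093, 0, 3944), (3161, 1, 3944), (2105, 3, 3944), (3210, 4, 3944), (2683, 1, 3184), (3992, 2, 3184), (3776, 3, 3184), (2996, 4, 3184), (2347, 5, 3184), (3025, 0, 3108), (2761, 1, 3108), (2646, 2, 3108), (3972, 3, 3108), (2851, 1, 2906), (2824, 4, 2906), (3284, 5, 2906), (2578, 0, 2251), (3452, 3, 2251), (4065, 4, 2251), (3730, 1, 3058), (2812, 2, 3058), (3573, 3, 3058), (2711, 4, 3058), (3335, 5, 3058), (2750, 0, 3753), (2480, 2, 3753), (2933, 4, 3753), (2802,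 4, 2370), (2145, 0, 2357), (3374, 2, 2357), (2693, 4, 2357), (2126, 5, 2357), (3563, 1, 3235), (3773, 3, 3093), (3155, 5, 3093), (3872, 1, 2105), (2542, 5, 2683), (3474, 0, 3992), (2276, 2, 3992), (3958, 4, 3992), (3734, 2, 3776), (3867, 3, 2761), (4017, 4, 2824), (3686, 3, 3573), (3653, 4, 3573)]

set_option maxRecDepth 100000 in
theorem covCx4 : coverB (orbC GCx (1 <<< cCx4) QCx4) (selL 8 [(8536111, 4), (8388608, 1), (1, 1)]) = true := by
  decide +kernel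

set_option maxRecDepth 100000 in
theorem cntCx4 : (List.range 4096).countP (selL 8 [(8536111, 4), (8388608, 1), (1, 1)]) = 60 := by
  decide +kernel

theorem selC_iff (k : ℕ) (s : Finset Cfsg.GolayPt) :
    SelL Cfsg.octads [(OM, k), (1 <<< 23, 1), (1 <<< 0, 1)] s ↔
      s ∈ Cfsg.octads ∧ ptOf 23 ∈ s ∧ ptOf 0 ∈ s ∧ (Oset ∩ s).card = k := by
  rw [selL3, mem_iff_card (ptOf 23) s, idx_ptOf 23 (by norm_num), mem_iff_card (ptOf 0) s,
    idx_ptOf 0 (by norm_num)]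
  unfold Oset
  exact ⟨fun ⟨a, b, c, d⟩ => ⟨a, c, d, b⟩, fun ⟨a, b, c, d⟩ => ⟨a, d, b, c⟩⟩

theorem stdC_cnt (k n : ℕ)
    (h : (List.range 4096).countP (selL 8 [(OM, k), (1 <<< 23, 1), (1 <<< 0, 1)]) = n) :
    {o' : Finset Cfsg.GolayPt | o' ∈ Cfsg.octads ∧ ptOf 23 ∈ o' ∧ ptOf 0 ∈ o' ∧
      (Oset ∩ o').card = k}.ncard = n := by
  have e : {o' : Finset Cfsg.GolayPt | o' ∈ Cfsg.octads ∧ ptOf 23 ∈ o' ∧ ptOf 0 ∈ o' ∧
      (Oset ∩ o').card = k} = {s | SelL Cfsg.octads [(OM, k), (1 <<< 23, 1), (1 <<< 0, 1)] s} := by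
    ext s
    exact (selC_iff k s).symm
  rw [e, ncard_sel8, h]

theorem pt23_mem : ptOf 23 ∈ Oset := by
  unfold Oset
  rw [mem_maskSet, idx_ptOf 23 (by norm_num)]
  have h := B_mem_O 0 (by norm_num)
  rw [idx_B 0 (by norm_num)] at h
  have hb : BASE.getD 0 0 = 23 := rfl
  rw [hb] at h
  exact h

theorem stdC_orb (o' o'' : Finset Cfsg.GolayPt) (ho' : o' ∈ Cfsg.octads)
    (ho'' : o'' ∈ Cfsg.octads) (hx' : ptOf 23 ∈ o') (hx'' : ptOf 23 ∈ o'')
    (hy' : ptOf 0 ∈ o') (hy'' : ptOf 0 ∈ o'')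
    (h : (Oset ∩ o').card = (Oset ∩ o'').card) : ∃ g ∈ KS OM [23, 0], g • o' = o'' := by
  have hpos : ∀ s : Finset Cfsg.GolayPt, ptOf 23 ∈ s → (Oset ∩ s).card ≠ 0 := by
    intro s hs h0
    rw [Finset.card_eq_zero] at h0
    have : ptOf 23 ∈ Oset ∩ s := Finset.mem_inter.mpr ⟨pt23_mem, hs⟩
    rw [h0] at this
    simp at this
  have h8 : Oset.card = 8 := ((mem_octads _).mp Oset_mem).2
  rcases inter_cases Oset_mem ho' with h0 | h2 | h4 | h8'
  · exact absurd h0 (hpos o' hx')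
  · exact orb_sel8 _ GCx memCx _ cCx2 QCx2 covCx2 o' o'' ((selC_iff 2 o').mpr ⟨ho', hx', hy', h2⟩)
      ((selC_iff 2 o'').mpr ⟨ho'', hx'', hy'', by omega⟩)
  · exact orb_sel8 _ GCx memCx _ cCx4 QCx4 covCx4 o' o'' ((selC_iff 4 o').mpr ⟨ho', hx', hy', h4⟩)
      ((selC_iff 4 o'').mpr ⟨ho'', hx'', hy'', by omega⟩)
  · rw [← h8', Finset.inter_self, h8] at h
    have : Oset = o'' := by
      rcases inter_cases Oset_mem ho'' with h0 | h2 | h4 | h8''
      · omega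
      · omega
      · omega
      · exact h8''
    exact ⟨1, one_mem _, by rw [one_smul, ← h8', this]⟩

/-- The stabiliser of two points and an octad through them, acting on the octads through the
two points. -/
theorem thmC (p q : Cfsg.GolayPt) (hpq : p ≠ q) (o o' o'' : Finset Cfsg.GolayPt)
    (ho : o ∈ Cfsg.octads) (ho' : o' ∈ Cfsg.octads) (ho'' : o'' ∈ Cfsg.octads)
    (hp : p ∈ o ∧ p ∈ o' ∧ p ∈ o'') (hq : q ∈ o ∧ q ∈ o' ∧ q ∈ o'')
    (h : (o ∩ o').card = (o ∩ o'').card) :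
    {x : Finset Cfsg.GolayPt | x ∈ Cfsg.octads ∧ p ∈ x ∧ q ∈ x ∧ (o ∩ x).card = 2}.ncard = 16 ∧
    {x : Finset Cfsg.GolayPt | x ∈ Cfsg.octads ∧ p ∈ x ∧ q ∈ x ∧ (o ∩ x).card = 4}.ncard = 60 ∧
    ∃ g : Equiv.Perm Cfsg.GolayPt, g ∈ Cfsg.M24 ∧ g p = p ∧ g q = q ∧ g • o = o ∧
      g • o' = o'' := by
  obtain ⟨g0, hg0, rfl, hg0x⟩ := flag_trans o ho (fun i => if i = 0 then p else q) 2
    (by norm_num)
    (fun i hi => by
      by_cases h0 : i = 0
      · simp only [h0, if_true]; exact hp.1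
      · simp only [h0, if_false]; exact hq.1)
    (fun i hi j hj h => by
      by_cases hi0 : i = 0 <;> by_cases hj0 : j = 0 <;>
        simp only [hi0, hj0, if_true, if_false] at h
      · omega
      · exact absurd h hpq
      · exact absurd h.symm hpq
      · omega)
  have hp0 : g0 (ptOf 23) = p := hg0x 0 (by norm_num)
  have hq0 : g0 (ptOf 0) = q := hg0x 1 (by norm_num)
  subst hp0 hq0
  have htr : ∀ k : ℕ, ∀ s : Finset Cfsg.GolayPt,
      g0 • s ∈ {x : Finset Cfsg.GolayPt | x ∈ Cfsg.octads ∧ g0 (ptOf 23) ∈ x ∧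
        g0 (ptOf 0) ∈ x ∧ (g0 • Oset ∩ x).card = k} ↔
      s ∈ {o' : Finset Cfsg.GolayPt | o' ∈ Cfsg.octads ∧ ptOf 23 ∈ o' ∧ ptOf 0 ∈ o' ∧
        (Oset ∩ o').card = k} := by
    intro k s
    exact ⟨fun ⟨h1, h2, h2', h3⟩ => ⟨(smul_octad_iff hg0 s).mp h1, (mem_smul_iff g0 _ s).mp h2,
        (mem_smul_iff g0 _ s).mp h2', by rw [← card_inter_smul g0]; exact h3⟩,
      fun ⟨h1, h2, h2', h3⟩ => ⟨(smul_octad_iff hg0 s).mpr h1, (mem_smul_iff g0 _ s).mpr h2,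
        (mem_smul_iff g0 _ s).mpr h2', by rw [card_inter_smul g0]; exact h3⟩⟩
  refine ⟨?_, ?_, ?_⟩
  · rw [ncard_transfer g0 _ _ (htr 2)]
    exact stdC_cnt 2 16 cntCx2
  · rw [ncard_transfer g0 _ _ (htr 4)]
    exact stdC_cnt 4 60 cntCx4
  · obtain ⟨k, hk, hko⟩ := stdC_orb (g0⁻¹ • o') (g0⁻¹ • o'') (smul_octad (inv_mem hg0) ho')
      (smul_octad (inv_mem hg0) ho'') ((inv_smul_mem_iff g0 _ o').mpr hp.2.1)
      ((inv_smul_mem_iff g0 _ o'').mpr hp.2.2) ((inv_smul_mem_iff g0 _ o').mpr hq.2.1)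
      ((inv_smul_mem_iff g0 _ o'').mpr hq.2.2)
      (by rw [card_inter_inv_smul, card_inter_inv_smul]; exact h)
    obtain ⟨c1, c2, c3, c4⟩ := conj_KS g0 k hg0 OM [23, 0] hk
    exact ⟨g0 * k * g0⁻¹, c1, c3 23 (by simp), c3 0 (by simp), c2, c4 o' o'' hko⟩

end Cfsg.Agent.Lib.Helper9.M24FC
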