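import Mathlib
import Cfsg.Prelude.Def_Sporadic_a
import Cfsg.Agent.Lib.Helper9.M24F

set_option autoImplicit false

/-! Orbits of a flag stabiliser on codewords (generated certificates). -/

namespace Cfsg.Agent.Lib.Helper9.M24FE

open Cfsg.Agent.Lib.Helper9.Golay Cfsg.Agent.Lib.Helper9.GolayC Cfsg.Agent.Lib.Helper9.M24C
open Cfsg.Agent.Lib.Helper9.Octad Cfsg.Agent.Lib.Helper9.M24B Cfsg.Agent.Lib.Helper9.M24T
open Cfsg.Agent.Lib.Helper9.M24O Cfsg.Agent.Lib.Helper9.M24Oct Cfsg.Agent.Lib.Helper9.M24OS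
open Cfsg.Agent.Lib.Helper9.M24Dod Cfsg.Agent.Lib.Helper9.M24M Cfsg.Agent.Lib.Helper9.M24CO
open Cfsg.Agent.Lib.Helper9.M24DO Cfsg.Agent.Lib.Helper9.M24Cnt Cfsg.Agent.Lib.Helper9.M24Cnt2
open Cfsg.Agent.Lib.Helper9.M24F
open scoped Pointwise

def PREx : List (ℕ × ℕ) := [(36, 2), (41, 0), (223, 0), (223, 2), (224, 1), (21, 2), (225, 0), (229, 229), (230, 230), (230, 231), (231, 231), (233, 233), (232, 234), (227, 2), (236, 28), (226, 2), (238, 235), (224, 0), (240, 19), (21, 21), (21, 242), (228, 0), (243, 243), (243, 245), (246, 21), (244, 247), (21, 0), (226, 226), (250, 250), (250, 251), (249, 252), (248, 237), (248, 248), (248, 253), (253, 248), (254, 241), (65, 241), (255, 2), (256, 239), (256, 2), (256, 248), (260, 241), (257, 257), (265, 265), (265, 266), (266, 266), (268, 268), (267, 269), (264, 270), (254, 239), (272, 86), (263, 253), (261, 261), (275, 275), (276, 276),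 (275, 277), (274, 278), (261, 237), (259, 259), (281, 281), (282, 282), (281, 283), (280, 284), (261, 248), (254, 254), (287, 287), (286, 288), (258, 237), (262, 262), (291, 291), (290, 292)]

def GEx : List (List ℕ) := [[0, 15, 9, 6, 22, 5, 7, 14, 10, 16, 12, 2, 20, 18, 3, 13, 11, 19, 1, 17, 8, 21, 4, 23],
  [0, 19, 2, 4, 20, 15, 9, 16, 7, 18, 10, 1, 21, 13, 14, 22, 8, 12, 6, 11, 3, 17, 5, 23],
  [0, 21, 18, 4, 16, 14, 22, 13, 19, 6, 17, 12, 9, 5, 1, 3, 15, 10, 20, 7, 11, 8, 2, 23],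
  [0, 14, 21, 22, 10, 2, 17, 7, 16, 6, 12, 13, 19, 18, 11, 8, 4, 20, 3, 15, 5, 9, 1, 23],
  [0, 2, 3, 6, 5, 20, 21, 8, 19, 15, 7, 10, 18, 1, 12, 13, 17, 16, 22, 4, 11, 9, 14, 23],
  [0, 16, 6, 11, 7, 1, 2, 3, 9, 8, 19, 21, 10, 17, 15, 18, 5, 14, 22, 12, 4, 20, 13, 23]]

set_option maxRecDepth 100000 in
theorem runEx : ∀ t ∈ GEx, t ∈ run TT PREx := by decide +kernel

set_option maxRecDepth 100000 in
theorem okEx : ∀ t ∈ GEx, ksOk 0 [23, 0] t = true := by decide +kernel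

theorem memEx : ∀ t ∈ GEx, ∃ g ∈ KS 0 [23, 0], IsTable g t :=
  ks_mem PREx GEx 0 [23, 0] runEx okEx

def cExa : ℕ := 2073

set_option maxRecDepth 100000 in
def QExa : List (ℕ × ℕ × ℕ) := [(2323, 0, 2073), (2190, 1, 2073), (2119, 2, 2073), (2285, 3, 2073), (2960, 4, 2073), (3148, 5, 2073), (4047, 0, 2323), (2295, 1, 2323), (4082, 2, 2323), (2362, 3, 2323), (2891, 4, 2323), (4078, 5, 2323), (3191, 0, 2190), (2410, 1, 2190), (2901, 2, 2190), (3939, 3, 2190), (3391, 4, 2190), (3556, 5, 2190), (3361, 0, 2119), (3020, 1, 2119), (3502, 2, 2119), (2831, 3, 2119), (2098, 4, 2119), (3836, 5, 2119), (3285, 0, 2285), (2606, 1, 2285), (3457, 2, 2285), (2889, 3, 2285), (3164, 4, 2285), (2672, 5, 2285), (2313, 0, 2960), (3414, 1, 2960), (2477, 2, 2960), (3868, 3, 2960), (3318, 4, 2960), (3410, 5, 2960), (3979, 0, 3148), (2598, 1, 3148), (2156, 2, 3148), (2483, 4, 3148), (2692, 5, 3148), (2369,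 0, 4047), (2918, 1, 4047), (3648, 2, 4047), (2518, 3, 4047), (2360, 4, 4047), (2264, 0, 2295), (2436, 1, 2295), (3003, 2, 2295), (3063, 3, 2295), (2162, 4, 2295), (3496, 5, 2295), (3537, 0, 4082), (2912, 1, 4082), (3453, 2, 4082), (3614, 3, 4082), (3065, 4, 4082), (2616, 5, 4082), (3779, 0, 2362), (2848, 2, 2362), (2589, 3, 2362), (2573, 4, 2362), (2291, 1, 2891), (2229, 2, 2891), (3010, 3, 2891), (3078, 4, 2891), (3332, 5, 2891), (3304, 0, 4078), (3633, 1, 4078), (2813, 3, 4078), (3689, 5, 4078), (3631, 0, 3191), (3291, 1, 3191), (2909, 2, 3191), (3336, 4, 3191), (3113, 5, 3191), (3590, 4, 2410), (4002, 5, 2410), (3475, 1, 2901), (2204, 2, 2901), (2860, 3, 2901), (2373, 5, 2901), (3199, 1, 3939), (3683, 2, 3939), (3533, 3, 3939), (3576, 0, 3391), (2737, 1, 3391), (3895, 2, 3391), (3941, 3, 3391), (3109, 4, 3391), (3860, 1, 3556), (2364, 5, 3556), (3764, 0, 3361), (4049, 1, 3361),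 (3870, 2, 3361), (2127, 4, 3361), (3371, 5, 3361), (3918, 0, 3020), (3621, 1, 3020), (2651, 2, 3020), (3254, 3, 3502), (3312, 4, 3502), (2248, 0, 2831), (2075, 1, 2831), (2206, 3, 2831), (2954, 4, 2831), (2666, 0, 2098), (2698, 2, 2098), (4039, 3, 2098), (2495, 5, 2098), (3539, 1, 3836), (3993, 3, 3836), (2563, 5, 3836), (2942, 0, 3285), (2448, 1, 3285), (2731, 2, 3285), (2553, 3, 3285), (3123, 5, 3285), (3437, 0, 2606), (3645, 5, 2606), (2690, 0, 2889), (2242, 1, 2889), (3754, 2, 2889), (3348, 5, 2889), (3737, 3, 3164), (2522, 5, 3164), (2399, 0, 2672), (2799, 1, 2672), (3213, 5, 2672), (2504, 2, 2313), (2102, 5, 2313), (2680, 5, 3414), (2983, 0, 2477), (3234, 4, 2477), (2981, 5, 2477), (3098, 0, 3868), (3713, 2, 3868), (3036, 5, 3868), (3807, 3, 3318), (3275, 0, 3410), (2529, 5, 3410), (2430, 0, 3979), (2958, 1, 3979), (2676, 5, 3979), (3695, 3, 2598), (3578, 4, 2598), (3672,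 0, 2156), (3914, 4, 2156), (2283, 0, 2483), (3469, 1, 2483), (4068, 5, 2483), (3225, 0, 2692), (2641, 5, 2369), (3770, 0, 2918), (3901, 3, 3648), (3338, 3, 2518), (3600, 3, 2360), (3296, 0, 2264), (3654, 5, 2436), (2209, 5, 3003), (3818, 0, 3063), (2148, 3, 3453), (3295, 3, 3614), (3963, 0, 3065), (2239, 2, 3065), (2729, 0, 3779), (4024, 2, 2848), (3928, 5, 2573), (3991, 1, 2229), (2454, 4, 3078), (2327, 5, 3304), (2629, 4, 3631), (3244, 3, 3336), (2819, 4, 3590), (2772, 3, 2373)]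

set_option maxRecDepth 100000 in
theorem covExa : coverB (orbC GEx (1 <<< cExa) QExa) (selL 8 [(8388608, 1), (1, 0)]) = true := by
  decide +kernel

set_option maxRecDepth 100000 in
theorem cntExa : (List.range 4096).countP (selL 8 [(8388608, 1), (1, 0)]) = 176 := by
  decide +kernel
def OF : ℕ := 8414120

def PRFx : List (ℕ × ℕ) := [(0, 2), (1, 2), (4, 2), (12, 0), (223, 0), (36, 2), (224, 2), (10, 2), (14, 2), (225, 2), (226, 0), (227, 0), (227, 2), (41, 0), (228, 2), (229, 0), (15, 0), (230, 0), (231, 0), (232, 0), (234, 1), (235, 0), (236, 1), (237, 0), (240, 1), (241, 0), (242, 2), (243, 0), (244, 2), (245, 0), (246, 1), (247, 0), (248, 0), (248, 1), (249, 0), (250, 2), (251, 0), (252, 2), (254, 2), (255, 1), (256, 0), (263, 233), (259, 2), (257, 257), (266, 266), (257, 267), (267, 267), (268, 269), (265, 270), (262, 0), (261, 261), (273, 273), (261, 274), (272, 275), (239,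 2), (277, 226), (260, 0), (279, 238), (253, 0), (258, 258), (258, 282), (282, 282), (283, 284), (281, 285), (264, 271), (264, 276), (264, 286), (288, 264), (287, 287), (287, 291), (280, 280), (278, 264), (294, 292), (276, 276), (296, 292), (288, 271), (289, 289), (299, 299), (299, 300), (300, 300), (301, 302), (298, 303), (264, 280), (264, 264), (264, 306), (305, 307), (293, 292), (290, 295), (290, 297), (295, 295), (295, 304), (295, 308), (304, 290), (309, 290), (313, 313), (317, 317), (313, 318), (316, 319), (310, 297), (315, 315), (322, 322), (321, 323), (304, 308), (325, 312), (290, 308), (310, 304), (311, 311), (329, 329), (311, 330), (328, 331), (314, 297), (333, 319)]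

def GFx : List (List ℕ) := [[0, 10, 18, 8, 15, 5, 16, 13, 14, 3, 2, 21, 4, 7, 9, 22, 6, 17, 1, 11, 19, 20, 12, 23],
  [0, 18, 4, 5, 16, 3, 17, 7, 9, 14, 10, 15, 22, 8, 13, 1, 19, 12, 11, 2, 21, 20, 6, 23],
  [0, 6, 4, 14, 16, 7, 21, 13, 5, 9, 12, 11, 10, 8, 3, 17, 18, 22, 2, 15, 1, 20, 19, 23],
  [0, 6, 16, 7, 2, 13, 22, 9, 14, 8, 4, 1, 15, 3, 5, 18, 20, 17, 11, 21, 19, 10, 12, 23],
  [0, 6, 19, 3, 12, 5, 10, 14, 8, 7, 1, 16, 18, 13, 9, 21, 22, 15, 4, 20, 2, 17, 11, 23],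
  [0, 1, 21, 9, 2, 5, 18, 14, 3, 8, 16, 15, 12, 7, 13, 17, 19, 11, 22, 10, 20, 4, 6, 23]]

set_option maxRecDepth 100000 in
theorem runFx : ∀ t ∈ GFx, t ∈ run TT PRFx := by decide +kernel

set_option maxRecDepth 100000 in
theorem okFx : ∀ t ∈ GFx, ksOk 8414120 [23, 0] t = true := by decide +kernel

theorem memFx : ∀ t ∈ GFx, ∃ g ∈ KS 8414120 [23, 0], IsTable g t :=
  ks_mem PRFx GFx 8414120 [23, 0] runFx okFx

def cFx2 : ℕ := 2075

set_option maxRecDepth 100000 in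
def QFx2 : List (ℕ × ℕ × ℕ) := [(2563, 0, 2075), (3895, 1, 2075), (3225, 2, 2075), (3737, 3, 2075), (2676, 4, 2075), (4039, 5, 2075), (3556, 0, 2563), (3361, 1, 2563), (3683, 2, 2563), (3621, 3, 2563), (2156, 4, 2563), (2454, 5, 2563), (3036, 0, 3895), (3836, 1, 3895), (2162, 2, 3895), (3244, 3, 3895), (3689, 4, 3895), (2960, 0, 3225), (3901, 1, 3225), (2483, 2, 3225), (3296, 3, 3225), (3770, 4, 3225), (3410, 5, 3225), (3860, 2, 3737), (3533, 4, 3737), (2529, 5, 3737), (2239, 0, 2676), (3963, 1, 2676), (3285, 2, 2676), (3979, 5, 2676), (2373, 1, 4039), (2831, 3, 4039), (3295, 4, 4039), (3496, 2, 3556), (2690, 3, 3556), (2958, 5, 3556), (3600, 0, 3361), (2291, 1, 3361), (3123, 5, 3361), (2313, 0, 3683), (2522, 3, 3683), (3779, 3, 3621), (3928, 0, 2156), (3437, 1, 2156), (3631, 2, 2156), (3010, 0, 2454), (3318, 4, 3036), (3109, 1, 3836), (2430, 2, 3836), (2209, 4, 3836), (2641,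 1, 2162), (4049, 0, 3244), (3918, 4, 3244), (2285, 2, 3689), (4002, 5, 3689), (4068, 0, 2960), (3078, 5, 2960), (2918, 0, 3901), (2589, 0, 3770), (4078, 1, 3770), (2616, 3, 3410), (2477, 2, 3533), (3199, 1, 2529), (3457, 5, 3963), (2909, 2, 3295), (3065, 3, 3295), (3348, 2, 2522), (3590, 1, 3631), (2248, 2, 4049)]

set_option maxRecDepth 100000 in
theorem covFx2 : coverB (orbC GFx (1 <<< cFx2) QFx2) (selL 8 [(8414120, 2), (8388608, 1), (1, 0)]) = true := by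
  decide +kernel

set_option maxRecDepth 100000 in
theorem cntFx2 : (List.range 4096).countP (selL 8 [(8414120, 2), (8388608, 1), (1, 0)]) = 70 := by
  decide +kernel

def cFx4 : ℕ := 2098

set_option maxRecDepth 100000 in
def QFx4 : List (ℕ × ℕ × ℕ) := [(3993, 0, 2098), (2553, 1, 2098), (2204, 2, 2098), (3469, 3, 2098), (3654, 4, 2098), (3304, 5, 2098), (3475, 0, 3993), (3537, 1, 3993), (2360, 2, 3993), (2327, 4, 3993), (3539, 0, 2553), (2848, 1, 2553), (2448, 2, 2553), (2901, 3, 2553), (2190, 4, 2553), (2983, 5, 2553), (2518, 0, 2204), (2772, 1, 2204), (2264, 3, 2204), (2629, 0, 3469), (3312, 1, 3469), (3164, 2, 3469), (3234, 0, 3654), (2912, 1, 3654), (3063, 2, 3654), (3939, 3, 3654), (3648, 0, 3304), (3332, 1, 3304), (3098, 2, 3304), (3941, 3, 3304), (2436, 4, 3304), (3020, 1, 3475), (3870, 2, 3475), (2206, 0, 3537), (3914, 1, 3537), (3695, 2, 3537), (3991, 4, 3537), (2672,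 5, 3537), (3336, 1, 2360), (3633, 2, 2360), (2573, 3, 2360), (3113, 5, 2360), (2981, 1, 2327), (3371, 2, 2327), (2942, 3, 2327), (2283, 5, 2327), (2692, 0, 3539), (2148, 1, 3539), (2799, 2, 3539), (3614, 3, 3539), (3578, 4, 3539), (3502, 5, 3539), (2666, 0, 2848), (3275, 2, 2848), (2737, 3, 2848), (3453, 4, 2848), (2680, 5, 2848), (2889, 0, 2448), (3391, 3, 2448), (3807, 4, 2448), (2229, 5, 2448), (2813, 2, 2901), (3818, 4, 2901), (3003, 5, 2901), (2598, 0, 2190), (3338, 2, 2190), (2495, 0, 2983), (2242, 0, 2518), (2698, 2, 2518), (3291, 0, 2772), (2127, 1, 2772), (3713, 2, 2772), (4024, 4, 2772), (2119, 0, 2264), (2369, 3, 2264), (4082, 4, 2264), (3213, 2, 2629), (2364, 3, 2629), (2651, 1, 3312), (2399, 0, 3164), (3672, 1, 3164), (3576, 4, 3164), (2410, 2, 3234), (3254, 1, 2912), (2362, 2, 2912), (4047, 3, 2912), (2729, 4, 3063), (2954, 5, 3063), (2819, 1, 3648), (2606, 4, 3332),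 (2860, 0, 3941), (3191, 2, 3870), (3414, 2, 2206), (3645, 0, 3914), (3148, 5, 3914), (2504, 1, 3991), (2323, 5, 3991), (2102, 1, 2672), (3868, 5, 3336), (3754, 0, 3371), (2295, 3, 3371), (2731, 0, 2942), (2891, 3, 3453), (3764, 4, 3291)]

set_option maxRecDepth 100000 in
theorem covFx4 : coverB (orbC GFx (1 <<< cFx4) QFx4) (selL 8 [(8414120, 4), (8388608, 1), (1, 0)]) = true := by
  decide +kernel

set_option maxRecDepth 100000 in
theorem cntFx4 : (List.range 4096).countP (selL 8 [(8414120, 4), (8388608, 1), (1, 0)]) = 105 := by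
  decide +kernel


theorem OF_lin : OF = lin LB 2073 := by decide +kernel

theorem selE_iff (s : Finset Cfsg.GolayPt) :
    SelL Cfsg.octads [(1 <<< 23, 1), (1 <<< 0, 0)] s ↔
      s ∈ Cfsg.octads ∧ ptOf 23 ∈ s ∧ ptOf 0 ∉ s := by
  rw [selL2, mem_iff_card (ptOf 23) s, idx_ptOf 23 (by norm_num), notMem_iff_card (ptOf 0) s,
    idx_ptOf 0 (by norm_num)]

theorem stdE_cnt :
    {x : Finset Cfsg.GolayPt | x ∈ Cfsg.octads ∧ ptOf 23 ∈ x ∧ ptOf 0 ∉ x}.ncard = 176 := by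
  have e : {x : Finset Cfsg.GolayPt | x ∈ Cfsg.octads ∧ ptOf 23 ∈ x ∧ ptOf 0 ∉ x} =
      {s | SelL Cfsg.octads [(1 <<< 23, 1), (1 <<< 0, 0)] s} := by
    ext s
    exact (selE_iff s).symm
  rw [e, ncard_sel8]
  exact cntExa

theorem stdE_orb (o o' : Finset Cfsg.GolayPt)
    (ho : o ∈ Cfsg.octads ∧ ptOf 23 ∈ o ∧ ptOf 0 ∉ o)
    (ho' : o' ∈ Cfsg.octads ∧ ptOf 23 ∈ o' ∧ ptOf 0 ∉ o') :
    ∃ g ∈ KS 0 [23, 0], g • o = o' :=
  orb_sel8 _ GEx memEx _ cExa QExa covExa o o' ((selE_iff o).mpr ho) ((selE_iff o').mpr ho')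

theorem selF_iff (k : ℕ) (s : Finset Cfsg.GolayPt) :
    SelL Cfsg.octads [(OF, k), (1 <<< 23, 1), (1 <<< 0, 0)] s ↔
      (s ∈ Cfsg.octads ∧ ptOf 23 ∈ s ∧ ptOf 0 ∉ s) ∧ (maskSet OF ∩ s).card = k := by
  rw [selL3, mem_iff_card (ptOf 23) s, idx_ptOf 23 (by norm_num), notMem_iff_card (ptOf 0) s,
    idx_ptOf 0 (by norm_num)]
  exact ⟨fun ⟨a, b, c, d⟩ => ⟨⟨a, c, d⟩, b⟩, fun ⟨⟨a, c, d⟩, b⟩ => ⟨a, b, c, d⟩⟩

theorem stdF_cnt (k n : ℕ)
    (h : (List.range 4096).countP (selL 8 [(OF, k), (1 <<< 23, 1), (1 <<< 0, 0)]) = n) :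
    {x : Finset Cfsg.GolayPt | (x ∈ Cfsg.octads ∧ ptOf 23 ∈ x ∧ ptOf 0 ∉ x) ∧
      (maskSet OF ∩ x).card = k}.ncard = n := by
  have e : {x : Finset Cfsg.GolayPt | (x ∈ Cfsg.octads ∧ ptOf 23 ∈ x ∧ ptOf 0 ∉ x) ∧
      (maskSet OF ∩ x).card = k} =
      {s | SelL Cfsg.octads [(OF, k), (1 <<< 23, 1), (1 <<< 0, 0)] s} := by
    ext s
    exact (selF_iff k s).symm
  rw [e, ncard_sel8, h]

set_option maxRecDepth 100000 in
theorem OF_pc : pc 24 (lin LB 2073) = 8 ∧ OF.testBit 23 = true ∧ OF.testBit 0 = false ∧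
    OF = lin LB 2073 := by
  decide +kernel

theorem OF_mem : maskSet OF ∈ Cfsg.octads ∧ ptOf 23 ∈ maskSet OF ∧ ptOf 0 ∉ maskSet OF := by
  refine ⟨?_, ?_, ?_⟩
  · rw [OF_pc.2.2.2]
    exact maskSet_octad _ OF_pc.1
  · rw [mem_maskSet, idx_ptOf 23 (by norm_num)]
    exact OF_pc.2.1
  · rw [mem_maskSet, idx_ptOf 0 (by norm_num), OF_pc.2.2.1]
    exact Bool.false_ne_true

theorem stdF_orb (o' o'' : Finset Cfsg.GolayPt)
    (ho' : o' ∈ Cfsg.octads ∧ ptOf 23 ∈ o' ∧ ptOf 0 ∉ o')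
    (ho'' : o'' ∈ Cfsg.octads ∧ ptOf 23 ∈ o'' ∧ ptOf 0 ∉ o'')
    (h : (maskSet OF ∩ o').card = (maskSet OF ∩ o'').card) :
    ∃ g ∈ KS OF [23, 0], g • o' = o'' := by
  have hpos : ∀ s : Finset Cfsg.GolayPt, ptOf 23 ∈ s → (maskSet OF ∩ s).card ≠ 0 := by
    intro s hs h0
    rw [Finset.card_eq_zero] at h0
    have : ptOf 23 ∈ maskSet OF ∩ s := Finset.mem_inter.mpr ⟨OF_mem.2.1, hs⟩
    rw [h0] at this
    simp at this
  have h8 : (maskSet OF).card = 8 := ((mem_octads _).mp OF_mem.1).2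
  rcases inter_cases OF_mem.1 ho'.1 with h0 | h2 | h4 | h8'
  · exact absurd h0 (hpos o' ho'.2.1)
  · exact orb_sel8 _ GFx memFx _ cFx2 QFx2 covFx2 o' o'' ((selF_iff 2 o').mpr ⟨ho', h2⟩)
      ((selF_iff 2 o'').mpr ⟨ho'', by omega⟩)
  · exact orb_sel8 _ GFx memFx _ cFx4 QFx4 covFx4 o' o'' ((selF_iff 4 o').mpr ⟨ho', h4⟩)
      ((selF_iff 4 o'').mpr ⟨ho'', by omega⟩)
  · rw [← h8', Finset.inter_self, h8] at h
    have : maskSet OF = o'' := by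
      rcases inter_cases OF_mem.1 ho''.1 with h0 | h2 | h4 | h8''
      · omega
      · omega
      · omega
      · exact h8''
    exact ⟨1, one_mem _, by rw [one_smul, ← h8', this]⟩

theorem fam_iff (g0 : Equiv.Perm Cfsg.GolayPt) (hg0 : g0 ∈ Cfsg.M24) (s : Finset Cfsg.GolayPt) :
    (g0 • s ∈ Cfsg.octads ∧ g0 (ptOf 23) ∈ g0 • s ∧ g0 (ptOf 0) ∉ g0 • s) ↔
      (s ∈ Cfsg.octads ∧ ptOf 23 ∈ s ∧ ptOf 0 ∉ s) := by
  rw [smul_octad_iff hg0, mem_smul_iff, mem_smul_iff]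

theorem fam_inv (g0 : Equiv.Perm Cfsg.GolayPt) (hg0 : g0 ∈ Cfsg.M24) (s : Finset Cfsg.GolayPt)
    (h : s ∈ Cfsg.octads ∧ g0 (ptOf 23) ∈ s ∧ g0 (ptOf 0) ∉ s) :
    g0⁻¹ • s ∈ Cfsg.octads ∧ ptOf 23 ∈ g0⁻¹ • s ∧ ptOf 0 ∉ g0⁻¹ • s := by
  rw [← fam_iff g0 hg0, smul_inv_smul]
  exact h

theorem thmF (g1 : Equiv.Perm Cfsg.GolayPt) (hg1 : g1 ∈ Cfsg.M24) :
    {x : Finset Cfsg.GolayPt | (x ∈ Cfsg.octads ∧ g1 (ptOf 23) ∈ x ∧ g1 (ptOf 0) ∉ x) ∧
      (g1 • maskSet OF ∩ x).card = 2}.ncard = 70 ∧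
    {x : Finset Cfsg.GolayPt | (x ∈ Cfsg.octads ∧ g1 (ptOf 23) ∈ x ∧ g1 (ptOf 0) ∉ x) ∧
      (g1 • maskSet OF ∩ x).card = 4}.ncard = 105 ∧
    ∀ o' o'' : Finset Cfsg.GolayPt,
      (o' ∈ Cfsg.octads ∧ g1 (ptOf 23) ∈ o' ∧ g1 (ptOf 0) ∉ o') →
      (o'' ∈ Cfsg.octads ∧ g1 (ptOf 23) ∈ o'' ∧ g1 (ptOf 0) ∉ o'') →
      (g1 • maskSet OF ∩ o').card = (g1 • maskSet OF ∩ o'').card →
      ∃ g : Equiv.Perm Cfsg.GolayPt, g ∈ Cfsg.M24 ∧ g (g1 (ptOf 23)) = g1 (ptOf 23) ∧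
        g (g1 (ptOf 0)) = g1 (ptOf 0) ∧ g • (g1 • maskSet OF) = g1 • maskSet OF ∧
        g • o' = o'' := by
  have htr : ∀ k : ℕ, ∀ s : Finset Cfsg.GolayPt,
      g1 • s ∈ {x : Finset Cfsg.GolayPt | (x ∈ Cfsg.octads ∧ g1 (ptOf 23) ∈ x ∧
        g1 (ptOf 0) ∉ x) ∧ (g1 • maskSet OF ∩ x).card = k} ↔
      s ∈ {x : Finset Cfsg.GolayPt | (x ∈ Cfsg.octads ∧ ptOf 23 ∈ x ∧ ptOf 0 ∉ x) ∧
        (maskSet OF ∩ x).card = k} := by
    intro k s
    exact ⟨fun ⟨h1, h3⟩ => ⟨(fam_iff g1 hg1 s).mp h1, by rw [← card_inter_smul g1]; exact h3⟩,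
      fun ⟨h1, h3⟩ => ⟨(fam_iff g1 hg1 s).mpr h1, by rw [card_inter_smul g1]; exact h3⟩⟩
  refine ⟨?_, ?_, ?_⟩
  · rw [ncard_transfer g1 _ _ (htr 2)]
    exact stdF_cnt 2 70 cntFx2
  · rw [ncard_transfer g1 _ _ (htr 4)]
    exact stdF_cnt 4 105 cntFx4
  · intro o' o'' ho' ho'' h
    obtain ⟨k, hk, hko⟩ := stdF_orb (g1⁻¹ • o') (g1⁻¹ • o'') (fam_inv g1 hg1 o' ho')
      (fam_inv g1 hg1 o'' ho'')
      (by rw [card_inter_inv_smul, card_inter_inv_smul]; exact h)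
    obtain ⟨c1, c2, c3, c4⟩ := conj_KS g1 k hg1 OF [23, 0] hk
    exact ⟨g1 * k * g1⁻¹, c1, c3 23 (by simp), c3 0 (by simp), c2, c4 o' o'' hko⟩

/-- The two-point stabiliser on the octads through one of the points and not the other. -/
theorem thmE (p q : Cfsg.GolayPt) (hpq : p ≠ q) :
    {x : Finset Cfsg.GolayPt | (x ∈ Cfsg.octads ∧ p ∈ x ∧ q ∉ x)}.ncard = 176 ∧
    (∀ o o' : Finset Cfsg.GolayPt, (o ∈ Cfsg.octads ∧ p ∈ o ∧ q ∉ o) →
      (o' ∈ Cfsg.octads ∧ p ∈ o' ∧ q ∉ o') →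
      ∃ g : Equiv.Perm Cfsg.GolayPt, g ∈ Cfsg.M24 ∧ g p = p ∧ g q = q ∧ g • o = o') ∧
    ∀ o : Finset Cfsg.GolayPt, (o ∈ Cfsg.octads ∧ p ∈ o ∧ q ∉ o) →
      {x : Finset Cfsg.GolayPt | (x ∈ Cfsg.octads ∧ p ∈ x ∧ q ∉ x) ∧ (o ∩ x).card = 2}.ncard
        = 70 ∧
      {x : Finset Cfsg.GolayPt | (x ∈ Cfsg.octads ∧ p ∈ x ∧ q ∉ x) ∧ (o ∩ x).card = 4}.ncard
        = 105 ∧
      ∀ o' o'' : Finset Cfsg.GolayPt, (o' ∈ Cfsg.octads ∧ p ∈ o' ∧ q ∉ o') →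
        (o'' ∈ Cfsg.octads ∧ p ∈ o'' ∧ q ∉ o'') → (o ∩ o').card = (o ∩ o'').card →
        ∃ g : Equiv.Perm Cfsg.GolayPt, g ∈ Cfsg.M24 ∧ g p = p ∧ g q = q ∧ g • o = o ∧
          g • o' = o'' := by
  obtain ⟨g0, hg0, hg0x⟩ := exists_tuple 2 (by norm_num) (fun i => if i = 0 then p else q)
    (fun i hi j hj h => by
      by_cases hi0 : i = 0 <;> by_cases hj0 : j = 0 <;>
        simp only [hi0, hj0, if_true, if_false] at h
      · omega
      · exact absurd h hpq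
      · exact absurd h.symm hpq
      · omega)
  have hp0 : g0 (ptOf 23) = p := hg0x 0 (by norm_num)
  have hq0 : g0 (ptOf 0) = q := hg0x 1 (by norm_num)
  subst hp0 hq0
  refine ⟨?_, ?_, ?_⟩
  · rw [ncard_transfer g0 _ _ (fam_iff g0 hg0)]
    exact stdE_cnt
  · intro o o' ho ho'
    obtain ⟨k, hk, hko⟩ := stdE_orb (g0⁻¹ • o) (g0⁻¹ • o') (fam_inv g0 hg0 o ho)
      (fam_inv g0 hg0 o' ho')
    obtain ⟨c1, c2, c3, c4⟩ := conj_KS g0 k hg0 0 [23, 0] hk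
    exact ⟨g0 * k * g0⁻¹, c1, c3 23 (by simp), c3 0 (by simp), c4 o o' hko⟩
  · intro o ho
    obtain ⟨k, hk, hko⟩ := stdE_orb (maskSet OF) (g0⁻¹ • o) OF_mem (fam_inv g0 hg0 o ho)
    have hg1 : g0 * k ∈ Cfsg.M24 := mul_mem hg0 hk.1
    have e1 : (g0 * k) (ptOf 23) = g0 (ptOf 23) := by
      rw [Equiv.Perm.mul_apply, hk.2.2 23 (by simp)]
    have e2 : (g0 * k) (ptOf 0) = g0 (ptOf 0) := by
      rw [Equiv.Perm.mul_apply, hk.2.2 0 (by simp)]
    have e3 : (g0 * k) • maskSet OF = o := by rw [mul_smul, hko, smul_inv_smul]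
    have := thmF (g0 * k) hg1
    rw [e1, e2, e3] at this
    exact this

end Cfsg.Agent.Lib.Helper9.M24FE
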