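import Mathlib
import Cfsg.Prelude.Def_Sporadic_a
import Cfsg.Prelude.Def_SporadicCombinatorics
import Cfsg.Agent.Lib.Helper9.M24M2
import Cfsg.Agent.Lib.Helper9.M24Six

set_option autoImplicit false

/-! The stabiliser of a hexad in the stabiliser of a dodecad. -/

namespace Cfsg.Agent.Lib.Helper9.M24Hex

open Cfsg.Agent.Lib.Helper9.Golay Cfsg.Agent.Lib.Helper9.GolayC Cfsg.Agent.Lib.Helper9.M24C
open Cfsg.Agent.Lib.Helper9.Octad Cfsg.Agent.Lib.Helper9.M24B Cfsg.Agent.Lib.Helper9.M24T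
open Cfsg.Agent.Lib.Helper9.M24Dod Cfsg.Agent.Lib.Helper9.M24M Cfsg.Agent.Lib.Helper9.M24M2
open Cfsg.Agent.Lib.Helper9.M24Six Cfsg.Agent.Lib.Helper9.M24F
open scoped Pointwise

/-- An element of the dodecad stabiliser fixing five points of the dodecad is trivial. -/
theorem fix5 (d : Finset Cfsg.GolayPt) (hd : d ∈ Cfsg.dodecads) (F : Finset Cfsg.GolayPt)
    (hF : 5 ≤ F.card) (hFd : F ⊆ d) (g : ↥Cfsg.M24) (hg : g ∈ MulAction.stabilizer Cfsg.M24 d)
    (hfix : ∀ p ∈ F, (g : Equiv.Perm Cfsg.GolayPt) p = p) : g = 1 := by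
  obtain ⟨x, hx1, hx2, -⟩ := exists_enum F F.card rfl
  have hlt : ∀ i : Fin 5, (i : ℕ) < F.card := fun i => lt_of_lt_of_le i.isLt hF
  let e : Fin 5 ↪ Cfsg.GolayPt :=
    ⟨fun i => x i, fun i j h => Fin.ext (hx2 i (hlt i) j (hlt j) h)⟩
  obtain ⟨g0, -, huniq⟩ := m12_sharp d hd e e (fun i => hFd (hx1 i (hlt i)))
    (fun i => hFd (hx1 i (hlt i)))
  have h1 : (⟨g, hg⟩ : MulAction.stabilizer Cfsg.M24 d) = g0 :=
    huniq _ (fun i => hfix _ (hx1 i (hlt i)))
  have h2 : (1 : MulAction.stabilizer Cfsg.M24 d) = g0 := huniq _ (fun i => rfl)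
  have h3 := h1.trans h2.symm
  exact congrArg Subtype.val h3

theorem hexad_sub (d C : Finset Cfsg.GolayPt) (hC : C ∈ Cfsg.hexadsOn d) : C ⊆ d := by
  obtain ⟨-, o, -, rfl⟩ := hC
  exact Finset.inter_subset_right

/-- Restriction to the hexad. -/
def resC (d C : Finset Cfsg.GolayPt) :
    ↥(MulAction.stabilizer Cfsg.M24 d ⊓ MulAction.stabilizer Cfsg.M24 C) →*
      Equiv.Perm ↥C where
  toFun g := ((g : Cfsg.M24) : Equiv.Perm Cfsg.GolayPt).subtypePerm (fun x => by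
    have h2 : ((g : Cfsg.M24) : Equiv.Perm Cfsg.GolayPt) • C = C := g.2.2
    exact smul_mem_iff h2 x)
  map_one' := by
    ext x
    rfl
  map_mul' := fun a b => by
    ext x
    rfl

theorem resC_apply (d C : Finset Cfsg.GolayPt)
    (g : ↥(MulAction.stabilizer Cfsg.M24 d ⊓ MulAction.stabilizer Cfsg.M24 C)) (x : ↥C) :
    ((resC d C g) x : Cfsg.GolayPt) = ((g : Cfsg.M24) : Equiv.Perm Cfsg.GolayPt) x := rfl

theorem agree {α : Type*} (τ σ : Equiv.Perm α) (p0 : α) (h : ∀ p, p ≠ p0 → τ p = σ p) :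
    τ = σ := by
  apply Equiv.ext
  intro p
  by_cases hp : p = p0
  · subst hp
    by_contra hne
    have hq : σ⁻¹ (τ p) ≠ p := by
      intro e
      have := congrArg σ e
      apply hne
      simpa using this
    have h1 := h _ hq
    have h2 : τ (σ⁻¹ (τ p)) = τ p := by
      rw [h1]
      simp
    exact hq (τ.injective h2)
  · exact h p hp

theorem hexad_stab (d : Finset Cfsg.GolayPt) (hd : d ∈ Cfsg.dodecads) (C : Finset Cfsg.GolayPt)
    (hC : C ∈ Cfsg.hexadsOn d) :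
    Nonempty (↥(MulAction.stabilizer Cfsg.M24 d ⊓ MulAction.stabilizer Cfsg.M24 C) ≃*
      Equiv.Perm (Fin 6)) ∧
    (∀ g ∈ MulAction.stabilizer Cfsg.M24 d ⊓ MulAction.stabilizer Cfsg.M24 C,
      (∀ p ∈ C, ((g : ↥Cfsg.M24) : Equiv.Perm Cfsg.GolayPt) p = p) → g = 1) ∧
    ∀ g ∈ MulAction.stabilizer Cfsg.M24 d ⊓ MulAction.stabilizer Cfsg.M24 C,
      (∀ p ∈ d \ C, ((g : ↥Cfsg.M24) : Equiv.Perm Cfsg.GolayPt) p = p) → g = 1 := by
  have hCd := hexad_sub d C hC
  have h6 : C.card = 6 := hC.1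
  have hd12 : d.card = 12 := ((mem_dodecads d).mp hd).2
  have part2 : ∀ g ∈ MulAction.stabilizer Cfsg.M24 d ⊓ MulAction.stabilizer Cfsg.M24 C,
      (∀ p ∈ C, ((g : ↥Cfsg.M24) : Equiv.Perm Cfsg.GolayPt) p = p) → g = 1 := by
    intro g hg hfix
    exact fix5 d hd C (by omega) hCd g (Subgroup.mem_inf.mp hg).1 hfix
  refine ⟨?_, part2, ?_⟩
  · have hinj : Function.Injective (resC d C) := by
      rw [injective_iff_map_eq_one]
      intro g hg
      have h1 : (g : ↥Cfsg.M24) = 1 := by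
        apply part2 _ g.2
        intro p hp
        have := resC_apply d C g ⟨p, hp⟩
        rw [hg] at this
        exact this.symm
      exact Subtype.ext h1
    have hsurj : Function.Surjective (resC d C) := by
      intro σ
      obtain ⟨x, hx1, hx2, hx3⟩ := exists_enum C 6 h6
      have hlt : ∀ i : Fin 5, (i : ℕ) < 6 := fun i => lt_of_lt_of_le i.isLt (by norm_num)
      let ex : Fin 5 ↪ Cfsg.GolayPt :=
        ⟨fun i => x i, fun i j h => Fin.ext (hx2 i (hlt i) j (hlt j) h)⟩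
      let ey : Fin 5 ↪ Cfsg.GolayPt :=
        ⟨fun i => ((σ ⟨x i, hx1 i (hlt i)⟩ : ↥C) : Cfsg.GolayPt), fun i j h => by
          have h1 := σ.injective (Subtype.ext h)
          exact Fin.ext (hx2 i (hlt i) j (hlt j) (congrArg Subtype.val h1))⟩
      obtain ⟨g, hg, -⟩ := m12_sharp d hd ex ey (fun i => hCd (hx1 i (hlt i)))
        (fun i => hCd (σ ⟨x i, hx1 i (hlt i)⟩).2)
      have hg' : ∀ i : Fin 5, ((g : Cfsg.M24) : Equiv.Perm Cfsg.GolayPt) (x i) =
          ((σ ⟨x i, hx1 i (hlt i)⟩ : ↥C) : Cfsg.GolayPt) := hg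
      obtain ⟨-, o, ho, hoC⟩ := hC
      have hgd : ((g : Cfsg.M24) : Equiv.Perm Cfsg.GolayPt) • d = d := g.2
      have hCo : C ⊆ o := by
        rw [← hoC]
        exact Finset.inter_subset_left
      have hgo : ((g : Cfsg.M24) : Equiv.Perm Cfsg.GolayPt) • o = o := by
        apply octad_eq_of_five (smul_octad (g : Cfsg.M24).2 ho) ho
          ((Finset.univ : Finset (Fin 5)).map ey) (by rw [Finset.card_map]; rfl)
        · intro q hq
          rw [Finset.mem_map] at hq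
          obtain ⟨i, -, rfl⟩ := hq
          show ((σ ⟨x i, hx1 i (hlt i)⟩ : ↥C) : Cfsg.GolayPt) ∈ _
          rw [← hg' i]
          apply (mem_smul_iff _ _ _).mpr
          exact hCo (hx1 i (hlt i))
        · intro q hq
          rw [Finset.mem_map] at hq
          obtain ⟨i, -, rfl⟩ := hq
          exact hCo (σ ⟨x i, hx1 i (hlt i)⟩).2
      have hgC : ((g : Cfsg.M24) : Equiv.Perm Cfsg.GolayPt) • C = C := by
        rw [← hoC, Finset.smul_finset_inter, hgo, hgd]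
      refine ⟨⟨(g : Cfsg.M24), Subgroup.mem_inf.mpr ⟨g.2, hgC⟩⟩, ?_⟩
      apply agree _ _ (⟨x 5, hx1 5 (by norm_num)⟩ : ↥C)
      intro p hp
      obtain ⟨i, hi, hip⟩ := hx3 p.1 p.2
      have hi5 : i < 5 := by
        rcases Nat.lt_succ_iff_lt_or_eq.mp hi with h | h
        · exact h
        · exfalso
          apply hp
          apply Subtype.ext
          rw [← hip, h]
      apply Subtype.ext
      have h1 := hg' ⟨i, hi5⟩
      have e : (⟨x i, hx1 i hi⟩ : ↥C) = p := Subtype.ext hip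
      show ((g : Cfsg.M24) : Equiv.Perm Cfsg.GolayPt) p = ((σ p : ↥C) : Cfsg.GolayPt)
      rw [← e]
      exact h1
    exact ⟨(MulEquiv.ofBijective (resC d C) ⟨hinj, hsurj⟩).trans
      (Finset.equivFinOfCardEq h6).permCongrHom⟩
  · intro g hg hfix
    exact fix5 d hd (d \ C) (by rw [Finset.card_sdiff_of_subset hCd]; omega) Finset.sdiff_subset g
      (Subgroup.mem_inf.mp hg).1 hfix

end Cfsg.Agent.Lib.Helper9.M24Hex
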