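import Mathlib
import Cfsg.Prelude.Def_Sporadic_a
import Cfsg.Agent.Lib.Helper9.M24St
import Cfsg.Agent.Lib.Helper9.Prim

set_option autoImplicit false

/-! Maximality of the octad stabiliser. -/

namespace Cfsg.Agent.Lib.Helper9.M24Max

open Cfsg.Agent.Lib.Helper9.Golay Cfsg.Agent.Lib.Helper9.GolayC Cfsg.Agent.Lib.Helper9.M24C
open Cfsg.Agent.Lib.Helper9.Octad Cfsg.Agent.Lib.Helper9.M24B Cfsg.Agent.Lib.Helper9.M24T
open Cfsg.Agent.Lib.Helper9.M24O Cfsg.Agent.Lib.Helper9.M24Oct Cfsg.Agent.Lib.Helper9.M24OS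
open Cfsg.Agent.Lib.Helper9.M24F Cfsg.Agent.Lib.Helper9.M24St Cfsg.Agent.Lib.Helper9.Prim
open scoped Pointwise

theorem cls_set (o : Finset Cfsg.GolayPt) (ho : o ∈ Cfsg.octads) (i : ℕ) (hi : i < 3) :
    {y | y ∈ Cfsg.octads ∧ y ≠ o ∧ (o ∩ y).card / 2 = i} =
      {o' : Finset Cfsg.GolayPt | o' ∈ Cfsg.octads ∧ (o ∩ o').card = 2 * i} := by
  ext y
  constructor
  · rintro ⟨h1, h2, h3⟩
    refine ⟨h1, ?_⟩
    rcases inter_cases ho h1 with h | h | h | h
    · rw [h] at h3 ⊢; omega
    · rw [h] at h3 ⊢; omega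
    · rw [h] at h3 ⊢; omega
    · exact absurd h.symm h2
  · rintro ⟨h1, h2⟩
    refine ⟨h1, ?_, by rw [h2]; omega⟩
    rintro rfl
    rw [Finset.inter_self, ho.2] at h2
    omega

theorem coatom_octad (o : Finset Cfsg.GolayPt) (ho : o ∈ Cfsg.octads) :
    IsCoatom (MulAction.stabilizer Cfsg.M24 o) := by
  apply coatom_of_orbits (G := ↥Cfsg.M24) o 759 3 (fun i => [30, 448, 280].getD i 0)
    (fun y => (o ∩ y).card / 2)
  · rw [MulAction.index_stabilizer, orbit_octad o ho, card_octads]
  · norm_num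
  · intro y hy hne
    rw [orbit_octad o ho] at hy
    show (o ∩ y).card / 2 < 3
    rcases inter_cases ho hy with h | h | h | h
    · rw [h]; norm_num
    · rw [h]; norm_num
    · rw [h]; norm_num
    · exact absurd h.symm hne
  · intro y hy z hz hyne hzne hcls
    rw [orbit_octad o ho] at hy hz
    have hcls' : (o ∩ y).card / 2 = (o ∩ z).card / 2 := hcls
    have hc : (o ∩ y).card = (o ∩ z).card := by
      rcases inter_cases ho hy with h | h | h | h
      · rcases inter_cases ho hz with h' | h' | h' | h'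
        · rw [h, h']
        · rw [h, h'] at hcls'; omega
        · rw [h, h'] at hcls'; omega
        · exact absurd h'.symm hzne
      · rcases inter_cases ho hz with h' | h' | h' | h'
        · rw [h, h'] at hcls'; omega
        · rw [h, h']
        · rw [h, h'] at hcls'; omega
        · exact absurd h'.symm hzne
      · rcases inter_cases ho hz with h' | h' | h' | h'
        · rw [h, h'] at hcls'; omega
        · rw [h, h'] at hcls'; omega
        · rw [h, h']
        · exact absurd h'.symm hzne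
      · exact absurd h.symm hyne
    obtain ⟨g, hg, hgo, hgy⟩ := stab_trans o y z ho hy hz hc
    exact ⟨⟨g, hg⟩, hgo, hgy⟩
  · intro i hi
    rw [orbit_octad o ho]
    show {y | y ∈ Cfsg.octads ∧ y ≠ o ∧ (o ∩ y).card / 2 = i}.ncard = [30, 448, 280].getD i 0
    rw [cls_set o ho i hi]
    interval_cases i
    · exact ncard_meet o ho 0 30 cntM0
    · exact ncard_meet o ho 2 448 cntM2
    · exact ncard_meet o ho 4 280 cntM4
  · decide

end Cfsg.Agent.Lib.Helper9.M24Max
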