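import Mathlib
import Cfsg.Prelude.Def_Sporadic_a
import Cfsg.Prelude.Def_Spor_Mathieu
import Cfsg.Agent.Lib.Helper9.M24Sim
import Cfsg.Agent.Lib.Helper9.M24FE

set_option autoImplicit false

/-! The outer automorphism of the two-point stabiliser. -/

namespace Cfsg.Agent.Lib.Helper9.M24Out

open Cfsg.Agent.Lib.Helper9.Golay Cfsg.Agent.Lib.Helper9.GolayC Cfsg.Agent.Lib.Helper9.M24C
open Cfsg.Agent.Lib.Helper9.Octad Cfsg.Agent.Lib.Helper9.M24B Cfsg.Agent.Lib.Helper9.M24T
open Cfsg.Agent.Lib.Helper9.M24O Cfsg.Agent.Lib.Helper9.M24Oct Cfsg.Agent.Lib.Helper9.M24OS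
open Cfsg.Agent.Lib.Helper9.M24Dod Cfsg.Agent.Lib.Helper9.M24M Cfsg.Agent.Lib.Helper9.M24M2
open Cfsg.Agent.Lib.Helper9.M24Sx Cfsg.Agent.Lib.Helper9.Simp Cfsg.Agent.Lib.Helper9.M24Sim
open Cfsg.Agent.Lib.Helper9.M24F
open scoped Pointwise

theorem mem_M22 (x : Equiv.Perm Cfsg.GolayPt) :
    x ∈ Cfsg.Spor.M22 ↔ x ∈ Cfsg.M24 ∧ x none = none ∧ x (some 0) = some 0 := by
  unfold Cfsg.Spor.M22 Cfsg.Spor.M23
  constructor
  · intro h
    obtain ⟨h1, h2⟩ := Subgroup.mem_inf.mp h
    obtain ⟨h3, h4⟩ := Subgroup.mem_inf.mp h1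
    exact ⟨h3, MulAction.mem_stabilizer_iff.mp h4, MulAction.mem_stabilizer_iff.mp h2⟩
  · rintro ⟨h1, h2, h3⟩
    exact Subgroup.mem_inf.mpr ⟨Subgroup.mem_inf.mpr ⟨h1, MulAction.mem_stabilizer_iff.mpr h2⟩,
      MulAction.mem_stabilizer_iff.mpr h3⟩

set_option maxRecDepth 100000 in
theorem s7_fix : ∀ i < 24, S7.getD i 0 = i → i = 23 ∨ i = 0 ∨ i = 1 := by decide +kernel

set_option maxRecDepth 100000 in
theorem hcov2 : ∀ β < 24, dB 2 β = true ∨ β = 23 ∨ β = 0 := by decide +kernel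

theorem pt23 : ptOf 23 = (none : Cfsg.GolayPt) := by decide +kernel
theorem pt0 : ptOf 0 = (some 0 : Cfsg.GolayPt) := by decide +kernel

theorem no_transposition (c : Equiv.Perm Cfsg.GolayPt) (hc : c ∈ Cfsg.M24)
    (h1 : c none = some 0) (hfix : ∀ q : Cfsg.GolayPt, q ≠ none → q ≠ some 0 → c q = q) :
    False := by
  obtain ⟨ho, hin, hout⟩ := Cfsg.Agent.Lib.Helper9.M24FE.OF_mem
  rw [pt23] at hin
  rw [pt0] at hout
  have ho' := smul_octad hc ho
  have hsub : (maskSet Cfsg.Agent.Lib.Helper9.M24FE.OF).erase none ⊆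
      maskSet Cfsg.Agent.Lib.Helper9.M24FE.OF ∩ c • maskSet Cfsg.Agent.Lib.Helper9.M24FE.OF := by
    intro q hq
    rw [Finset.mem_erase] at hq
    rw [Finset.mem_inter]
    refine ⟨hq.2, ?_⟩
    have hq0 : q ≠ some 0 := fun h => hout (h ▸ hq.2)
    have := (mem_smul_iff c q _).mpr hq.2
    rwa [hfix q hq.1 hq0] at this
  have h8 : (maskSet Cfsg.Agent.Lib.Helper9.M24FE.OF).card = 8 := ((mem_octads _).mp ho).2
  have h7 : 7 ≤ (maskSet Cfsg.Agent.Lib.Helper9.M24FE.OF ∩
      c • maskSet Cfsg.Agent.Lib.Helper9.M24FE.OF).card := by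
    have := Finset.card_le_card hsub
    rw [Finset.card_erase_of_mem hin, h8] at this
    exact this
  rcases inter_cases ho ho' with h | h | h | h
  · omega
  · omega
  · omega
  · apply hout
    rw [h, ← h1]
    exact (mem_smul_iff c none _).mpr hin

theorem outer (g : Equiv.Perm Cfsg.GolayPt) (hg : g ∈ Cfsg.M24) (h₁ : g none = some 0)
    (h₂ : g (some 0) = none) :
    Cfsg.Spor.M22.relIndex (Cfsg.M24 ⊓ MulAction.stabilizer (Equiv.Perm Cfsg.GolayPt)
      ({none, some 0} : Finset Cfsg.GolayPt)) = 2 ∧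
    (∀ x ∈ Cfsg.Spor.M22, g * x * g⁻¹ ∈ Cfsg.Spor.M22) ∧
    ¬ ∃ h ∈ Cfsg.Spor.M22, ∀ x ∈ Cfsg.Spor.M22, g * x * g⁻¹ = h * x * h⁻¹ := by
  have hginv1 : g⁻¹ none = some 0 := by rw [Equiv.Perm.inv_eq_iff_eq, h₂]
  have hginv2 : g⁻¹ (some 0) = none := by rw [Equiv.Perm.inv_eq_iff_eq, h₁]
  have hne : (none : Cfsg.GolayPt) ≠ some 0 := by decide
  refine ⟨?_, ?_, ?_⟩
  · rw [Subgroup.relIndex_eq_two_iff]
    have hpair : ∀ b : Equiv.Perm Cfsg.GolayPt,
        b • ({none, some 0} : Finset Cfsg.GolayPt) = {none, some 0} →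
        (b none = none ∧ b (some 0) = some 0) ∨ (b none = some 0 ∧ b (some 0) = none) := by
      intro b hb
      have m1 : b none ∈ ({none, some 0} : Finset Cfsg.GolayPt) := by
        rw [← hb]
        exact (mem_smul_iff b none _).mpr (by simp)
      have m2 : b (some 0) ∈ ({none, some 0} : Finset Cfsg.GolayPt) := by
        rw [← hb]
        exact (mem_smul_iff b (some 0) _).mpr (by simp)
      rw [Finset.mem_insert, Finset.mem_singleton] at m1 m2
      have hinj : b none ≠ b (some 0) := fun h => hne (b.injective h)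
      rcases m1 with m1 | m1 <;> rcases m2 with m2 | m2
      · exact absurd (m1.trans m2.symm) hinj
      · exact Or.inl ⟨m1, m2⟩
      · exact Or.inr ⟨m1, m2⟩
      · exact absurd (m1.trans m2.symm) hinj
    refine ⟨g, Subgroup.mem_inf.mpr ⟨hg, ?_⟩, ?_⟩
    · rw [MulAction.mem_stabilizer_iff]
      ext q
      rw [Finset.mem_smul_finset]
      constructor
      · rintro ⟨r, hr, rfl⟩
        rw [Finset.mem_insert, Finset.mem_singleton] at hr
        rcases hr with rfl | rfl
        · show g none ∈ _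
          rw [h₁]; simp
        · show g (some 0) ∈ _
          rw [h₂]; simp
      · intro hq
        rw [Finset.mem_insert, Finset.mem_singleton] at hq
        rcases hq with rfl | rfl
        · exact ⟨some 0, by simp, h₂⟩
        · exact ⟨none, by simp, h₁⟩
    · intro b hb
      obtain ⟨hb1, hb2⟩ := Subgroup.mem_inf.mp hb
      rw [MulAction.mem_stabilizer_iff] at hb2
      rw [mem_M22, mem_M22]
      rcases hpair b hb2 with ⟨e1, e2⟩ | ⟨e1, e2⟩
      · right
        refine ⟨⟨hb1, e1, e2⟩, ?_⟩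
        rintro ⟨-, e3, -⟩
        rw [Equiv.Perm.mul_apply, h₁, e2] at e3
        exact hne e3.symm
      · left
        refine ⟨⟨mul_mem hb1 hg, ?_, ?_⟩, ?_⟩
        · rw [Equiv.Perm.mul_apply, h₁, e2]
        · rw [Equiv.Perm.mul_apply, h₂, e1]
        · rintro ⟨-, e3, -⟩
          rw [e1] at e3
          exact hne e3.symm
  · intro x hx
    rw [mem_M22] at hx ⊢
    refine ⟨mul_mem (mul_mem hg hx.1) (inv_mem hg), ?_, ?_⟩
    · rw [Equiv.Perm.mul_apply, Equiv.Perm.mul_apply, hginv1, hx.2.2, h₂]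
    · rw [Equiv.Perm.mul_apply, Equiv.Perm.mul_apply, hginv2, hx.2.1, h₁]
  · rintro ⟨h, hh, hconj⟩
    rw [mem_M22] at hh
    have hhinv1 : h⁻¹ none = none := by rw [Equiv.Perm.inv_eq_iff_eq, hh.2.1]
    have hhinv2 : h⁻¹ (some 0) = some 0 := by rw [Equiv.Perm.inv_eq_iff_eq, hh.2.2]
    -- c commutes with every element of the two-point stabiliser
    have hcomm : ∀ x ∈ Cfsg.Spor.M22, (h⁻¹ * g) * x = x * (h⁻¹ * g) := by
      intro x hx
      have := hconj x hx
      calc h⁻¹ * g * x = h⁻¹ * (g * x * g⁻¹) * g := by group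
        _ = h⁻¹ * (h * x * h⁻¹) * g := by rw [this]
        _ = x * (h⁻¹ * g) := by group
    have hc1 : (h⁻¹ * g) none = some 0 := by rw [Equiv.Perm.mul_apply, h₁, hhinv2]
    have hc2 : (h⁻¹ * g) (some 0) = none := by rw [Equiv.Perm.mul_apply, h₂, hhinv1]
    obtain ⟨s, hsG, hsT⟩ := g3_of_table S7 (cj7_ok S7 List.mem_cons_self)
    have hs22 : s ∈ Cfsg.Spor.M22 := by
      rw [← Gk_two]
      exact Gk_anti 2 hsG
    have hsfix : ∀ q : Cfsg.GolayPt, s q = q → q = none ∨ q = some 0 ∨ q = B 2 := by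
      intro q hq
      have := hsT q
      rw [hq] at this
      rcases s7_fix (idx q) (idx_lt q) this.symm with h | h | h
      · left
        rw [← ptOf_idx q, h, pt23]
      · right; left
        rw [← ptOf_idx q, h, pt0]
      · right; right
        apply idx_inj
        rw [h, idx_B 2 (by norm_num)]
        rfl
    have hsB2 : s (B 2) = B 2 := hsG.2 2 (by norm_num)
    have hcB2 : (h⁻¹ * g) (B 2) = B 2 := by
      have e : s ((h⁻¹ * g) (B 2)) = (h⁻¹ * g) (B 2) := by
        have := congrArg (fun f : Equiv.Perm Cfsg.GolayPt => f (B 2)) (hcomm s hs22)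
        simp only [Equiv.Perm.mul_apply] at this
        rw [hsB2] at this
        rw [Equiv.Perm.mul_apply]
        exact this.symm
      rcases hsfix _ e with e1 | e1 | e1
      · rw [← hc2] at e1
        have := (h⁻¹ * g).injective e1
        rw [B_two] at this
        exact absurd this (by decide)
      · rw [← hc1] at e1
        have := (h⁻¹ * g).injective e1
        rw [B_two] at this
        exact absurd this (by decide)
      · exact e1
    apply no_transposition (h⁻¹ * g) (mul_mem (inv_mem hh.1) hg) hc1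
    intro q hq1 hq2
    have hdq : dB 2 (idx q) = true := by
      rcases hcov2 (idx q) (idx_lt q) with h' | h' | h'
      · exact h'
      · exact absurd (by rw [← ptOf_idx q, h', pt23]) hq1
      · exact absurd (by rw [← ptOf_idx q, h', pt0]) hq2
    obtain ⟨y, hy, hyq⟩ := htrG 2 (by norm_num) q hdq
    have hy22 : y ∈ Cfsg.Spor.M22 := by
      rw [← Gk_two]
      exact hy
    have := congrArg (fun f : Equiv.Perm Cfsg.GolayPt => f (B 2)) (hcomm y hy22)
    simp only [Equiv.Perm.mul_apply] at this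
    rw [hyq] at this
    rw [Equiv.Perm.mul_apply] at hcB2
    rw [hcB2, hyq] at this
    rw [Equiv.Perm.mul_apply]
    exact this

end Cfsg.Agent.Lib.Helper9.M24Out
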