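import Mathlib
import Cfsg.Prelude.Def_Sporadic_a
import Cfsg.Agent.Lib.Helper9.M24Tri

set_option autoImplicit false

/-! Pairs of points relative to two fixed points and a fixed pair. -/

namespace Cfsg.Agent.Lib.Helper9.M24Pair

open Cfsg.Agent.Lib.Helper9.Golay Cfsg.Agent.Lib.Helper9.GolayC Cfsg.Agent.Lib.Helper9.M24C
open Cfsg.Agent.Lib.Helper9.Octad Cfsg.Agent.Lib.Helper9.M24B Cfsg.Agent.Lib.Helper9.M24T
open Cfsg.Agent.Lib.Helper9.M24O Cfsg.Agent.Lib.Helper9.M24Oct Cfsg.Agent.Lib.Helper9.M24OS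
open Cfsg.Agent.Lib.Helper9.M24Sim Cfsg.Agent.Lib.Helper9.M24F Cfsg.Agent.Lib.Helper9.M24Six
open Cfsg.Agent.Lib.Helper9.M24Tri
open scoped Pointwise

theorem getD_inj (l : List Cfsg.GolayPt) (hl : l.Nodup) :
    ∀ i < l.length, ∀ j < l.length, l.getD i none = l.getD j none → i = j := by
  intro i hi j hj h
  rw [List.getD_eq_getElem _ _ hi, List.getD_eq_getElem _ _ hj] at h
  exact (List.Nodup.getElem_inj_iff hl).mp h

theorem smul_pair (g : Equiv.Perm Cfsg.GolayPt) (a c : Cfsg.GolayPt) :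
    g • ({a, c} : Finset Cfsg.GolayPt) = {g a, g c} := by
  rw [Finset.smul_finset_insert, Finset.smul_finset_singleton]
  rfl

theorem split1 (s t : Finset Cfsg.GolayPt) (hs : s.card = 2) (ht : t.card = 2)
    (h : (s ∩ t).card = 1) :
    ∃ a b c : Cfsg.GolayPt, a ≠ c ∧ a ≠ b ∧ c ≠ b ∧ s = {a, c} ∧ t = {a, b} := by
  obtain ⟨a, ha⟩ := Finset.card_eq_one.mp h
  have has : a ∈ s := Finset.mem_of_mem_inter_left (ha ▸ Finset.mem_singleton_self a)
  have hat : a ∈ t := Finset.mem_of_mem_inter_right (ha ▸ Finset.mem_singleton_self a)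
  have h1 : (s.erase a).card = 1 := by rw [Finset.card_erase_of_mem has, hs]
  have h2 : (t.erase a).card = 1 := by rw [Finset.card_erase_of_mem hat, ht]
  obtain ⟨c, hc⟩ := Finset.card_eq_one.mp h1
  obtain ⟨b, hb⟩ := Finset.card_eq_one.mp h2
  have hcs : c ∈ s.erase a := hc ▸ Finset.mem_singleton_self c
  have hbt : b ∈ t.erase a := hb ▸ Finset.mem_singleton_self b
  rw [Finset.mem_erase] at hcs hbt
  refine ⟨a, b, c, fun e => hcs.1 e.symm, fun e => hbt.1 e.symm, fun e => ?_, ?_, ?_⟩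
  · have : c ∈ s ∩ t := Finset.mem_inter.mpr ⟨hcs.2, e ▸ hbt.2⟩
    rw [ha, Finset.mem_singleton] at this
    exact hcs.1 this
  · rw [← Finset.insert_erase has, hc]
  · rw [← Finset.insert_erase hat, hb]

theorem type_iff6 (p q c d a b : Cfsg.GolayPt) (o : Finset Cfsg.GolayPt) :
    (∀ i < 6, [p, q, c, d, a, b].getD i none ∈ o) ↔
      (p ∈ o ∧ q ∈ o ∧ ({c, d} : Finset Cfsg.GolayPt) ∪ {a, b} ⊆ o) := by
  constructor
  · intro h
    have h0 : p ∈ o := h 0 (by norm_num)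
    have h1 : q ∈ o := h 1 (by norm_num)
    have h2 : c ∈ o := h 2 (by norm_num)
    have h3 : d ∈ o := h 3 (by norm_num)
    have h4 : a ∈ o := h 4 (by norm_num)
    have h5 : b ∈ o := h 5 (by norm_num)
    refine ⟨h0, h1, ?_⟩
    intro z hz
    simp only [Finset.mem_union, Finset.mem_insert, Finset.mem_singleton] at hz
    rcases hz with (rfl | rfl) | (rfl | rfl)
    exacts [h2, h3, h4, h5]
  · rintro ⟨hp, hq, hsub⟩ i hi
    have hc : c ∈ o := hsub (by simp)
    have hd : d ∈ o := hsub (by simp)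
    have ha : a ∈ o := hsub (by simp)
    have hb : b ∈ o := hsub (by simp)
    interval_cases i
    exacts [hp, hq, hc, hd, ha, hb]

theorem pairs_trans (p q : Cfsg.GolayPt) (hpq : p ≠ q) (s : Finset Cfsg.GolayPt)
    (hs : s.card = 2 ∧ p ∉ s ∧ q ∉ s) (t t' : Finset Cfsg.GolayPt)
    (ht : t.card = 2 ∧ p ∉ t ∧ q ∉ t) (ht' : t'.card = 2 ∧ p ∉ t' ∧ q ∉ t')
    (hts : t ≠ s) (hts' : t' ≠ s) (hc : (s ∩ t).card = (s ∩ t').card)
    (hiff : (∃ o ∈ Cfsg.octads, p ∈ o ∧ q ∈ o ∧ s ∪ t ⊆ o) ↔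
      (∃ o ∈ Cfsg.octads, p ∈ o ∧ q ∈ o ∧ s ∪ t' ⊆ o)) :
    ∃ g : Equiv.Perm Cfsg.GolayPt, g ∈ Cfsg.M24 ∧ g p = p ∧ g q = q ∧ g • s = s ∧ g • t = t' := by
  have hle : (s ∩ t).card ≤ 2 :=
    (Finset.card_le_card Finset.inter_subset_left).trans (le_of_eq hs.1)
  have hne2 : ∀ t : Finset Cfsg.GolayPt, t.card = 2 → t ≠ s → (s ∩ t).card ≠ 2 := by
    intro t h2 hne h
    apply hne
    have h1 : s ∩ t = s :=
      Finset.eq_of_subset_of_card_le Finset.inter_subset_left (by rw [h, hs.1])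
    have h2' : s ∩ t = t :=
      Finset.eq_of_subset_of_card_le Finset.inter_subset_right (by rw [h, h2])
    exact h2'.symm.trans h1
  rcases Nat.lt_or_ge (s ∩ t).card 1 with h0 | h1
  · have e0 : (s ∩ t).card = 0 := by omega
    have e0' : (s ∩ t').card = 0 := by omega
    have hd : Disjoint s t := Finset.disjoint_iff_inter_eq_empty.mpr (Finset.card_eq_zero.mp e0)
    have hd' : Disjoint s t' :=
      Finset.disjoint_iff_inter_eq_empty.mpr (Finset.card_eq_zero.mp e0')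
    obtain ⟨c, d, hcd, rfl⟩ := Finset.card_eq_two.mp hs.1
    obtain ⟨a, b, hab, rfl⟩ := Finset.card_eq_two.mp ht.1
    obtain ⟨a', b', hab', rfl⟩ := Finset.card_eq_two.mp ht'.1
    rw [Finset.disjoint_insert_left, Finset.disjoint_singleton_left] at hd hd'
    simp only [Finset.mem_insert, Finset.mem_singleton, not_or] at hs ht ht' hd hd'
    have n1 : [p, q, c, d, a, b].Nodup := by
      simp only [List.nodup_cons, List.mem_cons, List.not_mem_nil, List.nodup_nil, not_or,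
        or_false, not_false_eq_true, and_true]
      tauto
    have n2 : [p, q, c, d, a', b'].Nodup := by
      simp only [List.nodup_cons, List.mem_cons, List.not_mem_nil, List.nodup_nil, not_or,
        or_false, not_false_eq_true, and_true]
      tauto
    obtain ⟨g, hg, hgx⟩ := triple_trans (fun i => [p, q, c, d, a, b].getD i none)
      (fun i => [p, q, c, d, a', b'].getD i none) (getD_inj _ n1) (getD_inj _ n2) (by
        constructor
        · rintro ⟨o, ho, h⟩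
          obtain ⟨o', ho', h'⟩ := hiff.mp ⟨o, ho, (type_iff6 p q c d a b o).mp h⟩
          exact ⟨o', ho', (type_iff6 p q c d a' b' o').mpr h'⟩
        · rintro ⟨o, ho, h⟩
          obtain ⟨o', ho', h'⟩ := hiff.mpr ⟨o, ho, (type_iff6 p q c d a' b' o).mp h⟩
          exact ⟨o', ho', (type_iff6 p q c d a b o').mpr h'⟩)
    have g0 : g p = p := hgx 0 (by norm_num)
    have g1 : g q = q := hgx 1 (by norm_num)
    have g2 : g c = c := hgx 2 (by norm_num)
    have g3 : g d = d := hgx 3 (by norm_num)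
    have g4 : g a = a' := hgx 4 (by norm_num)
    have g5 : g b = b' := hgx 5 (by norm_num)
    refine ⟨g, hg, g0, g1, ?_, ?_⟩
    · rw [smul_pair, g2, g3]
    · rw [smul_pair, g4, g5]
  · have e1 : (s ∩ t).card = 1 := by
      have := hne2 t ht.1 hts
      omega
    have e1' : (s ∩ t').card = 1 := by omega
    obtain ⟨a, b, c, hac, hab, hcb, hs_eq, ht_eq⟩ := split1 s t hs.1 ht.1 e1
    obtain ⟨a', b', c', hac', hab', hcb', hs_eq', ht_eq'⟩ := split1 s t' hs.1 ht'.1 e1'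
    have hpa : p ≠ a := fun h => hs.2.1 (by rw [hs_eq, h]; simp)
    have hpc : p ≠ c := fun h => hs.2.1 (by rw [hs_eq, h]; simp)
    have hpb : p ≠ b := fun h => ht.2.1 (by rw [ht_eq, h]; simp)
    have hqa : q ≠ a := fun h => hs.2.2 (by rw [hs_eq, h]; simp)
    have hqc : q ≠ c := fun h => hs.2.2 (by rw [hs_eq, h]; simp)
    have hqb : q ≠ b := fun h => ht.2.2 (by rw [ht_eq, h]; simp)
    have hpa' : p ≠ a' := fun h => hs.2.1 (by rw [hs_eq', h]; simp)
    have hpc' : p ≠ c' := fun h => hs.2.1 (by rw [hs_eq', h]; simp)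
    have hpb' : p ≠ b' := fun h => ht'.2.1 (by rw [ht_eq', h]; simp)
    have hqa' : q ≠ a' := fun h => hs.2.2 (by rw [hs_eq', h]; simp)
    have hqc' : q ≠ c' := fun h => hs.2.2 (by rw [hs_eq', h]; simp)
    have hqb' : q ≠ b' := fun h => ht'.2.2 (by rw [ht_eq', h]; simp)
    have n1 : [p, q, a, c, b].Nodup := by
      simp only [List.nodup_cons, List.mem_cons, List.not_mem_nil, List.nodup_nil, not_or,
        or_false, not_false_eq_true, and_true]
      tauto
    have n2 : [p, q, a', c', b'].Nodup := by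
      simp only [List.nodup_cons, List.mem_cons, List.not_mem_nil, List.nodup_nil, not_or,
        or_false, not_false_eq_true, and_true]
      tauto
    obtain ⟨g, hg, hgx⟩ := exists_tuple₂ 5 le_rfl (fun i => [p, q, a, c, b].getD i none)
      (fun i => [p, q, a', c', b'].getD i none) (getD_inj _ n1) (getD_inj _ n2)
    have g0 : g p = p := hgx 0 (by norm_num)
    have g1 : g q = q := hgx 1 (by norm_num)
    have g2 : g a = a' := hgx 2 (by norm_num)
    have g3 : g c = c' := hgx 3 (by norm_num)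
    have g4 : g b = b' := hgx 4 (by norm_num)
    refine ⟨g, hg, g0, g1, ?_, ?_⟩
    · calc g • s = g • {a, c} := by rw [← hs_eq]
        _ = {g a, g c} := smul_pair g a c
        _ = {a', c'} := by rw [g2, g3]
        _ = s := hs_eq'.symm
    · calc g • t = g • {a, b} := by rw [← ht_eq]
        _ = {g a, g b} := smul_pair g a b
        _ = {a', b'} := by rw [g2, g4]
        _ = t' := ht_eq'.symm

theorem pairs (p q : Cfsg.GolayPt) (hpq : p ≠ q) (s : Finset Cfsg.GolayPt)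
    (hs : s.card = 2 ∧ p ∉ s ∧ q ∉ s) :
    {t : Finset Cfsg.GolayPt | (t.card = 2 ∧ p ∉ t ∧ q ∉ t) ∧ Disjoint s t ∧
      (∃ o ∈ Cfsg.octads, p ∈ o ∧ q ∈ o ∧ s ∪ t ⊆ o)}.ncard = 30 ∧
    {t : Finset Cfsg.GolayPt | (t.card = 2 ∧ p ∉ t ∧ q ∉ t) ∧ Disjoint s t ∧
      ¬ (∃ o ∈ Cfsg.octads, p ∈ o ∧ q ∈ o ∧ s ∪ t ⊆ o)}.ncard = 160 ∧
    ∀ t t' : Finset Cfsg.GolayPt, (t.card = 2 ∧ p ∉ t ∧ q ∉ t) → (t'.card = 2 ∧ p ∉ t' ∧ q ∉ t') →
      t ≠ s → t' ≠ s → (s ∩ t).card = (s ∩ t').card →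
      ((∃ o ∈ Cfsg.octads, p ∈ o ∧ q ∈ o ∧ s ∪ t ⊆ o) ↔
        (∃ o ∈ Cfsg.octads, p ∈ o ∧ q ∈ o ∧ s ∪ t' ⊆ o)) →
      ∃ g : Equiv.Perm Cfsg.GolayPt, g ∈ Cfsg.M24 ∧ g p = p ∧ g q = q ∧ g • s = s ∧ g • t = t' := by
  have hT : (insert p (insert q s)).card = 4 := by
    rw [Finset.card_insert_of_notMem, Finset.card_insert_of_notMem hs.2.2, hs.1]
    rw [Finset.mem_insert, not_or]
    exact ⟨hpq, hs.2.1⟩
  have hX : (X1 (insert p (insert q s)) 2).card = 30 := by
    rw [card_X1 _ 2 (by omega), card_through4 _ hT, hT]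
    decide
  have e1 : {t : Finset Cfsg.GolayPt | (t.card = 2 ∧ p ∉ t ∧ q ∉ t) ∧ Disjoint s t ∧
      (∃ o ∈ Cfsg.octads, p ∈ o ∧ q ∈ o ∧ s ∪ t ⊆ o)} =
      {U : Finset Cfsg.GolayPt | U.card = 2 ∧ Disjoint (insert p (insert q s)) U ∧
        (∃ o ∈ Cfsg.octads, insert p (insert q s) ∪ U ⊆ o)} := by
    ext t
    rw [Set.mem_setOf_eq, Set.mem_setOf_eq, Finset.disjoint_insert_left,
      Finset.disjoint_insert_left, Finset.insert_union, Finset.insert_union]
    simp only [Finset.insert_subset_iff]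
    tauto
  have e2 : {t : Finset Cfsg.GolayPt | (t.card = 2 ∧ p ∉ t ∧ q ∉ t) ∧ Disjoint s t ∧
      ¬ (∃ o ∈ Cfsg.octads, p ∈ o ∧ q ∈ o ∧ s ∪ t ⊆ o)} =
      {U : Finset Cfsg.GolayPt | U.card = 2 ∧ Disjoint (insert p (insert q s)) U ∧
        ¬ (∃ o ∈ Cfsg.octads, insert p (insert q s) ∪ U ⊆ o)} := by
    ext t
    rw [Set.mem_setOf_eq, Set.mem_setOf_eq, Finset.disjoint_insert_left,
      Finset.disjoint_insert_left, Finset.insert_union, Finset.insert_union]
    simp only [Finset.insert_subset_iff]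
    tauto
  refine ⟨?_, ?_, ?_⟩
  · rw [e1, ncard_in, hX]
  · rw [e2, ncard_out, hX, hT]
    decide
  · intro t t' ht ht' hts hts' hc hiff
    exact pairs_trans p q hpq s hs t t' ht ht' hts hts' hc hiff

end Cfsg.Agent.Lib.Helper9.M24Pair
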