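import Mathlib
import Cfsg.Prelude.Def_Sporadic_a
import Cfsg.Agent.Lib.Helper9.M24St

set_option autoImplicit false

/-! The joint stabiliser of two octads meeting in two points is a symmetric group of degree 6. -/

namespace Cfsg.Agent.Lib.Helper9.M24S6

open Cfsg.Agent.Lib.Helper9.Golay Cfsg.Agent.Lib.Helper9.GolayC Cfsg.Agent.Lib.Helper9.M24C
open Cfsg.Agent.Lib.Helper9.Octad Cfsg.Agent.Lib.Helper9.M24B Cfsg.Agent.Lib.Helper9.M24T
open Cfsg.Agent.Lib.Helper9.M24O Cfsg.Agent.Lib.Helper9.M24Oct Cfsg.Agent.Lib.Helper9.M24OS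
open Cfsg.Agent.Lib.Helper9.M24Dod Cfsg.Agent.Lib.Helper9.M24M Cfsg.Agent.Lib.Helper9.M24CO
open Cfsg.Agent.Lib.Helper9.M24DO Cfsg.Agent.Lib.Helper9.M24Cnt Cfsg.Agent.Lib.Helper9.M24Cnt2
open Cfsg.Agent.Lib.Helper9.M24F Cfsg.Agent.Lib.Helper9.M24St
open scoped Pointwise

def M2 : ℕ := 5405696

set_option maxRecDepth 100000 in
theorem M2_ok : pc 24 (lin LB 70) = 8 ∧ M2 = lin LB 70 ∧ pc 24 (OM &&& M2) = 2 := by
  decide +kernel

theorem O2_mem : maskSet M2 ∈ Cfsg.octads := by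
  rw [M2_ok.2.1]
  exact maskSet_octad _ M2_ok.1

theorem O2_inter : (Oset ∩ maskSet M2).card = 2 := by
  unfold Oset
  rw [← maskSet_and, card_maskSet]
  exact M2_ok.2.2

set_option maxRecDepth 100000 in
theorem B_not_mem : ∀ i < 6, M2.testBit (idx (B i)) = false := by decide +kernel

set_option maxRecDepth 100000 in
theorem tabs6_M2 : ∀ t ∈ tabs 1 6, invB t M2 = true → t = List.range 24 := by decide +kernel

theorem std_ker (g : Equiv.Perm Cfsg.GolayPt) (hg : g ∈ Cfsg.M24)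
    (hfix : ∀ i < 6, g (B i) = B i) (hM : g • maskSet M2 = maskSet M2) : g = 1 := by
  obtain ⟨t, ht, hT⟩ := Gk_tabs 1 6 rfl g ⟨hg, hfix⟩
  have := tabs6_M2 t ht ((invB_iff hT M2).mp hM)
  subst this
  exact eq_one_of_isTable hT

theorem ker_trivial (o o' : Finset Cfsg.GolayPt) (ho : o ∈ Cfsg.octads) (ho' : o' ∈ Cfsg.octads)
    (h2 : (o ∩ o').card = 2) (g : Equiv.Perm Cfsg.GolayPt) (hg : g ∈ Cfsg.M24)
    (hgo' : g • o' = o') (hfix : ∀ p ∈ o \ o', g p = p) : g = 1 := by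
  obtain ⟨g0, hg0, rfl, rfl⟩ := pair_trans Oset (maskSet M2) o o' Oset_mem O2_mem ho ho'
    (by rw [O2_inter, h2])
  have h1 : g0⁻¹ * g * g0 = 1 := by
    apply std_ker _ (mul_mem (mul_mem (inv_mem hg0) hg) hg0)
    · intro i hi
      have hmem : g0 (B i) ∈ g0 • Oset \ g0 • maskSet M2 := by
        rw [Finset.mem_sdiff, mem_smul_iff, mem_smul_iff]
        refine ⟨?_, ?_⟩
        · unfold Oset
          rw [mem_maskSet]
          exact B_mem_O i hi
        · rw [mem_maskSet, B_not_mem i hi]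
          exact Bool.false_ne_true
      rw [Equiv.Perm.mul_apply, Equiv.Perm.mul_apply, hfix _ hmem]
      simp
    · rw [mul_smul, mul_smul, hgo', inv_smul_smul]
  have h3 := congrArg (fun x => g0 * x * g0⁻¹) h1
  simpa [mul_assoc] using h3

/-- Restriction to the six points of the first octad outside the second. -/
def res2 (o o' : Finset Cfsg.GolayPt) :
    ↥(MulAction.stabilizer Cfsg.M24 o ⊓ MulAction.stabilizer Cfsg.M24 o') →*
      Equiv.Perm ↥(o \ o') where
  toFun g := ((g : Cfsg.M24) : Equiv.Perm Cfsg.GolayPt).subtypePerm (fun x => by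
    have h1 : ((g : Cfsg.M24) : Equiv.Perm Cfsg.GolayPt) • o = o := g.2.1
    have h2 : ((g : Cfsg.M24) : Equiv.Perm Cfsg.GolayPt) • o' = o' := g.2.2
    rw [Finset.mem_sdiff, Finset.mem_sdiff, smul_mem_iff h1, smul_mem_iff h2])
  map_one' := by
    ext x
    rfl
  map_mul' := fun a b => by
    ext x
    rfl

theorem res2_apply (o o' : Finset Cfsg.GolayPt)
    (g : ↥(MulAction.stabilizer Cfsg.M24 o ⊓ MulAction.stabilizer Cfsg.M24 o')) (x : ↥(o \ o')) :
    ((res2 o o' g) x : Cfsg.GolayPt) = ((g : Cfsg.M24) : Equiv.Perm Cfsg.GolayPt) x := rfl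

theorem res2_inj (o o' : Finset Cfsg.GolayPt) (ho : o ∈ Cfsg.octads) (ho' : o' ∈ Cfsg.octads)
    (h2 : (o ∩ o').card = 2) : Function.Injective (res2 o o') := by
  rw [injective_iff_map_eq_one]
  intro g hg
  have h1 : ((g : Cfsg.M24) : Equiv.Perm Cfsg.GolayPt) = 1 := by
    apply ker_trivial o o' ho ho' h2 _ (g : Cfsg.M24).2 g.2.2
    intro p hp
    have := res2_apply o o' g ⟨p, hp⟩
    rw [hg] at this
    exact this.symm
  apply Subtype.ext
  apply Subtype.ext
  exact h1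

theorem iso_S6 (o o' : Finset Cfsg.GolayPt) (ho : o ∈ Cfsg.octads) (ho' : o' ∈ Cfsg.octads)
    (h2 : (o ∩ o').card = 2) :
    Nonempty (↥(MulAction.stabilizer Cfsg.M24 o ⊓ MulAction.stabilizer Cfsg.M24 o') ≃*
      Equiv.Perm (Fin 6)) := by
  have h6 : (o \ o').card = 6 := by
    have := Finset.card_sdiff_add_card_inter o o'
    have h8 : o.card = 8 := ((mem_octads o).mp ho).2
    omega
  have hc : Nat.card (Equiv.Perm ↥(o \ o')) = 720 := by
    rw [Nat.card_eq_fintype_card, Fintype.card_perm, Fintype.card_coe, h6]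
    rfl
  have hbij : Function.Bijective (res2 o o') := by
    apply (res2_inj o o' ho ho' h2).bijective_of_nat_card_le
    rw [hc, (card_stab2_cases o o' ho ho').2.2 h2]
  have e1 : ↥(o \ o') ≃ Fin 6 := Finset.equivFinOfCardEq h6
  exact ⟨(MulEquiv.ofBijective (res2 o o') hbij).trans e1.permCongrHom⟩

end Cfsg.Agent.Lib.Helper9.M24S6
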