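import Mathlib
import Cfsg.Prelude.Def_AxialAlgebras

set_option autoImplicit false

namespace Cfsg.Agent.Lib.Helper9

open Cfsg.Axial

section

variable {V : Type*} [AddCommGroup V] [Module ℝ V]

theorem mem_eigen (mul : V →ₗ[ℝ] V →ₗ[ℝ] V) (a : V) (c : ℝ) (v : V) :
    v ∈ eigen mul a c ↔ mul a v = c • v :=
  Module.End.mem_eigenspace_iff

theorem eigenSum_pair (mul : V →ₗ[ℝ] V →ₗ[ℝ] V) (a : V) (c d : ℝ) :
    eigenSum mul a {c, d} = eigen mul a c ⊔ eigen mul a d := by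
  simp only [eigenSum, iSup_insert, iSup_singleton]

theorem eigenSum_single (mul : V →ₗ[ℝ] V →ₗ[ℝ] V) (a : V) (c : ℝ) :
    eigenSum mul a {c} = eigen mul a c := by
  simp only [eigenSum, iSup_singleton]

theorem eigenSum_plus (mul : V →ₗ[ℝ] V →ₗ[ℝ] V) (a : V) :
    eigenSum mul a {1, 0, 1 / 4} = eigen mul a 1 ⊔ (eigen mul a 0 ⊔ eigen mul a (1 / 4)) := by
  simp only [eigenSum, iSup_insert, iSup_singleton]

theorem eigenSum_spec (mul : V →ₗ[ℝ] V →ₗ[ℝ] V) (a : V) :
    eigenSum mul a majoranaSpectrum =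
      eigen mul a 1 ⊔ (eigen mul a 0 ⊔ (eigen mul a (1 / 4) ⊔ eigen mul a (1 / 32))) := by
  simp only [eigenSum, majoranaSpectrum, iSup_insert, iSup_singleton]

/-- Separation of the `1`, `0`, `1/4` components. -/
theorem eigen_sep (mul : V →ₗ[ℝ] V →ₗ[ℝ] V) (a x1 x0 xq : V)
    (h1 : mul a x1 = x1) (h0 : mul a x0 = 0) (hq : mul a xq = (1 / 4 : ℝ) • xq)
    (h : x1 + x0 + xq = 0) : x1 = 0 ∧ x0 = 0 ∧ xq = 0 := by
  have e1 : x1 + (1 / 4 : ℝ) • xq = 0 := by
    have := congrArg (mul a) h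
    simpa [map_add, h1, h0, hq] using this
  have e2 : x1 + (1 / 16 : ℝ) • xq = 0 := by
    have := congrArg (mul a) e1
    simp only [map_add, map_smul, h1, hq, map_zero, smul_smul] at this
    norm_num at this
    exact this
  have e3 : xq = 0 := by
    have : (3 / 16 : ℝ) • xq = 0 := by
      have : (3 / 16 : ℝ) • xq = (x1 + (1 / 4 : ℝ) • xq) - (x1 + (1 / 16 : ℝ) • xq) := by module
      rw [this, e1, e2, sub_zero]
    rcases smul_eq_zero.mp this with h | h
    · norm_num at h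
    · exact h
  have e4 : x1 = 0 := by simpa [e3] using e1
  refine ⟨e4, ?_, e3⟩
  simpa [e3, e4] using h

/-- Decomposition of a vector fixed by the Majorana involution. -/
theorem majorana_decomp (mul : V →ₗ[ℝ] V →ₗ[ℝ] V) (B : LinearMap.BilinForm ℝ V) (μ : V ≃ₗ[ℝ] V) (a : V)
    (hp : IsMajoranaPair mul B μ a) (b : V) (hb : μ b = b) :
    ∃ (l : ℝ) (u v : V), b = l • a + u + v ∧ mul a u = 0 ∧ mul a v = (1 / 4 : ℝ) • v := by
  obtain ⟨_, _, ⟨⟨_, _, hsum, _⟩, hprim⟩, hfix, hneg⟩ := hp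
  have hb' : b ∈ eigenSum mul a majoranaSpectrum := by rw [hsum]; trivial
  rw [eigenSum_spec] at hb'
  obtain ⟨x1, hx1, y, hy, rfl⟩ := Submodule.mem_sup.mp hb'
  obtain ⟨x0, hx0, y', hy', rfl⟩ := Submodule.mem_sup.mp hy
  obtain ⟨xq, hxq, xt, hxt, rfl⟩ := Submodule.mem_sup.mp hy'
  have f1 : μ x1 = x1 := hfix x1 (by rw [eigenSum_plus]; exact Submodule.mem_sup_left hx1)
  have f0 : μ x0 = x0 := hfix x0 (by
    rw [eigenSum_plus]; exact Submodule.mem_sup_right (Submodule.mem_sup_left hx0))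
  have fq : μ xq = xq := hfix xq (by
    rw [eigenSum_plus]; exact Submodule.mem_sup_right (Submodule.mem_sup_right hxq))
  have ft : μ xt = -xt := hneg xt hxt
  have hxt0 : xt = 0 := by
    have h2 : x1 + (x0 + (xq + -xt)) = x1 + (x0 + (xq + xt)) := by
      rw [← hb]; simp only [map_add, f1, f0, fq, ft]
    have h3 : (2 : ℝ) • xt = 0 := by
      have : (2 : ℝ) • xt = (x1 + (x0 + (xq + xt))) - (x1 + (x0 + (xq + -xt))) := by module
      rw [this, h2, sub_self]
    rcases smul_eq_zero.mp h3 with h | h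
    · norm_num at h
    · exact h
  rw [hprim] at hx1
  obtain ⟨l, rfl⟩ := Submodule.mem_span_singleton.mp hx1
  refine ⟨l, x0, xq, ?_, ?_, ?_⟩
  · rw [hxt0]; module
  · have := (mem_eigen mul a 0 x0).mp hx0
    simpa using this
  · exact (mem_eigen mul a (1 / 4) xq).mp hxq

theorem eigen_map (mul : V →ₗ[ℝ] V →ₗ[ℝ] V) (σ : V ≃ₗ[ℝ] V)
    (hσ : ∀ u v : V, σ (mul u v) = mul (σ u) (σ v)) (a : V) (c : ℝ) :
    eigen mul (σ a) c = (eigen mul a c).map (σ : V →ₗ[ℝ] V) := by
  ext x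
  rw [mem_eigen, Submodule.mem_map]
  constructor
  · intro h
    refine ⟨σ.symm x, ?_, by simp⟩
    rw [mem_eigen]
    apply σ.injective
    rw [hσ, map_smul, LinearEquiv.apply_symm_apply, h]
  · rintro ⟨y, hy, rfl⟩
    rw [mem_eigen] at hy
    simp only [LinearEquiv.coe_coe]
    rw [← hσ, hy, map_smul]

theorem eigenSum_map (mul : V →ₗ[ℝ] V →ₗ[ℝ] V) (σ : V ≃ₗ[ℝ] V)
    (hσ : ∀ u v : V, σ (mul u v) = mul (σ u) (σ v)) (a : V) (S : Set ℝ) :
    eigenSum mul (σ a) S = (eigenSum mul a S).map (σ : V →ₗ[ℝ] V) := by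
  simp only [eigenSum, Submodule.map_iSup, eigen_map mul σ hσ]

/-- Transport of a Majorana pair along an automorphism commuting with the involution. -/
theorem majorana_transport (mul : V →ₗ[ℝ] V →ₗ[ℝ] V) (B : LinearMap.BilinForm ℝ V) (μ σ : V ≃ₗ[ℝ] V)
    (a : V) (hp : IsMajoranaPair mul B μ a)
    (hσ : ∀ u v : V, σ (mul u v) = mul (σ u) (σ v)) (hc : ∀ v : V, μ (σ v) = σ (μ v)) :
    IsMajoranaPair mul B μ (σ a) := by
  obtain ⟨hm, hB, ⟨⟨hne, hidem, hsum, hfus⟩, hprim⟩, hfix, hneg⟩ := hp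
  refine ⟨hm, hB, ⟨⟨?_, ?_, ?_, ?_⟩, ?_⟩, ?_, ?_⟩
  · intro h
    apply hne
    apply σ.injective
    rw [h, map_zero]
  · rw [← hσ, hidem]
  · rw [eigenSum_map mul σ hσ, hsum, Submodule.map_top, LinearMap.range_eq_top]
    exact σ.surjective
  · intro c hcS d hdS u hu v hv
    rw [eigen_map mul σ hσ] at hu hv
    obtain ⟨u', hu', rfl⟩ := Submodule.mem_map.mp hu
    obtain ⟨v', hv', rfl⟩ := Submodule.mem_map.mp hv
    rw [eigenSum_map mul σ hσ]
    simp only [LinearEquiv.coe_coe]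
    rw [← hσ]
    exact Submodule.mem_map_of_mem (hfus c hcS d hdS u' hu' v' hv')
  · rw [eigen_map mul σ hσ, hprim, Submodule.map_span, Set.image_singleton]
    rfl
  · intro v hv
    rw [eigenSum_map mul σ hσ] at hv
    obtain ⟨v', hv', rfl⟩ := Submodule.mem_map.mp hv
    have := hfix v' hv'
    simp only [LinearEquiv.coe_coe] at this ⊢
    rw [hc, this]
  · intro v hv
    rw [eigen_map mul σ hσ] at hv
    obtain ⟨v', hv', rfl⟩ := Submodule.mem_map.mp hv
    have := hneg v' hv'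
    simp only [LinearEquiv.coe_coe] at this ⊢
    rw [hc, this, map_neg]

/-- The key algebraic consequences of `μ b = b` for an idempotent `b` of norm-one axis `a`. -/
theorem majorana_key (mul : V →ₗ[ℝ] V →ₗ[ℝ] V) (B : LinearMap.BilinForm ℝ V)
    (hV : IsMajoranaAmbient mul B) (μ : V ≃ₗ[ℝ] V) (a : V)
    (hp : IsMajoranaPair mul B μ a) (hn : B a a = 1) (b : V) (hbb : mul b b = b) (hb : μ b = b) :
    mul a (mul a b) = (1 / 4 : ℝ) • (mul a b + (3 * B a b) • a) ∧
    mul (b + (3 * B a b) • a - (4 : ℝ) • mul a b) (b + (3 * B a b) • a - (4 : ℝ) • mul a b)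
      + mul ((4 : ℝ) • (mul a b - B a b • a)) ((4 : ℝ) • (mul a b - B a b • a))
      - (B a b - B a b ^ 2) • a = b + (3 * B a b) • a - (4 : ℝ) • mul a b := by
  obtain ⟨hcomm, hsymm, hpos, hassoc, hnorton⟩ := hV
  obtain ⟨l, u, v, hdec, hu, hv⟩ := majorana_decomp mul B μ a hp b hb
  obtain ⟨_, _, ⟨⟨hne, hidem, hsum, hfus⟩, hprim⟩, _, _⟩ := hp
  have hBu : B a u = 0 := by
    have := hassoc a a u
    rw [hu, hidem] at this
    simpa using this.symm
  have hBv : B a v = 0 := by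
    have := hassoc a a v
    rw [hv, hidem, map_smul] at this
    have h2 : (3 / 4 : ℝ) * B a v = 0 := by
      simp only [smul_eq_mul] at this; linarith
    rcases mul_eq_zero.mp h2 with h | h
    · norm_num at h
    · exact h
  have hl : B a b = l := by
    rw [hdec]; simp [map_add, map_smul, hn, hBu, hBv]
  have hab : mul a b = l • a + (1 / 4 : ℝ) • v := by
    rw [hdec]; simp only [map_add, map_smul, hidem, hu, hv]; module
  have h0S : (0 : ℝ) ∈ majoranaSpectrum := by simp [majoranaSpectrum]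
  have hqS : (1 / 4 : ℝ) ∈ majoranaSpectrum := by simp [majoranaSpectrum]
  have hu' : u ∈ eigen mul a 0 := by rw [mem_eigen, hu, zero_smul]
  have hv' : v ∈ eigen mul a (1 / 4) := by rw [mem_eigen, hv]
  have law00 : monsterLaw (1 / 4) (1 / 32) (0 : ℝ) 0 = {0} := by
    norm_num [monsterLaw]
  have law0q : monsterLaw (1 / 4) (1 / 32) (0 : ℝ) (1 / 4) = {1 / 4} := by
    norm_num [monsterLaw]
  have lawqq : monsterLaw (1 / 4) (1 / 32) (1 / 4 : ℝ) (1 / 4) = {1, 0} := by
    norm_num [monsterLaw]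
  have huu : mul a (mul u u) = 0 := by
    have := hfus 0 h0S 0 h0S u hu' u hu'
    rw [law00, eigenSum_single, mem_eigen, zero_smul] at this
    exact this
  have huv : mul a (mul u v) = (1 / 4 : ℝ) • mul u v := by
    have := hfus 0 h0S (1 / 4) hqS u hu' v hv'
    rw [law0q, eigenSum_single, mem_eigen] at this
    exact this
  obtain ⟨k, w, hvv, hw⟩ : ∃ (k : ℝ) (w : V), mul v v = k • a + w ∧ mul a w = 0 := by
    have := hfus (1 / 4) hqS (1 / 4) hqS v hv' v hv'
    rw [lawqq, eigenSum_pair] at this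
    obtain ⟨y1, hy1, y0, hy0, hs⟩ := Submodule.mem_sup.mp this
    rw [hprim] at hy1
    obtain ⟨k, rfl⟩ := Submodule.mem_span_singleton.mp hy1
    refine ⟨k, y0, hs.symm, ?_⟩
    have := (mem_eigen mul a 0 y0).mp hy0
    simpa using this
  have hua : mul u a = 0 := by rw [hcomm, hu]
  have hva : mul v a = (1 / 4 : ℝ) • v := by rw [hcomm, hv]
  have hvu : mul v u = mul u v := hcomm v u
  have hexp : ((l ^ 2 + k - l) • a) + (mul u u + w - u) + ((l / 2 - 1) • v + (2 : ℝ) • mul u v) = 0 := by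
    have h1 : mul b b - b = 0 := by rw [hbb, sub_self]
    rw [hdec] at h1
    simp only [map_add, map_smul, LinearMap.add_apply, LinearMap.smul_apply, hidem, hu, hv, hua, hva,
      hvu, hvv, smul_zero, add_zero, zero_add] at h1
    rw [← h1]
    module
  obtain ⟨s1, s0, _⟩ := eigen_sep mul a _ _ _ (by rw [map_smul, hidem])
    (by simp only [map_add, map_sub, huu, hw, hu]; simp)
    (by simp only [map_add, map_smul, hv, huv]; module) hexp
  have hk : k = l - l ^ 2 := by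
    rcases smul_eq_zero.mp s1 with h | h
    · linarith
    · exact absurd h hne
  have hu_eq : u = b + (3 * l) • a - (4 : ℝ) • mul a b := by rw [hab, hdec]; module
  have hv_eq : v = (4 : ℝ) • (mul a b - l • a) := by rw [hab]; module
  refine ⟨?_, ?_⟩
  · rw [hl, hab]; simp only [map_add, map_smul, hidem, hv]; module
  · rw [hl, ← hu_eq, ← hv_eq, hvv, hk]
    have h3 : mul u u + w = u := sub_eq_zero.mp s0
    calc mul u u + ((l - l ^ 2) • a + w) - (l - l ^ 2) • a = mul u u + w := by module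
      _ = u := h3

/-- The Majorana involution is determined by its axis. -/
theorem majorana_involution_unique (mul : V →ₗ[ℝ] V →ₗ[ℝ] V) (B : LinearMap.BilinForm ℝ V)
    (μ μ' : V ≃ₗ[ℝ] V) (a : V) (hp : IsMajoranaPair mul B μ a) (hp' : IsMajoranaPair mul B μ' a) :
    μ = μ' := by
  obtain ⟨_, _, ⟨⟨_, _, hsum, _⟩, _⟩, hfix, hneg⟩ := hp
  obtain ⟨_, _, _, hfix', hneg'⟩ := hp'
  ext x
  have hx : x ∈ eigenSum mul a majoranaSpectrum := by rw [hsum]; trivial
  rw [eigenSum_spec] at hx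
  obtain ⟨x1, hx1, y, hy, rfl⟩ := Submodule.mem_sup.mp hx
  obtain ⟨x0, hx0, y', hy', rfl⟩ := Submodule.mem_sup.mp hy
  obtain ⟨xq, hxq, xt, hxt, rfl⟩ := Submodule.mem_sup.mp hy'
  have m1 : x1 ∈ eigenSum mul a {1, 0, 1 / 4} := by
    rw [eigenSum_plus]; exact Submodule.mem_sup_left hx1
  have m0 : x0 ∈ eigenSum mul a {1, 0, 1 / 4} := by
    rw [eigenSum_plus]; exact Submodule.mem_sup_right (Submodule.mem_sup_left hx0)
  have mq : xq ∈ eigenSum mul a {1, 0, 1 / 4} := by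
    rw [eigenSum_plus]; exact Submodule.mem_sup_right (Submodule.mem_sup_right hxq)
  have e1 := hfix x1 m1
  have e0 := hfix x0 m0
  have eq := hfix xq mq
  have et := hneg xt hxt
  have e1' := hfix' x1 m1
  have e0' := hfix' x0 m0
  have eq' := hfix' xq mq
  have et' := hneg' xt hxt
  simp only [LinearEquiv.coe_coe] at e1 e0 eq et e1' e0' eq' et'
  simp only [map_add, e1, e0, eq, et, e1', e0', eq', et']

end

end Cfsg.Agent.Lib.Helper9
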