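import Mathlib
import Cfsg.Prelude.Def_Sporadic_a
import Cfsg.Agent.Lib.Helper9.Invol
import Cfsg.Agent.Lib.Helper9.Ord3

set_option autoImplicit false

/-! Commuting elements of orders three and two of the group of the length-24 code. -/

namespace Cfsg.Agent.Lib.Helper9.Ord6

open Cfsg.Agent.Lib.Helper9.Golay Cfsg.Agent.Lib.Helper9.GolayC Cfsg.Agent.Lib.Helper9.M24C
open Cfsg.Agent.Lib.Helper9.Octad Cfsg.Agent.Lib.Helper9.M24B Cfsg.Agent.Lib.Helper9.M24T
open Cfsg.Agent.Lib.Helper9.M24O Cfsg.Agent.Lib.Helper9.M24Sx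
open scoped Pointwise

def PRI : List (ℕ × ℕ) := [(34, 99), (223, 139)]

def S6 : List ℕ := [1, 2, 3, 5, 15, 23, 22, 9, 10, 18, 21, 12, 7, 8, 17, 20, 19, 14, 4, 6, 13, 11, 16, 0]

theorem s6_run : S6 ∈ run TT PRI := by decide +kernel

theorem s6_mem : ∃ g ∈ Cfsg.M24, IsTable g S6 := run_TT PRI S6 s6_run

/-- Iterating a table. -/
def itT (u : List ℕ) (n i : ℕ) : ℕ := (fun j => u.getD j 0)^[n] i

theorem itT_spec {g : Equiv.Perm Cfsg.GolayPt} {u : List ℕ} (hT : IsTable g u) (n : ℕ)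
    (p : Cfsg.GolayPt) : idx ((g ^ n) p) = itT u n (idx p) := by
  induction n generalizing p with
  | zero => simp [itT]
  | succ n ih =>
    rw [pow_succ, Equiv.Perm.mul_apply, ih]
    unfold itT
    rw [Function.iterate_succ_apply, hT]

/-- Index-level tests. -/
def isP6 (u : List ℕ) : Bool := (List.range 24).all (fun i => itT u 6 i == i)

def fxB (u : List ℕ) (n : ℕ) : Bool := (List.range 24).any (fun i => itT u n i == i)

def chk6 (u : List ℕ) : Bool := !(isP6 u) || (fxB u 2 == fxB u 3)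

set_option maxRecDepth 100000 in
theorem cert : (tabs 3 4).all (fun t => chk6 (comp S6 t)) = true := by decide +kernel

theorem S6_base : S6.getD 23 0 = 0 ∧ S6.getD 0 0 = 1 ∧ S6.getD 1 0 = 2 ∧ S6.getD 2 0 = 3 := by
  decide

theorem fx_iff {g : Equiv.Perm Cfsg.GolayPt} {u : List ℕ} (hT : IsTable g u) (n : ℕ) :
    (∃ p, (g ^ n) p = p) ↔ fxB u n = true := by
  unfold fxB
  rw [List.any_eq_true]
  constructor
  · rintro ⟨p, hp⟩
    refine ⟨idx p, List.mem_range.mpr (idx_lt p), ?_⟩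
    rw [beq_iff_eq, ← itT_spec hT, hp]
  · rintro ⟨i, hi, h⟩
    rw [List.mem_range] at hi
    rw [beq_iff_eq] at h
    refine ⟨ptOf i, ?_⟩
    apply idx_inj
    rw [itT_spec hT, idx_ptOf i hi, h]

theorem isP6_of {g : Equiv.Perm Cfsg.GolayPt} {u : List ℕ} (hT : IsTable g u)
    (h6 : g ^ 6 = 1) : isP6 u = true := by
  unfold isP6
  rw [List.all_eq_true]
  intro i hi
  rw [List.mem_range] at hi
  rw [beq_iff_eq]
  have := itT_spec hT 6 (ptOf i)
  rw [h6, Equiv.Perm.one_apply, idx_ptOf i hi] at this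
  exact this.symm

theorem normal_form (g : Equiv.Perm Cfsg.GolayPt) (hg : g ∈ Cfsg.M24) (h6 : g ^ 6 = 1)
    (h01 : g (B 0) = B 1) (h12 : g (B 1) = B 2) (h23 : g (B 2) = B 3) (h34 : g (B 3) = B 4) :
    (∃ p, (g ^ 2) p = p) ↔ (∃ p, (g ^ 3) p = p) := by
  obtain ⟨s0, hs0, hS0⟩ := s6_mem
  obtain ⟨b23, b0, b1, b2⟩ := S6_base
  have s01 : s0 (B 0) = B 1 := by
    rw [Ord3.B0_eq, Ord3.B1_eq, isTable_apply hS0 23 (by norm_num), b23]
  have s12 : s0 (B 1) = B 2 := by
    rw [Ord3.B1_eq, Ord3.B2_eq, isTable_apply hS0 0 (by norm_num), b0]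
  have s23 : s0 (B 2) = B 3 := by
    rw [Ord3.B2_eq, Ord3.B3_eq, isTable_apply hS0 1 (by norm_num), b1]
  have s34 : s0 (B 3) = B 4 := by
    rw [Ord3.B3_eq, Ord3.B4_eq, isTable_apply hS0 2 (by norm_num), b2]
  have hk0 : s0⁻¹ * g ∈ Gk 4 := by
    refine ⟨mul_mem (inv_mem hs0) hg, fun i hi => ?_⟩
    rw [Equiv.Perm.mul_apply, Equiv.Perm.inv_eq_iff_eq]
    interval_cases i
    · rw [h01, s01]
    · rw [h12, s12]
    · rw [h23, s23]
    · rw [h34, s34]
  obtain ⟨t, ht, hT⟩ := Gk_tabs 3 4 rfl _ hk0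
  have hgT : IsTable g (comp S6 t) := by
    have := isTable_mul hS0 hT
    rwa [mul_inv_cancel_left] at this
  have hc := List.all_eq_true.mp cert t ht
  unfold chk6 at hc
  rw [isP6_of hgT h6] at hc
  simp only [Bool.not_true, Bool.false_or, beq_iff_eq] at hc
  rw [fx_iff hgT 2, fx_iff hgT 3, hc]

theorem pow_inj5 (Y : Equiv.Perm Cfsg.GolayPt) (a : Cfsg.GolayPt)
    (h : ∀ d, 1 ≤ d → d ≤ 4 → (Y ^ d) a ≠ a) :
    ∀ i < 5, ∀ j < 5, (Y ^ i) a = (Y ^ j) a → i = j := by
  have key : ∀ i j, i < j → j < 5 → (Y ^ i) a ≠ (Y ^ j) a := by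
    intro i j hij hj e
    have e' : Y ^ j = Y ^ i * Y ^ (j - i) := by
      rw [← pow_add]
      congr 1
      omega
    rw [e', Equiv.Perm.mul_apply] at e
    exact h (j - i) (by omega) (by omega) ((Y ^ i).injective e).symm
  intro i hi j hj hij
  by_contra hne
  rcases Nat.lt_or_gt_of_ne hne with hlt | hgt
  · exact key i j hlt hj hij
  · exact key j i hgt hi hij.symm

theorem s5608 (x s : Equiv.Perm Cfsg.GolayPt) (hx : x ∈ Cfsg.M24) (hs : s ∈ Cfsg.M24)
    (h₃ : orderOf x = 3) (h₂ : orderOf s = 2) (hc : Commute x s) :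
    ((Finset.univ.filter fun p => x p = p).card = 6 ∧
      (Finset.univ.filter fun p => s p = p).card = 8) ∨
    ((Finset.univ.filter fun p => x p = p).card = 0 ∧
      (Finset.univ.filter fun p => s p = p).card = 0) := by
  have hx3 : x ^ 3 = 1 := by rw [← h₃]; exact pow_orderOf_eq_one x
  have hs2 : s ^ 2 = 1 := by rw [← h₂]; exact pow_orderOf_eq_one s
  have Fx : (Finset.univ.filter fun p => x p = p).card = 6 ∨
      (Finset.univ.filter fun p => x p = p).card = 0 := by
    have nf : {p : Cfsg.GolayPt | x p = p}.ncard = (Finset.univ.filter fun p => x p = p).card := by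
      rw [← Set.ncard_coe_finset]
      congr 1
      ext p
      simp
    obtain ⟨R, hR | hR, r, hr, hT, k, hk, hkg⟩ := Ord3.conj_rep x hx h₃
    · subst hR
      left
      rw [← nf]
      exact Ord3.fix_conj1 hT hkg
    · subst hR
      right
      rw [← nf]
      exact Ord3.fix_conj2 hT hkg
  have Fs : (Finset.univ.filter fun p => s p = p).card = 8 ∨
      (Finset.univ.filter fun p => s p = p).card = 0 := by
    rcases Invol.s5394.1 s hs h₂ with h | h
    · exact Or.inl h.2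
    · right
      rw [Finset.card_eq_zero, Finset.filter_eq_empty_iff]
      intro p _
      exact h p
  obtain ⟨a, hxa, hsa⟩ : ∃ a, x a ≠ a ∧ s a ≠ a := by
    by_contra hcon
    push Not at hcon
    have hsub : (Finset.univ : Finset Cfsg.GolayPt) ⊆
        (Finset.univ.filter fun p => x p = p) ∪ (Finset.univ.filter fun p => s p = p) := by
      intro p _
      rw [Finset.mem_union, Finset.mem_filter, Finset.mem_filter]
      by_cases hp : x p = p
      · exact Or.inl ⟨Finset.mem_univ _, hp⟩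
      · exact Or.inr ⟨Finset.mem_univ _, hcon p hp⟩
    have h1 := Finset.card_le_card hsub
    have h2 := Finset.card_union_le (Finset.univ.filter fun p => x p = p)
      (Finset.univ.filter fun p => s p = p)
    rw [Finset.card_univ, card_pts] at h1
    omega
  have hY2 : (x * s) ^ 2 = x ^ 2 := by rw [hc.mul_pow, hs2, mul_one]
  have hY3 : (x * s) ^ 3 = s := by
    rw [hc.mul_pow, hx3, one_mul, pow_succ, hs2, one_mul]
  have hY4 : (x * s) ^ 4 = x := by
    have e1 : x ^ 4 = x := by rw [pow_succ, hx3, one_mul]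
    have e2 : s ^ 4 = 1 := by rw [show 4 = 2 * 2 from rfl, pow_mul, hs2, one_pow]
    rw [hc.mul_pow, e1, e2, mul_one]
  have hY6 : (x * s) ^ 6 = 1 := by
    rw [show 6 = 3 * 2 from rfl, pow_mul, hY3, hs2]
  have x2fix : ∀ p, (x ^ 2) p = p ↔ x p = p := by
    intro p
    constructor
    · intro h
      have : (x ^ 3) p = x p := by
        rw [pow_succ', Equiv.Perm.mul_apply, h]
      rw [hx3, Equiv.Perm.one_apply] at this
      exact this.symm
    · intro h
      rw [pow_two, Equiv.Perm.mul_apply, h, h]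
  have base : ∀ d, 1 ≤ d → d ≤ 4 → ((x * s) ^ d) a ≠ a := by
    intro d h1 h4 e
    interval_cases d
    · have : ((x * s) ^ 3) a = a := by
        rw [pow_one] at e
        rw [pow_succ, pow_succ, pow_one, Equiv.Perm.mul_apply, Equiv.Perm.mul_apply, e, e, e]
      rw [hY3] at this
      exact hsa this
    · rw [hY2] at e
      exact hxa ((x2fix a).mp e)
    · rw [hY3] at e
      exact hsa e
    · rw [hY4] at e
      exact hxa e
  obtain ⟨h, hh, hB⟩ := exists_tuple 5 le_rfl (fun i => ((x * s) ^ i) a)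
    (pow_inj5 (x * s) a base)
  have hi : ∀ p q, h p = q → h⁻¹ q = p := fun p q hpq => by rw [← hpq]; simp
  have step : ∀ i < 4, (h⁻¹ * (x * s) * h) (B i) = B (i + 1) := by
    intro i hi4
    rw [Equiv.Perm.mul_apply, Equiv.Perm.mul_apply, hB i (by omega)]
    apply hi
    rw [hB (i + 1) (by omega)]
    show ((x * s) ^ (i + 1)) a = (x * s) (((x * s) ^ i) a)
    rw [pow_succ', Equiv.Perm.mul_apply]
  have cp : ∀ n : ℕ, (h⁻¹ * (x * s) * h) ^ n = h⁻¹ * (x * s) ^ n * h := by
    intro n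
    have := conj_pow (a := h⁻¹) (b := x * s) (i := n)
    rwa [inv_inv] at this
  have tr : ∀ n : ℕ, (∃ p, ((h⁻¹ * (x * s) * h) ^ n) p = p) ↔ (∃ p, ((x * s) ^ n) p = p) := by
    intro n
    rw [cp]
    constructor
    · rintro ⟨p, hp⟩
      refine ⟨h p, ?_⟩
      have := congrArg h hp
      simpa using this
    · rintro ⟨p, hp⟩
      refine ⟨h⁻¹ p, ?_⟩
      simp [hp]
  have nf := normal_form (h⁻¹ * (x * s) * h) (mul_mem (mul_mem (inv_mem hh) (mul_mem hx hs)) hh)
    (by rw [cp, hY6]; group) (step 0 (by norm_num)) (step 1 (by norm_num)) (step 2 (by norm_num))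
    (step 3 (by norm_num))
  rw [tr 2, tr 3, hY2, hY3] at nf
  have iffx : (∃ p, x p = p) ↔ (∃ p, s p = p) := by
    rw [← nf]
    exact ⟨fun ⟨p, hp⟩ => ⟨p, (x2fix p).mpr hp⟩, fun ⟨p, hp⟩ => ⟨p, (x2fix p).mp hp⟩⟩
  have pos : ∀ (g : Equiv.Perm Cfsg.GolayPt),
      0 < (Finset.univ.filter fun p => g p = p).card ↔ ∃ p, g p = p := by
    intro g
    rw [Finset.card_pos]
    constructor
    · rintro ⟨p, hp⟩
      exact ⟨p, (Finset.mem_filter.mp hp).2⟩
    · rintro ⟨p, hp⟩
      exact ⟨p, Finset.mem_filter.mpr ⟨Finset.mem_univ _, hp⟩⟩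
  have px := pos x
  have ps := pos s
  rcases Fx with hx6 | hx0 <;> rcases Fs with hs8 | hs0
  · exact Or.inl ⟨hx6, hs8⟩
  · exfalso
    have : ∃ p, x p = p := px.mp (by omega)
    have := ps.mpr (iffx.mp this)
    omega
  · exfalso
    have : ∃ p, s p = p := ps.mp (by omega)
    have := px.mpr (iffx.mpr this)
    omega
  · exact Or.inr ⟨hx0, hs0⟩

end Cfsg.Agent.Lib.Helper9.Ord6
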