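import Mathlib
import Cfsg.Agent.Lib.Helper9.Steiner

set_option autoImplicit false
set_option linter.unusedSectionVars false

namespace Cfsg.Agent.Lib.Helper9.Plane4

open Finset

variable {α : Type*} [Fintype α] [DecidableEq α]

/-- A projective plane of order 4 as an S(2,5,21), finset version. -/
structure Plane (𝓛 : Finset (Finset α)) : Prop where
  card : Fintype.card α = 21
  five : ∀ l ∈ 𝓛, l.card = 5
  uniq : ∀ s : Finset α, s.card = 2 → ∃! l, l ∈ 𝓛 ∧ s ⊆ l

variable {𝓛 : Finset (Finset α)}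

theorem Plane.lam (h : Plane 𝓛) (Z : Finset α) (hZ : Z.card ≤ 2) :
    (𝓛.filter (fun l => Z ⊆ l)).card * (5 - Z.card).choose (2 - Z.card)
      = (21 - Z.card).choose (2 - Z.card) := by
  have := Steiner.steiner_count 𝓛 2 5 h.five h.uniq Z hZ
  rwa [h.card] at this

theorem Plane.card_lines (h : Plane 𝓛) : 𝓛.card = 21 := by
  have := h.lam ∅ (by simp)
  simp only [Finset.empty_subset, Finset.filter_true, Finset.card_empty, Nat.sub_zero] at this
  have e1 : Nat.choose 5 2 = 10 := by decide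
  have e2 : Nat.choose 21 2 = 210 := by decide
  rw [e1, e2] at this
  omega

theorem Plane.card_through (h : Plane 𝓛) (p : α) : (𝓛.filter (fun l => p ∈ l)).card = 5 := by
  have := h.lam {p} (by simp)
  simp only [Finset.singleton_subset_iff, Finset.card_singleton] at this
  have e1 : Nat.choose (5 - 1) (2 - 1) = 4 := by decide
  have e2 : Nat.choose (21 - 1) (2 - 1) = 20 := by decide
  rw [e1, e2] at this
  omega

theorem Plane.card_through_two (h : Plane 𝓛) (p q : α) (hpq : p ≠ q) :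
    (𝓛.filter (fun l => p ∈ l ∧ q ∈ l)).card = 1 := by
  have := h.lam {p, q} (by rw [Finset.card_pair hpq])
  rw [Finset.card_pair hpq] at this
  simp only [Finset.insert_subset_iff, Finset.singleton_subset_iff] at this
  simpa using this

theorem Plane.sum_inter (h : Plane 𝓛) (K : Finset α) :
    ∑ l ∈ 𝓛, (l ∩ K).card = 5 * K.card := by
  have := Steiner.sum_choose_inter 𝓛 K 1
  simp only [Nat.choose_one_right] at this
  rw [this, Finset.sum_const_nat (m := 5), Finset.card_powersetCard, Nat.choose_one_right,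
    mul_comm]
  intro Z hZ
  rw [Finset.mem_powersetCard] at hZ
  obtain ⟨p, rfl⟩ := Finset.card_eq_one.mp hZ.2
  simpa using h.card_through p

theorem Plane.sum_choose_two (h : Plane 𝓛) (K : Finset α) :
    ∑ l ∈ 𝓛, ((l ∩ K).card).choose 2 = K.card.choose 2 := by
  rw [Steiner.sum_choose_inter 𝓛 K 2, Finset.sum_const_nat (m := 1), Finset.card_powersetCard,
    mul_one]
  intro Z hZ
  rw [Finset.mem_powersetCard] at hZ
  obtain ⟨p, q, hpq, rfl⟩ := Finset.card_eq_two.mp hZ.2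
  simpa [Finset.insert_subset_iff] using h.card_through_two p q hpq

theorem Plane.inter_le_one (h : Plane 𝓛) {l m : Finset α} (hl : l ∈ 𝓛) (hm : m ∈ 𝓛)
    (hne : l ≠ m) : (l ∩ m).card ≤ 1 := by
  by_contra hc
  push Not at hc
  obtain ⟨s, hs, hs2⟩ := Finset.exists_subset_card_eq (s := l ∩ m) (n := 2) (by omega)
  obtain ⟨b, -, hu⟩ := h.uniq s hs2
  have h1 := hu l ⟨hl, hs.trans Finset.inter_subset_left⟩
  have h2 := hu m ⟨hm, hs.trans Finset.inter_subset_right⟩
  exact hne (h1.trans h2.symm)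

theorem Plane.meet (h : Plane 𝓛) {l m : Finset α} (hl : l ∈ 𝓛) (hm : m ∈ 𝓛) (hne : l ≠ m) :
    (l ∩ m).card = 1 := by
  have hsum := h.sum_inter l
  rw [h.five l hl] at hsum
  have hsplit : (l ∩ l).card + ∑ m ∈ 𝓛.erase l, (m ∩ l).card = ∑ m ∈ 𝓛, (m ∩ l).card :=
    Finset.add_sum_erase 𝓛 (fun m => (m ∩ l).card) hl
  rw [Finset.inter_self, h.five l hl, hsum] at hsplit
  have hcard : (𝓛.erase l).card = 20 := by rw [Finset.card_erase_of_mem hl, h.card_lines]
  have hle : ∀ m ∈ 𝓛.erase l, (m ∩ l).card ≤ 1 := fun m hm =>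
    h.inter_le_one (Finset.mem_of_mem_erase hm) hl (Finset.ne_of_mem_erase hm)
  have h20 : ∑ m ∈ 𝓛.erase l, (m ∩ l).card = ∑ m ∈ 𝓛.erase l, 1 := by
    rw [Finset.sum_const, smul_eq_mul, mul_one, hcard]
    omega
  have := (Finset.sum_eq_sum_iff_of_le hle).mp h20 m (Finset.mem_erase.mpr ⟨hne.symm, hm⟩)
  rw [Finset.inter_comm]
  exact this

theorem Plane.sum_through (h : Plane 𝓛) (p : α) (K : Finset α) (hp : p ∉ K) :
    ∑ l ∈ 𝓛.filter (fun l => p ∈ l), (l ∩ K).card = K.card := by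
  have key := Finset.sum_card_bipartiteAbove_eq_sum_card_bipartiteBelow
    (fun (l : Finset α) (x : α) => x ∈ l) (s := 𝓛.filter (fun l => p ∈ l)) (t := K)
  have h1 : ∑ l ∈ 𝓛.filter (fun l => p ∈ l),
      (K.bipartiteAbove (fun (l : Finset α) (x : α) => x ∈ l) l).card
      = ∑ l ∈ 𝓛.filter (fun l => p ∈ l), (l ∩ K).card := by
    apply Finset.sum_congr rfl
    intro l _
    congr 1
    ext x
    simp only [Finset.bipartiteAbove, Finset.mem_filter, Finset.mem_inter]
    tauto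
  rw [← h1, key, Finset.sum_const_nat (m := 1), mul_one]
  intro x hx
  have hne : p ≠ x := by
    rintro rfl
    exact hp hx
  rw [← h.card_through_two p x hne]
  congr 1
  ext l
  simp only [Finset.bipartiteBelow, Finset.mem_filter]
  tauto

theorem Plane.sum_pairs (h : Plane 𝓛) (T : Finset (Finset α)) (hT : T ⊆ 𝓛) :
    ∑ p : α, ((T.filter (fun l => p ∈ l)).card).choose 2 = T.card.choose 2 := by
  have key := Finset.sum_card_bipartiteAbove_eq_sum_card_bipartiteBelow
    (fun (p : α) (P : Finset (Finset α)) => ∀ l ∈ P, p ∈ l) (s := (Finset.univ : Finset α))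
    (t := T.powersetCard 2)
  have h1 : ∑ p : α, ((T.powersetCard 2).bipartiteAbove
      (fun (p : α) (P : Finset (Finset α)) => ∀ l ∈ P, p ∈ l) p).card
      = ∑ p : α, ((T.filter (fun l => p ∈ l)).card).choose 2 := by
    apply Finset.sum_congr rfl
    intro p _
    rw [← Finset.card_powersetCard]
    congr 1
    ext P
    simp only [Finset.bipartiteAbove, Finset.mem_filter, Finset.mem_powersetCard,
      Finset.subset_iff]
    constructor
    · rintro ⟨⟨h1, h2⟩, h3⟩
      exact ⟨fun l hl => ⟨h1 hl, h3 l hl⟩, h2⟩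
    · rintro ⟨h1, h2⟩
      exact ⟨⟨fun l hl => (h1 hl).1, h2⟩, fun l hl => (h1 hl).2⟩
  rw [← h1, key, Finset.sum_const_nat (m := 1), mul_one, Finset.card_powersetCard]
  intro P hP
  rw [Finset.mem_powersetCard] at hP
  obtain ⟨l, m, hlm, rfl⟩ := Finset.card_eq_two.mp hP.2
  have hl : l ∈ 𝓛 := hT (hP.1 (by simp))
  have hm : m ∈ 𝓛 := hT (hP.1 (by simp))
  rw [← h.meet hl hm hlm]
  congr 1
  ext p
  simp [Finset.bipartiteBelow]

theorem Plane.sum_count (h : Plane 𝓛) (T : Finset (Finset α)) (hT : T ⊆ 𝓛) :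
    ∑ p : α, (T.filter (fun l => p ∈ l)).card = 5 * T.card := by
  have key := Finset.sum_card_bipartiteAbove_eq_sum_card_bipartiteBelow
    (fun (p : α) (l : Finset α) => p ∈ l) (s := (Finset.univ : Finset α)) (t := T)
  have h1 : ∑ p : α, (T.bipartiteAbove (fun (p : α) (l : Finset α) => p ∈ l) p).card
      = ∑ p : α, (T.filter (fun l => p ∈ l)).card := rfl
  rw [← h1, key, Finset.sum_const_nat (m := 5), mul_comm]
  intro l hl
  rw [← h.five l (hT hl)]
  congr 1
  ext p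
  simp [Finset.bipartiteBelow]


/-- independent sets (arcs) -/
abbrev Ind (𝓛 : Finset (Finset α)) (K : Finset α) : Prop := ∀ l ∈ 𝓛, (l ∩ K).card ≤ 2

/-- secants -/
def Sec (𝓛 : Finset (Finset α)) (K : Finset α) : Finset (Finset α) :=
  𝓛.filter (fun l => (l ∩ K).card = 2)

/-- tangents -/
def Tan (𝓛 : Finset (Finset α)) (K : Finset α) : Finset (Finset α) :=
  𝓛.filter (fun l => (l ∩ K).card = 1)

/-- number of secants through a point -/
def sn (𝓛 : Finset (Finset α)) (K : Finset α) (p : α) : ℕ :=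
  ((Sec 𝓛 K).filter (fun l => p ∈ l)).card

/-- number of tangents through a point -/
def tn (𝓛 : Finset (Finset α)) (K : Finset α) (p : α) : ℕ :=
  ((Tan 𝓛 K).filter (fun l => p ∈ l)).card

theorem Plane.tn_add (h : Plane 𝓛) {K : Finset α} (hK : Ind 𝓛 K) {p : α} (hp : p ∉ K) :
    tn 𝓛 K p + 2 * sn 𝓛 K p = K.card := by
  rw [← h.sum_through p K hp]
  unfold tn sn Tan Sec
  rw [Finset.filter_filter, Finset.filter_filter, Finset.card_filter, Finset.card_filter,
    Finset.mul_sum, ← Finset.sum_add_distrib, Finset.sum_filter]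
  apply Finset.sum_congr rfl
  intro l hl
  have hle := hK l hl
  by_cases hpl : p ∈ l
  · simp only [hpl, and_true, if_true]
    generalize (l ∩ K).card = x at hle ⊢
    interval_cases x <;> simp
  · simp [hpl]

theorem Plane.sn_mem (h : Plane 𝓛) {K : Finset α} (hK : Ind 𝓛 K) {p : α} (hp : p ∈ K) :
    sn 𝓛 K p + 1 = K.card := by
  have hs := h.sum_through p (K.erase p) (Finset.notMem_erase p K)
  rw [Finset.card_erase_of_mem hp] at hs
  have : sn 𝓛 K p = ∑ l ∈ 𝓛.filter (fun l => p ∈ l), (l ∩ K.erase p).card := by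
    unfold sn Sec
    rw [Finset.filter_filter, Finset.card_filter, Finset.sum_filter]
    apply Finset.sum_congr rfl
    intro l hl
    by_cases hpl : p ∈ l
    · have hle := hK l hl
      have hpm : p ∈ l ∩ K := Finset.mem_inter.mpr ⟨hpl, hp⟩
      have he : l ∩ K.erase p = (l ∩ K).erase p := by
        rw [Finset.inter_erase]
      rw [he, Finset.card_erase_of_mem hpm]
      have hpos : 0 < (l ∩ K).card := Finset.card_pos.mpr ⟨p, hpm⟩
      simp only [hpl, and_true, if_true]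
      generalize (l ∩ K).card = x at hle hpos ⊢
      interval_cases x <;> simp
    · simp [hpl]
  rw [this, hs]
  have := Finset.card_pos.mpr ⟨p, hp⟩
  omega

theorem Plane.tn_mem (h : Plane 𝓛) {K : Finset α} (hK : Ind 𝓛 K) {p : α} (hp : p ∈ K) :
    tn 𝓛 K p + sn 𝓛 K p = 5 := by
  rw [← h.card_through p]
  unfold tn sn Tan Sec
  rw [Finset.filter_filter, Finset.filter_filter, ← Finset.card_union_of_disjoint]
  · congr 1
    ext l
    simp only [Finset.mem_union, Finset.mem_filter]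
    constructor
    · rintro (⟨hl, -, hpl⟩ | ⟨hl, -, hpl⟩) <;> exact ⟨hl, hpl⟩
    · rintro ⟨hl, hpl⟩
      have hle := hK l hl
      have hpos : 0 < (l ∩ K).card :=
        Finset.card_pos.mpr ⟨p, Finset.mem_inter.mpr ⟨hpl, hp⟩⟩
      have : (l ∩ K).card = 1 ∨ (l ∩ K).card = 2 := by omega
      rcases this with h1 | h2
      · exact Or.inl ⟨hl, h1, hpl⟩
      · exact Or.inr ⟨hl, h2, hpl⟩
  · rw [Finset.disjoint_filter]
    intro l _ h1 h2
    omega

theorem Plane.card_sec (h : Plane 𝓛) {K : Finset α} (hK : Ind 𝓛 K) :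
    (Sec 𝓛 K).card = K.card.choose 2 := by
  rw [← h.sum_choose_two K]
  unfold Sec
  rw [Finset.card_filter]
  apply Finset.sum_congr rfl
  intro l hl
  have hle := hK l hl
  generalize (l ∩ K).card = x at hle ⊢
  interval_cases x <;> simp

theorem Plane.card_tan (h : Plane 𝓛) {K : Finset α} (hK : Ind 𝓛 K) :
    (Tan 𝓛 K).card + 2 * K.card.choose 2 = 5 * K.card := by
  rw [← h.card_sec hK, ← h.sum_inter K]
  unfold Tan Sec
  rw [Finset.card_filter, Finset.card_filter, Finset.mul_sum, ← Finset.sum_add_distrib]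
  apply Finset.sum_congr rfl
  intro l hl
  have hle := hK l hl
  generalize (l ∩ K).card = x at hle ⊢
  interval_cases x <;> simp

theorem ind_insert_iff {K : Finset α} (hK : Ind 𝓛 K) {p : α} (hp : p ∉ K) :
    Ind 𝓛 (insert p K) ↔ sn 𝓛 K p = 0 := by
  unfold sn Sec
  rw [Finset.card_eq_zero, Finset.filter_filter, Finset.filter_eq_empty_iff]
  constructor
  · intro hI l hl hc
    have := hI l hl
    rw [Finset.inter_insert_of_mem hc.2,
      Finset.card_insert_of_notMem (fun hx => hp (Finset.mem_inter.mp hx).2), hc.1] at this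
    omega
  · intro hZ l hl
    by_cases hpl : p ∈ l
    · rw [Finset.inter_insert_of_mem hpl,
        Finset.card_insert_of_notMem (fun hx => hp (Finset.mem_inter.mp hx).2)]
      have h1 := hK l hl
      have h2 : (l ∩ K).card ≠ 2 := fun h2 => hZ hl ⟨h2, hpl⟩
      omega
    · rw [Finset.inter_insert_of_notMem hpl]
      exact hK l hl

theorem Plane.card_ext_four (h : Plane 𝓛) {S : Finset α} (hS : Ind 𝓛 S) (h4 : S.card = 4) :
    (Sᶜ.filter (fun p => sn 𝓛 S p = 0)).card = 2 := by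
  have hsec : (Sec 𝓛 S).card = 6 := by
    rw [h.card_sec hS, h4]
    rfl
  have hsub : Sec 𝓛 S ⊆ 𝓛 := Finset.filter_subset _ _
  have e1 : ∑ p : α, sn 𝓛 S p = 30 := by
    have := h.sum_count (Sec 𝓛 S) hsub
    rw [hsec] at this
    exact this
  have e2 : ∑ p : α, (sn 𝓛 S p).choose 2 = 15 := by
    have := h.sum_pairs (Sec 𝓛 S) hsub
    rw [hsec] at this
    exact this
  have e3 : ∀ p ∈ S, sn 𝓛 S p = 3 := by
    intro p hp
    have := h.sn_mem hS hp
    omega
  have e4 : ∀ p ∈ Sᶜ, sn 𝓛 S p ≤ 2 := by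
    intro p hp
    have := h.tn_add hS (Finset.mem_compl.mp hp)
    omega
  rw [← Finset.sum_add_sum_compl S] at e1 e2
  have e6 : ∑ p ∈ S, sn 𝓛 S p = 12 := by
    rw [Finset.sum_congr rfl e3, Finset.sum_const, h4]
    rfl
  have e7 : ∑ p ∈ S, (sn 𝓛 S p).choose 2 = 12 := by
    rw [Finset.sum_congr rfl (fun p hp => by rw [e3 p hp]), Finset.sum_const, h4]
    rfl
  have e5 : ∑ p ∈ Sᶜ, ((if sn 𝓛 S p = 0 then 1 else 0) + sn 𝓛 S p)
      = ∑ p ∈ Sᶜ, (1 + (sn 𝓛 S p).choose 2) := by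
    apply Finset.sum_congr rfl
    intro p hp
    have := e4 p hp
    generalize sn 𝓛 S p = x at this ⊢
    interval_cases x <;> simp
  rw [Finset.sum_add_distrib, Finset.sum_add_distrib, ← Finset.card_filter, Finset.sum_const,
    smul_eq_mul, mul_one, Finset.card_compl, h.card, h4] at e5
  omega

theorem Plane.exists_nucleus (h : Plane 𝓛) {K : Finset α} (hK : Ind 𝓛 K) (h5 : K.card = 5) :
    ∃ N, N ∉ K ∧ sn 𝓛 K N = 0 := by
  by_contra hc
  push Not at hc
  have e10 : Nat.choose 5 2 = 10 := by decide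
  have htan : (Tan 𝓛 K).card = 5 := by
    have := h.card_tan hK
    rw [h5] at this
    omega
  have hsub : Tan 𝓛 K ⊆ 𝓛 := Finset.filter_subset _ _
  have e1 : ∑ p : α, tn 𝓛 K p = 25 := by
    have := h.sum_count (Tan 𝓛 K) hsub
    rw [htan] at this
    exact this
  have e2 : ∑ p : α, (tn 𝓛 K p).choose 2 = 10 := by
    have := h.sum_pairs (Tan 𝓛 K) hsub
    rw [htan] at this
    exact this
  have e3 : ∀ p ∈ K, tn 𝓛 K p = 1 := by
    intro p hp
    have := h.sn_mem hK hp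
    have := h.tn_mem hK hp
    omega
  have e4 : ∀ p ∈ Kᶜ, tn 𝓛 K p = 1 ∨ tn 𝓛 K p = 3 := by
    intro p hp
    have hp' := Finset.mem_compl.mp hp
    have := h.tn_add hK hp'
    have := hc p hp'
    omega
  rw [← Finset.sum_add_sum_compl K] at e1 e2
  have e6 : ∑ p ∈ K, tn 𝓛 K p = 5 := by
    rw [Finset.sum_congr rfl e3, Finset.sum_const, h5]
    rfl
  have e7 : ∑ p ∈ K, (tn 𝓛 K p).choose 2 = 0 := by
    rw [Finset.sum_congr rfl (fun p hp => by rw [e3 p hp]), Finset.sum_const, h5]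
    rfl
  have e5 : ∑ p ∈ Kᶜ, (2 * (tn 𝓛 K p).choose 2 + 3) = ∑ p ∈ Kᶜ, 3 * tn 𝓛 K p := by
    apply Finset.sum_congr rfl
    intro p hp
    rcases e4 p hp with h1 | h1 <;> rw [h1] <;> rfl
  rw [Finset.sum_add_distrib, ← Finset.mul_sum, ← Finset.mul_sum, Finset.sum_const,
    smul_eq_mul, Finset.card_compl, h.card, h5] at e5
  omega

theorem Plane.exists_hyperoval (h : Plane 𝓛) {S : Finset α} (hS : Ind 𝓛 S) (h4 : S.card = 4) :
    ∃ H, S ⊆ H ∧ H.card = 6 ∧ Ind 𝓛 H := by
  have h2 := h.card_ext_four hS h4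
  obtain ⟨e, he⟩ : (Sᶜ.filter (fun p => sn 𝓛 S p = 0)).Nonempty := by
    rw [← Finset.card_pos]
    omega
  rw [Finset.mem_filter, Finset.mem_compl] at he
  have hK : Ind 𝓛 (insert e S) := (ind_insert_iff hS he.1).mpr he.2
  have hK5 : (insert e S).card = 5 := by rw [Finset.card_insert_of_notMem he.1, h4]
  obtain ⟨N, hN, hN0⟩ := h.exists_nucleus hK hK5
  refine ⟨insert N (insert e S), ?_, ?_, (ind_insert_iff hK hN).mpr hN0⟩
  · exact (Finset.subset_insert _ _).trans (Finset.subset_insert _ _)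
  · rw [Finset.card_insert_of_notMem hN, hK5]

theorem Plane.hyperoval_unique (h : Plane 𝓛) {S : Finset α} (hS : Ind 𝓛 S) (h4 : S.card = 4)
    {H H' : Finset α} (hH : S ⊆ H) (hH6 : H.card = 6) (hHI : Ind 𝓛 H) (hH' : S ⊆ H')
    (hH6' : H'.card = 6) (hHI' : Ind 𝓛 H') : H = H' := by
  have h2 := h.card_ext_four hS h4
  have key : ∀ X : Finset α, S ⊆ X → X.card = 6 → Ind 𝓛 X →
      X \ S = Sᶜ.filter (fun p => sn 𝓛 S p = 0) := by
    intro X hX hX6 hXI
    apply Finset.eq_of_subset_of_card_le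
    · intro p hp
      rw [Finset.mem_sdiff] at hp
      rw [Finset.mem_filter, Finset.mem_compl]
      refine ⟨hp.2, ?_⟩
      have : Ind 𝓛 (insert p S) := by
        intro l hl
        refine le_trans (Finset.card_le_card ?_) (hXI l hl)
        exact Finset.inter_subset_inter (Finset.Subset.refl l)
          (Finset.insert_subset hp.1 hX)
      exact (ind_insert_iff hS hp.2).mp this
    · rw [h2, Finset.card_sdiff_of_subset hX, hX6, h4]
  have e1 := key H hH hH6 hHI
  have e2 := key H' hH' hH6' hHI'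
  rw [← Finset.sdiff_union_of_subset hH, ← Finset.sdiff_union_of_subset hH', e1, e2]


theorem card_supersets (hα : Fintype.card α = 21) (Z : Finset α) (hZ : Z.card ≤ 4) :
    (((Finset.univ : Finset α).powersetCard 4).filter (fun S => Z ⊆ S)).card
      = (21 - Z.card).choose (4 - Z.card) := by
  rw [← hα, ← Finset.card_univ, ← Steiner.card_between Z univ (Finset.subset_univ _) 4 hZ]
  congr 1
  ext S
  simp only [Finset.mem_filter, Finset.mem_powersetCard, Finset.subset_univ, true_and,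
    Finset.mem_univ]
  tauto

theorem card_inter_ge_three (hα : Fintype.card α = 21) (l : Finset α) (hl : l.card = 5) :
    (((Finset.univ : Finset α).powersetCard 4).filter (fun S => 3 ≤ (l ∩ S).card)).card
      = 165 := by
  have e3 : ∑ S ∈ (Finset.univ : Finset α).powersetCard 4, ((S ∩ l).card).choose 3 = 180 := by
    rw [Steiner.sum_choose_inter, Finset.sum_const_nat (m := 18), Finset.card_powersetCard, hl]
    · rfl
    · intro Z hZ
      rw [Finset.mem_powersetCard] at hZ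
      rw [card_supersets hα Z (by omega), hZ.2]
      rfl
  have e4 : ∑ S ∈ (Finset.univ : Finset α).powersetCard 4, ((S ∩ l).card).choose 4 = 5 := by
    rw [Steiner.sum_choose_inter, Finset.sum_const_nat (m := 1), Finset.card_powersetCard, hl]
    · rfl
    · intro Z hZ
      rw [Finset.mem_powersetCard] at hZ
      rw [card_supersets hα Z (by omega), hZ.2]
      rfl
  have e5 : ∑ S ∈ (Finset.univ : Finset α).powersetCard 4,
      ((if 3 ≤ (l ∩ S).card then 1 else 0) + 3 * ((S ∩ l).card).choose 4)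
      = ∑ S ∈ (Finset.univ : Finset α).powersetCard 4, ((S ∩ l).card).choose 3 := by
    apply Finset.sum_congr rfl
    intro S hS
    rw [Finset.mem_powersetCard] at hS
    have hle : (S ∩ l).card ≤ 4 := by
      rw [← hS.2]
      exact Finset.card_le_card Finset.inter_subset_left
    rw [Finset.inter_comm l S]
    generalize (S ∩ l).card = x at hle ⊢
    interval_cases x <;> simp [Nat.choose]
  rw [Finset.sum_add_distrib, ← Finset.card_filter, ← Finset.mul_sum, e3, e4] at e5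
  omega

theorem Plane.card_four_arcs (h : Plane 𝓛) :
    (((Finset.univ : Finset α).powersetCard 4).filter (fun S => Ind 𝓛 S)).card = 2520 := by
  have hcompl : ((Finset.univ : Finset α).powersetCard 4).filter (fun S => ¬ Ind 𝓛 S)
      = 𝓛.biUnion (fun l => ((Finset.univ : Finset α).powersetCard 4).filter
          (fun S => 3 ≤ (l ∩ S).card)) := by
    ext S
    simp only [Finset.mem_filter, Finset.mem_biUnion, Ind]
    push Not
    constructor
    · rintro ⟨hS, l, hl, hlt⟩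
      exact ⟨l, hl, hS, hlt⟩
    · rintro ⟨l, hl, hS, hlt⟩
      exact ⟨hS, l, hl, hlt⟩
  have hcard : (𝓛.biUnion (fun l => ((Finset.univ : Finset α).powersetCard 4).filter
          (fun S => 3 ≤ (l ∩ S).card))).card = 21 * 165 := by
    rw [Finset.card_biUnion]
    · rw [Finset.sum_const_nat (m := 165), h.card_lines]
      intro l hl
      exact card_inter_ge_three h.card l (h.five l hl)
    · intro l hl m hm hne
      show Disjoint _ _
      rw [Finset.disjoint_left]
      intro S hS1 hS2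
      rw [Finset.mem_coe] at hl hm
      rw [Finset.mem_filter, Finset.mem_powersetCard] at hS1 hS2
      have h1 := h.inter_le_one hl hm hne
      have h2 : ((l ∩ S) ∪ (m ∩ S)).card ≤ 4 := by
        rw [← hS1.1.2]
        exact Finset.card_le_card
          (Finset.union_subset Finset.inter_subset_right Finset.inter_subset_right)
      have h3 := Finset.card_union_add_card_inter (l ∩ S) (m ∩ S)
      have h4 : ((l ∩ S) ∩ (m ∩ S)).card ≤ (l ∩ m).card := Finset.card_le_card (by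
        intro x hx
        simp only [Finset.mem_inter] at hx ⊢
        exact ⟨hx.1.1, hx.2.1⟩)
      omega
  have htot := Finset.card_filter_add_card_filter_not
    (s := (Finset.univ : Finset α).powersetCard 4) (fun S => Ind 𝓛 S)
  rw [hcompl, hcard, Finset.card_powersetCard, Finset.card_univ, h.card] at htot
  have : Nat.choose 21 4 = 5985 := by decide
  omega

theorem Plane.card_hyperovals (h : Plane 𝓛) :
    (((Finset.univ : Finset α).powersetCard 6).filter (fun H => Ind 𝓛 H)).card = 168 := by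
  have key := Finset.sum_card_bipartiteAbove_eq_sum_card_bipartiteBelow
    (fun (H : Finset α) (S : Finset α) => S ⊆ H)
    (s := ((Finset.univ : Finset α).powersetCard 6).filter (fun H => Ind 𝓛 H))
    (t := ((Finset.univ : Finset α).powersetCard 4).filter (fun S => Ind 𝓛 S))
  have h1 : ∑ H ∈ ((Finset.univ : Finset α).powersetCard 6).filter (fun H => Ind 𝓛 H),
      ((((Finset.univ : Finset α).powersetCard 4).filter (fun S => Ind 𝓛 S)).bipartiteAbove
        (fun (H : Finset α) (S : Finset α) => S ⊆ H) H).card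
      = (((Finset.univ : Finset α).powersetCard 6).filter (fun H => Ind 𝓛 H)).card * 15 := by
    apply Finset.sum_const_nat
    intro H hH
    rw [Finset.mem_filter, Finset.mem_powersetCard] at hH
    have e : Nat.choose 6 4 = 15 := by decide
    rw [← e, ← hH.1.2, ← Finset.card_powersetCard]
    congr 1
    ext S
    simp only [Finset.bipartiteAbove, Finset.mem_filter, Finset.mem_powersetCard,
      Finset.subset_univ, true_and]
    constructor
    · rintro ⟨⟨h4, -⟩, hsub⟩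
      exact ⟨hsub, h4⟩
    · rintro ⟨hsub, h4⟩
      refine ⟨⟨h4, ?_⟩, hsub⟩
      intro l hl
      exact le_trans (Finset.card_le_card
        (Finset.inter_subset_inter (Finset.Subset.refl l) hsub)) (hH.2 l hl)
  have h2 : ∑ S ∈ ((Finset.univ : Finset α).powersetCard 4).filter (fun S => Ind 𝓛 S),
      ((((Finset.univ : Finset α).powersetCard 6).filter (fun H => Ind 𝓛 H)).bipartiteBelow
        (fun (H : Finset α) (S : Finset α) => S ⊆ H) S).card = 2520 := by
    rw [Finset.sum_const_nat (m := 1), mul_one, h.card_four_arcs]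
    intro S hS
    rw [Finset.mem_filter, Finset.mem_powersetCard] at hS
    obtain ⟨H, hSH, hH6, hHI⟩ := h.exists_hyperoval hS.2 hS.1.2
    rw [Finset.card_eq_one]
    refine ⟨H, ?_⟩
    ext H'
    simp only [Finset.bipartiteBelow, Finset.mem_filter, Finset.mem_powersetCard,
      Finset.subset_univ, true_and, Finset.mem_singleton]
    constructor
    · rintro ⟨⟨h6', hI'⟩, hsub'⟩
      exact h.hyperoval_unique hS.2 hS.1.2 hsub' h6' hI' hSH hH6 hHI
    · rintro rfl
      exact ⟨⟨hH6, hHI⟩, hSH⟩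
  rw [h1, h2] at key
  omega

/-- Set version of the counts for the plane of order 4. -/
theorem main (hα : Fintype.card α = 21) (L : Set (Finset α))
    (h5 : ∀ b ∈ L, b.card = 5) (hu : ∀ s : Finset α, s.card = 2 → ∃! b, b ∈ L ∧ s ⊆ b) :
    {S : Finset α | (S.card = 4 ∧ ∀ l ∈ L, (l ∩ S).card ≤ 2)}.ncard = 2520 ∧
    {H : Finset α | (H.card = 6 ∧ ∀ l ∈ L, (l ∩ H).card ≤ 2)}.ncard = 168 ∧
    ∀ S : Finset α, (S.card = 4 ∧ ∀ l ∈ L, (l ∩ S).card ≤ 2) →
      ∃! H : Finset α, (H.card = 6 ∧ ∀ l ∈ L, (l ∩ H).card ≤ 2) ∧ S ⊆ H := by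
  classical
  obtain ⟨𝓛, hmem⟩ : ∃ 𝓛 : Finset (Finset α), ∀ l, l ∈ 𝓛 ↔ l ∈ L :=
    ⟨Finset.univ.filter (fun b => b ∈ L), fun l => by simp⟩
  have hP : Plane 𝓛 := by
    refine ⟨hα, fun l hl => h5 l ((hmem l).mp hl), ?_⟩
    intro s hs
    obtain ⟨b, hb, hub⟩ := hu s hs
    exact ⟨b, ⟨(hmem b).mpr hb.1, hb.2⟩, fun b' hb' => hub b' ⟨(hmem b').mp hb'.1, hb'.2⟩⟩
  have hInd : ∀ K : Finset α, (∀ l ∈ L, (l ∩ K).card ≤ 2) ↔ Ind 𝓛 K := by
    intro K
    constructor
    · intro hK l hl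
      exact hK l ((hmem l).mp hl)
    · intro hK l hl
      exact hK l ((hmem l).mpr hl)
  refine ⟨?_, ?_, ?_⟩
  · rw [← hP.card_four_arcs, ← Set.ncard_coe_finset]
    congr 1
    ext S
    simp only [Set.mem_ofPred_eq, Finset.coe_filter, Finset.mem_powersetCard, Finset.subset_univ,
      true_and, hInd]
  · rw [← hP.card_hyperovals, ← Set.ncard_coe_finset]
    congr 1
    ext S
    simp only [Set.mem_ofPred_eq, Finset.coe_filter, Finset.mem_powersetCard, Finset.subset_univ,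
      true_and, hInd]
  · rintro S ⟨h4, hS⟩
    rw [hInd] at hS
    obtain ⟨H, hSH, hH6, hHI⟩ := hP.exists_hyperoval hS h4
    refine ⟨H, ⟨⟨hH6, (hInd H).mpr hHI⟩, hSH⟩, ?_⟩
    rintro H' ⟨⟨h6', hI'⟩, hsub'⟩
    exact hP.hyperoval_unique hS h4 hsub' h6' ((hInd H').mp hI') hSH hH6 hHI


section Hyperoval

variable {H : Finset α}

/-- hyperoval -/
structure Hyp (𝓛 : Finset (Finset α)) (H : Finset α) : Prop where
  card : H.card = 6
  ind : Ind 𝓛 H

theorem Plane.exists_line (h : Plane 𝓛) {x y : α} (hxy : x ≠ y) : ∃ l ∈ 𝓛, x ∈ l ∧ y ∈ l := by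
  obtain ⟨l, hl, -⟩ := h.uniq {x, y} (Finset.card_pair hxy)
  exact ⟨l, hl.1, hl.2 (by simp), hl.2 (by simp)⟩

theorem Plane.eq_of_subset (h : Plane 𝓛) {s : Finset α} (hs : s.card = 2) {l m : Finset α}
    (hl : l ∈ 𝓛) (hm : m ∈ 𝓛) (hsl : s ⊆ l) (hsm : s ⊆ m) : l = m :=
  (h.uniq s hs).unique ⟨hl, hsl⟩ ⟨hm, hsm⟩

theorem Plane.line_unique (h : Plane 𝓛) {x y : α} (hxy : x ≠ y) {l m : Finset α}
    (hl : l ∈ 𝓛) (hm : m ∈ 𝓛) (hxl : x ∈ l) (hyl : y ∈ l) (hxm : x ∈ m) (hym : y ∈ m) :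
    l = m := by
  apply h.eq_of_subset (Finset.card_pair hxy) hl hm
  · intro z hz
    rw [Finset.mem_insert, Finset.mem_singleton] at hz
    rcases hz with rfl | rfl <;> assumption
  · intro z hz
    rw [Finset.mem_insert, Finset.mem_singleton] at hz
    rcases hz with rfl | rfl <;> assumption

theorem Hyp.trace (hH : Hyp 𝓛 H) (h : Plane 𝓛) {l : Finset α} (hl : l ∈ 𝓛) {x : α}
    (hx : x ∈ H) (hxl : x ∈ l) : (l ∩ H).card = 2 := by
  have h1 := h.sn_mem hH.ind hx
  have h2 := h.tn_mem hH.ind hx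
  rw [hH.card] at h1
  have h0 : tn 𝓛 H x = 0 := by omega
  have hle := hH.ind l hl
  have hpos : 0 < (l ∩ H).card := Finset.card_pos.mpr ⟨x, Finset.mem_inter.mpr ⟨hxl, hx⟩⟩
  by_contra hne
  have h1' : (l ∩ H).card = 1 := by omega
  unfold tn Tan at h0
  rw [Finset.card_eq_zero] at h0
  have : l ∈ (𝓛.filter (fun l => (l ∩ H).card = 1)).filter (fun l => x ∈ l) := by
    rw [Finset.mem_filter, Finset.mem_filter]
    exact ⟨⟨hl, h1'⟩, hxl⟩
  rw [h0] at this
  exact absurd this (Finset.notMem_empty l)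

theorem Hyp.trace_cases (hH : Hyp 𝓛 H) (h : Plane 𝓛) {l : Finset α} (hl : l ∈ 𝓛) :
    (l ∩ H).card = 0 ∨ (l ∩ H).card = 2 := by
  rcases Finset.eq_empty_or_nonempty (l ∩ H) with he | ⟨x, hx⟩
  · left
    rw [he]
    rfl
  · right
    rw [Finset.mem_inter] at hx
    exact hH.trace h hl hx.2 hx.1

theorem Hyp.sn_out (hH : Hyp 𝓛 H) (h : Plane 𝓛) {p : α} (hp : p ∉ H) : sn 𝓛 H p = 3 := by
  have h1 := h.tn_add hH.ind hp
  rw [hH.card] at h1
  have h0 : tn 𝓛 H p = 0 := by
    unfold tn Tan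
    rw [Finset.card_eq_zero, Finset.filter_filter, Finset.filter_eq_empty_iff]
    intro l hl hc
    rcases hH.trace_cases h hl with h' | h' <;> omega
  omega

theorem Hyp.trace_disjoint (h : Plane 𝓛) {p : α} (hp : p ∉ H) {l m : Finset α}
    (hl : l ∈ 𝓛) (hm : m ∈ 𝓛) (hpl : p ∈ l) (hpm : p ∈ m) (hne : l ≠ m) :
    Disjoint (l ∩ H) (m ∩ H) := by
  rw [Finset.disjoint_left]
  intro x hx1 hx2
  rw [Finset.mem_inter] at hx1 hx2
  have hpx : p ≠ x := by
    rintro rfl
    exact hp hx1.2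
  exact hne (h.line_unique hpx hl hm hpl hx1.1 hpm hx2.1)

theorem Hyp.card_ext (hH : Hyp 𝓛 H) (h : Plane 𝓛) {p : α} (hp : p ∉ H) :
    ((𝓛.filter (fun l => p ∈ l)).filter (fun l => (l ∩ H).card = 0)).card = 2 := by
  have h3 := hH.sn_out h hp
  have h5 := h.card_through p
  have := Finset.card_filter_add_card_filter_not (s := 𝓛.filter (fun l => p ∈ l))
    (fun l => (l ∩ H).card = 0)
  have e : (𝓛.filter (fun l => p ∈ l)).filter (fun l => ¬ (l ∩ H).card = 0)
      = (Sec 𝓛 H).filter (fun l => p ∈ l) := by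
    ext l
    simp only [Sec, Finset.mem_filter]
    constructor
    · rintro ⟨⟨hl, hpl⟩, hne⟩
      rcases hH.trace_cases h hl with h' | h'
      · exact absurd h' hne
      · exact ⟨⟨hl, h'⟩, hpl⟩
    · rintro ⟨⟨hl, h2⟩, hpl⟩
      exact ⟨⟨hl, hpl⟩, by omega⟩
  rw [e] at this
  unfold sn at h3
  omega

theorem Hyp.clique (hH : Hyp 𝓛 H) (h : Plane 𝓛) {C : Finset α} (hC5 : C.card = 5)
    (hCH : Disjoint C H) (hsec : ∀ m ∈ 𝓛, (m ∩ H).card = 2 → (m ∩ C).card ≤ 1) : C ∈ 𝓛 := by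
  have hB1 : ∀ x ∈ C, ∀ y ∈ C, x ≠ y → ∀ m ∈ 𝓛, x ∈ m → y ∈ m → (m ∩ H).card = 0 := by
    intro x hx y hy hxy m hm hxm hym
    rcases hH.trace_cases h hm with h0 | h2
    · exact h0
    · have h1 := hsec m hm h2
      have h2' : 2 ≤ (m ∩ C).card := by
        rw [← Finset.card_pair hxy]
        apply Finset.card_le_card
        intro z hz
        rw [Finset.mem_insert, Finset.mem_singleton] at hz
        rcases hz with rfl | rfl
        · exact Finset.mem_inter.mpr ⟨hxm, hx⟩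
        · exact Finset.mem_inter.mpr ⟨hym, hy⟩
      omega
  have hout : ∀ x ∈ C, x ∉ H := fun x hx hxH => (Finset.disjoint_left.mp hCH) hx hxH
  have hB3 : ∀ m ∈ 𝓛, ∀ b ∈ C, b ∉ m → (C ∩ m).card ≤ 2 := by
    intro m hm b hb hbm
    have hsub : C ∩ m ⊆ ((𝓛.filter (fun l => b ∈ l)).filter
        (fun l => (l ∩ H).card = 0)).biUnion (fun n => n ∩ m) := by
      intro x hx
      rw [Finset.mem_inter] at hx
      have hbx : b ≠ x := by
        rintro rfl
        exact hbm hx.2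
      obtain ⟨n, hn, hbn, hxn⟩ := h.exists_line hbx
      rw [Finset.mem_biUnion]
      refine ⟨n, ?_, Finset.mem_inter.mpr ⟨hxn, hx.2⟩⟩
      rw [Finset.mem_filter, Finset.mem_filter]
      exact ⟨⟨hn, hbn⟩, hB1 b hb x hx.1 hbx n hn hbn hxn⟩
    refine le_trans (Finset.card_le_card hsub) (le_trans Finset.card_biUnion_le ?_)
    rw [← hH.card_ext h (hout b hb), Finset.card_eq_sum_ones]
    apply Finset.sum_le_sum
    intro n hn
    rw [Finset.mem_filter, Finset.mem_filter] at hn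
    apply h.inter_le_one hn.1.1 hm
    rintro rfl
    exact hbm hn.1.2
  obtain ⟨p, hp⟩ : C.Nonempty := by
    rw [← Finset.card_pos]
    omega
  obtain ⟨m1, m2, hm12, hE⟩ := Finset.card_eq_two.mp (hH.card_ext h (hout p hp))
  have hmemE : ∀ l, (l ∈ 𝓛 ∧ p ∈ l) ∧ (l ∩ H).card = 0 ↔ l = m1 ∨ l = m2 := by
    intro l
    have := Finset.ext_iff.mp hE l
    simpa only [Finset.mem_filter, Finset.mem_insert, Finset.mem_singleton] using this
  have hm1 := (hmemE m1).mpr (Or.inl rfl)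
  have hm2 := (hmemE m2).mpr (Or.inr rfl)
  have hcov : C ⊆ (C ∩ m1) ∪ (C ∩ m2) := by
    intro x hx
    by_cases hpx : p = x
    · subst hpx
      exact Finset.mem_union_left _ (Finset.mem_inter.mpr ⟨hx, hm1.1.2⟩)
    · obtain ⟨n, hn, hpn, hxn⟩ := h.exists_line hpx
      have := (hmemE n).mp ⟨⟨hn, hpn⟩, hB1 p hp x hx hpx n hn hpn hxn⟩
      rcases this with rfl | rfl
      · exact Finset.mem_union_left _ (Finset.mem_inter.mpr ⟨hx, hxn⟩)
      · exact Finset.mem_union_right _ (Finset.mem_inter.mpr ⟨hx, hxn⟩)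
  have hcard := Finset.card_union_add_card_inter (C ∩ m1) (C ∩ m2)
  have hpi : 1 ≤ ((C ∩ m1) ∩ (C ∩ m2)).card := Finset.card_pos.mpr ⟨p, by
    simp only [Finset.mem_inter]
    exact ⟨⟨hp, hm1.1.2⟩, hp, hm2.1.2⟩⟩
  have h5 : 5 ≤ ((C ∩ m1) ∪ (C ∩ m2)).card := by
    rw [← hC5]
    exact Finset.card_le_card hcov
  have key : ∀ m ∈ 𝓛, 3 ≤ (C ∩ m).card → C ∈ 𝓛 := by
    intro m hm h3
    by_cases hsub : C ⊆ m
    · have : C = m := Finset.eq_of_subset_of_card_le hsub (by rw [hC5, h.five m hm])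
      rw [this]
      exact hm
    · obtain ⟨b, hb, hbm⟩ := Finset.not_subset.mp hsub
      have := hB3 m hm b hb hbm
      omega
  by_cases h31 : 3 ≤ (C ∩ m1).card
  · exact key m1 hm1.1.1 h31
  · exact key m2 hm2.1.1 (by omega)

variable {β : Type*} [Fintype β] [DecidableEq β] {𝓛' : Finset (Finset β)} {H' : Finset β}

theorem lines_of_secants (h : Plane 𝓛) (hH : Hyp 𝓛 H) (h' : Plane 𝓛') (hH' : Hyp 𝓛' H')
    (f : α → β) (hf : Function.Injective f) (hfH : ∀ x, x ∈ H ↔ f x ∈ H')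
    (hsec : ∀ l ∈ 𝓛, (l ∩ H).card = 2 → l.image f ∈ 𝓛') : ∀ l ∈ 𝓛, l.image f ∈ 𝓛' := by
  intro l hl
  rcases hH.trace_cases h hl with h0 | h2
  swap
  · exact hsec l hl h2
  have himg : H.image f = H' := by
    apply Finset.eq_of_subset_of_card_le
    · intro y hy
      obtain ⟨x, hx, rfl⟩ := Finset.mem_image.mp hy
      exact (hfH x).mp hx
    · rw [Finset.card_image_of_injective _ hf, hH.card, hH'.card]
  apply hH'.clique h'
  · rw [Finset.card_image_of_injective _ hf, h.five l hl]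
  · rw [Finset.disjoint_left]
    intro y hy hyH
    obtain ⟨x, hx, rfl⟩ := Finset.mem_image.mp hy
    have : x ∈ l ∩ H := Finset.mem_inter.mpr ⟨hx, (hfH x).mpr hyH⟩
    rw [Finset.card_eq_zero] at h0
    rw [h0] at this
    exact absurd this (Finset.notMem_empty x)
  · intro m' hm' h2'
    obtain ⟨x', y', hxy', hT'⟩ := Finset.card_eq_two.mp h2'
    have hx' : x' ∈ m' ∩ H' := by
      rw [hT']
      simp
    have hy' : y' ∈ m' ∩ H' := by
      rw [hT']
      simp
    rw [Finset.mem_inter] at hx' hy'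
    obtain ⟨x, hx, rfl⟩ := Finset.mem_image.mp (himg ▸ hx'.2)
    obtain ⟨y, hy, rfl⟩ := Finset.mem_image.mp (himg ▸ hy'.2)
    have hxy : x ≠ y := by
      rintro rfl
      exact hxy' rfl
    obtain ⟨m, hm, hxm, hym⟩ := h.exists_line hxy
    have hm2 : (m ∩ H).card = 2 := hH.trace h hm hx hxm
    have hmi := hsec m hm hm2
    have : m.image f = m' := h'.line_unique hxy' hmi hm' (Finset.mem_image_of_mem f hxm)
      (Finset.mem_image_of_mem f hym) hx'.1 hy'.1
    rw [← this, ← Finset.image_inter _ _ hf, Finset.card_image_of_injective _ hf]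
    apply h.inter_le_one hm hl
    rintro rfl
    omega

theorem exists_image_point (h : Plane 𝓛) (hH : Hyp 𝓛 H) (h' : Plane 𝓛') (hH' : Hyp 𝓛' H')
    (σ : α → β) (hσi : Set.InjOn σ H) (hσH : H.image σ = H') {p : α} (hp : p ∉ H) :
    ∃ p', p' ∉ H' ∧ ∀ l ∈ 𝓛, p ∈ l → (l ∩ H).card = 2 →
      ∀ l' ∈ 𝓛', (l ∩ H).image σ ⊆ l' → p' ∈ l' := by
  have h3 := hH.sn_out h hp
  unfold sn at h3
  obtain ⟨l1, l2, l3, h12, h13, h23, hS⟩ := Finset.card_eq_three.mp h3
  have hmem : ∀ l, (l ∈ 𝓛 ∧ (l ∩ H).card = 2) ∧ p ∈ l ↔ l = l1 ∨ l = l2 ∨ l = l3 := by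
    intro l
    have := Finset.ext_iff.mp hS l
    simpa only [Sec, Finset.mem_filter, Finset.mem_insert, Finset.mem_singleton] using this
  obtain ⟨⟨hl1, ht1⟩, hp1⟩ := (hmem l1).mpr (Or.inl rfl)
  obtain ⟨⟨hl2, ht2⟩, hp2⟩ := (hmem l2).mpr (Or.inr (Or.inl rfl))
  obtain ⟨⟨hl3, ht3⟩, hp3⟩ := (hmem l3).mpr (Or.inr (Or.inr rfl))
  have d12 : Disjoint (l1 ∩ H) (l2 ∩ H) := Hyp.trace_disjoint h hp hl1 hl2 hp1 hp2 h12
  have d13 : Disjoint (l1 ∩ H) (l3 ∩ H) := Hyp.trace_disjoint h hp hl1 hl3 hp1 hp3 h13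
  have d23 : Disjoint (l2 ∩ H) (l3 ∩ H) := Hyp.trace_disjoint h hp hl2 hl3 hp2 hp3 h23
  have hU : (l1 ∩ H) ∪ (l2 ∩ H) ∪ (l3 ∩ H) = H := by
    apply Finset.eq_of_subset_of_card_le
    · exact Finset.union_subset (Finset.union_subset Finset.inter_subset_right
        Finset.inter_subset_right) Finset.inter_subset_right
    · rw [Finset.card_union_of_disjoint (Finset.disjoint_union_left.mpr ⟨d13, d23⟩),
        Finset.card_union_of_disjoint d12, ht1, ht2, ht3, hH.card]
  have hsubH : ∀ l : Finset α, (l ∩ H).image σ ⊆ H' := by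
    intro l
    rw [← hσH]
    exact Finset.image_subset_image Finset.inter_subset_right
  have hcardi : ∀ l : Finset α, ((l ∩ H).image σ).card = (l ∩ H).card := fun l =>
    Finset.card_image_of_injOn (hσi.mono (by
      intro x hx
      exact (Finset.mem_inter.mp (Finset.mem_coe.mp hx)).2))
  have hdisj : ∀ l m : Finset α, Disjoint (l ∩ H) (m ∩ H) →
      Disjoint ((l ∩ H).image σ) ((m ∩ H).image σ) := by
    intro l m hd
    rw [Finset.disjoint_left]
    intro y hy1 hy2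
    obtain ⟨a, ha, rfl⟩ := Finset.mem_image.mp hy1
    obtain ⟨b, hb, hab⟩ := Finset.mem_image.mp hy2
    have : b = a := hσi (Finset.mem_inter.mp hb).2 (Finset.mem_inter.mp ha).2 hab
    subst this
    exact (Finset.disjoint_left.mp hd) ha hb
  have hline : ∀ l ∈ 𝓛, (l ∩ H).card = 2 →
      ∃ l' ∈ 𝓛', (l ∩ H).image σ ⊆ l' ∧ l' ∩ H' = (l ∩ H).image σ := by
    intro l hl h2
    obtain ⟨l', hl', -⟩ := h'.uniq ((l ∩ H).image σ) (by rw [hcardi, h2])
    refine ⟨l', hl'.1, hl'.2, ?_⟩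
    symm
    apply Finset.eq_of_subset_of_card_le
    · exact Finset.subset_inter hl'.2 (hsubH l)
    · rw [hcardi, h2]
      exact hH'.ind l' hl'.1
  obtain ⟨l1', hl1', hs1, htr1⟩ := hline l1 hl1 ht1
  obtain ⟨l2', hl2', hs2, htr2⟩ := hline l2 hl2 ht2
  obtain ⟨l3', hl3', hs3, htr3⟩ := hline l3 hl3 ht3
  have hne12 : l1' ≠ l2' := by
    intro hc
    have hd := hdisj l1 l2 d12
    rw [← htr1, ← htr2, hc, Finset.disjoint_self_iff_empty] at hd
    have : (l2' ∩ H').card = 2 := by rw [htr2, hcardi, ht2]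
    rw [hd] at this
    simp at this
  obtain ⟨p', hp'⟩ := Finset.card_eq_one.mp (h'.meet hl1' hl2' hne12)
  have hp'12 : p' ∈ l1' ∩ l2' := by
    rw [hp']
    exact Finset.mem_singleton_self p'
  have hp'1 : p' ∈ l1' := (Finset.mem_inter.mp hp'12).1
  have hp'2 : p' ∈ l2' := (Finset.mem_inter.mp hp'12).2
  have hp'H : p' ∉ H' := by
    intro hc
    have a1 : p' ∈ (l1 ∩ H).image σ := by
      rw [← htr1]
      exact Finset.mem_inter.mpr ⟨hp'1, hc⟩
    have a2 : p' ∈ (l2 ∩ H).image σ := by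
      rw [← htr2]
      exact Finset.mem_inter.mpr ⟨hp'2, hc⟩
    exact (Finset.disjoint_left.mp (hdisj l1 l2 d12)) a1 a2
  have hp'3 : p' ∈ l3' := by
    obtain ⟨z, hz⟩ : ((l3 ∩ H).image σ).Nonempty := by
      rw [← Finset.card_pos, hcardi, ht3]
      omega
    have hzH : z ∈ H' := hsubH l3 hz
    have hzp : p' ≠ z := by
      rintro rfl
      exact hp'H hzH
    obtain ⟨n, hn, hpn, hzn⟩ := h'.exists_line hzp
    have hn2 : (n ∩ H').card = 2 := hH'.trace h' hn hzH hzn
    have hn1 : n ≠ l1' := by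
      rintro rfl
      have a1 : z ∈ (l1 ∩ H).image σ := by
        rw [← htr1]
        exact Finset.mem_inter.mpr ⟨hzn, hzH⟩
      exact (Finset.disjoint_left.mp (hdisj l1 l3 d13)) a1 hz
    have hn2' : n ≠ l2' := by
      rintro rfl
      have a2 : z ∈ (l2 ∩ H).image σ := by
        rw [← htr2]
        exact Finset.mem_inter.mpr ⟨hzn, hzH⟩
      exact (Finset.disjoint_left.mp (hdisj l2 l3 d23)) a2 hz
    have dn1 := Hyp.trace_disjoint h' hp'H hn hl1' hpn hp'1 hn1
    have dn2 := Hyp.trace_disjoint h' hp'H hn hl2' hpn hp'2 hn2'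
    rw [htr1] at dn1
    rw [htr2] at dn2
    have hsub3 : n ∩ H' ⊆ (l3 ∩ H).image σ := by
      intro w hw
      have hwH : w ∈ H' := (Finset.mem_inter.mp hw).2
      rw [← hσH, ← hU, Finset.image_union, Finset.image_union, Finset.mem_union,
        Finset.mem_union] at hwH
      rcases hwH with (hw1 | hw2) | hw3
      · exact absurd hw1 (Finset.disjoint_left.mp dn1 hw)
      · exact absurd hw2 (Finset.disjoint_left.mp dn2 hw)
      · exact hw3
    have heq3 : n ∩ H' = (l3 ∩ H).image σ :=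
      Finset.eq_of_subset_of_card_le hsub3 (by rw [hcardi, ht3, hn2])
    have : n = l3' := h'.eq_of_subset (by rw [hcardi, ht3]) hn hl3'
      (heq3 ▸ Finset.inter_subset_left) hs3
    rw [← this]
    exact hpn
  refine ⟨p', hp'H, ?_⟩
  intro l hl hpl h2 l' hl' hsub
  rcases (hmem l).mp ⟨⟨hl, h2⟩, hpl⟩ with he | he | he
  · rw [he] at hsub
    rw [h'.eq_of_subset (by rw [hcardi, ht1]) hl' hl1' hsub hs1]
    exact hp'1
  · rw [he] at hsub
    rw [h'.eq_of_subset (by rw [hcardi, ht2]) hl' hl2' hsub hs2]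
    exact hp'2
  · rw [he] at hsub
    rw [h'.eq_of_subset (by rw [hcardi, ht3]) hl' hl3' hsub hs3]
    exact hp'3


/-- the extension of σ to all points -/
noncomputable def extFun (𝓛 : Finset (Finset α)) (H : Finset α) (𝓛' : Finset (Finset β))
    (H' : Finset β) (σ : α → β) (p : α) : β :=
  open Classical in
  if p ∈ H then σ p else
    if hex : ∃ p', p' ∉ H' ∧ ∀ l ∈ 𝓛, p ∈ l → (l ∩ H).card = 2 →
      ∀ l' ∈ 𝓛', (l ∩ H).image σ ⊆ l' → p' ∈ l'
    then Classical.choose hex else σ p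

theorem extFun_mem {σ : α → β} {p : α} (hp : p ∈ H) : extFun 𝓛 H 𝓛' H' σ p = σ p := by
  unfold extFun
  rw [if_pos hp]

theorem extFun_spec (h : Plane 𝓛) (hH : Hyp 𝓛 H) (h' : Plane 𝓛') (hH' : Hyp 𝓛' H')
    (σ : α → β) (hσi : Set.InjOn σ H) (hσH : H.image σ = H') {p : α} (hp : p ∉ H) :
    extFun 𝓛 H 𝓛' H' σ p ∉ H' ∧ ∀ l ∈ 𝓛, p ∈ l → (l ∩ H).card = 2 →
      ∀ l' ∈ 𝓛', (l ∩ H).image σ ⊆ l' → extFun 𝓛 H 𝓛' H' σ p ∈ l' := by
  have hex := exists_image_point h hH h' hH' σ hσi hσH hp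
  unfold extFun
  rw [if_neg hp, dif_pos hex]
  exact Classical.choose_spec hex

theorem extFun_injective (h : Plane 𝓛) (hH : Hyp 𝓛 H) (h' : Plane 𝓛') (hH' : Hyp 𝓛' H')
    (σ : α → β) (hσi : Set.InjOn σ H) (hσH : H.image σ = H') :
    Function.Injective (extFun 𝓛 H 𝓛' H' σ) := by
  have hfH : ∀ x, x ∈ H → extFun 𝓛 H 𝓛' H' σ x ∈ H' := by
    intro x hx
    rw [extFun_mem hx, ← hσH]
    exact Finset.mem_image_of_mem σ hx
  have hfo : ∀ x, x ∉ H → extFun 𝓛 H 𝓛' H' σ x ∉ H' := fun x hx =>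
    (extFun_spec h hH h' hH' σ hσi hσH hx).1
  have hci : ∀ l : Finset α, ((l ∩ H).image σ).card = (l ∩ H).card := fun l =>
    Finset.card_image_of_injOn (hσi.mono (by
      intro x hx
      exact (Finset.mem_inter.mp (Finset.mem_coe.mp hx)).2))
  have htr : ∀ l : Finset α, (l ∩ H).card = 2 → ∀ l' ∈ 𝓛', (l ∩ H).image σ ⊆ l' →
      l' ∩ H' = (l ∩ H).image σ := by
    intro l h2 l' hl' hsub
    symm
    apply Finset.eq_of_subset_of_card_le
    · refine Finset.subset_inter hsub ?_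
      rw [← hσH]
      exact Finset.image_subset_image Finset.inter_subset_right
    · rw [hci, h2]
      exact hH'.ind l' hl'
  have key : ∀ p q, p ∉ H → q ∉ H → extFun 𝓛 H 𝓛' H' σ p = extFun 𝓛 H 𝓛' H' σ q →
      ∀ x ∈ H, ∀ l ∈ 𝓛, p ∈ l → x ∈ l → q ∈ l := by
    intro p q hp hq hpq x hx l hl hpl hxl
    have hqx : q ≠ x := by
      rintro rfl
      exact hq hx
    obtain ⟨m, hm, hqm, hxm⟩ := h.exists_line hqx
    have hl2 : (l ∩ H).card = 2 := hH.trace h hl hx hxl
    have hm2 : (m ∩ H).card = 2 := hH.trace h hm hx hxm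
    obtain ⟨l', hl', -⟩ := h'.uniq ((l ∩ H).image σ) (by rw [hci, hl2])
    obtain ⟨m', hm', -⟩ := h'.uniq ((m ∩ H).image σ) (by rw [hci, hm2])
    have hpl' := (extFun_spec h hH h' hH' σ hσi hσH hp).2 l hl hpl hl2 l' hl'.1 hl'.2
    have hqm' := (extFun_spec h hH h' hH' σ hσi hσH hq).2 m hm hqm hm2 m' hm'.1 hm'.2
    have hxl' : σ x ∈ l' := hl'.2 (Finset.mem_image_of_mem σ (Finset.mem_inter.mpr ⟨hxl, hx⟩))
    have hxm' : σ x ∈ m' := hm'.2 (Finset.mem_image_of_mem σ (Finset.mem_inter.mpr ⟨hxm, hx⟩))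
    have hne : extFun 𝓛 H 𝓛' H' σ p ≠ σ x := by
      intro hc
      apply hfo p hp
      rw [hc, ← hσH]
      exact Finset.mem_image_of_mem σ hx
    rw [← hpq] at hqm'
    have hlm' : l' = m' := h'.line_unique hne hl'.1 hm'.1 hpl' hxl' hqm' hxm'
    have htl := htr l hl2 l' hl'.1 hl'.2
    have htm := htr m hm2 m' hm'.1 hm'.2
    have himeq : (l ∩ H).image σ = (m ∩ H).image σ := by rw [← htl, ← htm, hlm']
    have hTsub : l ∩ H ⊆ m ∩ H := by
      intro y hy
      have : σ y ∈ (m ∩ H).image σ := himeq ▸ Finset.mem_image_of_mem σ hy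
      obtain ⟨y', hy', he⟩ := Finset.mem_image.mp this
      have : y' = y := hσi (Finset.mem_inter.mp hy').2 (Finset.mem_inter.mp hy).2 he
      exact this ▸ hy'
    have : l = m := h.eq_of_subset hl2 hl hm Finset.inter_subset_left
      (hTsub.trans Finset.inter_subset_left)
    rw [this]
    exact hqm
  intro p q hpq
  by_cases hp : p ∈ H <;> by_cases hq : q ∈ H
  · rw [extFun_mem hp, extFun_mem hq] at hpq
    exact hσi hp hq hpq
  · exact absurd (hpq ▸ hfH p hp) (hfo q hq)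
  · exact absurd (hpq.symm ▸ hfH q hq) (hfo p hp)
  · by_contra hne
    obtain ⟨x1, hx1⟩ : H.Nonempty := by
      rw [← Finset.card_pos, hH.card]
      omega
    have hpx1 : p ≠ x1 := by
      rintro rfl
      exact hp hx1
    obtain ⟨l1, hl1, hpl1, hxl1⟩ := h.exists_line hpx1
    have ht1 := hH.trace h hl1 hx1 hxl1
    obtain ⟨x2, hx2, hx2l⟩ : ∃ x2 ∈ H, x2 ∉ l1 := by
      by_contra hc
      push Not at hc
      have hsub : H ⊆ l1 ∩ H := fun x hx => Finset.mem_inter.mpr ⟨hc x hx, hx⟩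
      have := Finset.card_le_card hsub
      rw [hH.card, ht1] at this
      omega
    have hpx2 : p ≠ x2 := by
      rintro rfl
      exact hp hx2
    obtain ⟨l2, hl2, hpl2, hxl2⟩ := h.exists_line hpx2
    have hq1 := key p q hp hq hpq x1 hx1 l1 hl1 hpl1 hxl1
    have hq2 := key p q hp hq hpq x2 hx2 l2 hl2 hpl2 hxl2
    have hl12 : l1 ≠ l2 := by
      rintro rfl
      exact hx2l hxl2
    exact hl12 (h.line_unique hne hl1 hl2 hpl1 hq1 hpl2 hq2)

theorem extFun_secant (h : Plane 𝓛) (hH : Hyp 𝓛 H) (h' : Plane 𝓛') (hH' : Hyp 𝓛' H')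
    (σ : α → β) (hσi : Set.InjOn σ H) (hσH : H.image σ = H') :
    ∀ l ∈ 𝓛, (l ∩ H).card = 2 → l.image (extFun 𝓛 H 𝓛' H' σ) ∈ 𝓛' := by
  intro l hl h2
  have hci : ((l ∩ H).image σ).card = (l ∩ H).card :=
    Finset.card_image_of_injOn (hσi.mono (by
      intro x hx
      exact (Finset.mem_inter.mp (Finset.mem_coe.mp hx)).2))
  obtain ⟨l', hl', -⟩ := h'.uniq ((l ∩ H).image σ) (by rw [hci, h2])
  have hsub : l.image (extFun 𝓛 H 𝓛' H' σ) ⊆ l' := by
    intro y hy
    obtain ⟨q, hq, rfl⟩ := Finset.mem_image.mp hy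
    by_cases hqH : q ∈ H
    · rw [extFun_mem hqH]
      exact hl'.2 (Finset.mem_image_of_mem σ (Finset.mem_inter.mpr ⟨hq, hqH⟩))
    · exact (extFun_spec h hH h' hH' σ hσi hσH hqH).2 l hl hq h2 l' hl'.1 hl'.2
  have : l.image (extFun 𝓛 H 𝓛' H' σ) = l' := Finset.eq_of_subset_of_card_le hsub (by
    rw [Finset.card_image_of_injective _ (extFun_injective h hH h' hH' σ hσi hσH),
      h.five l hl, h'.five l' hl'.1])
  rw [this]
  exact hl'.1

theorem reconstruct (h : Plane 𝓛) (hH : Hyp 𝓛 H) (h' : Plane 𝓛') (hH' : Hyp 𝓛' H')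
    (σ : α → β) (hσi : Set.InjOn σ H) (hσH : H.image σ = H') :
    ∃ e : α ≃ β, (∀ x ∈ H, e x = σ x) ∧ 𝓛.image (fun b => b.image e) = 𝓛' := by
  have hinj := extFun_injective h hH h' hH' σ hσi hσH
  have hbij : Function.Bijective (extFun 𝓛 H 𝓛' H' σ) := by
    rw [Fintype.bijective_iff_injective_and_card]
    exact ⟨hinj, by rw [h.card, h'.card]⟩
  have hfH : ∀ x, x ∈ H ↔ extFun 𝓛 H 𝓛' H' σ x ∈ H' := by
    intro x
    constructor
    · intro hx
      rw [extFun_mem hx, ← hσH]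
      exact Finset.mem_image_of_mem σ hx
    · intro hx
      by_contra hc
      exact (extFun_spec h hH h' hH' σ hσi hσH hc).1 hx
  have hall := lines_of_secants h hH h' hH' _ hinj hfH (extFun_secant h hH h' hH' σ hσi hσH)
  refine ⟨Equiv.ofBijective _ hbij, fun x hx => ?_, ?_⟩
  · rw [Equiv.ofBijective_apply, extFun_mem hx]
  · apply Finset.eq_of_subset_of_card_le
    · intro b hb
      obtain ⟨l, hl, rfl⟩ := Finset.mem_image.mp hb
      exact hall l hl
    · rw [Finset.card_image_of_injective _ (Finset.image_injective (Equiv.injective _)),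
        h.card_lines, h'.card_lines]

theorem ext_unique (h : Plane 𝓛) (hH : Hyp 𝓛 H) (h' : Plane 𝓛') (e1 e2 : α ≃ β)
    (h1 : ∀ l ∈ 𝓛, l.image e1 ∈ 𝓛') (h2 : ∀ l ∈ 𝓛, l.image e2 ∈ 𝓛')
    (heq : ∀ x ∈ H, e1 x = e2 x) : e1 = e2 := by
  ext p
  by_cases hp : p ∈ H
  · exact heq p hp
  obtain ⟨x1, hx1⟩ : H.Nonempty := by
    rw [← Finset.card_pos, hH.card]
    omega
  have hpx1 : p ≠ x1 := by
    rintro rfl
    exact hp hx1
  obtain ⟨l1, hl1, hpl1, hxl1⟩ := h.exists_line hpx1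
  have ht1 := hH.trace h hl1 hx1 hxl1
  obtain ⟨x2, hx2, hx2l⟩ : ∃ x2 ∈ H, x2 ∉ l1 := by
    by_contra hc
    push Not at hc
    have hsub : H ⊆ l1 ∩ H := fun x hx => Finset.mem_inter.mpr ⟨hc x hx, hx⟩
    have := Finset.card_le_card hsub
    rw [hH.card, ht1] at this
    omega
  have hpx2 : p ≠ x2 := by
    rintro rfl
    exact hp hx2
  obtain ⟨l2, hl2, hpl2, hxl2⟩ := h.exists_line hpx2
  have ht2 := hH.trace h hl2 hx2 hxl2
  have hl12 : l1 ≠ l2 := by
    rintro rfl
    exact hx2l hxl2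
  have himg : ∀ l ∈ 𝓛, (l ∩ H).card = 2 → l.image e1 = l.image e2 := by
    intro l hl ht
    obtain ⟨a, b, hab, hT⟩ := Finset.card_eq_two.mp ht
    have ha : a ∈ l ∩ H := by
      rw [hT]
      simp
    have hb : b ∈ l ∩ H := by
      rw [hT]
      simp
    rw [Finset.mem_inter] at ha hb
    apply h'.line_unique (x := e1 a) (y := e1 b) (fun hc => hab (e1.injective hc))
      (h1 l hl) (h2 l hl)
    · exact Finset.mem_image_of_mem e1 ha.1
    · exact Finset.mem_image_of_mem e1 hb.1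
    · rw [heq a ha.2]
      exact Finset.mem_image_of_mem e2 ha.1
    · rw [heq b hb.2]
      exact Finset.mem_image_of_mem e2 hb.1
  have hI : l1.image e1 ∩ l2.image e1 = {e1 p} := by
    rw [← Finset.image_inter _ _ e1.injective]
    obtain ⟨c, hc⟩ := Finset.card_eq_one.mp (h.meet hl1 hl2 hl12)
    have : p ∈ l1 ∩ l2 := Finset.mem_inter.mpr ⟨hpl1, hpl2⟩
    rw [hc] at this ⊢
    rw [Finset.mem_singleton] at this
    rw [this, Finset.image_singleton]
  have : e2 p ∈ l1.image e1 ∩ l2.image e1 := by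
    rw [himg l1 hl1 ht1, himg l2 hl2 ht2]
    exact Finset.mem_inter.mpr
      ⟨Finset.mem_image_of_mem e2 hpl1, Finset.mem_image_of_mem e2 hpl2⟩
  rw [hI, Finset.mem_singleton] at this
  exact this.symm

theorem Plane.exists_hyp (h : Plane 𝓛) : ∃ H, Hyp 𝓛 H := by
  have := h.card_hyperovals
  obtain ⟨H, hH⟩ : (((Finset.univ : Finset α).powersetCard 6).filter
      (fun H => Ind 𝓛 H)).Nonempty := by
    rw [← Finset.card_pos]
    omega
  rw [Finset.mem_filter, Finset.mem_powersetCard] at hH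
  exact ⟨H, hH.1.2, hH.2⟩

end Hyperoval

/-- finset version of a set of lines -/
theorem exists_plane (hα : Fintype.card α = 21) (L : Set (Finset α))
    (h5 : ∀ b ∈ L, b.card = 5) (hu : ∀ s : Finset α, s.card = 2 → ∃! b, b ∈ L ∧ s ⊆ b) :
    ∃ 𝓛 : Finset (Finset α), (∀ l, l ∈ 𝓛 ↔ l ∈ L) ∧ Plane 𝓛 := by
  classical
  obtain ⟨𝓛, hmem⟩ : ∃ 𝓛 : Finset (Finset α), ∀ l, l ∈ 𝓛 ↔ l ∈ L :=
    ⟨Finset.univ.filter (fun b => b ∈ L), fun l => by simp⟩
  refine ⟨𝓛, hmem, hα, fun l hl => h5 l ((hmem l).mp hl), ?_⟩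
  intro s hs
  obtain ⟨b, hb, hub⟩ := hu s hs
  exact ⟨b, ⟨(hmem b).mpr hb.1, hb.2⟩, fun b' hb' => hub b' ⟨(hmem b').mp hb'.1, hb'.2⟩⟩

/-- all planes of order 4 are isomorphic -/
theorem iso_set {β : Type*} [Fintype β] [DecidableEq β] (hα : Fintype.card α = 21)
    (hβ : Fintype.card β = 21) (L : Set (Finset α)) (L' : Set (Finset β))
    (h5 : ∀ b ∈ L, b.card = 5) (hu : ∀ s : Finset α, s.card = 2 → ∃! b, b ∈ L ∧ s ⊆ b)
    (h5' : ∀ b ∈ L', b.card = 5) (hu' : ∀ s : Finset β, s.card = 2 → ∃! b, b ∈ L' ∧ s ⊆ b) :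
    ∃ e : α ≃ β, (fun b => b.image e) '' L = L' := by
  obtain ⟨𝓛, hmem, hP⟩ := exists_plane hα L h5 hu
  obtain ⟨𝓛', hmem', hP'⟩ := exists_plane hβ L' h5' hu'
  obtain ⟨H, hH⟩ := hP.exists_hyp
  obtain ⟨H', hH'⟩ := hP'.exists_hyp
  have hcard : H.card = H'.card := by rw [hH.card, hH'.card]
  obtain ⟨z, hz⟩ : H'.Nonempty := by
    rw [← Finset.card_pos, hH'.card]
    omega
  let τ : ↥H ≃ ↥H' := Finset.equivOfCardEq hcard
  let σ : α → β := fun x => if hx : x ∈ H then (τ ⟨x, hx⟩ : β) else z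
  have hσi : Set.InjOn σ H := by
    intro x hx y hy hxy
    have hx' : x ∈ H := Finset.mem_coe.mp hx
    have hy' : y ∈ H := Finset.mem_coe.mp hy
    simp only [σ, dif_pos hx', dif_pos hy'] at hxy
    have := τ.injective (Subtype.ext hxy)
    exact congrArg Subtype.val this
  have hσH : H.image σ = H' := by
    apply Finset.eq_of_subset_of_card_le
    · intro y hy
      obtain ⟨x, hx, rfl⟩ := Finset.mem_image.mp hy
      simp only [σ, dif_pos hx]
      exact (τ ⟨x, hx⟩).2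
    · rw [Finset.card_image_of_injOn hσi, hcard]
  obtain ⟨e, -, he⟩ := reconstruct hP hH hP' hH' σ hσi hσH
  refine ⟨e, ?_⟩
  ext b
  rw [← hmem', ← he]
  simp only [Set.mem_image, Finset.mem_image]
  constructor
  · rintro ⟨l, hl, rfl⟩
    exact ⟨l, (hmem l).mpr hl, rfl⟩
  · rintro ⟨l, hl, rfl⟩
    exact ⟨l, (hmem l).mp hl, rfl⟩

/-- permutations of a hyperoval extend uniquely -/
theorem aut_set (hα : Fintype.card α = 21) (L : Set (Finset α))
    (h5 : ∀ b ∈ L, b.card = 5) (hu : ∀ s : Finset α, s.card = 2 → ∃! b, b ∈ L ∧ s ⊆ b)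
    (H : Finset α) (hH6 : H.card = 6) (hHI : ∀ l ∈ L, (l ∩ H).card ≤ 2)
    (σ : Equiv.Perm ↥H) :
    ∃! g : Equiv.Perm α, (fun b => b.image g) '' L = L ∧ ∀ p : ↥H, g p = σ p := by
  obtain ⟨𝓛, hmem, hP⟩ := exists_plane hα L h5 hu
  have hH : Hyp 𝓛 H := ⟨hH6, fun l hl => hHI l ((hmem l).mp hl)⟩
  let σ' : α → α := fun x => if hx : x ∈ H then (σ ⟨x, hx⟩ : α) else x
  have hσi : Set.InjOn σ' H := by
    intro x hx y hy hxy
    have hx' : x ∈ H := Finset.mem_coe.mp hx
    have hy' : y ∈ H := Finset.mem_coe.mp hy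
    simp only [σ', dif_pos hx', dif_pos hy'] at hxy
    have := σ.injective (Subtype.ext hxy)
    exact congrArg Subtype.val this
  have hσH : H.image σ' = H := by
    apply Finset.eq_of_subset_of_card_le
    · intro y hy
      obtain ⟨x, hx, rfl⟩ := Finset.mem_image.mp hy
      simp only [σ', dif_pos hx]
      exact (σ ⟨x, hx⟩).2
    · rw [Finset.card_image_of_injOn hσi]
  obtain ⟨e, he1, he2⟩ := reconstruct hP hH hP hH σ' hσi hσH
  have hset : ∀ g : Equiv.Perm α, (fun b => b.image g) '' L = L ↔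
      𝓛.image (fun b => b.image g) = 𝓛 := by
    intro g
    constructor
    · intro hg
      ext b
      rw [hmem, ← hg]
      simp only [Set.mem_image, Finset.mem_image]
      constructor
      · rintro ⟨l, hl, rfl⟩
        exact ⟨l, (hmem l).mp hl, rfl⟩
      · rintro ⟨l, hl, rfl⟩
        exact ⟨l, (hmem l).mpr hl, rfl⟩
    · intro hg
      ext b
      rw [← hmem, ← hg]
      simp only [Set.mem_image, Finset.mem_image]
      constructor
      · rintro ⟨l, hl, rfl⟩
        exact ⟨l, (hmem l).mpr hl, rfl⟩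
      · rintro ⟨l, hl, rfl⟩
        exact ⟨l, (hmem l).mp hl, rfl⟩
  refine ⟨e, ⟨(hset e).mpr he2, fun p => ?_⟩, ?_⟩
  · rw [he1 p p.2]
    simp only [σ', dif_pos p.2]
  · rintro g ⟨hg1, hg2⟩
    rw [hset] at hg1
    apply ext_unique hP hH hP g e
    · intro l hl
      rw [← hg1]
      exact Finset.mem_image_of_mem _ hl
    · intro l hl
      rw [← he2]
      exact Finset.mem_image_of_mem _ hl
    · intro x hx
      rw [he1 x hx]
      simp only [σ', dif_pos hx]
      exact hg2 ⟨x, hx⟩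


open scoped Pointwise in
theorem mem_aut_iff (L : Set (Finset α)) (g : Equiv.Perm α) :
    g ∈ MulAction.stabilizer (Equiv.Perm α) L ↔ (fun b => b.image g) '' L = L := by
  rw [MulAction.mem_stabilizer_iff, ← Set.image_smul]
  rfl

end Cfsg.Agent.Lib.Helper9.Plane4
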