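import Mathlib
import Cfsg.Agent.Lib.Helper9.GolayC

set_option autoImplicit false

namespace Cfsg.Agent.Lib.Helper9.Punct

open Cfsg.Agent.Lib.Helper9.Golay Cfsg.Agent.Lib.Helper9.GolayC

/-- extension of a length-23 word by a coordinate at `none` -/
def ext (u : ZMod 23 → ZMod 2) (a : ZMod 2) : Cfsg.GolayPt → ZMod 2 := fun p =>
  match p with
  | none => a
  | some x => u x

/-- restriction to the 23 coordinates `some x` -/
def res (w : Cfsg.GolayPt → ZMod 2) : ZMod 23 → ZMod 2 := fun x => w (some x)

theorem norm_split (w : Cfsg.GolayPt → ZMod 2) :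
    hammingNorm w = (if w none ≠ 0 then 1 else 0) + hammingNorm (res w) := by
  unfold hammingNorm
  rw [Finset.card_filter, Finset.card_filter, Fintype.sum_option]
  rfl

theorem dist_eq {ι : Type*} [Fintype ι] [DecidableEq ι] (a b : ι → ZMod 2) :
    hammingDist a b = hammingNorm (a - b) := by
  rw [hammingDist_eq_hammingNorm]
  congr 1
  funext i
  have : ∀ a b : ZMod 2, -a + b = a - b := by decide
  exact this _ _

theorem s1637 (u : ZMod 23 → ZMod 2) : ∃! c : ZMod 23 → ZMod 2, c ∈ {u : ZMod 23 → ZMod 2 | ∃ w ∈ Cfsg.golayCode, ∀ x : ZMod 23, u x = w (some x)} ∧ hammingDist u c ≤ 3 := by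
  classical
  have key : ∀ l : Cfsg.GolayPt → ZMod 2, l - ext u 0 ∈ Cfsg.golayCode → hammingNorm (res l) ≤ 3 →
      ∃ c : ZMod 23 → ZMod 2, (∃ w ∈ Cfsg.golayCode, ∀ x : ZMod 23, c x = w (some x)) ∧
        hammingDist u c ≤ 3 := by
    intro l hl h3
    refine ⟨res (l - ext u 0), ⟨l - ext u 0, hl, fun x => rfl⟩, ?_⟩
    rw [dist_eq]
    have e : u - res (l - ext u 0) = res l := by
      funext x
      show u x - (l (some x) - u x) = l (some x)
      have : ∀ a b : ZMod 2, a - (b - a) = b := by decide
      exact this _ _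
    rw [e]; exact h3
  have hex : ∃ c : ZMod 23 → ZMod 2, (∃ w ∈ Cfsg.golayCode, ∀ x : ZMod 23, c x = w (some x)) ∧
      hammingDist u c ≤ 3 := by
    rcases coset_leaders Cfsg.golayCode min_weight card_pts finrank_golay (ext u 0) with
      ⟨l, hl, h3⟩ | ⟨h6, hall⟩
    · have hm : l ∈ lead Cfsg.golayCode 4 (ext u 0) := by
        rw [hl]; exact Finset.mem_singleton_self _
      rw [mem_lead] at hm
      apply key l hm.1
      have := norm_split l
      omega
    · have hcov : ∃ l ∈ lead Cfsg.golayCode 4 (ext u 0), l none ≠ 0 := by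
        by_contra hno
        push Not at hno
        have hsub : (lead Cfsg.golayCode 4 (ext u 0)).biUnion supp ⊆
            (Finset.univ : Finset Cfsg.GolayPt).erase none := by
          intro p hp
          rw [Finset.mem_biUnion] at hp
          obtain ⟨l, hl, hpl⟩ := hp
          rw [Finset.mem_erase]
          refine ⟨?_, Finset.mem_univ _⟩
          rintro rfl
          exact (mem_supp l none).1 hpl (hno l hl)
        have hcard : ((lead Cfsg.golayCode 4 (ext u 0)).biUnion supp).card = 24 := by
          rw [Finset.card_biUnion]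
          · have h4 : ∀ l ∈ lead Cfsg.golayCode 4 (ext u 0), (supp l).card = 4 := fun l hl => by
              rw [← hammingNorm_eq]; exact (hall l hl).1
            rw [Finset.sum_congr rfl h4, Finset.sum_const, h6]
            rfl
          · intro l hl l' hl' hne
            exact (hall l hl).2 l' hl' hne
        have := Finset.card_le_card hsub
        rw [hcard, Finset.card_erase_of_mem (Finset.mem_univ _), Finset.card_univ, card_pts] at this
        omega
      obtain ⟨l, hl, hn⟩ := hcov
      have h4 := (hall l hl).1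
      rw [mem_lead] at hl
      apply key l hl.1
      have := norm_split l
      rw [if_pos hn] at this
      omega
  obtain ⟨c, hc, hd⟩ := hex
  refine ⟨c, ⟨hc, hd⟩, ?_⟩
  rintro c' ⟨⟨w', hw', hcw'⟩, hd'⟩
  obtain ⟨w, hw, hcw⟩ := hc
  by_contra hne
  have hww : w' - w ∈ Cfsg.golayCode := Cfsg.golayCode.sub_mem hw' hw
  have hres : res (w' - w) = c' - c := by
    funext x
    show w' (some x) - w (some x) = c' x - c x
    rw [hcw x, hcw' x]
  have hn0 : w' - w ≠ 0 := by
    intro h0
    apply hne
    have : c' - c = 0 := by rw [← hres, h0]; rfl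
    exact sub_eq_zero.1 this
  have h8 := min_weight _ hww hn0
  have hs := norm_split (w' - w)
  rw [hres, ← dist_eq c' c] at hs
  have htri := hammingDist_triangle c' u c
  rw [hammingDist_comm c' u] at htri
  have : (if (w' - w) none ≠ 0 then 1 else 0) ≤ 1 := by split_ifs <;> omega
  omega

end Cfsg.Agent.Lib.Helper9.Punct
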