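import Mathlib
import Cfsg.Agent.Lib.Helper9.Punct

set_option autoImplicit false

namespace Cfsg.Agent.Lib.Helper9.Punct2

open Cfsg.Agent.Lib.Helper9.Golay Cfsg.Agent.Lib.Helper9.GolayC Cfsg.Agent.Lib.Helper9.Punct

/-- the punctured code -/
def P : Set (ZMod 23 → ZMod 2) :=
  {u : ZMod 23 → ZMod 2 | ∃ w ∈ Cfsg.golayCode, ∀ x : ZMod 23, u x = w (some x)}

/-- punctured decoded word -/
def pd (c : ℕ) : ZMod 23 → ZMod 2 := res (dec (lin LB c))

theorem mem_P (u : ZMod 23 → ZMod 2) : u ∈ P ↔ ∃ c < 4096, u = pd c := by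
  constructor
  · rintro ⟨w, hw, hu⟩
    obtain ⟨c, hc, rfl⟩ := (mem_iff w).mp hw
    exact ⟨c, hc, funext hu⟩
  · rintro ⟨c, hc, rfl⟩
    exact ⟨dec (lin LB c), lin_mem_golay c, fun x => rfl⟩

theorem norm_pd (c : ℕ) : hammingNorm (pd c) = pc 23 (lin LB c) := by
  have h1 := norm_split (dec (lin LB c))
  rw [norm_dec, pc_eq, Finset.sum_range_succ, ← pc_eq] at h1
  have h2 : (if dec (lin LB c) none ≠ 0 then 1 else 0) =
      (if (lin LB c).testBit 23 = true then 1 else 0) := by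
    show (if (if (lin LB c).testBit 23 = true then (1 : ZMod 2) else 0) ≠ 0 then 1 else 0) = _
    by_cases h : (lin LB c).testBit 23 = true
    · rw [if_pos h, if_pos h, if_pos (by decide)]
    · rw [if_neg h, if_neg h, if_neg (by decide)]
  rw [h2] at h1
  show hammingNorm (res (dec (lin LB c))) = _
  omega

theorem pd_inj (c c' : ℕ) (hc : c < 4096) (hc' : c' < 4096) (h : pd c = pd c') : c = c' := by
  apply dec_lin_inj c c' hc hc'
  by_contra hne
  have hw : dec (lin LB c) - dec (lin LB c') ∈ Cfsg.golayCode :=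
    Cfsg.golayCode.sub_mem (lin_mem_golay c) (lin_mem_golay c')
  have h8 := min_weight _ hw (sub_ne_zero.2 hne)
  have hs := norm_split (dec (lin LB c) - dec (lin LB c'))
  have hr : res (dec (lin LB c) - dec (lin LB c')) = 0 := by
    funext x
    show dec (lin LB c) (some x) - dec (lin LB c') (some x) = 0
    have := congrFun h x
    exact sub_eq_zero.2 this
  rw [hr, hammingNorm_zero] at hs
  have : (if (dec (lin LB c) - dec (lin LB c')) none ≠ 0 then 1 else 0) ≤ 1 := by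
    split_ifs <;> omega
  omega

theorem P_eq : P = pd '' (↑(Finset.range 4096) : Set ℕ) := by
  ext u
  rw [mem_P]
  constructor
  · rintro ⟨c, hc, rfl⟩
    exact ⟨c, by simpa using hc, rfl⟩
  · rintro ⟨c, hc, rfl⟩
    exact ⟨c, by simpa using hc, rfl⟩

theorem Pk_eq (k : ℕ) : {u : ZMod 23 → ZMod 2 | u ∈ P ∧ hammingNorm u = k} =
    pd '' (↑((Finset.range 4096).filter (fun c => pc 23 (lin LB c) = k)) : Set ℕ) := by
  ext u
  rw [Set.mem_ofPred_eq, mem_P]
  constructor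
  · rintro ⟨⟨c, hc, rfl⟩, hk⟩
    refine ⟨c, ?_, rfl⟩
    rw [Finset.mem_coe, Finset.mem_filter, Finset.mem_range]
    exact ⟨hc, by rw [← norm_pd]; exact hk⟩
  · rintro ⟨c, hc, rfl⟩
    rw [Finset.mem_coe, Finset.mem_filter, Finset.mem_range] at hc
    exact ⟨⟨c, hc.1, rfl⟩, by rw [norm_pd]; exact hc.2⟩

theorem injOn (s : Finset ℕ) (hs : s ⊆ Finset.range 4096) : Set.InjOn pd (↑s : Set ℕ) := by
  intro c hc c' hc' h
  have h1 := Finset.mem_range.1 (hs (Finset.mem_coe.1 hc))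
  have h2 := Finset.mem_range.1 (hs (Finset.mem_coe.1 hc'))
  exact pd_inj c c' h1 h2 h

theorem ncard_Pk (k n : ℕ)
    (h : ((Finset.range 4096).filter (fun c => pc 23 (lin LB c) = k)).card = n) :
    {u : ZMod 23 → ZMod 2 | u ∈ P ∧ hammingNorm u = k}.ncard = n := by
  rw [Pk_eq, (injOn _ (Finset.filter_subset _ _)).ncard_image, Set.ncard_coe_finset]
  exact h

set_option maxRecDepth 100000 in
theorem c7 : ((Finset.range 4096).filter (fun c => pc 23 (lin LB c) = 7)).card = 253 := by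
  decide +kernel

set_option maxRecDepth 100000 in
theorem c8 : ((Finset.range 4096).filter (fun c => pc 23 (lin LB c) = 8)).card = 506 := by
  decide +kernel

set_option maxRecDepth 100000 in
theorem c11 : ((Finset.range 4096).filter (fun c => pc 23 (lin LB c) = 11)).card = 1288 := by
  decide +kernel

set_option maxRecDepth 100000 in
theorem c12 : ((Finset.range 4096).filter (fun c => pc 23 (lin LB c) = 12)).card = 1288 := by
  decide +kernel

set_option maxRecDepth 100000 in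
theorem c15 : ((Finset.range 4096).filter (fun c => pc 23 (lin LB c) = 15)).card = 506 := by
  decide +kernel

set_option maxRecDepth 100000 in
theorem c16 : ((Finset.range 4096).filter (fun c => pc 23 (lin LB c) = 16)).card = 253 := by
  decide +kernel

theorem ncard_P : P.ncard = 4096 := by
  rw [P_eq, (injOn _ (Finset.Subset.refl _)).ncard_image, Set.ncard_coe_finset, Finset.card_range]

theorem min_P : ∀ u ∈ P, u ≠ 0 → 7 ≤ hammingNorm u := by
  rintro u ⟨w, hw, hu⟩ hu0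
  have hw0 : w ≠ 0 := by
    rintro rfl
    apply hu0
    funext x
    exact hu x
  have h8 := min_weight w hw hw0
  have hs := norm_split w
  have hr : res w = u := by
    funext x
    exact (hu x).symm
  rw [hr] at hs
  have : (if w none ≠ 0 then 1 else 0) ≤ 1 := by split_ifs <;> omega
  omega

theorem s1636 : {u : ZMod 23 → ZMod 2 | ∃ w ∈ Cfsg.golayCode, ∀ x : ZMod 23, u x = w (some x)}.ncard = 4096 ∧ {u : ZMod 23 → ZMod 2 | u ∈ {u : ZMod 23 → ZMod 2 | ∃ w ∈ Cfsg.golayCode, ∀ x : ZMod 23, u x = w (some x)} ∧ hammingNorm u = 7}.ncard = 253 ∧ {u : ZMod 23 → ZMod 2 | u ∈ {u : ZMod 23 → ZMod 2 | ∃ w ∈ Cfsg.golayCode, ∀ x : ZMod 23, u x = w (some x)} ∧ hammingNorm u = 8}.ncard = 506 ∧ {u : ZMod 23 → ZMod 2 | u ∈ {u : ZMod 23 → ZMod 2 | ∃ w ∈ Cfsg.golayCode, ∀ x : ZMod 23, u x = w (some x)} ∧ hammingNorm u = 11}.ncard = 1288 ∧ {u : ZMod 23 → ZMod 2 | u ∈ {u : ZMod 23 → ZMod 2 | ∃ w ∈ Cfsg.golayCode, ∀ x : ZMod 23, u x = w (some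 x)} ∧ hammingNorm u = 12}.ncard = 1288 ∧ {u : ZMod 23 → ZMod 2 | u ∈ {u : ZMod 23 → ZMod 2 | ∃ w ∈ Cfsg.golayCode, ∀ x : ZMod 23, u x = w (some x)} ∧ hammingNorm u = 15}.ncard = 506 ∧ {u : ZMod 23 → ZMod 2 | u ∈ {u : ZMod 23 → ZMod 2 | ∃ w ∈ Cfsg.golayCode, ∀ x : ZMod 23, u x = w (some x)} ∧ hammingNorm u = 16}.ncard = 253 ∧ ∀ u ∈ {u : ZMod 23 → ZMod 2 | ∃ w ∈ Cfsg.golayCode, ∀ x : ZMod 23, u x = w (some x)}, u ≠ 0 → 7 ≤ hammingNorm u :=
  ⟨ncard_P, ncard_Pk 7 253 c7, ncard_Pk 8 506 c8, ncard_Pk 11 1288 c11, ncard_Pk 12 1288 c12,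
    ncard_Pk 15 506 c15, ncard_Pk 16 253 c16, min_P⟩

end Cfsg.Agent.Lib.Helper9.Punct2
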