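import Mathlib
import Cfsg.Prelude.Def_SporadicCombinatorics
import Cfsg.Agent.Lib.Helper9.InvCnt
import Cfsg.Agent.Lib.Helper9.Dual

set_option autoImplicit false

/-! Orbit certificates for a subgroup of the code group acting on sextets. -/

namespace Cfsg.Agent.Lib.Helper9.SxOrb

open Cfsg.Agent.Lib.Helper9.Golay Cfsg.Agent.Lib.Helper9.GolayC Cfsg.Agent.Lib.Helper9.M24C
open Cfsg.Agent.Lib.Helper9.Octad Cfsg.Agent.Lib.Helper9.M24B Cfsg.Agent.Lib.Helper9.M24T
open Cfsg.Agent.Lib.Helper9.M24O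
open Cfsg.Agent.Lib.Helper9.Sextet Cfsg.Agent.Lib.Helper9.SextetY
open Cfsg.Agent.Lib.Helper9.InvCnt Cfsg.Agent.Lib.Helper9.M24CO
open scoped Pointwise

/-- Two tetrad masks belong to a common sextet. -/
def lnk (a b : ℕ) : Bool := a == b || ((a &&& b == 0) && inB (a ||| b))

theorem lnk_mem {a b : ℕ} (ha : a < 2 ^ 24) (_hb : b < 2 ^ 24) (h : lnk a b = true) :
    maskSet b ∈ sx (maskSet a) := by
  unfold lnk at h
  rw [Bool.or_eq_true, Bool.and_eq_true, beq_iff_eq, beq_iff_eq, inB_iff] at h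
  rw [mem_sx_iff]
  rcases h with h | ⟨h1, h2⟩
  · exact Or.inl (by rw [h])
  · exact Or.inr ⟨(disjoint_iff_and a b ha).mpr h1, by rw [← maskSet_or]; exact LM_oct h2⟩

theorem lnk_spec {a b : ℕ} (ha : a < 2 ^ 24) (hb : b < 2 ^ 24) (ha4 : pc 24 a = 4)
    (h : lnk a b = true) : sx (maskSet a) = sx (maskSet b) :=
  sextet_eq (sx_mem _ (by rw [card_maskSet]; exact ha4)) (lnk_mem ha hb h)

/-- Orbit certificate: `X (n+1)` is a tetrad of the sextet of the preimage of an earlier member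
under one of the generators. -/
def sxOk (gs : List (List ℕ)) (X : List ℕ) (P : List (ℕ × ℕ)) : Bool :=
  (List.range P.length).all (fun n =>
    decide ((P.getD n (0, 0)).2 ≤ n) &&
      nthT gs (P.getD n (0, 0)).1
        (fun t => lnk (X.getD (n + 1) 0) (pmI t (X.getD (P.getD n (0, 0)).2 0))))

theorem sx_sound (Z : Finset (Finset Cfsg.GolayPt)) (gs : List (List ℕ)) (X : List ℕ)
    (P : List (ℕ × ℕ))
    (hgs : ∀ t ∈ gs, ∃ g ∈ Cfsg.M24, g • Z = Z ∧ IsTable g t)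
    (hlen : X.length = P.length + 1) (hX : ∀ m ∈ X, m < 2 ^ 24 ∧ pc 24 m = 4)
    (h : sxOk gs X P = true) :
    ∀ n ≤ P.length, ∃ g ∈ Cfsg.M24, g • Z = Z ∧
      g • sx (maskSet (X.getD n 0)) = sx (maskSet (X.getD 0 0)) := by
  unfold sxOk at h
  rw [List.all_eq_true] at h
  intro n
  induction n using Nat.strong_induction_on with
  | _ n ih =>
    intro hn
    cases n with
    | zero => exact ⟨1, Cfsg.M24.one_mem, one_smul _ _, one_smul _ _⟩
    | succ n =>
      have h1 := h n (List.mem_range.mpr (by omega))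
      rw [Bool.and_eq_true, decide_eq_true_eq] at h1
      obtain ⟨hle, hnth⟩ := h1
      obtain ⟨t, ht, hk⟩ := nthT_spec gs _ _ hnth
      obtain ⟨g', hg', hg'Z, hg'X⟩ := ih _ (by omega : (P.getD n (0, 0)).2 < n + 1) (by omega)
      obtain ⟨g, hg, hgZ, hT⟩ := hgs t ht
      have hmem : X.getD (n + 1) 0 ∈ X := by
        rw [List.getD_eq_getElem _ _ (by omega)]
        exact List.getElem_mem _
      have hx := hX _ hmem
      have e1 := lnk_spec hx.1 (pmI_lt _ _) hx.2 hk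
      have hm := lnk_mem hx.1 (pmI_lt _ _) hk
      have h4 : (maskSet (pmI t (X.getD (P.getD n (0, 0)).2 0))).card = 4 :=
        (sx_mem _ (by rw [card_maskSet]; exact hx.2)).2.1 _ hm
      refine ⟨g' * g, mul_mem hg' hg, by rw [mul_smul, hgZ, hg'Z], ?_⟩
      rw [e1, mul_smul, smul_sx hg _ h4, smul_maskSet_pmI hT, hg'X]

theorem sx_rel (Z : Finset (Finset Cfsg.GolayPt)) (gs : List (List ℕ)) (X : List ℕ)
    (P : List (ℕ × ℕ))
    (hgs : ∀ t ∈ gs, ∃ g ∈ Cfsg.M24, g • Z = Z ∧ IsTable g t)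
    (hlen : X.length = P.length + 1) (hX : ∀ m ∈ X, m < 2 ^ 24 ∧ pc 24 m = 4)
    (h : sxOk gs X P = true) (x : ℕ) (hx : x ∈ X) :
    ∃ g ∈ Cfsg.M24, g • Z = Z ∧ g • sx (maskSet x) = sx (maskSet (X.getD 0 0)) := by
  obtain ⟨i, hi, rfl⟩ := List.getElem_of_mem hx
  have := sx_sound Z gs X P hgs hlen hX h i (by omega)
  rw [List.getD_eq_getElem _ _ hi] at this
  exact this

theorem L4_complete (t : Finset Cfsg.GolayPt) (ht : t.card = 4) : ∃ m ∈ L4, maskSet m = t := by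
  have hinj : Set.InjOn maskSet (↑L4.toFinset : Set ℕ) := by
    intro a ha b hb h
    rw [Finset.mem_coe, List.mem_toFinset] at ha hb
    exact maskSet_inj (L4_props a ha).1 (L4_props b hb).1 h
  have himg : L4.toFinset.image maskSet = Finset.powersetCard 4 Finset.univ := by
    apply Finset.eq_of_subset_of_card_le
    · intro t ht
      rw [Finset.mem_image] at ht
      obtain ⟨m, hm, rfl⟩ := ht
      rw [Finset.mem_powersetCard]
      exact ⟨Finset.subset_univ _, by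
        rw [card_maskSet]; exact (L4_props m (List.mem_toFinset.mp hm)).2⟩
    · rw [Finset.card_image_of_injOn hinj, List.toFinset_card_of_nodup L4_nodup, card_p4,
        L4_length]
  have : t ∈ L4.toFinset.image maskSet := by
    rw [himg, Finset.mem_powersetCard]
    exact ⟨Finset.subset_univ _, ht⟩
  obtain ⟨m, hm, rfl⟩ := Finset.mem_image.mp this
  exact ⟨m, List.mem_toFinset.mp hm, rfl⟩

theorem cover_of (XA : List ℕ) (h : ∀ m ∈ L4, m.testBit 0 = true → m ∈ XA)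
    (S : Finset (Finset Cfsg.GolayPt)) (hS : S ∈ Cfsg.sextets) :
    ∃ x ∈ XA, S = sx (maskSet x) := by
  obtain ⟨t, ht, h0⟩ := sextet_cover hS (ptOf 0)
  obtain ⟨m, hm, rfl⟩ := L4_complete t (hS.2.1 t ht)
  rw [mem_maskSet, idx_ptOf 0 (by norm_num)] at h0
  exact ⟨m, h m hm h0, sextet_eq hS ht⟩

theorem sx_inj {a b : ℕ} (ha : a < 2 ^ 24) (hb : b < 2 ^ 24) (ha0 : a.testBit 0 = true)
    (hb0 : b.testBit 0 = true) (h : sx (maskSet a) = sx (maskSet b)) : a = b := by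
  have hm : maskSet b ∈ sx (maskSet a) := by rw [h]; exact sx_self _
  rw [mem_sx_iff] at hm
  rcases hm with hm | ⟨hd, -⟩
  · exact (maskSet_inj hb ha hm).symm
  · exfalso
    have h1 : ptOf 0 ∈ maskSet a := by rw [mem_maskSet, idx_ptOf 0 (by norm_num)]; exact ha0
    have h2 : ptOf 0 ∈ maskSet b := by rw [mem_maskSet, idx_ptOf 0 (by norm_num)]; exact hb0
    exact Finset.disjoint_left.mp hd h1 h2

theorem ncard_blk (X : List ℕ) (hnd : X.Nodup)
    (hX : ∀ m ∈ X, m < 2 ^ 24 ∧ m.testBit 0 = true) :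
    {S : Finset (Finset Cfsg.GolayPt) | ∃ x ∈ X, S = sx (maskSet x)}.ncard = X.length := by
  have e : {S : Finset (Finset Cfsg.GolayPt) | ∃ x ∈ X, S = sx (maskSet x)} =
      (fun x => sx (maskSet x)) '' (↑X.toFinset : Set ℕ) := by
    ext S
    constructor
    · rintro ⟨x, hx, rfl⟩
      exact ⟨x, by simpa using hx, rfl⟩
    · rintro ⟨x, hx, rfl⟩
      exact ⟨x, by simpa using hx, rfl⟩
  have hinj : Set.InjOn (fun x => sx (maskSet x)) (↑X.toFinset : Set ℕ) := by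
    intro a ha b hb h
    rw [Finset.mem_coe, List.mem_toFinset] at ha hb
    exact sx_inj (hX a ha).1 (hX b hb).1 (hX a ha).2 (hX b hb).2 h
  rw [e, hinj.ncard_image, Set.ncard_coe_finset, List.toFinset_card_of_nodup hnd]

/-- An invariant of a sextet relative to a fixed family of sets. -/
def fI (Z S : Finset (Finset Cfsg.GolayPt)) : ℕ := ∑ u ∈ Z, ∑ t ∈ S, ((t ∩ u).card) ^ 2

theorem fI_smul (g : Equiv.Perm Cfsg.GolayPt) (Z S : Finset (Finset Cfsg.GolayPt)) :
    fI (g • Z) (g • S) = fI Z S := by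
  unfold fI
  have hi : Function.Injective (fun t : Finset Cfsg.GolayPt => g • t) := MulAction.injective g
  rw [Finset.smul_finset_def, Finset.sum_image (fun a _ b _ h => hi h)]
  apply Finset.sum_congr rfl
  intro u _
  rw [Finset.smul_finset_def, Finset.sum_image (fun a _ b _ h => hi h)]
  apply Finset.sum_congr rfl
  intro t _
  rw [← Finset.smul_finset_inter, Finset.card_smul_finset]

theorem fI_inv (g : Equiv.Perm Cfsg.GolayPt) (Z S : Finset (Finset Cfsg.GolayPt))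
    (hZ : g • Z = Z) : fI Z (g • S) = fI Z S := by
  have := fI_smul g Z S
  rwa [hZ] at this

theorem nodup_map_maskSet (L : List ℕ) (h : L.Nodup) (hb : ∀ m ∈ L, m < 2 ^ 24) :
    (L.map maskSet).Nodup :=
  List.Nodup.map_on (fun a ha b hb' h => maskSet_inj (hb a ha) (hb b hb') h) h

theorem inner_masks (LS : List ℕ) (hS : LS.Nodup) (hSb : ∀ m ∈ LS, m < 2 ^ 24) (a : ℕ) :
    ∑ t ∈ (LS.map maskSet).toFinset, ((t ∩ maskSet a).card) ^ 2 =
      (LS.map fun b => (pc 24 (b &&& a)) ^ 2).sum := by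
  rw [List.sum_toFinset _ (nodup_map_maskSet LS hS hSb), List.map_map]
  apply congrArg List.sum
  apply List.map_congr_left
  intro b _
  rw [Function.comp_apply, ← maskSet_and, card_maskSet]

theorem fI_masks (LZ LS : List ℕ) (hZ : LZ.Nodup) (hZb : ∀ m ∈ LZ, m < 2 ^ 24) (hS : LS.Nodup)
    (hSb : ∀ m ∈ LS, m < 2 ^ 24) :
    fI (LZ.map maskSet).toFinset (LS.map maskSet).toFinset =
      (LZ.map fun a => (LS.map fun b => (pc 24 (b &&& a)) ^ 2).sum).sum := by
  unfold fI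
  rw [List.sum_toFinset _ (nodup_map_maskSet LZ hZ hZb), List.map_map]
  apply congrArg List.sum
  apply List.map_congr_left
  intro a _
  rw [Function.comp_apply]
  exact inner_masks LS hS hSb a

/-- The six tetrads of a sextet from their masks. -/
theorem sx_eq_masks (r : ℕ) (LS : List ℕ) (hr : r < 2 ^ 24) (hr4 : pc 24 r = 4)
    (hlen : LS.length = 6) (hnd : LS.Nodup) (hb : ∀ m ∈ LS, m < 2 ^ 24 ∧ lnk r m = true) :
    sx (maskSet r) = (LS.map maskSet).toFinset := by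
  symm
  apply Finset.eq_of_subset_of_card_le
  · intro t ht
    rw [List.mem_toFinset, List.mem_map] at ht
    obtain ⟨m, hm, rfl⟩ := ht
    exact lnk_mem hr (hb m hm).1 (hb m hm).2
  · rw [sx_card _ (by rw [card_maskSet]; exact hr4),
      List.toFinset_card_of_nodup (nodup_map_maskSet LS hnd (fun m hm => (hb m hm).1)),
      List.length_map, hlen]

/-- A table permuting the masks of a family fixes the family. -/
theorem smul_family {g : Equiv.Perm Cfsg.GolayPt} {t : List ℕ} (hT : IsTable g t) (LZ : List ℕ)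
    (h : ∀ m ∈ LZ, pmI t m ∈ LZ) :
    g • (LZ.map maskSet).toFinset = (LZ.map maskSet).toFinset := by
  symm
  apply Finset.eq_of_subset_of_card_le
  · intro u hu
    rw [List.mem_toFinset, List.mem_map] at hu
    obtain ⟨m, hm, rfl⟩ := hu
    rw [← smul_maskSet_pmI hT m]
    apply Finset.smul_mem_smul_finset
    rw [List.mem_toFinset, List.mem_map]
    exact ⟨pmI t m, h m hm, rfl⟩
  · rw [Finset.card_smul_finset]

/-! ### Certificate blocks -/

/-- Duplicate-freeness test. -/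
def ndB : List ℕ → Bool
  | [] => true
  | a :: l => !l.contains a && ndB l

theorem ndB_spec : ∀ l : List ℕ, ndB l = true → l.Nodup
  | [], _ => List.nodup_nil
  | a :: l, h => by
    unfold ndB at h
    rw [Bool.and_eq_true, Bool.not_eq_true'] at h
    rw [List.nodup_cons]
    refine ⟨?_, ndB_spec l h.2⟩
    intro hm
    have : l.contains a = true := by simpa using hm
    rw [this] at h
    exact absurd h.1 (by decide)

/-- One orbit certificate: the canonical tetrads, the parent table, the six tetrads of the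
root sextet and the value of the invariant. -/
structure Blk where
  X : List ℕ
  P : List (ℕ × ℕ)
  R : List ℕ
  v : ℕ

def blkOk (gs : List (List ℕ)) (LZ : List ℕ) (b : Blk) : Bool :=
  decide (b.X.length = b.P.length + 1) &&
  b.X.all (fun m => decide (m < 2 ^ 24) && decide (pc 24 m = 4) && m.testBit 0) &&
  ndB b.X &&
  sxOk gs b.X b.P &&
  decide (b.R.length = 6) && ndB b.R &&
  b.R.all (fun m => decide (m < 2 ^ 24) && lnk (b.X.getD 0 0) m) &&
  decide ((LZ.map fun a => (b.R.map fun c => (pc 24 (c &&& a)) ^ 2).sum).sum = b.v)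

theorem blk_facts (Z : Finset (Finset Cfsg.GolayPt)) (gs : List (List ℕ)) (LZ : List ℕ)
    (hLZ : LZ.Nodup) (hLZb : ∀ m ∈ LZ, m < 2 ^ 24) (hZ : Z = (LZ.map maskSet).toFinset)
    (hgs : ∀ t ∈ gs, ∃ g ∈ Cfsg.M24, g • Z = Z ∧ IsTable g t) (b : Blk)
    (h : blkOk gs LZ b = true) :
    b.X.getD 0 0 ∈ b.X ∧ sx (maskSet (b.X.getD 0 0)) ∈ Cfsg.sextets ∧
    (∀ x ∈ b.X, ∃ g ∈ Cfsg.M24, g • Z = Z ∧
      g • sx (maskSet x) = sx (maskSet (b.X.getD 0 0))) ∧
    (∀ x ∈ b.X, fI Z (sx (maskSet x)) = b.v) ∧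
    {S : Finset (Finset Cfsg.GolayPt) | ∃ x ∈ b.X, S = sx (maskSet x)}.ncard = b.X.length := by
  unfold blkOk at h
  simp only [Bool.and_eq_true, decide_eq_true_eq, List.all_eq_true] at h
  obtain ⟨⟨⟨⟨⟨⟨⟨h1, h2⟩, h3⟩, h4⟩, h5⟩, h6⟩, h7⟩, h8⟩ := h
  have hr : b.X.getD 0 0 ∈ b.X := by
    rw [List.getD_eq_getElem _ _ (by omega)]
    exact List.getElem_mem _
  have hXp : ∀ m ∈ b.X, m < 2 ^ 24 ∧ pc 24 m = 4 := fun m hm => ⟨(h2 m hm).1.1, (h2 m hm).1.2⟩
  have hr4 : (maskSet (b.X.getD 0 0)).card = 4 := by rw [card_maskSet]; exact (hXp _ hr).2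
  have rel := sx_rel Z gs b.X b.P hgs h1 hXp h4
  have hval : fI Z (sx (maskSet (b.X.getD 0 0))) = b.v := by
    rw [hZ, sx_eq_masks _ b.R (hXp _ hr).1 (hXp _ hr).2 h5 (ndB_spec _ h6) h7,
      fI_masks LZ b.R hLZ hLZb (ndB_spec _ h6) (fun m hm => (h7 m hm).1)]
    exact h8
  refine ⟨hr, sx_mem _ hr4, rel, ?_, ?_⟩
  · intro x hx
    obtain ⟨g, -, hgZ, hgx⟩ := rel x hx
    rw [← fI_inv g Z _ hgZ, hgx, hval]
  · exact ncard_blk b.X (ndB_spec _ h3) (fun m hm => ⟨(h2 m hm).1.1, (h2 m hm).2⟩)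

theorem cert_main (Z : Finset (Finset Cfsg.GolayPt)) (gs : List (List ℕ)) (LZ : List ℕ)
    (hLZ : LZ.Nodup) (hLZb : ∀ m ∈ LZ, m < 2 ^ 24) (hZ : Z = (LZ.map maskSet).toFinset)
    (hgs : ∀ t ∈ gs, ∃ g ∈ Cfsg.M24, g • Z = Z ∧ IsTable g t) (Bs : List Blk)
    (hBs : ∀ b ∈ Bs, blkOk gs LZ b = true) (hv : (Bs.map (·.v)).Nodup)
    (hcov : ∀ m ∈ L4, m.testBit 0 = true → ∃ b ∈ Bs, m ∈ b.X) :
    (∀ b ∈ Bs, sx (maskSet (b.X.getD 0 0)) ∈ Cfsg.sextets ∧
      (MulAction.orbit ↥(MulAction.stabilizer Cfsg.M24 Z)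
        (sx (maskSet (b.X.getD 0 0)))).ncard = b.X.length) ∧
    (∀ S ∈ Cfsg.sextets, ∃ b ∈ Bs,
      S ∈ MulAction.orbit ↥(MulAction.stabilizer Cfsg.M24 Z) (sx (maskSet (b.X.getD 0 0)))) := by
  have facts := fun b hb => blk_facts Z gs LZ hLZ hLZb hZ hgs b (hBs b hb)
  have hcov' : ∀ S ∈ Cfsg.sextets, ∃ b ∈ Bs, ∃ x ∈ b.X, S = sx (maskSet x) := by
    intro S hS
    obtain ⟨x, hx, hSx⟩ := cover_of (Bs.flatMap (·.X)) (fun m hm h0 => by
      rw [List.mem_flatMap]; exact hcov m hm h0) S hS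
    rw [List.mem_flatMap] at hx
    obtain ⟨b, hb, hxb⟩ := hx
    exact ⟨b, hb, x, hxb, hSx⟩
  have horb : ∀ b ∈ Bs, MulAction.orbit ↥(MulAction.stabilizer Cfsg.M24 Z)
      (sx (maskSet (b.X.getD 0 0))) =
      {S : Finset (Finset Cfsg.GolayPt) | ∃ x ∈ b.X, S = sx (maskSet x)} := by
    intro b hb
    obtain ⟨fr, fS, frel, fval, -⟩ := facts b hb
    ext S
    rw [Cfsg.Agent.Lib.Helper9.Dual.mem_orbit_stab]
    constructor
    · rintro ⟨g, hgZ, rfl⟩
      have hgZ' : (g : Equiv.Perm Cfsg.GolayPt) • Z = Z := hgZ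
      have hS : (g : Equiv.Perm Cfsg.GolayPt) • sx (maskSet (b.X.getD 0 0)) ∈ Cfsg.sextets :=
        smul_sextet g.2 fS
      obtain ⟨b', hb', x', hx', hSx'⟩ := hcov' _ hS
      have e1 : fI Z ((g : Equiv.Perm Cfsg.GolayPt) • sx (maskSet (b.X.getD 0 0))) = b.v := by
        rw [fI_inv _ Z _ hgZ']
        exact fval _ fr
      have e2 : fI Z ((g : Equiv.Perm Cfsg.GolayPt) • sx (maskSet (b.X.getD 0 0))) = b'.v := by
        rw [hSx']
        exact (facts b' hb').2.2.2.1 x' hx'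
      have hbb : b = b' := List.inj_on_of_nodup_map hv hb hb' (by rw [← e1, ← e2])
      subst hbb
      exact ⟨x', hx', hSx'⟩
    · rintro ⟨x, hx, rfl⟩
      obtain ⟨g, hg, hgZ, hgx⟩ := frel x hx
      refine ⟨⟨g⁻¹, inv_mem hg⟩, ?_, ?_⟩
      · show g⁻¹ • Z = Z
        rw [inv_smul_eq_iff, hgZ]
      · show g⁻¹ • sx (maskSet (b.X.getD 0 0)) = sx (maskSet x)
        rw [inv_smul_eq_iff, hgx]
  refine ⟨fun b hb => ⟨(facts b hb).2.1, ?_⟩, ?_⟩
  · rw [horb b hb]
    exact (facts b hb).2.2.2.2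
  · intro S hS
    obtain ⟨b, hb, x, hx, hSx⟩ := hcov' S hS
    refine ⟨b, hb, ?_⟩
    rw [horb b hb]
    exact ⟨x, hx, hSx⟩

end Cfsg.Agent.Lib.Helper9.SxOrb
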