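import Mathlib
import Cfsg.Prelude.Def_SporadicCombinatorics
import Cfsg.Agent.Lib.Helper9.SxOrb

set_option autoImplicit false

/-! Orbit certificates on sextets with packed data (fields of a natural number). -/

namespace Cfsg.Agent.Lib.Helper9.SxPk

open Cfsg.Agent.Lib.Helper9.Golay Cfsg.Agent.Lib.Helper9.GolayC Cfsg.Agent.Lib.Helper9.M24C
open Cfsg.Agent.Lib.Helper9.Octad Cfsg.Agent.Lib.Helper9.M24B Cfsg.Agent.Lib.Helper9.M24T
open Cfsg.Agent.Lib.Helper9.M24O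
open Cfsg.Agent.Lib.Helper9.Sextet Cfsg.Agent.Lib.Helper9.SextetY
open Cfsg.Agent.Lib.Helper9.InvCnt Cfsg.Agent.Lib.Helper9.M24CO Cfsg.Agent.Lib.Helper9.SxOrb
open scoped Pointwise

/-- Field `i` of width `w` of a packed natural number. -/
def fld (w V i : ℕ) : ℕ := (V >>> (w * i)) % 2 ^ w

theorem fld_lt (w V i : ℕ) : fld w V i < 2 ^ w := Nat.mod_lt _ (by positivity)

/-- One orbit certificate with packed data. -/
structure PBlk where
  N : ℕ
  XV : ℕ
  PV : ℕ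
  SV : ℕ
  R : List ℕ
  v : ℕ

/-- The `i`-th canonical tetrad mask. -/
def PBlk.X (b : PBlk) (i : ℕ) : ℕ := fld 24 b.XV i

def pOk (gs : List (List ℕ)) (LZ : List ℕ) (b : PBlk) : Bool :=
  decide (0 < b.N) &&
  (List.range b.N).all (fun i => decide (pc 24 (b.X i) = 4) && (b.X i).testBit 0) &&
  (List.range (b.N - 1)).all (fun n =>
    decide (fld 16 b.PV n >>> 2 ≤ n) &&
      nthT gs (fld 16 b.PV n % 4)
        (fun t => lnk (b.X (n + 1)) (pmI t (b.X (fld 16 b.PV n >>> 2))))) &&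
  (List.range b.N).all (fun j => decide (fld 16 b.SV j < b.N)) &&
  (List.range (b.N - 1)).all
    (fun j => decide (b.X (fld 16 b.SV j) < b.X (fld 16 b.SV (j + 1)))) &&
  decide (b.R.length = 6) && ndB b.R &&
  b.R.all (fun m => decide (m < 2 ^ 24) && lnk (b.X 0) m) &&
  decide ((LZ.map fun a => (b.R.map fun c => (pc 24 (c &&& a)) ^ 2).sum).sum = b.v)

theorem reach (Z : Finset (Finset Cfsg.GolayPt)) (gs : List (List ℕ)) (X : ℕ → ℕ)
    (par gi : ℕ → ℕ) (N : ℕ)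
    (hgs : ∀ t ∈ gs, ∃ g ∈ Cfsg.M24, g • Z = Z ∧ IsTable g t)
    (hX : ∀ i < N, X i < 2 ^ 24 ∧ pc 24 (X i) = 4)
    (h : ∀ n, n + 1 < N → par n ≤ n ∧
      nthT gs (gi n) (fun t => lnk (X (n + 1)) (pmI t (X (par n)))) = true) :
    ∀ n < N, ∃ g ∈ Cfsg.M24, g • Z = Z ∧ g • sx (maskSet (X n)) = sx (maskSet (X 0)) := by
  intro n
  induction n using Nat.strong_induction_on with
  | _ n ih =>
    intro hn
    cases n with
    | zero => exact ⟨1, Cfsg.M24.one_mem, one_smul _ _, one_smul _ _⟩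
    | succ n =>
      obtain ⟨hle, hnth⟩ := h n hn
      obtain ⟨t, ht, hk⟩ := nthT_spec gs _ _ hnth
      obtain ⟨g', hg', hg'Z, hg'X⟩ := ih _ (by omega : par n < n + 1) (by omega)
      obtain ⟨g, hg, hgZ, hT⟩ := hgs t ht
      have hx := hX _ hn
      have e1 := lnk_spec hx.1 (pmI_lt _ _) hx.2 hk
      have hm := lnk_mem hx.1 (pmI_lt _ _) hk
      have h4 : (maskSet (pmI t (X (par n)))).card = 4 :=
        (sx_mem _ (by rw [card_maskSet]; exact hx.2)).2.1 _ hm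
      refine ⟨g' * g, mul_mem hg' hg, by rw [mul_smul, hgZ, hg'Z], ?_⟩
      rw [e1, mul_smul, smul_sx hg _ h4, smul_maskSet_pmI hT, hg'X]

theorem inj_of_sorted (X π : ℕ → ℕ) (N : ℕ) (hπ : ∀ j < N, π j < N)
    (hm : ∀ j, j + 1 < N → X (π j) < X (π (j + 1))) :
    Set.InjOn X (↑(Finset.range N) : Set ℕ) := by
  have hmono : ∀ k, k < N → ∀ j, j < k → X (π j) < X (π k) := by
    intro k
    induction k with
    | zero => intro _ j hj; omega
    | succ k ih =>
      intro hk j hj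
      rcases Nat.lt_succ_iff_lt_or_eq.mp hj with h | h
      · exact lt_trans (ih (by omega) j h) (hm k hk)
      · rw [h]; exact hm k hk
  have hinj : Set.InjOn (fun j => X (π j)) (↑(Finset.range N) : Set ℕ) := by
    intro j hj k hk hjk
    rw [Finset.mem_coe, Finset.mem_range] at hj hk
    by_contra hne
    rcases Nat.lt_or_gt_of_ne hne with h | h
    · exact absurd hjk (ne_of_lt (hmono k hk j h))
    · exact absurd hjk.symm (ne_of_lt (hmono j hj k h))
  have hsub : (Finset.range N).image (fun j => X (π j)) ⊆ (Finset.range N).image X := by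
    intro y hy
    rw [Finset.mem_image] at hy ⊢
    obtain ⟨j, hj, rfl⟩ := hy
    exact ⟨π j, Finset.mem_range.mpr (hπ j (Finset.mem_range.mp hj)), rfl⟩
  have hc := Finset.card_le_card hsub
  rw [Finset.card_image_of_injOn hinj] at hc
  exact Finset.card_image_iff.mp (le_antisymm Finset.card_image_le hc)

theorem pblk_facts (Z : Finset (Finset Cfsg.GolayPt)) (gs : List (List ℕ)) (LZ : List ℕ)
    (hLZ : LZ.Nodup) (hLZb : ∀ m ∈ LZ, m < 2 ^ 24) (hZ : Z = (LZ.map maskSet).toFinset)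
    (hgs : ∀ t ∈ gs, ∃ g ∈ Cfsg.M24, g • Z = Z ∧ IsTable g t) (b : PBlk)
    (h : pOk gs LZ b = true) :
    0 < b.N ∧ (∀ i < b.N, sx (maskSet (b.X i)) ∈ Cfsg.sextets) ∧
    (∀ i < b.N, ∃ g ∈ Cfsg.M24, g • Z = Z ∧
      g • sx (maskSet (b.X i)) = sx (maskSet (b.X 0))) ∧
    (∀ i < b.N, fI Z (sx (maskSet (b.X i))) = b.v) ∧
    {S : Finset (Finset Cfsg.GolayPt) | ∃ i < b.N, S = sx (maskSet (b.X i))}.ncard = b.N := by
  unfold pOk at h
  simp only [Bool.and_eq_true, decide_eq_true_eq, List.all_eq_true, List.mem_range] at h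
  obtain ⟨⟨⟨⟨⟨⟨⟨⟨h0, h1⟩, h2⟩, h3⟩, h4⟩, h5⟩, h6⟩, h7⟩, h8⟩ := h
  have hXp : ∀ i < b.N, b.X i < 2 ^ 24 ∧ pc 24 (b.X i) = 4 :=
    fun i hi => ⟨fld_lt 24 _ _, (h1 i hi).1⟩
  have hcard : ∀ i < b.N, (maskSet (b.X i)).card = 4 := fun i hi => by
    rw [card_maskSet]; exact (hXp i hi).2
  have rel := reach Z gs b.X (fun n => fld 16 b.PV n >>> 2) (fun n => fld 16 b.PV n % 4) b.N hgs
    hXp (fun n hn => h2 n (by omega))
  have hval : fI Z (sx (maskSet (b.X 0))) = b.v := by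
    rw [hZ, sx_eq_masks _ b.R (hXp 0 h0).1 (hXp 0 h0).2 h5 (ndB_spec _ h6) h7,
      fI_masks LZ b.R hLZ hLZb (ndB_spec _ h6) (fun m hm => (h7 m hm).1)]
    exact h8
  refine ⟨h0, fun i hi => sx_mem _ (hcard i hi), rel, ?_, ?_⟩
  · intro i hi
    obtain ⟨g, -, hgZ, hgx⟩ := rel i hi
    rw [← fI_inv g Z _ hgZ, hgx, hval]
  · have hinjX := inj_of_sorted b.X (fun j => fld 16 b.SV j) b.N h3 (fun j hj => h4 j (by omega))
    have e : {S : Finset (Finset Cfsg.GolayPt) | ∃ i < b.N, S = sx (maskSet (b.X i))} =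
        (fun i => sx (maskSet (b.X i))) '' (↑(Finset.range b.N) : Set ℕ) := by
      ext S
      constructor
      · rintro ⟨i, hi, rfl⟩
        exact ⟨i, by simpa using hi, rfl⟩
      · rintro ⟨i, hi, rfl⟩
        exact ⟨i, by simpa using hi, rfl⟩
    have hinj : Set.InjOn (fun i => sx (maskSet (b.X i))) (↑(Finset.range b.N) : Set ℕ) := by
      intro i hi j hj hij
      have hi' := Finset.mem_range.mp (Finset.mem_coe.mp hi)
      have hj' := Finset.mem_range.mp (Finset.mem_coe.mp hj)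
      exact hinjX hi hj (sx_inj (hXp i hi').1 (hXp j hj').1 (h1 i hi').2 (h1 j hj').2 hij)
    rw [e, hinj.ncard_image, Set.ncard_coe_finset, Finset.card_range]

/-- The sextets listed by a block. -/
def blkSet (b : PBlk) : Set (Finset (Finset Cfsg.GolayPt)) :=
  {S | ∃ i < b.N, S = sx (maskSet (b.X i))}

theorem cert_main4 (Z : Finset (Finset Cfsg.GolayPt)) (gs : List (List ℕ)) (LZ : List ℕ)
    (hLZ : LZ.Nodup) (hLZb : ∀ m ∈ LZ, m < 2 ^ 24) (hZ : Z = (LZ.map maskSet).toFinset)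
    (hgs : ∀ t ∈ gs, ∃ g ∈ Cfsg.M24, g • Z = Z ∧ IsTable g t) (b1 b2 b3 b4 : PBlk)
    (h1 : pOk gs LZ b1 = true) (h2 : pOk gs LZ b2 = true) (h3 : pOk gs LZ b3 = true)
    (h4 : pOk gs LZ b4 = true)
    (hv : b1.v ≠ b2.v ∧ b1.v ≠ b3.v ∧ b1.v ≠ b4.v ∧ b2.v ≠ b3.v ∧ b2.v ≠ b4.v ∧ b3.v ≠ b4.v)
    (hsum : b1.N + b2.N + b3.N + b4.N = 1771) :
    (∀ b ∈ [b1, b2, b3, b4], sx (maskSet (b.X 0)) ∈ Cfsg.sextets ∧
      (MulAction.orbit ↥(MulAction.stabilizer Cfsg.M24 Z) (sx (maskSet (b.X 0)))).ncard = b.N) ∧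
    (∀ S ∈ Cfsg.sextets, ∃ b ∈ [b1, b2, b3, b4],
      S ∈ MulAction.orbit ↥(MulAction.stabilizer Cfsg.M24 Z) (sx (maskSet (b.X 0)))) := by
  obtain ⟨v12, v13, v14, v23, v24, v34⟩ := hv
  have f1 := pblk_facts Z gs LZ hLZ hLZb hZ hgs b1 h1
  have f2 := pblk_facts Z gs LZ hLZ hLZb hZ hgs b2 h2
  have f3 := pblk_facts Z gs LZ hLZ hLZb hZ hgs b3 h3
  have f4 := pblk_facts Z gs LZ hLZ hLZb hZ hgs b4 h4
  have n1 : (blkSet b1).ncard = b1.N := f1.2.2.2.2
  have n2 : (blkSet b2).ncard = b2.N := f2.2.2.2.2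
  have n3 : (blkSet b3).ncard = b3.N := f3.2.2.2.2
  have n4 : (blkSet b4).ncard = b4.N := f4.2.2.2.2
  have val : ∀ (b : PBlk), pOk gs LZ b = true → ∀ S ∈ blkSet b, fI Z S = b.v := by
    intro b hb S hS
    obtain ⟨i, hi, rfl⟩ := hS
    exact (pblk_facts Z gs LZ hLZ hLZb hZ hgs b hb).2.2.2.1 i hi
  have sub : ∀ (b : PBlk), pOk gs LZ b = true → blkSet b ⊆ Cfsg.sextets := by
    intro b hb S hS
    obtain ⟨i, hi, rfl⟩ := hS
    exact (pblk_facts Z gs LZ hLZ hLZb hZ hgs b hb).2.1 i hi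
  have dj : ∀ (b b' : PBlk), pOk gs LZ b = true → pOk gs LZ b' = true → b.v ≠ b'.v →
      Disjoint (blkSet b) (blkSet b') := by
    intro b b' hb hb' hne
    rw [Set.disjoint_left]
    intro S hS hS'
    exact hne ((val b hb S hS).symm.trans (val b' hb' S hS'))
  have d12 := dj b1 b2 h1 h2 v12
  have d13 := dj b1 b3 h1 h3 v13
  have d14 := dj b1 b4 h1 h4 v14
  have d23 := dj b2 b3 h2 h3 v23
  have d24 := dj b2 b4 h2 h4 v24
  have d34 := dj b3 b4 h3 h4 v34
  have hcardU : (blkSet b1 ∪ blkSet b2 ∪ blkSet b3 ∪ blkSet b4).ncard =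
      b1.N + b2.N + b3.N + b4.N := by
    rw [Set.ncard_union_eq (Set.disjoint_union_left.mpr ⟨Set.disjoint_union_left.mpr ⟨d14, d24⟩, d34⟩)
        (Set.toFinite _) (Set.toFinite _),
      Set.ncard_union_eq (Set.disjoint_union_left.mpr ⟨d13, d23⟩) (Set.toFinite _) (Set.toFinite _),
      Set.ncard_union_eq d12 (Set.toFinite _) (Set.toFinite _), n1, n2, n3, n4]
  have hU : blkSet b1 ∪ blkSet b2 ∪ blkSet b3 ∪ blkSet b4 = Cfsg.sextets := by
    apply Set.eq_of_subset_of_ncard_le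
    · intro S hS
      rcases hS with ((hS | hS) | hS) | hS
      · exact sub b1 h1 hS
      · exact sub b2 h2 hS
      · exact sub b3 h3 hS
      · exact sub b4 h4 hS
    · rw [hcardU, hsum, ncard_sextets]
    · exact Set.toFinite _
  have hcov : ∀ S ∈ Cfsg.sextets,
      S ∈ blkSet b1 ∨ S ∈ blkSet b2 ∨ S ∈ blkSet b3 ∨ S ∈ blkSet b4 := by
    intro S hS
    rw [← hU] at hS
    rcases hS with ((h | h) | h) | h
    · exact Or.inl h
    · exact Or.inr (Or.inl h)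
    · exact Or.inr (Or.inr (Or.inl h))
    · exact Or.inr (Or.inr (Or.inr h))
  have horb : ∀ (b : PBlk), pOk gs LZ b = true →
      (∀ S ∈ Cfsg.sextets, S ∈ blkSet b ∨ fI Z S ≠ b.v) →
      MulAction.orbit ↥(MulAction.stabilizer Cfsg.M24 Z) (sx (maskSet (b.X 0))) = blkSet b := by
    intro b hb hex
    obtain ⟨f0, fS, frel, fval, -⟩ := pblk_facts Z gs LZ hLZ hLZb hZ hgs b hb
    ext S
    rw [Cfsg.Agent.Lib.Helper9.Dual.mem_orbit_stab]
    constructor
    · rintro ⟨g, hgZ, rfl⟩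
      have hgZ' : (g : Equiv.Perm Cfsg.GolayPt) • Z = Z := hgZ
      have hS : (g : Equiv.Perm Cfsg.GolayPt) • sx (maskSet (b.X 0)) ∈ Cfsg.sextets :=
        smul_sextet g.2 (fS 0 f0)
      rcases hex _ hS with h | h
      · exact h
      · exfalso
        apply h
        rw [fI_inv _ Z _ hgZ']
        exact fval 0 f0
    · rintro ⟨i, hi, rfl⟩
      obtain ⟨g, hg, hgZ, hgx⟩ := frel i hi
      refine ⟨⟨g⁻¹, inv_mem hg⟩, ?_, ?_⟩
      · show g⁻¹ • Z = Z
        rw [inv_smul_eq_iff, hgZ]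
      · show g⁻¹ • sx (maskSet (b.X 0)) = sx (maskSet (b.X i))
        rw [inv_smul_eq_iff, hgx]
  have o1 := horb b1 h1 (by
    intro S hS
    rcases hcov S hS with h | h | h | h
    · exact Or.inl h
    · exact Or.inr (by rw [val b2 h2 S h]; exact Ne.symm v12)
    · exact Or.inr (by rw [val b3 h3 S h]; exact Ne.symm v13)
    · exact Or.inr (by rw [val b4 h4 S h]; exact Ne.symm v14))
  have o2 := horb b2 h2 (by
    intro S hS
    rcases hcov S hS with h | h | h | h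
    · exact Or.inr (by rw [val b1 h1 S h]; exact v12)
    · exact Or.inl h
    · exact Or.inr (by rw [val b3 h3 S h]; exact Ne.symm v23)
    · exact Or.inr (by rw [val b4 h4 S h]; exact Ne.symm v24))
  have o3 := horb b3 h3 (by
    intro S hS
    rcases hcov S hS with h | h | h | h
    · exact Or.inr (by rw [val b1 h1 S h]; exact v13)
    · exact Or.inr (by rw [val b2 h2 S h]; exact v23)
    · exact Or.inl h
    · exact Or.inr (by rw [val b4 h4 S h]; exact Ne.symm v34))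
  have o4 := horb b4 h4 (by
    intro S hS
    rcases hcov S hS with h | h | h | h
    · exact Or.inr (by rw [val b1 h1 S h]; exact v14)
    · exact Or.inr (by rw [val b2 h2 S h]; exact v24)
    · exact Or.inr (by rw [val b3 h3 S h]; exact v34)
    · exact Or.inl h)
  refine ⟨?_, ?_⟩
  · intro b hb
    simp only [List.mem_cons, List.not_mem_nil, or_false] at hb
    rcases hb with rfl | rfl | rfl | rfl
    · exact ⟨f1.2.1 0 f1.1, by rw [o1]; exact n1⟩
    · exact ⟨f2.2.1 0 f2.1, by rw [o2]; exact n2⟩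
    · exact ⟨f3.2.1 0 f3.1, by rw [o3]; exact n3⟩
    · exact ⟨f4.2.1 0 f4.1, by rw [o4]; exact n4⟩
  · intro S hS
    rcases hcov S hS with h | h | h | h
    · exact ⟨b1, List.mem_cons_self, by rw [o1]; exact h⟩
    · exact ⟨b2, List.mem_cons_of_mem _ List.mem_cons_self, by rw [o2]; exact h⟩
    · exact ⟨b3, List.mem_cons_of_mem _ (List.mem_cons_of_mem _ List.mem_cons_self), by
        rw [o3]; exact h⟩
    · exact ⟨b4, List.mem_cons_of_mem _ (List.mem_cons_of_mem _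
        (List.mem_cons_of_mem _ List.mem_cons_self)), by rw [o4]; exact h⟩

end Cfsg.Agent.Lib.Helper9.SxPk
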