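import Mathlib

set_option autoImplicit false

namespace Cfsg.Agent.Lib.Helper9.SylowConj

open scoped Pointwise

/-- Every `p`-element is conjugate into a given Sylow `p`-subgroup. -/
theorem exists_conj_mem_sylow {K : Type*} [Group K] [Finite K] (p : ℕ) [Fact p.Prime]
    (P : Sylow p K) (w : K) (k : ℕ) (hw : orderOf w = p ^ k) : ∃ c : K, c⁻¹ * w * c ∈ P := by
  have hp : IsPGroup p (Subgroup.zpowers w) :=
    IsPGroup.of_card (n := k) (by rw [Nat.card_zpowers, hw])
  obtain ⟨Q, hQ⟩ := hp.exists_le_sylow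
  obtain ⟨c, hc⟩ := MulAction.exists_smul_eq K P Q
  refine ⟨c, ?_⟩
  have hwQ : w ∈ Q := hQ (Subgroup.mem_zpowers w)
  rw [← hc] at hwQ
  change w ∈ MulAut.conj c • (P : Subgroup K) at hwQ
  rw [Subgroup.mem_pointwise_smul_iff_inv_smul_mem] at hwQ
  have e : (MulAut.conj c)⁻¹ • w = c⁻¹ * w * c := by
    simp [MulAut.smul_def, MulAut.conj_inv_apply]
  rw [e] at hwQ
  exact hwQ

/-- fixed cosets -/
theorem smul_coset_eq_iff {G : Type*} [Group G] (H : Subgroup G) (x g : G) :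
    x • (g : G ⧸ H) = (g : G ⧸ H) ↔ g⁻¹ * x * g ∈ H := by
  rw [MulAction.Quotient.smul_coe, eq_comm, QuotientGroup.eq, smul_eq_mul, mul_assoc]

/-- a `p`-subgroup fixes a coset when the index is prime to `p` -/
theorem exists_fixed_coset {G : Type*} [Group G] [Finite G] (p : ℕ) [Fact p.Prime]
    (H R : Subgroup G) (hR : IsPGroup p R) (hH : ¬ p ∣ H.index) :
    ∃ a : G, ∀ u ∈ R, a⁻¹ * u * a ∈ H := by
  have hnd : ¬ p ∣ Nat.card (G ⧸ H) := by
    rw [← Subgroup.index_eq_card]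
    exact hH
  obtain ⟨ω, hω⟩ := hR.nonempty_fixed_point_of_prime_not_dvd_card (G ⧸ H) hnd
  induction ω using QuotientGroup.induction_on with
  | H a =>
    refine ⟨a, fun u hu => ?_⟩
    have := (MulAction.mem_fixedPoints.mp hω) ⟨u, hu⟩
    have this' : u • (a : G ⧸ H) = (a : G ⧸ H) := this
    exact (smul_coset_eq_iff H u a).mp this'

end Cfsg.Agent.Lib.Helper9.SylowConj
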