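import Mathlib
import Cfsg.Prelude.Def_SporadicCombinatorics
import Cfsg.Agent.Lib.Helper9.TrT
import Cfsg.Agent.Lib.Helper9.SxFin
import Cfsg.Agent.Lib.Helper9.Coatom5

set_option autoImplicit false

/-! Orbits of a trio stabiliser on trios, and its maximality. -/

namespace Cfsg.Agent.Lib.Helper9.TrFin

open Cfsg.Agent.Lib.Helper9.TrPk Cfsg.Agent.Lib.Helper9.SxFin Cfsg.Agent.Lib.Helper9.Dual
open scoped Pointwise

theorem fin5 (Z : Finset (Finset Cfsg.GolayPt)) (b1 b2 b3 b4 b5 : TBlk)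
    (n1 n2 n3 n4 n5 : ℕ)
    (hl : b1.N = n1 ∧ b2.N = n2 ∧ b3.N = n3 ∧ b4.N = n4 ∧ b5.N = n5)
    (h : (∀ b ∈ [b1, b2, b3, b4, b5], b.T 0 ∈ Cfsg.trios ∧
      (MulAction.orbit ↥(MulAction.stabilizer Cfsg.M24 Z) (b.T 0)).ncard = b.N) ∧
    (∀ S ∈ Cfsg.trios, ∃ b ∈ [b1, b2, b3, b4, b5],
      S ∈ MulAction.orbit ↥(MulAction.stabilizer Cfsg.M24 Z) (b.T 0))) :
    ∃ Y : Fin 5 → Finset (Finset Cfsg.GolayPt), (∀ i, Y i ∈ Cfsg.trios) ∧
      (∀ i, (MulAction.orbit ↥(MulAction.stabilizer Cfsg.M24 Z) (Y i)).ncard =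
        ![n1, n2, n3, n4, n5] i) ∧
      ∀ S ∈ Cfsg.trios, ∃ i, S ∈ MulAction.orbit ↥(MulAction.stabilizer Cfsg.M24 Z) (Y i) := by
  obtain ⟨h1, h2⟩ := h
  obtain ⟨l1, l2, l3, l4, l5⟩ := hl
  have a1 := h1 b1 List.mem_cons_self
  have a2 := h1 b2 (List.mem_cons_of_mem _ List.mem_cons_self)
  have a3 := h1 b3 (List.mem_cons_of_mem _ (List.mem_cons_of_mem _ List.mem_cons_self))
  have a4 := h1 b4 (List.mem_cons_of_mem _ (List.mem_cons_of_mem _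
    (List.mem_cons_of_mem _ List.mem_cons_self)))
  have a5 := h1 b5 (List.mem_cons_of_mem _ (List.mem_cons_of_mem _
    (List.mem_cons_of_mem _ (List.mem_cons_of_mem _ List.mem_cons_self))))
  refine ⟨![b1.T 0, b2.T 0, b3.T 0, b4.T 0, b5.T 0], ?_, ?_, ?_⟩
  · intro i
    fin_cases i
    · exact a1.1
    · exact a2.1
    · exact a3.1
    · exact a4.1
    · exact a5.1
  · intro i
    fin_cases i
    · exact a1.2.trans l1
    · exact a2.2.trans l2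
    · exact a3.2.trans l3
    · exact a4.2.trans l4
    · exact a5.2.trans l5
  · intro S hS
    obtain ⟨b, hb, hSb⟩ := h2 S hS
    simp only [List.mem_cons, List.not_mem_nil, or_false] at hb
    rcases hb with rfl | rfl | rfl | rfl | rfl
    · exact ⟨0, hSb⟩
    · exact ⟨1, hSb⟩
    · exact ⟨2, hSb⟩
    · exact ⟨3, hSb⟩
    · exact ⟨4, hSb⟩

theorem TT_fin : ∃ Y : Fin 5 → Finset (Finset Cfsg.GolayPt), (∀ i, Y i ∈ Cfsg.trios) ∧
    (∀ i, (MulAction.orbit ↥(MulAction.stabilizer Cfsg.M24 Cfsg.Agent.Lib.Helper9.SxT.Z0)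
      (Y i)).ncard = ![1, 42, 56, 1008, 2688] i) ∧
    ∀ S ∈ Cfsg.trios, ∃ i,
      S ∈ MulAction.orbit ↥(MulAction.stabilizer Cfsg.M24 Cfsg.Agent.Lib.Helper9.SxT.Z0) (Y i) :=
  fin5 _ _ _ _ _ _ 1 42 56 1008 2688 ⟨rfl, rfl, rfl, rfl, rfl⟩ Cfsg.Agent.Lib.Helper9.TrT.main

theorem tr_on_trios (T : Finset (Finset Cfsg.GolayPt)) (hT : T ∈ Cfsg.trios) :
    ∃ X : Fin 5 → Finset (Finset Cfsg.GolayPt), (∀ i, X i ∈ Cfsg.trios) ∧
      (∀ i, (MulAction.orbit ↥(MulAction.stabilizer Cfsg.M24 T) (X i)).ncard =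
        ![1, 42, 56, 1008, 2688] i) ∧
      ∀ x ∈ Cfsg.trios, ∃ i, x ∈ MulAction.orbit ↥(MulAction.stabilizer Cfsg.M24 T) (X i) := by
  have h := dual_transfer (G := ↥Cfsg.M24) (a0 := Cfsg.Agent.Lib.Helper9.SxT.Z0) (b := T)
    ![1, 42, 56, 1008, 2688] ![1, 42, 56, 1008, 2688] 3795 3795
    (by rw [orbit_trios _ ZT_mem]; exact Cfsg.Agent.Lib.Helper9.Trio.ncard_trios)
    (by rw [orbit_trios T hT]; exact Cfsg.Agent.Lib.Helper9.Trio.ncard_trios) (by norm_num)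
    (by intro i; rfl)
    (by rw [orbit_trios T hT]; exact TT_fin)
  rw [orbit_trios _ ZT_mem] at h
  exact h

theorem s1559 (T : Finset (Finset Cfsg.GolayPt)) (hT : T ∈ Cfsg.trios) : ∃ X₁ ∈ Cfsg.trios, ∃ X₂ ∈ Cfsg.trios, ∃ X₃ ∈ Cfsg.trios, ∃ X₄ ∈ Cfsg.trios, (MulAction.orbit ↥(MulAction.stabilizer Cfsg.M24 T) X₁).ncard = 42 ∧ (MulAction.orbit ↥(MulAction.stabilizer Cfsg.M24 T) X₂).ncard = 56 ∧ (MulAction.orbit ↥(MulAction.stabilizer Cfsg.M24 T) X₃).ncard = 1008 ∧ (MulAction.orbit ↥(MulAction.stabilizer Cfsg.M24 T) X₄).ncard = 2688 ∧ Cfsg.trios = {T} ∪ MulAction.orbit ↥(MulAction.stabilizer Cfsg.M24 T) X₁ ∪ MulAction.orbit ↥(MulAction.stabilizer Cfsg.M24 T) X₂ ∪ MulAction.orbit ↥(MulAction.stabilizer Cfsg.M24 T) X₃ ∪ MulAction.orbit ↥(MulAction.stabilizer Cfsg.M24 T) X₄ ∧ IsCoatom (MulAction.stabilizer Cfsg.M24 T) := by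
  obtain ⟨X, hX, hn, hc⟩ := tr_on_trios T hT
  have hco := Cfsg.Agent.Lib.Helper9.Coatom5.coatom_of_five (G := ↥Cfsg.M24) T 3795
    ![1, 42, 56, 1008, 2688]
    (by rw [orbit_trios T hT]; exact Cfsg.Agent.Lib.Helper9.Trio.ncard_trios) (by norm_num)
    X hn
    (by
      intro y hy
      rw [orbit_trios T hT] at hy
      exact hc y hy)
    (by
      intro i
      rw [orbit_trios T hT]
      exact sub_tr T _ (hX i))
    (by decide) rfl (fun i => [42, 56, 1008, 2688].getD i 0) (by decide) (by decide)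
  obtain ⟨hO0, hcoatom⟩ := hco
  refine ⟨X 1, hX 1, X 2, hX 2, X 3, hX 3, X 4, hX 4, hn 1, hn 2, hn 3, hn 4, ?_, hcoatom⟩
  apply Set.Subset.antisymm
  · intro y hy
    obtain ⟨i, hi⟩ := hc y hy
    fin_cases i
    · have hi' : y ∈ MulAction.orbit ↥(MulAction.stabilizer Cfsg.M24 T) (X 0) := hi
      rw [hO0] at hi'
      exact Or.inl (Or.inl (Or.inl (Or.inl hi')))
    · exact Or.inl (Or.inl (Or.inl (Or.inr hi)))
    · exact Or.inl (Or.inl (Or.inr hi))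
    · exact Or.inl (Or.inr hi)
    · exact Or.inr hi
  · rintro y ((((hy | hy) | hy) | hy) | hy)
    · rw [Set.mem_singleton_iff] at hy
      rw [hy]
      exact hT
    · exact sub_tr T _ (hX 1) hy
    · exact sub_tr T _ (hX 2) hy
    · exact sub_tr T _ (hX 3) hy
    · exact sub_tr T _ (hX 4) hy

end Cfsg.Agent.Lib.Helper9.TrFin
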