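import Mathlib
import Cfsg.Prelude.Def_SporadicCombinatorics
import Cfsg.Agent.Lib.Helper9.SxPk
import Cfsg.Agent.Lib.Helper9.Trio2

set_option autoImplicit false

/-! Orbit certificates on trios with packed data. -/

namespace Cfsg.Agent.Lib.Helper9.TrPk

open Cfsg.Agent.Lib.Helper9.Golay Cfsg.Agent.Lib.Helper9.GolayC Cfsg.Agent.Lib.Helper9.M24C
open Cfsg.Agent.Lib.Helper9.Octad Cfsg.Agent.Lib.Helper9.M24B Cfsg.Agent.Lib.Helper9.M24T
open Cfsg.Agent.Lib.Helper9.M24O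
open Cfsg.Agent.Lib.Helper9.Sextet Cfsg.Agent.Lib.Helper9.SextetY
open Cfsg.Agent.Lib.Helper9.InvCnt Cfsg.Agent.Lib.Helper9.M24CO Cfsg.Agent.Lib.Helper9.SxOrb
open Cfsg.Agent.Lib.Helper9.SxPk
open scoped Pointwise

/-- The third mask of a trio. -/
def cm (a b : ℕ) : ℕ := 16777215 ^^^ (a ||| b)

/-- The trio through two masks. -/
def trm (a b : ℕ) : Finset (Finset Cfsg.GolayPt) :=
  Cfsg.Agent.Lib.Helper9.Trio.tr (maskSet a) (maskSet b)

/-- A mask is one of the three masks of a trio. -/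
def lnk3 (x a b : ℕ) : Bool := x == a || x == b || x == cm a b

theorem cm_lt {a b : ℕ} (ha : a < 2 ^ 24) (hb : b < 2 ^ 24) : cm a b < 2 ^ 24 :=
  Nat.xor_lt_two_pow (by norm_num) (Nat.or_lt_two_pow ha hb)

theorem maskSet_cm (a b : ℕ) : maskSet (cm a b) = (maskSet a ∪ maskSet b)ᶜ := by
  unfold cm
  rw [maskSet_compl, maskSet_or]

theorem trm_masks (a b : ℕ) : trm a b = ([a, b, cm a b].map maskSet).toFinset := by
  unfold trm Cfsg.Agent.Lib.Helper9.Trio.tr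
  ext u
  simp [maskSet_cm]

theorem mem_trm_of_lnk3 {x a b : ℕ} (h : lnk3 x a b = true) : maskSet x ∈ trm a b := by
  rw [trm_masks]
  unfold lnk3 at h
  rw [Bool.or_eq_true, Bool.or_eq_true, beq_iff_eq, beq_iff_eq, beq_iff_eq] at h
  rw [List.mem_toFinset, List.mem_map]
  rcases h with (h | h) | h
  · exact ⟨a, by simp, by rw [h]⟩
  · exact ⟨b, by simp, by rw [h]⟩
  · exact ⟨cm a b, by simp, by rw [h]⟩

theorem trm_mem {a b : ℕ} (ha : a < 2 ^ 24) (hA : inB a = true) (hB : inB b = true)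
    (hd : a &&& b = 0) : trm a b ∈ Cfsg.trios :=
  Cfsg.Agent.Lib.Helper9.Trio.tr_mem (LM_oct ((inB_iff a).mp hA)) (LM_oct ((inB_iff b).mp hB))
    ((disjoint_iff_and a b ha).mpr hd)

theorem bit0_of_and {a b : ℕ} (ha0 : a.testBit 0 = true) (hd : a &&& b = 0) :
    b.testBit 0 = false := by
  have h : (a &&& b).testBit 0 = false := by rw [hd]; exact Nat.zero_testBit 0
  rw [Nat.testBit_and, ha0, Bool.true_and] at h
  exact h

theorem p0_mem (a : ℕ) : ptOf 0 ∈ maskSet a ↔ a.testBit 0 = true := by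
  rw [mem_maskSet, idx_ptOf 0 (by norm_num)]

theorem mask_ne {a b : ℕ} (ha0 : a.testBit 0 = true) (hd : a &&& b = 0) :
    maskSet b ≠ maskSet a := by
  intro h
  have h1 : ptOf 0 ∈ maskSet a := (p0_mem a).mpr ha0
  rw [← h, p0_mem, bit0_of_and ha0 hd] at h1
  exact absurd h1 (by decide)

theorem step {g : Equiv.Perm Cfsg.GolayPt} {t : List ℕ} (hg : g ∈ Cfsg.M24) (hT : IsTable g t)
    {A B A' B' : ℕ} (hAB : trm A B ∈ Cfsg.trios) (hne : maskSet B ≠ maskSet A)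
    (hne' : maskSet B' ≠ maskSet A')
    (h1 : lnk3 A' (pmI t A) (pmI t B) = true) (h2 : lnk3 B' (pmI t A) (pmI t B) = true) :
    g • trm A' B' = trm A B := by
  have ea : maskSet (pmI t A) = g⁻¹ • maskSet A := by
    rw [eq_inv_smul_iff]; exact smul_maskSet_pmI hT A
  have eb : maskSet (pmI t B) = g⁻¹ • maskSet B := by
    rw [eq_inv_smul_iff]; exact smul_maskSet_pmI hT B
  have hT' : g⁻¹ • trm A B ∈ Cfsg.trios :=
    Cfsg.Agent.Lib.Helper9.Trio2.smul_trio (inv_mem hg) hAB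
  have e : g⁻¹ • trm A B = trm (pmI t A) (pmI t B) := by
    show g⁻¹ • trm A B =
      Cfsg.Agent.Lib.Helper9.Trio.tr (maskSet (pmI t A)) (maskSet (pmI t B))
    apply Cfsg.Agent.Lib.Helper9.Trio.tr_eq hT'
    · rw [ea]
      exact Finset.smul_mem_smul_finset (Cfsg.Agent.Lib.Helper9.Trio.tr_left _ _)
    · rw [eb]
      exact Finset.smul_mem_smul_finset (Cfsg.Agent.Lib.Helper9.Trio.tr_right _ _)
    · rw [ea, eb]
      intro h
      exact hne (MulAction.injective g⁻¹ h)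
  have hT2 : trm (pmI t A) (pmI t B) ∈ Cfsg.trios := by rw [← e]; exact hT'
  have e2 : trm (pmI t A) (pmI t B) = trm A' B' :=
    Cfsg.Agent.Lib.Helper9.Trio.tr_eq hT2 (mem_trm_of_lnk3 h1) (mem_trm_of_lnk3 h2) hne'
  rw [← e2, ← e, smul_inv_smul]

theorem reach (Z : Finset (Finset Cfsg.GolayPt)) (gs : List (List ℕ)) (A B : ℕ → ℕ)
    (par gi : ℕ → ℕ) (N : ℕ)
    (hgs : ∀ t ∈ gs, ∃ g ∈ Cfsg.M24, g • Z = Z ∧ IsTable g t)
    (hX : ∀ i < N, trm (A i) (B i) ∈ Cfsg.trios ∧ maskSet (B i) ≠ maskSet (A i))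
    (h : ∀ n, n + 1 < N → par n ≤ n ∧
      nthT gs (gi n) (fun t => lnk3 (A (n + 1)) (pmI t (A (par n))) (pmI t (B (par n))) &&
        lnk3 (B (n + 1)) (pmI t (A (par n))) (pmI t (B (par n)))) = true) :
    ∀ n < N, ∃ g ∈ Cfsg.M24, g • Z = Z ∧ g • trm (A n) (B n) = trm (A 0) (B 0) := by
  intro n
  induction n using Nat.strong_induction_on with
  | _ n ih =>
    intro hn
    cases n with
    | zero => exact ⟨1, Cfsg.M24.one_mem, one_smul _ _, one_smul _ _⟩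
    | succ n =>
      obtain ⟨hle, hnth⟩ := h n hn
      obtain ⟨t, ht, hk⟩ := nthT_spec gs _ _ hnth
      simp only [Bool.and_eq_true] at hk
      obtain ⟨g', hg', hg'Z, hg'X⟩ := ih _ (by omega : par n < n + 1) (by omega)
      obtain ⟨g, hg, hgZ, hT⟩ := hgs t ht
      have hp := hX (par n) (by omega)
      have hx := hX (n + 1) hn
      refine ⟨g' * g, mul_mem hg' hg, by rw [mul_smul, hgZ, hg'Z], ?_⟩
      rw [mul_smul, step hg hT hp.1 hp.2 hx.2 hk.1 hk.2, hg'X]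

theorem trm_half {A B A' B' : ℕ} (hA : A < 2 ^ 24) (hB : B < 2 ^ 24) (hA' : A' < 2 ^ 24)
    (hB' : B' < 2 ^ 24) (hA0 : A.testBit 0 = true) (hA'0 : A'.testBit 0 = true)
    (hd : A &&& B = 0) (hd' : A' &&& B' = 0) (h : trm A B = trm A' B') :
    A' = A ∧ (B' = B ∨ B' = cm A B) := by
  have m1 : maskSet A' ∈ trm A B := by
    rw [h]; exact Cfsg.Agent.Lib.Helper9.Trio.tr_left _ _
  have m2 : maskSet B' ∈ trm A B := by
    rw [h]; exact Cfsg.Agent.Lib.Helper9.Trio.tr_right _ _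
  rw [trm_masks, List.mem_toFinset, List.mem_map] at m1 m2
  have hC := cm_lt hA hB
  have p0A : ptOf 0 ∈ maskSet A := (p0_mem A).mpr hA0
  have p0A' : ptOf 0 ∈ maskSet A' := (p0_mem A').mpr hA'0
  have p0B : ptOf 0 ∉ maskSet B := by rw [p0_mem, bit0_of_and hA0 hd]; decide
  have p0C : ptOf 0 ∉ maskSet (cm A B) := by
    rw [maskSet_cm, Finset.mem_compl, not_not, Finset.mem_union]
    exact Or.inl p0A
  have p0B' : ptOf 0 ∉ maskSet B' := by rw [p0_mem, bit0_of_and hA'0 hd']; decide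
  have eA : A' = A := by
    obtain ⟨x, hx, hxe⟩ := m1
    simp only [List.mem_cons, List.not_mem_nil, or_false] at hx
    rcases hx with hx | hx | hx
    · rw [hx] at hxe
      exact (maskSet_inj hA hA' hxe).symm
    · rw [hx] at hxe
      exact absurd (by rw [hxe]; exact p0A') p0B
    · rw [hx] at hxe
      exact absurd (by rw [hxe]; exact p0A') p0C
  refine ⟨eA, ?_⟩
  obtain ⟨x, hx, hxe⟩ := m2
  simp only [List.mem_cons, List.not_mem_nil, or_false] at hx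
  rcases hx with hx | hx | hx
  · rw [hx] at hxe
    exact absurd (by rw [← hxe]; exact p0A) p0B'
  · rw [hx] at hxe
    exact Or.inl (maskSet_inj hB hB' hxe).symm
  · rw [hx] at hxe
    exact Or.inr (maskSet_inj hC hB' hxe).symm

theorem trm_inj {A B A' B' : ℕ} (hA : A < 2 ^ 24) (hB : B < 2 ^ 24) (hA' : A' < 2 ^ 24)
    (hB' : B' < 2 ^ 24) (hA0 : A.testBit 0 = true) (hA'0 : A'.testBit 0 = true)
    (hd : A &&& B = 0) (hd' : A' &&& B' = 0) (hlt : B < cm A B) (hlt' : B' < cm A' B')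
    (h : trm A B = trm A' B') : A = A' ∧ B = B' := by
  obtain ⟨e1, e2⟩ := trm_half hA hB hA' hB' hA0 hA'0 hd hd' h
  obtain ⟨e3, e4⟩ := trm_half hA' hB' hA hB hA'0 hA0 hd' hd h.symm
  refine ⟨e3, ?_⟩
  rw [e1] at e4 hlt'
  rcases e2 with e2 | e2
  · exact e2.symm
  · rcases e4 with e4 | e4
    · exact e4
    · exfalso
      omega

/-- One orbit certificate with packed data: two masks per trio. -/
structure TBlk where
  N : ℕ
  XV : ℕ
  PV : ℕ
  SV : ℕ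
  v : ℕ

def TBlk.A (b : TBlk) (i : ℕ) : ℕ := fld 24 b.XV (2 * i)

def TBlk.B (b : TBlk) (i : ℕ) : ℕ := fld 24 b.XV (2 * i + 1)

def TBlk.K (b : TBlk) (i : ℕ) : ℕ := b.A i * 16777216 + b.B i

def TBlk.T (b : TBlk) (i : ℕ) : Finset (Finset Cfsg.GolayPt) := trm (b.A i) (b.B i)

def tOk (gs : List (List ℕ)) (LZ : List ℕ) (b : TBlk) : Bool :=
  decide (0 < b.N) &&
  (List.range b.N).all (fun i => (b.A i).testBit 0 && inB (b.A i) && inB (b.B i) &&
    (b.A i &&& b.B i == 0) && decide (b.B i < cm (b.A i) (b.B i))) &&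
  (List.range (b.N - 1)).all (fun n =>
    decide (fld 16 b.PV n >>> 2 ≤ n) &&
      nthT gs (fld 16 b.PV n % 4)
        (fun t => lnk3 (b.A (n + 1)) (pmI t (b.A (fld 16 b.PV n >>> 2)))
            (pmI t (b.B (fld 16 b.PV n >>> 2))) &&
          lnk3 (b.B (n + 1)) (pmI t (b.A (fld 16 b.PV n >>> 2)))
            (pmI t (b.B (fld 16 b.PV n >>> 2))))) &&
  (List.range b.N).all (fun j => decide (fld 16 b.SV j < b.N)) &&
  (List.range (b.N - 1)).all
    (fun j => decide (b.K (fld 16 b.SV j) < b.K (fld 16 b.SV (j + 1)))) &&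
  ndB [b.A 0, b.B 0, cm (b.A 0) (b.B 0)] &&
  decide ((LZ.map fun a =>
    ([b.A 0, b.B 0, cm (b.A 0) (b.B 0)].map fun c => (pc 24 (c &&& a)) ^ 2).sum).sum = b.v)

theorem tblk_facts (Z : Finset (Finset Cfsg.GolayPt)) (gs : List (List ℕ)) (LZ : List ℕ)
    (hLZ : LZ.Nodup) (hLZb : ∀ m ∈ LZ, m < 2 ^ 24) (hZ : Z = (LZ.map maskSet).toFinset)
    (hgs : ∀ t ∈ gs, ∃ g ∈ Cfsg.M24, g • Z = Z ∧ IsTable g t) (b : TBlk)
    (h : tOk gs LZ b = true) :
    0 < b.N ∧ (∀ i < b.N, b.T i ∈ Cfsg.trios) ∧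
    (∀ i < b.N, ∃ g ∈ Cfsg.M24, g • Z = Z ∧ g • b.T i = b.T 0) ∧
    (∀ i < b.N, fI Z (b.T i) = b.v) ∧
    Set.InjOn b.T (↑(Finset.range b.N) : Set ℕ) := by
  unfold tOk at h
  simp only [Bool.and_eq_true, decide_eq_true_eq, List.all_eq_true, List.mem_range,
    beq_iff_eq] at h
  obtain ⟨⟨⟨⟨⟨⟨h0, h1⟩, h2⟩, h3⟩, h4⟩, h5⟩, h6⟩ := h
  have hA : ∀ i, b.A i < 2 ^ 24 := fun i => fld_lt 24 _ _
  have hB : ∀ i, b.B i < 2 ^ 24 := fun i => fld_lt 24 _ _
  have hmem : ∀ i < b.N, b.T i ∈ Cfsg.trios := fun i hi =>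
    trm_mem (hA i) (h1 i hi).1.1.1.2 (h1 i hi).1.1.2 (h1 i hi).1.2
  have hne : ∀ i < b.N, maskSet (b.B i) ≠ maskSet (b.A i) := fun i hi =>
    mask_ne (h1 i hi).1.1.1.1 (h1 i hi).1.2
  have rel : ∀ i < b.N, ∃ g ∈ Cfsg.M24, g • Z = Z ∧ g • b.T i = b.T 0 :=
    reach Z gs b.A b.B (fun n => fld 16 b.PV n >>> 2) (fun n => fld 16 b.PV n % 4) b.N hgs
      (fun i hi => ⟨hmem i hi, hne i hi⟩) (fun n hn => h2 n (by omega))
  have hval : fI Z (b.T 0) = b.v := by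
    show fI Z (trm (b.A 0) (b.B 0)) = b.v
    rw [hZ, trm_masks, fI_masks LZ _ hLZ hLZb (ndB_spec _ h5) (by
      intro m hm
      simp only [List.mem_cons, List.not_mem_nil, or_false] at hm
      rcases hm with hm | hm | hm
      · rw [hm]; exact hA 0
      · rw [hm]; exact hB 0
      · rw [hm]; exact cm_lt (hA 0) (hB 0))]
    exact h6
  refine ⟨h0, hmem, rel, ?_, ?_⟩
  · intro i hi
    obtain ⟨g, -, hgZ, hgx⟩ := rel i hi
    rw [← fI_inv g Z _ hgZ, hgx, hval]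
  · have hinjK := inj_of_sorted b.K (fun j => fld 16 b.SV j) b.N h3
      (fun j hj => h4 j (by omega))
    intro i hi j hj hij
    have hi' := Finset.mem_range.mp (Finset.mem_coe.mp hi)
    have hj' := Finset.mem_range.mp (Finset.mem_coe.mp hj)
    apply hinjK hi hj
    obtain ⟨e1, e2⟩ := trm_inj (hA i) (hB i) (hA j) (hB j) (h1 i hi').1.1.1.1
      (h1 j hj').1.1.1.1 (h1 i hi').1.2 (h1 j hj').1.2 (h1 i hi').2 (h1 j hj').2 hij
    show b.A i * 16777216 + b.B i = b.A j * 16777216 + b.B j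
    rw [e1, e2]

/-- The trios listed by a block. -/
def blkSet (b : TBlk) : Set (Finset (Finset Cfsg.GolayPt)) := {S | ∃ i < b.N, S = b.T i}

theorem ncard_blkSet (b : TBlk) (h : Set.InjOn b.T (↑(Finset.range b.N) : Set ℕ)) :
    (blkSet b).ncard = b.N := by
  have e : blkSet b = b.T '' (↑(Finset.range b.N) : Set ℕ) := by
    ext S
    constructor
    · rintro ⟨i, hi, rfl⟩
      exact ⟨i, by simpa using hi, rfl⟩
    · rintro ⟨i, hi, rfl⟩
      exact ⟨i, by simpa using hi, rfl⟩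
  rw [e, h.ncard_image, Set.ncard_coe_finset, Finset.card_range]

theorem ncard_union_list {α β : Type*} [Finite α] (f : α → ℕ) (s : β → Set α) (v : β → ℕ) :
    ∀ (L : List β), (∀ b ∈ L, ∀ x ∈ s b, f x = v b) → (L.map v).Nodup →
      {x | ∃ b ∈ L, x ∈ s b}.ncard = (L.map (fun b => (s b).ncard)).sum
  | [], _, _ => by
    have e : {x : α | ∃ b ∈ ([] : List β), x ∈ s b} = ∅ := by
      ext x
      simp
    rw [e, Set.ncard_empty]
    rfl
  | a :: L, hf, hv => by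
    have e : {x : α | ∃ b ∈ a :: L, x ∈ s b} = s a ∪ {x | ∃ b ∈ L, x ∈ s b} := by
      ext x
      simp only [List.mem_cons, Set.mem_ofPred_eq, Set.mem_union]
      constructor
      · rintro ⟨b, hb | hb, hx⟩
        · rw [hb] at hx
          exact Or.inl hx
        · exact Or.inr ⟨b, hb, hx⟩
      · rintro (hx | ⟨b, hb, hx⟩)
        · exact ⟨a, Or.inl rfl, hx⟩
        · exact ⟨b, Or.inr hb, hx⟩
    rw [List.map_cons, List.nodup_cons] at hv
    have hd : Disjoint (s a) {x | ∃ b ∈ L, x ∈ s b} := by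
      rw [Set.disjoint_left]
      rintro x hxa ⟨b, hb, hxb⟩
      apply hv.1
      rw [List.mem_map]
      exact ⟨b, hb, by
        rw [← hf b (List.mem_cons_of_mem _ hb) x hxb, hf a List.mem_cons_self x hxa]⟩
    rw [e, Set.ncard_union_eq hd (Set.toFinite _) (Set.toFinite _),
      ncard_union_list f s v L (fun b hb => hf b (List.mem_cons_of_mem _ hb)) hv.2,
      List.map_cons, List.sum_cons]

theorem cert_main5 (Z : Finset (Finset Cfsg.GolayPt)) (gs : List (List ℕ)) (LZ : List ℕ)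
    (hLZ : LZ.Nodup) (hLZb : ∀ m ∈ LZ, m < 2 ^ 24) (hZ : Z = (LZ.map maskSet).toFinset)
    (hgs : ∀ t ∈ gs, ∃ g ∈ Cfsg.M24, g • Z = Z ∧ IsTable g t) (Bs : List TBlk)
    (hBs : ∀ b ∈ Bs, tOk gs LZ b = true) (hv : (Bs.map (fun b => b.v)).Nodup)
    (hsum : (Bs.map (fun b => b.N)).sum = 3795) :
    (∀ b ∈ Bs, b.T 0 ∈ Cfsg.trios ∧
      (MulAction.orbit ↥(MulAction.stabilizer Cfsg.M24 Z) (b.T 0)).ncard = b.N) ∧
    (∀ S ∈ Cfsg.trios, ∃ b ∈ Bs,
      S ∈ MulAction.orbit ↥(MulAction.stabilizer Cfsg.M24 Z) (b.T 0)) := by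
  have facts := fun b hb => tblk_facts Z gs LZ hLZ hLZb hZ hgs b (hBs b hb)
  have hval : ∀ b ∈ Bs, ∀ S ∈ blkSet b, fI Z S = b.v := by
    rintro b hb S ⟨i, hi, rfl⟩
    exact (facts b hb).2.2.2.1 i hi
  have hsub : {S | ∃ b ∈ Bs, S ∈ blkSet b} ⊆ Cfsg.trios := by
    rintro S ⟨b, hb, i, hi, rfl⟩
    exact (facts b hb).2.1 i hi
  have hcard : {S | ∃ b ∈ Bs, S ∈ blkSet b}.ncard = 3795 := by
    rw [ncard_union_list (fI Z) blkSet (fun b => b.v) Bs hval hv, ← hsum]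
    apply congrArg List.sum
    apply List.map_congr_left
    intro b hb
    exact ncard_blkSet b (facts b hb).2.2.2.2
  have hU : {S | ∃ b ∈ Bs, S ∈ blkSet b} = Cfsg.trios :=
    Set.eq_of_subset_of_ncard_le hsub
      (by rw [hcard, Cfsg.Agent.Lib.Helper9.Trio.ncard_trios]) (Set.toFinite _)
  have hcov' : ∀ S ∈ Cfsg.trios, ∃ b ∈ Bs, S ∈ blkSet b := by
    intro S hS
    rw [← hU] at hS
    exact hS
  have horb : ∀ b ∈ Bs,
      MulAction.orbit ↥(MulAction.stabilizer Cfsg.M24 Z) (b.T 0) = blkSet b := by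
    intro b hb
    obtain ⟨f0, fS, frel, fval, -⟩ := facts b hb
    ext S
    rw [Cfsg.Agent.Lib.Helper9.Dual.mem_orbit_stab]
    constructor
    · rintro ⟨g, hgZ, rfl⟩
      have hgZ' : (g : Equiv.Perm Cfsg.GolayPt) • Z = Z := hgZ
      have hS : (g : Equiv.Perm Cfsg.GolayPt) • b.T 0 ∈ Cfsg.trios :=
        Cfsg.Agent.Lib.Helper9.Trio2.smul_trio g.2 (fS 0 f0)
      obtain ⟨b', hb', hSb'⟩ := hcov' _ hS
      have e1 : fI Z ((g : Equiv.Perm Cfsg.GolayPt) • b.T 0) = b.v := by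
        rw [fI_inv _ Z _ hgZ']
        exact fval 0 f0
      have e2 : fI Z ((g : Equiv.Perm Cfsg.GolayPt) • b.T 0) = b'.v := hval b' hb' _ hSb'
      have hbb : b = b' := List.inj_on_of_nodup_map hv hb hb' (by rw [← e1, ← e2])
      subst hbb
      exact hSb'
    · rintro ⟨i, hi, rfl⟩
      obtain ⟨g, hg, hgZ, hgx⟩ := frel i hi
      refine ⟨⟨g⁻¹, inv_mem hg⟩, ?_, ?_⟩
      · show g⁻¹ • Z = Z
        rw [inv_smul_eq_iff, hgZ]
      · show g⁻¹ • b.T 0 = b.T i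
        rw [inv_smul_eq_iff, hgx]
  refine ⟨fun b hb => ⟨(facts b hb).2.1 0 (facts b hb).1, ?_⟩, ?_⟩
  · rw [horb b hb]
    exact ncard_blkSet b (facts b hb).2.2.2.2
  · intro S hS
    obtain ⟨b, hb, hSb⟩ := hcov' S hS
    exact ⟨b, hb, by rw [horb b hb]; exact hSb⟩

end Cfsg.Agent.Lib.Helper9.TrPk
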