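import Mathlib
import Cfsg.Prelude.Def_GeometricClasses

set_option autoImplicit false

namespace Cfsg.Agent.Lib.Helper9.Transv

variable {ι : Type} [Fintype ι] [DecidableEq ι] {F : Type*} [Field F]

theorem det_transv (v φ : ι → F) (h : φ ⬝ᵥ v = 0) : (1 + Matrix.vecMulVec v φ).det = 1 := by
  rw [Matrix.vecMulVec_eq Unit, Matrix.det_one_add_replicateCol_mul_replicateRow, h, add_zero]

/-- The transvection `x ↦ x + φ(x) v` as an element of `GL`. -/
noncomputable def transv (v φ : ι → F) (h : φ ⬝ᵥ v = 0) : Matrix.GeneralLinearGroup ι F :=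
  Matrix.GeneralLinearGroup.mkOfDetNeZero (1 + Matrix.vecMulVec v φ)
    (by rw [det_transv v φ h]; exact one_ne_zero)

theorem transv_val (v φ : ι → F) (h : φ ⬝ᵥ v = 0) :
    ((transv v φ h : Matrix.GeneralLinearGroup ι F) : Matrix ι ι F) = 1 + Matrix.vecMulVec v φ :=
  rfl

theorem transv_mulVec (v φ : ι → F) (h : φ ⬝ᵥ v = 0) (x : ι → F) :
    ((transv v φ h : Matrix.GeneralLinearGroup ι F) : Matrix ι ι F).mulVec x
      = x + (φ ⬝ᵥ x) • v := by
  rw [transv_val, Matrix.add_mulVec, Matrix.one_mulVec, Matrix.vecMulVec_mulVec, op_smul_eq_smul]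

theorem transv_mem_SL (v φ : ι → F) (h : φ ⬝ᵥ v = 0) :
    transv v φ h ∈ Cfsg.Geo.specialLinear ι F := by
  rw [Cfsg.Geo.specialLinear, MonoidHom.mem_ker]
  apply Units.ext
  rw [Matrix.GeneralLinearGroup.val_det_apply, transv_val, det_transv v φ h]
  rfl

theorem mem_stab_iff (W : Submodule F (ι → F)) (g : Matrix.GeneralLinearGroup ι F) :
    g ∈ Cfsg.Geo.subspaceStabilizer W ↔
      ∀ v, v ∈ W ↔ (g : Matrix ι ι F).mulVec v ∈ W := Iff.rfl

theorem exists_functional (P : Submodule F (ι → F)) (u : ι → F) (hu : u ∉ P) :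
    ∃ φ : ι → F, (∀ x ∈ P, φ ⬝ᵥ x = 0) ∧ φ ⬝ᵥ u = 1 := by
  obtain ⟨f, hfu, hfP⟩ := Submodule.exists_dual_map_eq_bot_of_notMem hu inferInstance
  have key : ∀ x : ι → F,
      (fun i => (f u)⁻¹ * f (fun j => if i = j then 1 else 0)) ⬝ᵥ x = (f u)⁻¹ * f x := by
    intro x
    rw [LinearMap.pi_apply_eq_sum_univ f x, dotProduct, Finset.mul_sum]
    apply Finset.sum_congr rfl
    intro i _
    rw [smul_eq_mul]
    ring
  refine ⟨fun i => (f u)⁻¹ * f (fun j => if i = j then 1 else 0), ?_, ?_⟩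
  · intro x hx
    rw [key]
    have : f x ∈ P.map f := Submodule.mem_map_of_mem hx
    rw [hfP, Submodule.mem_bot] at this
    rw [this, mul_zero]
  · rw [key, inv_mul_cancel₀ hfu]

/-- If `u ∉ W ⊔ span {v}`, there is a transvection in `SL` stabilising `W` and mapping `u` to
`u + v`. -/
theorem exists_transv (W : Submodule F (ι → F)) (u v : ι → F)
    (hu : u ∉ W ⊔ Submodule.span F {v}) :
    ∃ g : Matrix.GeneralLinearGroup ι F, g ∈ Cfsg.Geo.specialLinear ι F ∧
      g ∈ Cfsg.Geo.subspaceStabilizer W ∧ (g : Matrix ι ι F).mulVec u = u + v := by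
  obtain ⟨φ, hφP, hφu⟩ := exists_functional _ u hu
  have hφv : φ ⬝ᵥ v = 0 :=
    hφP v (Submodule.mem_sup_right (Submodule.mem_span_singleton_self v))
  have hφW : ∀ x ∈ W, φ ⬝ᵥ x = 0 := fun x hx => hφP x (Submodule.mem_sup_left hx)
  refine ⟨transv v φ hφv, transv_mem_SL v φ hφv, ?_, ?_⟩
  · rw [mem_stab_iff]
    intro x
    rw [transv_mulVec]
    constructor
    · intro hx
      rw [hφW x hx, zero_smul, add_zero]
      exact hx
    · intro hx
      have h1 := hφW _ hx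
      rw [dotProduct_add, dotProduct_smul, hφv, smul_zero, add_zero] at h1
      rw [h1, zero_smul, add_zero] at hx
      exact hx
  · rw [transv_mulVec, hφu, one_smul]

/-- A proper nonzero subspace is not stabilised by `SL`. -/
theorem stab_inf_SL_lt (W : Submodule F (ι → F)) (h0 : W ≠ ⊥) (h1 : W ≠ ⊤) :
    Cfsg.Geo.subspaceStabilizer W ⊓ Cfsg.Geo.specialLinear ι F < Cfsg.Geo.specialLinear ι F := by
  rw [SetLike.lt_iff_le_and_exists]
  refine ⟨inf_le_right, ?_⟩
  obtain ⟨w, hw, hw0⟩ := Submodule.exists_mem_ne_zero_of_ne_bot h0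
  obtain ⟨v, hv⟩ : ∃ v, v ∉ W := by
    by_contra hcon
    push Not at hcon
    exact h1 (eq_top_iff.mpr fun x _ => hcon x)
  have hwv : w ∉ (⊥ : Submodule F (ι → F)) ⊔ Submodule.span F {v} := by
    rw [bot_sup_eq, Submodule.mem_span_singleton]
    rintro ⟨c, hc⟩
    by_cases hc0 : c = 0
    · rw [hc0, zero_smul] at hc
      exact hw0 hc.symm
    · apply hv
      have : v = c⁻¹ • w := by rw [← hc, smul_smul, inv_mul_cancel₀ hc0, one_smul]
      rw [this]
      exact W.smul_mem _ hw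
  obtain ⟨g, hgS, -, hgw⟩ := exists_transv ⊥ w v hwv
  refine ⟨g, hgS, ?_⟩
  intro hg
  have h2 := ((mem_stab_iff W g).mp hg.1 w).mp hw
  rw [hgw] at h2
  exact hv ((W.add_mem_iff_right hw).mp h2)

/-- The common recipe: a transvection stabilising `W` but not `U`. -/
theorem between (W U : Submodule F (ι → F)) (h0 : W ≠ ⊥) (h1 : W ≠ ⊤)
    (u v : ι → F) (hu : u ∈ U) (huv : u ∉ W ⊔ Submodule.span F {v}) (hv : v ∉ U) :
    ∃ K : Subgroup (Matrix.GeneralLinearGroup ι F),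
      Cfsg.Geo.subspaceStabilizer W ⊓ Cfsg.Geo.subspaceStabilizer U ⊓ Cfsg.Geo.specialLinear ι F
        < K ∧ K < Cfsg.Geo.specialLinear ι F := by
  refine ⟨Cfsg.Geo.subspaceStabilizer W ⊓ Cfsg.Geo.specialLinear ι F, ?_, stab_inf_SL_lt W h0 h1⟩
  rw [SetLike.lt_iff_le_and_exists]
  refine ⟨inf_le_inf inf_le_left le_rfl, ?_⟩
  obtain ⟨g, hgS, hgW, hgu⟩ := exists_transv W u v huv
  refine ⟨g, ⟨hgW, hgS⟩, ?_⟩
  intro hg
  have h2 := ((mem_stab_iff U g).mp hg.1.2 u).mp hu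
  rw [hgu] at h2
  exact hv ((U.add_mem_iff_right hu).mp h2)

end Cfsg.Agent.Lib.Helper9.Transv
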